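import Mathlib

set_option autoImplicit false

namespace Cfsg.Agent.Lib.Helper3

section bt

variable {F : Type*} [Field F] {n : ℕ}

/-- Vectors moved into `W` by every `u - 1`, `u ∈ U`. -/
def btPhi (U : Subgroup (Matrix.SpecialLinearGroup (Fin n) F)) (W : Submodule F (Fin n → F)) :
    Submodule F (Fin n → F) where
  carrier := {v | ∀ u ∈ U, (u : Matrix (Fin n) (Fin n) F).mulVec v - v ∈ W}
  add_mem' := by
    intro a b ha hb u hu
    have e : (u : Matrix (Fin n) (Fin n) F).mulVec (a + b) - (a + b) =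
        ((u : Matrix (Fin n) (Fin n) F).mulVec a - a) +
          ((u : Matrix (Fin n) (Fin n) F).mulVec b - b) := by
      rw [Matrix.mulVec_add]
      abel
    rw [e]
    exact W.add_mem (ha u hu) (hb u hu)
  zero_mem' := by
    intro u _
    rw [Matrix.mulVec_zero, sub_zero]
    exact W.zero_mem
  smul_mem' := by
    intro c a ha u hu
    have e : (u : Matrix (Fin n) (Fin n) F).mulVec (c • a) - c • a =
        c • ((u : Matrix (Fin n) (Fin n) F).mulVec a - a) := by
      rw [Matrix.mulVec_smul, smul_sub]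
    rw [e]
    exact W.smul_mem c (ha u hu)

theorem bt_mem (U : Subgroup (Matrix.SpecialLinearGroup (Fin n) F)) (W : Submodule F (Fin n → F))
    (v : Fin n → F) :
    v ∈ btPhi U W ↔ ∀ u ∈ U, (u : Matrix (Fin n) (Fin n) F).mulVec v - v ∈ W := Iff.rfl

theorem bt_mul (a b : Matrix.SpecialLinearGroup (Fin n) F) (v : Fin n → F) :
    ((a * b : Matrix.SpecialLinearGroup (Fin n) F) : Matrix (Fin n) (Fin n) F).mulVec v =
      (a : Matrix (Fin n) (Fin n) F).mulVec ((b : Matrix (Fin n) (Fin n) F).mulVec v) := by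
  rw [Matrix.SpecialLinearGroup.coe_mul, Matrix.mulVec_mulVec]

theorem bt_one (v : Fin n → F) :
    ((1 : Matrix.SpecialLinearGroup (Fin n) F) : Matrix (Fin n) (Fin n) F).mulVec v = v := by
  rw [Matrix.SpecialLinearGroup.coe_one, Matrix.one_mulVec]

theorem bt_le (U : Subgroup (Matrix.SpecialLinearGroup (Fin n) F)) (W : Submodule F (Fin n → F))
    (hW : ∀ u ∈ U, ∀ v ∈ W, (u : Matrix (Fin n) (Fin n) F).mulVec v ∈ W) : W ≤ btPhi U W := by
  intro v hv u hu
  exact W.sub_mem (hW u hu v hv) hv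

theorem bt_inv (U : Subgroup (Matrix.SpecialLinearGroup (Fin n) F)) (W : Submodule F (Fin n → F))
    (u' : Matrix.SpecialLinearGroup (Fin n) F) (hu' : u' ∈ U) (v : Fin n → F)
    (hv : v ∈ btPhi U W) : (u' : Matrix (Fin n) (Fin n) F).mulVec v ∈ btPhi U W := by
  intro u hu
  have e : (u : Matrix (Fin n) (Fin n) F).mulVec ((u' : Matrix (Fin n) (Fin n) F).mulVec v) -
      (u' : Matrix (Fin n) (Fin n) F).mulVec v =
      (((u * u' : Matrix.SpecialLinearGroup (Fin n) F) : Matrix (Fin n) (Fin n) F).mulVec v - v) -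
        ((u' : Matrix (Fin n) (Fin n) F).mulVec v - v) := by
    rw [bt_mul]
    abel
  rw [e]
  exact W.sub_mem (hv _ (U.mul_mem hu hu')) (hv _ hu')

theorem bt_norm (U : Subgroup (Matrix.SpecialLinearGroup (Fin n) F)) (W : Submodule F (Fin n → F))
    (hW : ∀ g ∈ Subgroup.normalizer (U : Set (Matrix.SpecialLinearGroup (Fin n) F)),
      ∀ v ∈ W, (g : Matrix (Fin n) (Fin n) F).mulVec v ∈ W)
    (g : Matrix.SpecialLinearGroup (Fin n) F)
    (hg : g ∈ Subgroup.normalizer (U : Set (Matrix.SpecialLinearGroup (Fin n) F)))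
    (v : Fin n → F) (hv : v ∈ btPhi U W) :
    (g : Matrix (Fin n) (Fin n) F).mulVec v ∈ btPhi U W := by
  intro u hu
  have hmem : g⁻¹ * u * g ∈ U := by
    have h1 := (Subgroup.mem_normalizer_iff.mp hg) (g⁻¹ * u * g)
    rw [h1]
    have e : g * (g⁻¹ * u * g) * g⁻¹ = u := by group
    rw [e]
    exact hu
  have e : (u : Matrix (Fin n) (Fin n) F).mulVec ((g : Matrix (Fin n) (Fin n) F).mulVec v) -
      (g : Matrix (Fin n) (Fin n) F).mulVec v =
      (g : Matrix (Fin n) (Fin n) F).mulVec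
        (((g⁻¹ * u * g : Matrix.SpecialLinearGroup (Fin n) F) :
          Matrix (Fin n) (Fin n) F).mulVec v - v) := by
    rw [Matrix.mulVec_sub, ← bt_mul, ← bt_mul]
    have e2 : g * (g⁻¹ * u * g) = u * g := by group
    rw [e2]
  rw [e]
  exact hW g hg _ (hv _ hmem)

theorem bt_strict [Fintype F] (p : ℕ) [Fact p.Prime] [CharP F p]
    (U : Subgroup (Matrix.SpecialLinearGroup (Fin n) F)) (hU : IsPGroup p ↥U)
    (W : Submodule F (Fin n → F))
    (hW : ∀ u ∈ U, ∀ v ∈ W, (u : Matrix (Fin n) (Fin n) F).mulVec v ∈ W) (hne : W ≠ ⊤) :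
    ∃ v, v ∉ W ∧ v ∈ btPhi U W := by
  classical
  obtain ⟨lin, hlin⟩ : ∃ lin : ↥U → ((Fin n → F) →ₗ[F] (Fin n → F)),
      ∀ (u : ↥U) (v : Fin n → F), lin u v =
        ((u : Matrix.SpecialLinearGroup (Fin n) F) : Matrix (Fin n) (Fin n) F).mulVec v :=
    ⟨fun u => Matrix.mulVecLin
      ((u : Matrix.SpecialLinearGroup (Fin n) F) : Matrix (Fin n) (Fin n) F), fun u v => rfl⟩
  have hlinW : ∀ u : ↥U, W ≤ W.comap (lin u) := by
    intro u v hv
    rw [Submodule.mem_comap, hlin]
    exact hW u u.2 v hv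
  have hlin1 : ∀ v, lin 1 v = v := by
    intro v
    rw [hlin]
    exact bt_one v
  have hlinmul : ∀ (a b : ↥U) (v : Fin n → F), lin (a * b) v = lin a (lin b v) := by
    intro a b v
    rw [hlin, hlin, hlin]
    exact bt_mul _ _ v
  letI act : MulAction ↥U ((Fin n → F) ⧸ W) :=
    { smul := fun u x => W.mapQ W (lin u) (hlinW u) x
      one_smul := by
        intro x
        induction x using Submodule.Quotient.induction_on with
        | _ v =>
          show W.mapQ W (lin 1) (hlinW 1) (Submodule.Quotient.mk v) = Submodule.Quotient.mk v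
          rw [Submodule.mapQ_apply, hlin1]
      mul_smul := by
        intro a b x
        induction x using Submodule.Quotient.induction_on with
        | _ v =>
          show W.mapQ W (lin (a * b)) (hlinW (a * b)) (Submodule.Quotient.mk v) =
            W.mapQ W (lin a) (hlinW a) (W.mapQ W (lin b) (hlinW b) (Submodule.Quotient.mk v))
          rw [Submodule.mapQ_apply, Submodule.mapQ_apply, Submodule.mapQ_apply, hlinmul] }
  have hsmul : ∀ (u : ↥U) (v : Fin n → F),
      u • (Submodule.Quotient.mk v : (Fin n → F) ⧸ W) =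
        Submodule.Quotient.mk (((u : Matrix.SpecialLinearGroup (Fin n) F) :
          Matrix (Fin n) (Fin n) F).mulVec v) := by
    intro u v
    show W.mapQ W (lin u) (hlinW u) (Submodule.Quotient.mk v) = _
    rw [Submodule.mapQ_apply, hlin]
  obtain ⟨v₀, hv₀⟩ : ∃ v₀, v₀ ∉ W := by
    by_contra hcon
    push Not at hcon
    exact hne (eq_top_iff.mpr (fun v _ => hcon v))
  have hnt : Nontrivial ((Fin n → F) ⧸ W) :=
    ⟨⟨Submodule.Quotient.mk v₀, 0, fun h => hv₀ ((Submodule.Quotient.mk_eq_zero W).mp h)⟩⟩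
  have hcong := hU.card_modEq_card_fixedPoints ((Fin n → F) ⧸ W)
  have hpdvd : p ∣ Nat.card ((Fin n → F) ⧸ W) := by
    rw [Module.natCard_eq_pow_finrank (K := F)]
    have hpos : 0 < Module.finrank F ((Fin n → F) ⧸ W) := Module.finrank_pos_iff.mpr hnt
    obtain ⟨k, _, hk⟩ := FiniteField.card F p
    rw [Nat.card_eq_fintype_card, hk, ← pow_mul]
    exact dvd_pow_self p (by
      have := k.pos
      positivity)
  have hpdvd2 : p ∣ Nat.card ↥(MulAction.fixedPoints ↥U ((Fin n → F) ⧸ W)) := by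
    have h1 := (Nat.modEq_zero_iff_dvd.mpr hpdvd)
    exact Nat.modEq_zero_iff_dvd.mp (hcong.symm.trans h1)
  have h0mem : (0 : (Fin n → F) ⧸ W) ∈ MulAction.fixedPoints ↥U ((Fin n → F) ⧸ W) := by
    intro u
    have h1 := hsmul u 0
    rw [Matrix.mulVec_zero] at h1
    exact h1
  have hex : ∃ x ∈ MulAction.fixedPoints ↥U ((Fin n → F) ⧸ W), x ≠ 0 := by
    by_contra hcon
    push Not at hcon
    have hsub : Subsingleton ↥(MulAction.fixedPoints ↥U ((Fin n → F) ⧸ W)) :=
      ⟨fun a b => Subtype.ext (by rw [hcon a a.2, hcon b b.2])⟩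
    have hle := Finite.card_le_one_iff_subsingleton.mpr hsub
    have hne0 : Nat.card ↥(MulAction.fixedPoints ↥U ((Fin n → F) ⧸ W)) ≠ 0 := by
      haveI : Nonempty ↥(MulAction.fixedPoints ↥U ((Fin n → F) ⧸ W)) := ⟨⟨0, h0mem⟩⟩
      exact Nat.card_pos.ne'
    have hp2 := (Fact.out : p.Prime).two_le
    have hle2 := Nat.le_of_dvd (by omega) hpdvd2
    omega
  obtain ⟨x, hxf, hx0⟩ := hex
  induction x using Submodule.Quotient.induction_on with
  | _ v =>
    refine ⟨v, fun hv => hx0 ((Submodule.Quotient.mk_eq_zero W).mpr hv), ?_⟩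
    intro u hu
    have h1 := hxf ⟨u, hu⟩
    rw [hsmul] at h1
    exact (Submodule.Quotient.eq W).mp h1

end bt

end Cfsg.Agent.Lib.Helper3
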