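import Mathlib
import Cfsg.Prelude.Def_ChevAutomorphisms

set_option autoImplicit false

namespace Cfsg.Agent.Lib.Helper3

open Cfsg.Lie

/-- the lists of the chain table of `r` attached to `s` -/
def chainEntries (D : ChevalleyDatum) (r s : ℕ) : List (List (ℕ × ℤ)) :=
  ((D.chain.getD r #[]).toList.filter (fun e => e.1 = s)).map fun e => e.2.toList

/-- `u` is a root index different from `r` and from `-r` -/
def okRoot (D : ChevalleyDatum) (r u : ℕ) : Bool :=
  decide (u < D.nroots) && decide (u ≠ r) && decide (u ≠ D.negIdx.getD r 0)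

/-- the list is `[[(u₂, M')]]` with `c M'` -/
def isSingle1 (E : List (List (ℕ × ℤ))) (u₂ : ℕ) (c : ℤ → Bool) : Bool :=
  match E with
  | [[(u₂', M')]] => decide (u₂' = u₂) && c M'
  | _ => false

/-- the list is `[[(u₂, M'), (u₃, M'')]]` with `c M' M''` -/
def isSingle2 (E : List (List (ℕ × ℤ))) (u₂ u₃ : ℕ) (c : ℤ → ℤ → Bool) : Bool :=
  match E with
  | [[(u₂', M'), (u₃', M'')]] => decide (u₂' = u₂) && decide (u₃' = u₃) && c M' M''
  | _ => false

/-- the chain list `L` of `r` is compatible with the chain lists of `r` at its members -/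
def chkAddList (D : ChevalleyDatum) (r : ℕ) (L : List (ℕ × ℤ)) : Bool :=
  match L with
  | [] => true
  | [(u₁, _)] => okRoot D r u₁ && (chainEntries D r u₁).isEmpty
  | [(u₁, M₁), (u₂, M₂)] => okRoot D r u₁ && okRoot D r u₂ &&
      isSingle1 (chainEntries D r u₁) u₂ (fun M' => decide (M₁ * M' = 2 * M₂)) &&
      (chainEntries D r u₂).isEmpty
  | [(u₁, M₁), (u₂, M₂), (u₃, M₃)] => okRoot D r u₁ && okRoot D r u₂ && okRoot D r u₃ &&
      isSingle2 (chainEntries D r u₁) u₂ u₃
        (fun M' M'' => decide (M₁ * M' = 2 * M₂) && decide (M₁ * M'' = 3 * M₃)) &&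
      isSingle1 (chainEntries D r u₂) u₃ (fun N' => decide (M₂ * N' = 3 * M₃)) &&
      (chainEntries D r u₃).isEmpty
  | _ => false

/-- the table check behind additivity of the root elements -/
def chkAdd (D : ChevalleyDatum) : Bool :=
  (List.range D.nroots).all fun r =>
    decide (((List.finRange D.rank).map fun i =>
      (D.coroot.getD r #[]).getD i.val 0 * (D.cartanSR.getD i.val #[]).getD r 0).sum = 2) &&
    (D.chain.getD r #[]).toList.all fun e => chkAddList D r e.2.toList

/-! ### specifications of the checks -/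

theorem okRoot_spec (D : ChevalleyDatum) (r u : ℕ) (h : okRoot D r u = true) :
    u < D.nroots ∧ u ≠ r ∧ u ≠ D.negIdx.getD r 0 := by
  unfold okRoot at h
  simpa [Bool.and_eq_true, and_assoc] using h

theorem isSingle1_spec (E : List (List (ℕ × ℤ))) (u₂ : ℕ) (c : ℤ → Bool)
    (h : isSingle1 E u₂ c = true) : ∃ M', E = [[(u₂, M')]] ∧ c M' = true := by
  unfold isSingle1 at h
  split at h
  · rw [Bool.and_eq_true, decide_eq_true_eq] at h
    obtain ⟨rfl, hc⟩ := h
    exact ⟨_, rfl, hc⟩
  · exact absurd h (by simp)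

theorem isSingle2_spec (E : List (List (ℕ × ℤ))) (u₂ u₃ : ℕ) (c : ℤ → ℤ → Bool)
    (h : isSingle2 E u₂ u₃ c = true) : ∃ M' M'', E = [[(u₂, M'), (u₃, M'')]] ∧ c M' M'' = true := by
  unfold isSingle2 at h
  split at h
  · rw [Bool.and_eq_true, Bool.and_eq_true, decide_eq_true_eq, decide_eq_true_eq] at h
    obtain ⟨⟨rfl, rfl⟩, hc⟩ := h
    exact ⟨_, _, rfl, hc⟩
  · exact absurd h (by simp)

/-! ### chain polynomials -/

section poly

variable {F : Type*} [Field F]

/-- the contribution of a chain list (numbered from `k`) to the coefficient at `u` -/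
def lvk (L : List (ℕ × ℤ)) (k : ℕ) (t : F) (u : ℕ) : F :=
  (((L.zipIdx k).filter (fun q => q.1.1 = u)).map fun q => ((q.1.2 : ℤ) : F) * t ^ (q.2 + 1)).sum

theorem lvk_nil (k : ℕ) (t : F) (u : ℕ) : lvk ([] : List (ℕ × ℤ)) k t u = 0 := by
  simp [lvk]

theorem lvk_cons (a : ℕ × ℤ) (L : List (ℕ × ℤ)) (k : ℕ) (t : F) (u : ℕ) :
    lvk (a :: L) k t u = (if a.1 = u then ((a.2 : ℤ) : F) * t ^ (k + 1) else 0) + lvk L (k + 1) t u := by
  unfold lvk
  rw [List.zipIdx_cons, List.filter_cons]
  by_cases h : a.1 = u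
  · simp [h]
  · simp [h]

/-- the polynomial `Σ M_{r,s,k} t^k` at the root `u` -/
def chP (D : ChevalleyDatum) (r s u : ℕ) (t : F) : F :=
  ((D.chainCoeff r s u).map fun km => ((km.2 : ℤ) : F) * t ^ km.1).sum

theorem sum_map_flatMap_aux {α β : Type*} (l : List α) (f : α → List β) (g : β → F) :
    ((l.flatMap f).map g).sum = (l.map fun a => ((f a).map g).sum).sum := by
  induction l with
  | nil => simp
  | cons a l ih => simp [List.flatMap_cons, ih]

theorem chP_eq (D : ChevalleyDatum) (r s u : ℕ) (t : F) :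
    chP D r s u t = ((chainEntries D r s).map fun L => lvk L 0 t u).sum := by
  unfold chP ChevalleyDatum.chainCoeff chainEntries lvk
  rw [sum_map_flatMap_aux, List.map_map]
  congr 1
  apply List.map_congr_left
  intro e _
  simp [List.map_map, Function.comp_def]

theorem sum_mul_lvk {n : ℕ} (g : Fin n → F) (L : List (ℕ × ℤ)) : ∀ (k : ℕ) (t : F),
    ∑ u : Fin n, g u * lvk L k t u.val =
      ((L.zipIdx k).map fun q => (if h : q.1.1 < n then g ⟨q.1.1, h⟩ else 0) *
        (((q.1.2 : ℤ) : F) * t ^ (q.2 + 1))).sum := by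
  induction L with
  | nil => intro k t; simp [lvk_nil]
  | cons a L ih =>
    intro k t
    simp only [lvk_cons, mul_add, Finset.sum_add_distrib, ih, List.zipIdx_cons, List.map_cons,
      List.sum_cons]
    congr 1
    by_cases h : a.1 < n
    · rw [dif_pos h, Finset.sum_eq_single ⟨a.1, h⟩]
      · simp
      · intro b _ hb
        have : a.1 ≠ b.val := fun h' => hb (Fin.ext h'.symm)
        simp [this]
      · intro h'
        exact absurd (Finset.mem_univ _) h'
    · rw [dif_neg h, zero_mul]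
      apply Finset.sum_eq_zero
      intro b _
      have : a.1 ≠ b.val := fun h' => h (h' ▸ b.isLt)
      simp [this]

/-- indicator -/
def ind (c : Prop) [Decidable c] : F := if c then 1 else 0

theorem ite_zero_eq_ind (c : Prop) [Decidable c] (a : F) : (if c then a else 0) = ind c * a := by
  unfold ind
  split_ifs <;> simp

/-! ### entries of `xMat` -/

variable (D : ChevalleyDatum) (r : Fin D.nroots) (t : F)

theorem xMat_inl_inl (i' i : Fin D.rank) :
    D.xMat F r t (Sum.inl i') (Sum.inl i) = if i' = i then 1 else 0 := rfl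

theorem xMat_inr_inl (u : Fin D.nroots) (i : Fin D.rank) :
    D.xMat F r t (Sum.inr u) (Sum.inl i) =
      if u = r then - (((D.cartanSR.getD i.val #[]).getD r.val 0 : ℤ) : F) * t else 0 := rfl

theorem xMat_inl_inr_self (i : Fin D.rank) : D.xMat F r t (Sum.inl i) (Sum.inr r) = 0 := by
  simp [ChevalleyDatum.xMat]

theorem xMat_inr_inr_self (u : Fin D.nroots) :
    D.xMat F r t (Sum.inr u) (Sum.inr r) = if u = r then 1 else 0 := by
  simp [ChevalleyDatum.xMat]

theorem xMat_inl_inr_neg (i : Fin D.rank) (s : Fin D.nroots) (h1 : s ≠ r)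
    (h2 : s.val = D.negIdx.getD r.val 0) :
    D.xMat F r t (Sum.inl i) (Sum.inr s) = (((D.coroot.getD r.val #[]).getD i.val 0 : ℤ) : F) * t := by
  simp only [ChevalleyDatum.xMat, Matrix.of_apply, if_neg h1, if_pos h2]

theorem xMat_inr_inr_neg (u s : Fin D.nroots) (h1 : s ≠ r)
    (h2 : s.val = D.negIdx.getD r.val 0) :
    D.xMat F r t (Sum.inr u) (Sum.inr s) = if u = s then 1 else if u = r then -(t ^ 2) else 0 := by
  simp only [ChevalleyDatum.xMat, Matrix.of_apply, if_neg h1, if_pos h2]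

theorem xMat_inl_inr_gen (i : Fin D.rank) (s : Fin D.nroots) (h1 : s ≠ r)
    (h2 : ¬ s.val = D.negIdx.getD r.val 0) :
    D.xMat F r t (Sum.inl i) (Sum.inr s) = 0 := by
  simp only [ChevalleyDatum.xMat, Matrix.of_apply, if_neg h1, if_neg h2]

theorem xMat_inr_inr_gen (u s : Fin D.nroots) (h1 : s ≠ r)
    (h2 : ¬ s.val = D.negIdx.getD r.val 0) :
    D.xMat F r t (Sum.inr u) (Sum.inr s) = (if s.val = u.val then 1 else 0) + chP D r.val s.val u.val t := by
  simp only [ChevalleyDatum.xMat, Matrix.of_apply, if_neg h1, if_neg h2, chP]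
  congr 1
  by_cases h : u = s
  · subst h; simp
  · have : ¬ s.val = u.val := fun h' => h (Fin.ext h'.symm)
    simp [h, this]

end poly

/-! ### the chain lists under the check -/

theorem chkAddList_ok (D : ChevalleyDatum) (r : ℕ) (L : List (ℕ × ℤ)) (h : chkAddList D r L = true) :
    ∀ a ∈ L, okRoot D r a.1 = true := by
  intro a ha
  rcases L with _ | ⟨⟨u₁, M₁⟩, _ | ⟨⟨u₂, M₂⟩, _ | ⟨⟨u₃, M₃⟩, _ | ⟨b, L⟩⟩⟩⟩
  · simp at ha
  · simp only [chkAddList, Bool.and_eq_true] at h
    simp only [List.mem_cons, List.not_mem_nil, or_false] at ha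
    subst ha
    exact h.1
  · simp only [chkAddList, Bool.and_eq_true] at h
    simp only [List.mem_cons, List.not_mem_nil, or_false] at ha
    rcases ha with rfl | rfl
    · exact h.1.1.1
    · exact h.1.1.2
  · simp only [chkAddList, Bool.and_eq_true] at h
    simp only [List.mem_cons, List.not_mem_nil, or_false] at ha
    rcases ha with rfl | rfl | rfl
    · exact h.1.1.1.1.1
    · exact h.1.1.1.1.2
    · exact h.1.1.1.2
  · simp [chkAddList] at h

section entry

variable {F : Type*} [Field F] (D : ChevalleyDatum) (r : Fin D.nroots)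

theorem entry_inl (L : List (ℕ × ℤ)) (h : chkAddList D r.val L = true) (t₁ t₂ : F) (i : Fin D.rank) :
    ∑ u : Fin D.nroots, D.xMat F r t₁ (Sum.inl i) (Sum.inr u) * lvk L 0 t₂ u.val = 0 := by
  rw [sum_mul_lvk]
  apply List.sum_eq_zero
  intro x hx
  rw [List.mem_map] at hx
  obtain ⟨q, hq, rfl⟩ := hx
  have hq1 : q.1 ∈ L := by
    obtain ⟨a, k⟩ := q
    exact (List.mem_zipIdx hq).2.2 ▸ List.getElem_mem _
  obtain ⟨h1, h2, h3⟩ := okRoot_spec D r.val q.1.1 (chkAddList_ok D r.val L h q.1 hq1)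
  rw [dif_pos h1, xMat_inl_inr_gen D r t₁ i ⟨q.1.1, h1⟩ (fun h' => h2 (congrArg Fin.val h')) h3,
    zero_mul]

theorem entry_inr (L : List (ℕ × ℤ)) (h : chkAddList D r.val L = true) (t₁ t₂ : F)
    (v : Fin D.nroots) :
    ∑ u : Fin D.nroots, D.xMat F r t₁ (Sum.inr v) (Sum.inr u) * lvk L 0 t₂ u.val =
      lvk L 0 (t₁ + t₂) v.val - lvk L 0 t₁ v.val := by
  rw [sum_mul_lvk]
  rcases L with _ | ⟨⟨u₁, M₁⟩, _ | ⟨⟨u₂, M₂⟩, _ | ⟨⟨u₃, M₃⟩, _ | ⟨b, L⟩⟩⟩⟩
  · simp [lvk_nil]
  · simp only [chkAddList, Bool.and_eq_true, List.isEmpty_iff] at h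
    obtain ⟨hk₁, hE₁⟩ := h
    obtain ⟨h1, h2, h3⟩ := okRoot_spec D r.val u₁ hk₁
    simp only [List.zipIdx_cons, List.zipIdx_nil, List.map_cons, List.map_nil, List.sum_cons,
      List.sum_nil, dif_pos h1, lvk_cons, lvk_nil]
    rw [xMat_inr_inr_gen D r t₁ v ⟨u₁, h1⟩ (fun h' => h2 (congrArg Fin.val h')) h3, chP_eq]
    simp only [hE₁, List.map_nil, List.sum_nil, ite_zero_eq_ind]
    ring
  · simp only [chkAddList, Bool.and_eq_true, List.isEmpty_iff] at h
    obtain ⟨⟨⟨hk₁, hk₂⟩, hs₁⟩, hE₂⟩ := h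
    obtain ⟨h1, h2, h3⟩ := okRoot_spec D r.val u₁ hk₁
    obtain ⟨h1', h2', h3'⟩ := okRoot_spec D r.val u₂ hk₂
    obtain ⟨M', hE₁, hM⟩ := isSingle1_spec _ _ _ hs₁
    rw [decide_eq_true_eq] at hM
    have hMF : ((M₁ : ℤ) : F) * ((M' : ℤ) : F) = 2 * ((M₂ : ℤ) : F) := by exact_mod_cast congrArg (Int.cast : ℤ → F) hM
    simp only [List.zipIdx_cons, List.zipIdx_nil, List.map_cons, List.map_nil, List.sum_cons,
      List.sum_nil, dif_pos h1, dif_pos h1', lvk_cons, lvk_nil]
    rw [xMat_inr_inr_gen D r t₁ v ⟨u₁, h1⟩ (fun h' => h2 (congrArg Fin.val h')) h3,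
      xMat_inr_inr_gen D r t₁ v ⟨u₂, h1'⟩ (fun h' => h2' (congrArg Fin.val h')) h3', chP_eq, chP_eq]
    simp only [hE₁, hE₂, List.map_cons, List.map_nil, List.sum_cons, List.sum_nil, lvk_cons, lvk_nil,
      ite_zero_eq_ind]
    linear_combination (ind (u₂ = v.val) * t₁ * t₂) * hMF
  · simp only [chkAddList, Bool.and_eq_true, List.isEmpty_iff] at h
    obtain ⟨⟨⟨⟨⟨hk₁, hk₂⟩, hk₃⟩, hs₁⟩, hs₂⟩, hE₃⟩ := h
    obtain ⟨h1, h2, h3⟩ := okRoot_spec D r.val u₁ hk₁
    obtain ⟨h1', h2', h3'⟩ := okRoot_spec D r.val u₂ hk₂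
    obtain ⟨h1'', h2'', h3''⟩ := okRoot_spec D r.val u₃ hk₃
    obtain ⟨M', M'', hE₁, hM⟩ := isSingle2_spec _ _ _ _ hs₁
    obtain ⟨N', hE₂, hN⟩ := isSingle1_spec _ _ _ hs₂
    rw [Bool.and_eq_true, decide_eq_true_eq, decide_eq_true_eq] at hM
    rw [decide_eq_true_eq] at hN
    have hMF : ((M₁ : ℤ) : F) * ((M' : ℤ) : F) = 2 * ((M₂ : ℤ) : F) := by exact_mod_cast congrArg (Int.cast : ℤ → F) hM.1
    have hMF' : ((M₁ : ℤ) : F) * ((M'' : ℤ) : F) = 3 * ((M₃ : ℤ) : F) := by exact_mod_cast congrArg (Int.cast : ℤ → F) hM.2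
    have hNF : ((M₂ : ℤ) : F) * ((N' : ℤ) : F) = 3 * ((M₃ : ℤ) : F) := by exact_mod_cast congrArg (Int.cast : ℤ → F) hN
    simp only [List.zipIdx_cons, List.zipIdx_nil, List.map_cons, List.map_nil, List.sum_cons,
      List.sum_nil, dif_pos h1, dif_pos h1', dif_pos h1'', lvk_cons, lvk_nil]
    rw [xMat_inr_inr_gen D r t₁ v ⟨u₁, h1⟩ (fun h' => h2 (congrArg Fin.val h')) h3,
      xMat_inr_inr_gen D r t₁ v ⟨u₂, h1'⟩ (fun h' => h2' (congrArg Fin.val h')) h3',
      xMat_inr_inr_gen D r t₁ v ⟨u₃, h1''⟩ (fun h' => h2'' (congrArg Fin.val h')) h3'',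
      chP_eq, chP_eq, chP_eq]
    simp only [hE₁, hE₂, hE₃, List.map_cons, List.map_nil, List.sum_cons, List.sum_nil, lvk_cons,
      lvk_nil, ite_zero_eq_ind]
    linear_combination (ind (u₂ = v.val) * t₁ * t₂) * hMF + (ind (u₃ = v.val) * t₁ ^ 2 * t₂) * hMF' +
      (ind (u₃ = v.val) * t₁ * t₂ ^ 2) * hNF
  · simp [chkAddList] at h

end entry

section main

variable {F : Type*} [Field F] (D : ChevalleyDatum)

theorem chkAdd_spec (hD : chkAdd D = true) (r : ℕ) (hr : r < D.nroots) :
    ((List.finRange D.rank).map fun i =>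
      (D.coroot.getD r #[]).getD i.val 0 * (D.cartanSR.getD i.val #[]).getD r 0).sum = 2 ∧
    ∀ e ∈ (D.chain.getD r #[]).toList, chkAddList D r e.2.toList = true := by
  have h1 := hD
  unfold chkAdd at h1
  rw [List.all_eq_true] at h1
  have h2 := h1 r (List.mem_range.mpr hr)
  rw [Bool.and_eq_true, decide_eq_true_eq, List.all_eq_true] at h2
  exact h2

theorem chainEntries_chk (hD : chkAdd D = true) (r : ℕ) (hr : r < D.nroots) (s : ℕ) :
    ∀ L ∈ chainEntries D r s, chkAddList D r L = true := by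
  intro L hL
  unfold chainEntries at hL
  rw [List.mem_map] at hL
  obtain ⟨e, he, rfl⟩ := hL
  exact (chkAdd_spec D hD r hr).2 e (List.mem_filter.mp he).1

theorem sum_mul_list_sum {n : ℕ} (g : Fin n → F) {α : Type*} (E : List α) (f : α → Fin n → F) :
    ∑ u : Fin n, g u * (E.map fun L => f L u).sum = (E.map fun L => ∑ u : Fin n, g u * f L u).sum := by
  induction E with
  | nil => simp
  | cons a E ih => simp only [List.map_cons, List.sum_cons, mul_add, Finset.sum_add_distrib, ih]

theorem list_sum_map_sub {α : Type*} (E : List α) (a b : α → F) :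
    (E.map fun L => a L - b L).sum = (E.map a).sum - (E.map b).sum := by
  induction E with
  | nil => simp
  | cons x E ih =>
    simp only [List.map_cons, List.sum_cons, ih]
    ring

theorem col_inl (hD : chkAdd D = true) (r : Fin D.nroots) (t₁ t₂ : F) (i : Fin D.rank) (s : ℕ) :
    ∑ u : Fin D.nroots, D.xMat F r t₁ (Sum.inl i) (Sum.inr u) * chP D r.val s u.val t₂ = 0 := by
  simp_rw [chP_eq]
  rw [sum_mul_list_sum]
  apply List.sum_eq_zero
  intro x hx
  rw [List.mem_map] at hx
  obtain ⟨L, hL, rfl⟩ := hx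
  exact entry_inl D r L (chainEntries_chk D hD r.val r.isLt s L hL) t₁ t₂ i

theorem col_inr (hD : chkAdd D = true) (r : Fin D.nroots) (t₁ t₂ : F) (v : Fin D.nroots) (s : ℕ) :
    ∑ u : Fin D.nroots, D.xMat F r t₁ (Sum.inr v) (Sum.inr u) * chP D r.val s u.val t₂ =
      chP D r.val s v.val (t₁ + t₂) - chP D r.val s v.val t₁ := by
  simp_rw [chP_eq]
  rw [sum_mul_list_sum, ← list_sum_map_sub]
  congr 1
  apply List.map_congr_left
  intro L hL
  exact entry_inr D r L (chainEntries_chk D hD r.val r.isLt s L hL) t₁ t₂ v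

/-- additivity of the root elements -/
theorem xMat_add (hD : chkAdd D = true) (r : Fin D.nroots) (t₁ t₂ : F) :
    D.xMat F r t₁ * D.xMat F r t₂ = D.xMat F r (t₁ + t₂) := by
  have hpair : ∑ i : Fin D.rank, (((D.cartanSR.getD i.val #[]).getD r.val 0 : ℤ) : F) *
      (((D.coroot.getD r.val #[]).getD i.val 0 : ℤ) : F) = 2 := by
    have h := (chkAdd_spec D hD r.val r.isLt).1
    rw [← Fin.sum_univ_def] at h
    have h' := congrArg (Int.cast : ℤ → F) h
    push_cast at h'
    rw [← h']
    apply Finset.sum_congr rfl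
    intro i _
    ring
  ext row col
  rw [Matrix.mul_apply, Fintype.sum_sum_type]
  rcases col with i | s
  · rcases row with i' | v
    · simp only [xMat_inl_inl, xMat_inr_inl, xMat_inl_inr_self, mul_ite, mul_one, mul_zero,
        Finset.sum_ite_eq', Finset.mem_univ, if_true]
      rw [zero_mul, add_zero]
    · simp only [xMat_inl_inl, xMat_inr_inl, xMat_inr_inr_self, mul_ite, mul_one, mul_zero,
        Finset.sum_ite_eq', Finset.mem_univ, if_true]
      split_ifs <;> ring
  · by_cases h1 : s = r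
    · subst h1
      rcases row with i' | v
      · simp only [xMat_inl_inr_self, xMat_inr_inr_self, mul_zero, Finset.sum_const_zero, zero_add,
          mul_ite, mul_one, Finset.sum_ite_eq', Finset.mem_univ, if_true]
      · simp only [xMat_inl_inr_self, xMat_inr_inr_self, mul_zero, Finset.sum_const_zero, zero_add,
          mul_ite, mul_one, Finset.sum_ite_eq', Finset.mem_univ, if_true]
    · by_cases h2 : s.val = D.negIdx.getD r.val 0
      · have hite : ∀ (t : F) (u : Fin D.nroots),
            (if u = s then (1 : F) else if u = r then -(t ^ 2) else 0) =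
            (if u = s then 1 else 0) + (if u = r then -(t ^ 2) else 0) := by
          intro t u
          by_cases hu : u = s
          · subst hu
            simp [h1]
          · simp [hu]
        rcases row with i' | v
        · simp only [xMat_inl_inr_neg D r _ _ s h1 h2, xMat_inr_inr_neg D r _ _ s h1 h2, hite, mul_add,
            Finset.sum_add_distrib, mul_ite, mul_one, mul_zero, Finset.sum_ite_eq', Finset.mem_univ,
            if_true, xMat_inl_inl, ite_mul, one_mul, zero_mul, Finset.sum_ite_eq, xMat_inl_inr_self]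
          ring
        · simp only [xMat_inl_inr_neg D r _ _ s h1 h2, xMat_inr_inr_neg D r _ _ s h1 h2, hite, mul_add,
            Finset.sum_add_distrib, mul_ite, mul_one, mul_zero, Finset.sum_ite_eq', Finset.mem_univ,
            if_true, xMat_inr_inl, xMat_inr_inr_self]
          by_cases hv : v = r
          · subst hv
            have hvs : ¬ v = s := fun h => h1 h.symm
            simp only [if_true, if_neg hvs]
            have hsum : ∑ x : Fin D.rank, -(((D.cartanSR.getD x.val #[]).getD v.val 0 : ℤ) : F) * t₁ *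
                ((((D.coroot.getD v.val #[]).getD x.val 0 : ℤ) : F) * t₂) = -(2 * t₁ * t₂) := by
              rw [← hpair, Finset.sum_mul, Finset.sum_mul, ← Finset.sum_neg_distrib]
              apply Finset.sum_congr rfl
              intro x _
              ring
            rw [hsum]
            ring
          · simp only [if_neg hv, zero_mul, Finset.sum_const_zero, zero_add, add_zero]
      · rcases row with i' | v
        · simp only [xMat_inl_inr_gen D r _ _ s h1 h2, mul_zero, Finset.sum_const_zero, zero_add]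
          simp only [xMat_inr_inr_gen D r t₂ _ s h1 h2, mul_add, Finset.sum_add_distrib]
          rw [col_inl D hD r t₁ t₂ i' s.val, add_zero]
          simp only [Fin.val_inj, mul_ite, mul_one, mul_zero, Finset.sum_ite_eq, Finset.mem_univ,
            if_true, xMat_inl_inr_gen D r _ _ s h1 h2]
        · simp only [xMat_inl_inr_gen D r _ _ s h1 h2, mul_zero, Finset.sum_const_zero, zero_add]
          rw [xMat_inr_inr_gen D r (t₁ + t₂) v s h1 h2]
          simp only [xMat_inr_inr_gen D r t₂ _ s h1 h2, mul_add, Finset.sum_add_distrib]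
          rw [col_inr D hD r t₁ t₂ v s.val]
          simp only [Fin.val_inj, mul_ite, mul_one, mul_zero, Finset.sum_ite_eq, Finset.mem_univ,
            if_true]
          rw [xMat_inr_inr_gen D r t₁ v s h1 h2]
          simp only [Fin.val_inj]
          ring

theorem x_add (hD : chkAdd D = true) (r : ℕ) (hr : r < D.nroots) (t₁ t₂ : F) :
    D.x F r t₁ * D.x F r t₂ = D.x F r (t₁ + t₂) := by
  unfold ChevalleyDatum.x
  rw [dif_pos hr, dif_pos hr, dif_pos hr]
  exact xMat_add D hD _ t₁ t₂

end main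

end Cfsg.Agent.Lib.Helper3
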