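import Mathlib
import Cfsg.Prelude.Def_ChevAutomorphisms

set_option autoImplicit false

namespace Cfsg.Agent.Lib.Helper3

open Cfsg.Lie

/-- chain-table consistency: the `i`-th root of the `r`-chain through `s` is `r + ` the previous one -/
def chkChain (D : ChevalleyDatum) (r : ℕ) : ℕ → List (ℕ × ℤ) → Bool
  | _, [] => true
  | s, (u, _) :: rest =>
    decide (u < D.nroots) && (D.chainRoot r s 1 == some u) && chkChain D r u rest

/-- the chain tables of the datum are consistent -/
def chkChev (D : ChevalleyDatum) : Bool :=
  (List.range D.nroots).all fun r =>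
    (D.chain.getD r #[]).toList.all fun e => decide (e.1 < D.nroots) && chkChain D r e.1 e.2.toList

theorem chkChain_spec (D : ChevalleyDatum) {F : Type*} [Field F] (χ : ℕ → Fˣ)
    (hχ : D.IsRootCharacter χ) (r : ℕ) (hr : r < D.nroots) :
    ∀ (l : List (ℕ × ℤ)) (s : ℕ) (k : ℕ), s < D.nroots → chkChain D r s l = true →
      ∀ q ∈ l.zipIdx k, χ q.1.1 = χ r ^ (q.2 - k + 1) * χ s := by
  intro l
  induction l with
  | nil => intro s k _ _ q hq; simp at hq
  | cons a rest ih =>
    intro s k hs hchk q hq
    obtain ⟨u, M⟩ := a
    simp only [chkChain, Bool.and_eq_true, decide_eq_true_eq, beq_iff_eq] at hchk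
    obtain ⟨⟨hu, hroot⟩, hrest⟩ := hchk
    have hχu : χ u = χ r * χ s := hχ.2 r s u hr hs hroot
    rw [List.zipIdx_cons, List.mem_cons] at hq
    rcases hq with rfl | hq
    · simp [hχu]
    · have h1 := ih u (k + 1) hu hrest q hq
      have hk : k + 1 ≤ q.2 := List.le_snd_of_mem_zipIdx hq
      have h2 : q.2 - k + 1 = (q.2 - (k + 1) + 1) + 1 := by omega
      rw [h1, hχu, h2, pow_succ (χ r) (q.2 - (k + 1) + 1), mul_assoc]

theorem chkChev_key (D : ChevalleyDatum) (hD : chkChev D = true) {F : Type*} [Field F] (χ : ℕ → Fˣ)
    (hχ : D.IsRootCharacter χ) (r : ℕ) (hr : r < D.nroots) (s u : ℕ) :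
    ∀ km ∈ D.chainCoeff r s u, (χ u : F) = (χ r : F) ^ km.1 * (χ s : F) := by
  intro km hkm
  have hrow : ∀ e ∈ (D.chain.getD r #[]).toList,
      e.1 < D.nroots ∧ chkChain D r e.1 e.2.toList = true := by
    have h1 := hD
    unfold chkChev at h1
    rw [List.all_eq_true] at h1
    have h2 := h1 r (List.mem_range.mpr hr)
    rw [List.all_eq_true] at h2
    intro e he
    have h3 := h2 e he
    simpa [Bool.and_eq_true] using h3
  unfold ChevalleyDatum.chainCoeff at hkm
  rw [List.mem_flatMap] at hkm
  obtain ⟨e, he, hkm⟩ := hkm
  rw [List.mem_filter] at he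
  obtain ⟨he1, he2⟩ := he
  have hes : e.1 = s := by simpa using he2
  rw [List.mem_map] at hkm
  obtain ⟨q, hq, rfl⟩ := hkm
  rw [List.mem_filter] at hq
  obtain ⟨hq1, hq2⟩ := hq
  have hqu : q.1.1 = u := by simpa using hq2
  have h4 := chkChain_spec D χ hχ r hr e.2.toList e.1 0 (hrow e he1).1 (hrow e he1).2 q hq1
  rw [hqu, hes] at h4
  have h5 := congrArg (fun x : Fˣ => (x : F)) h4
  simp only [Units.val_mul, Units.val_pow_eq_pow_val, Nat.sub_zero] at h5
  exact h5

/-- the diagonal matrix of a root-lattice character conjugates `x_r(t)` to `x_r(χ(r) t)` -/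
theorem charDiag_conj (D : ChevalleyDatum) (hD : chkChev D = true) {F : Type*} [Field F] (χ : ℕ → Fˣ)
    (hχ : D.IsRootCharacter χ) (r : ℕ) (hr : r < D.nroots) (t : F) :
    D.charDiag F χ * D.x F r t * D.charDiag F (fun s => (χ s)⁻¹) = D.x F r ((χ r : F) * t) := by
  have hkey := chkChev_key D hD χ hχ r hr
  unfold ChevalleyDatum.charDiag ChevalleyDatum.x
  rw [dif_pos hr, dif_pos hr]
  ext row col
  rw [Matrix.mul_diagonal, Matrix.diagonal_mul]
  have hinv : ∀ n : ℕ, (χ n : F) * (((χ n)⁻¹ : Fˣ) : F) = 1 := fun n => by
    rw [← Units.val_mul, mul_inv_cancel, Units.val_one]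
  rcases col with i | s
  · rcases row with i' | u
    · simp [ChevalleyDatum.xMat]
    · simp only [ChevalleyDatum.xMat, Matrix.of_apply, Sum.elim_inl, Sum.elim_inr, mul_one]
      by_cases h : u = ⟨r, hr⟩
      · subst h
        simp only [if_true]
        ring
      · simp only [if_neg h, mul_zero]
  · by_cases h1 : s = ⟨r, hr⟩
    · subst h1
      rcases row with i' | u
      · simp [ChevalleyDatum.xMat]
      · simp only [ChevalleyDatum.xMat, Matrix.of_apply, Sum.elim_inr, if_true]
        by_cases h : u = ⟨r, hr⟩
        · subst h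
          simp only [if_true, mul_one]
          exact hinv r
        · simp only [if_neg h, mul_zero, zero_mul]
    · by_cases h2 : s.val = D.negIdx.getD r 0
      · have hχs : χ s.val = (χ r)⁻¹ := by
          rw [h2]; exact hχ.1 r hr
        have hχs' : (((χ s.val)⁻¹ : Fˣ) : F) = (χ r : F) := by rw [hχs, inv_inv]
        rcases row with i' | u
        · simp only [ChevalleyDatum.xMat, Matrix.of_apply, Sum.elim_inl, Sum.elim_inr, if_neg h1,
            if_pos h2, one_mul, hχs']
          ring
        · simp only [ChevalleyDatum.xMat, Matrix.of_apply, Sum.elim_inr, if_neg h1, if_pos h2]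
          by_cases h3 : u = s
          · subst h3
            simp only [if_true, mul_one]
            exact hinv _
          · simp only [if_neg h3]
            by_cases h4 : u = ⟨r, hr⟩
            · subst h4
              simp only [if_true, hχs']
              ring
            · simp only [if_neg h4, mul_zero, zero_mul]
      · rcases row with i' | u
        · simp only [ChevalleyDatum.xMat, Matrix.of_apply, Sum.elim_inl, Sum.elim_inr, if_neg h1,
            if_neg h2, mul_zero, zero_mul]
        · simp only [ChevalleyDatum.xMat, Matrix.of_apply, Sum.elim_inr, if_neg h1, if_neg h2]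
          rw [mul_add, add_mul]
          congr 1
          · by_cases h3 : u = s
            · subst h3
              simp only [if_true, mul_one]
              exact hinv _
            · simp only [if_neg h3, mul_zero, zero_mul]
          · rw [← List.sum_map_mul_left, ← List.sum_map_mul_right]
            congr 1
            apply List.map_congr_left
            intro km hkm
            have h5 := hkey s.val u.val km hkm
            rw [h5, mul_pow]
            have h6 := hinv s.val
            linear_combination ((χ r : F) ^ km.1 * (km.2 : F) * t ^ km.1) * h6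

end Cfsg.Agent.Lib.Helper3
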