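import Mathlib
import Cfsg.Agent.Lib.Helper3.ChevAdd

set_option autoImplicit false

namespace Cfsg.Agent.Lib.Helper3

open Cfsg.Lie

/-- `u` is a sign -/
def sgn (u : ℤ) : Bool := u == 1 || u == -1

/-- the chain table of `r` is strictly sorted by its keys -/
def sortedKeys : List (ℕ × Array (ℕ × ℤ)) → Bool
  | [] => true
  | [_] => true
  | a :: b :: l => decide (a.1 < b.1) && sortedKeys (b :: l)

def chkSorted (D : ChevalleyDatum) : Bool :=
  (List.range D.nroots).all fun r => sortedKeys (D.chain.getD r #[]).toList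

/-- the full `r`-string starting at a bottom `a₀` with up-list `L` is canonical -/
def chkBottom (D : ChevalleyDatum) (r rn a₀ : ℕ) (L : List (ℕ × ℤ)) : Bool :=
  match L with
  | [(a₁, u₁)] => sgn u₁ && okRoot D r a₁ &&
      (chainEntries D rn a₁ == [[(a₀, u₁)]]) &&
      decide (D.pairing r a₀ = -1) && decide (D.pairing r a₁ = 1)
  | [(a₁, u₁), (a₂, u₂)] => sgn u₁ && sgn u₂ && okRoot D r a₁ && okRoot D r a₂ &&
      (chainEntries D rn a₂ == [[(a₁, u₂ * u₁), (a₀, u₂)]]) &&
      decide (D.pairing r a₀ = -2) && decide (D.pairing r a₁ = 0) && decide (D.pairing r a₂ = 2)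
  | [(a₁, u₁), (a₂, u₂), (a₃, u₃)] => sgn u₁ && sgn u₂ && sgn u₃ &&
      okRoot D r a₁ && okRoot D r a₂ && okRoot D r a₃ &&
      (chainEntries D rn a₃ == [[(a₂, u₃ * u₂), (a₁, u₃ * u₁), (a₀, u₃)]]) &&
      decide (D.pairing r a₀ = -3) && decide (D.pairing r a₁ = -1) && decide (D.pairing r a₂ = 1) &&
      decide (D.pairing r a₃ = 3)
  | _ => false

def chkS (D : ChevalleyDatum) : Bool :=
  (List.range D.nroots).all fun r =>
    (D.chain.getD r #[]).toList.all fun e =>
      okRoot D r e.1 &&
        (!(chainEntries D (D.neg r) e.1).isEmpty || chkBottom D r (D.neg r) e.1 e.2.toList)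

def chkY (D : ChevalleyDatum) : Bool :=
  (List.range D.nroots).all fun r =>
    (D.chain.getD r #[]).toList.all fun e =>
      match e.2.toList.getLast? with
      | none => false
      | some b =>
        match chainEntries D (D.neg r) b.1 with
        | [Lb] => Lb.any (fun q => q.1 == e.1)
        | _ => false

def pCase (pr : ℤ) (up dn : Bool) : Bool :=
  match pr with
  | Int.ofNat 0 => true
  | Int.ofNat (_ + 1) => dn
  | Int.negSucc _ => up

def chkP (D : ChevalleyDatum) : Bool :=
  (List.range D.nroots).all fun r => (List.range D.nroots).all fun s =>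
    s == r || s == D.neg r ||
      pCase (D.pairing r s) (!(chainEntries D r s).isEmpty) (!(chainEntries D (D.neg r) s).isEmpty)

def chkNg (D : ChevalleyDatum) : Bool :=
  (List.range D.nroots).all fun r =>
    decide (D.neg r < D.nroots) && decide (D.neg r ≠ r) && decide (D.neg (D.neg r) = r) &&
    (List.range D.rank).all fun i => decide (D.cartan i (D.neg r) = - D.cartan i r) &&
      decide ((D.coroot.getD (D.neg r) #[]).getD i 0 = - (D.coroot.getD r #[]).getD i 0)

end Cfsg.Agent.Lib.Helper3
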