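import Mathlib
import Cfsg.Prelude.Def_ChevAutomorphisms

set_option autoImplicit false

namespace Cfsg.Agent.Lib.Helper3

open Cfsg.Lie

/-- the table of negatives stays in range and has no fixed point -/
def chkNeg (D : ChevalleyDatum) : Bool :=
  (List.range D.nroots).all fun r =>
    decide (D.negIdx.getD r 0 < D.nroots) && decide (D.negIdx.getD r 0 ≠ r)

theorem chkNeg_spec (D : ChevalleyDatum) (hD : chkNeg D = true) (r : ℕ) (hr : r < D.nroots) :
    D.negIdx.getD r 0 < D.nroots ∧ D.negIdx.getD r 0 ≠ r := by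
  have h1 := hD
  unfold chkNeg at h1
  rw [List.all_eq_true] at h1
  have h2 := h1 r (List.mem_range.mpr hr)
  simpa [Bool.and_eq_true] using h2

theorem chainCoeff_fst_ne_zero (D : ChevalleyDatum) (r s u : ℕ) :
    ∀ km ∈ D.chainCoeff r s u, km.1 ≠ 0 := by
  intro km hkm
  unfold ChevalleyDatum.chainCoeff at hkm
  rw [List.mem_flatMap] at hkm
  obtain ⟨e, _, hkm⟩ := hkm
  rw [List.mem_map] at hkm
  obtain ⟨q, _, rfl⟩ := hkm
  exact Nat.succ_ne_zero _

theorem xMat_zero (D : ChevalleyDatum) {F : Type*} [Field F] (r : Fin D.nroots) :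
    D.xMat F r 0 = 1 := by
  ext row col
  rw [Matrix.one_apply]
  rcases col with i | s
  · rcases row with i' | u
    · simp [ChevalleyDatum.xMat]
    · simp [ChevalleyDatum.xMat]
  · by_cases h1 : s = r
    · subst h1
      rcases row with i' | u <;> simp [ChevalleyDatum.xMat]
    · by_cases h2 : s.val = D.negIdx.getD r.val 0
      · rcases row with i' | u
        · simp only [ChevalleyDatum.xMat, Matrix.of_apply, if_neg h1, if_pos h2, mul_zero]
          simp
        · simp only [ChevalleyDatum.xMat, Matrix.of_apply, if_neg h1, if_pos h2]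
          by_cases h3 : u = s
          · simp [h3]
          · simp [h3]
      · rcases row with i' | u
        · simp only [ChevalleyDatum.xMat, Matrix.of_apply, if_neg h1, if_neg h2]
          simp
        · simp only [ChevalleyDatum.xMat, Matrix.of_apply, if_neg h1, if_neg h2]
          have h0 : ((D.chainCoeff r.val s.val u.val).map
              fun km => ((km.2 : ℤ) : F) * (0 : F) ^ km.1).sum = 0 := by
            apply List.sum_eq_zero
            intro x hx
            rw [List.mem_map] at hx
            obtain ⟨km, hkm, rfl⟩ := hx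
            rw [zero_pow (chainCoeff_fst_ne_zero D _ _ _ km hkm), mul_zero]
          rw [h0, add_zero]
          by_cases h3 : u = s
          · simp [h3]
          · simp [h3]

theorem x_zero (D : ChevalleyDatum) {F : Type*} [Field F] (r : ℕ) : D.x F r 0 = 1 := by
  unfold ChevalleyDatum.x
  split
  · exact xMat_zero D _
  · rfl

theorem xMat_eq_one (D : ChevalleyDatum) (hD : chkNeg D = true) {F : Type*} [Field F]
    (r : Fin D.nroots) (t : F) (h : D.xMat F r t = 1) : t = 0 := by
  obtain ⟨hlt, hne⟩ := chkNeg_spec D hD r.val r.isLt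
  have h3 := congrFun (congrFun h (Sum.inr r)) (Sum.inr ⟨D.negIdx.getD r.val 0, hlt⟩)
  have hsr : (⟨D.negIdx.getD r.val 0, hlt⟩ : Fin D.nroots) ≠ r := fun h => hne (congrArg Fin.val h)
  have hsr' : r ≠ (⟨D.negIdx.getD r.val 0, hlt⟩ : Fin D.nroots) := fun h => hsr h.symm
  have hne' : (Sum.inr r : D.Idx) ≠ Sum.inr ⟨D.negIdx.getD r.val 0, hlt⟩ := fun h => hsr' (Sum.inr.inj h)
  simp only [ChevalleyDatum.xMat, Matrix.of_apply, if_neg hsr, if_true, Matrix.one_apply,
    if_neg hsr', if_neg hne'] at h3
  simpa using h3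

theorem x_eq_one_iff (D : ChevalleyDatum) (hD : chkNeg D = true) {F : Type*} [Field F]
    (r : ℕ) (hr : r < D.nroots) (t : F) : D.x F r t = 1 ↔ t = 0 := by
  constructor
  · intro h
    unfold ChevalleyDatum.x at h
    rw [dif_pos hr] at h
    exact xMat_eq_one D hD _ t h
  · rintro rfl
    exact x_zero D r

end Cfsg.Agent.Lib.Helper3
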