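import Mathlib
import Cfsg.Prelude.Def_ChevAutomorphisms

set_option autoImplicit false

namespace Cfsg.Agent.Lib.Helper3

open Cfsg.Lie

/-- every root of the table is positive or negative -/
def chkPN (D : ChevalleyDatum) : Bool :=
  (List.range D.nroots).all fun r => decide (D.IsPosRoot r) || decide (D.IsNegRoot r)

theorem chkPN_spec (D : ChevalleyDatum) (hD : chkPN D = true) (r : ℕ) (hr : r < D.nroots) :
    D.IsPosRoot r ∨ D.IsNegRoot r := by
  have h1 := hD
  unfold chkPN at h1
  rw [List.all_eq_true] at h1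
  have h2 := h1 r (List.mem_range.mpr hr)
  simpa [Bool.or_eq_true] using h2

theorem x_of_lt (D : ChevalleyDatum) {F : Type*} [Field F] (r : ℕ) (hr : r < D.nroots) (t : F) :
    D.x F r t = D.xMat F ⟨r, hr⟩ t := by
  unfold ChevalleyDatum.x
  rw [dif_pos hr]

theorem posUnipotent_le_group (D : ChevalleyDatum) {F : Type*} [Field F] :
    D.posUnipotent F ≤ D.group F := by
  unfold ChevalleyDatum.posUnipotent ChevalleyDatum.group
  apply Subgroup.closure_mono
  rintro g ⟨r, t, hr, hg⟩
  exact ⟨⟨r, hr.1⟩, t, by rw [hg, x_of_lt D r hr.1]⟩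

theorem negUnipotent_le_group (D : ChevalleyDatum) {F : Type*} [Field F] :
    D.negUnipotent F ≤ D.group F := by
  unfold ChevalleyDatum.negUnipotent ChevalleyDatum.group
  apply Subgroup.closure_mono
  rintro g ⟨r, t, hr, hg⟩
  exact ⟨⟨r, hr.1⟩, t, by rw [hg, x_of_lt D r hr.1]⟩

theorem pos_sup_neg_eq_group (D : ChevalleyDatum) (hD : chkPN D = true) {F : Type*} [Field F] :
    D.posUnipotent F ⊔ D.negUnipotent F = D.group F := by
  apply le_antisymm
  · exact sup_le (posUnipotent_le_group D) (negUnipotent_le_group D)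
  · unfold ChevalleyDatum.group
    rw [Subgroup.closure_le]
    rintro g ⟨r, t, hg⟩
    rcases chkPN_spec D hD r.val r.isLt with h | h
    · apply (le_sup_left : D.posUnipotent F ≤ _)
      exact Subgroup.subset_closure ⟨r.val, t, h, by rw [hg, x_of_lt D r.val r.isLt]⟩
    · apply (le_sup_right : D.negUnipotent F ≤ _)
      exact Subgroup.subset_closure ⟨r.val, t, h, by rw [hg, x_of_lt D r.val r.isLt]⟩

end Cfsg.Agent.Lib.Helper3
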