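import Mathlib
import Cfsg.Agent.Lib.Helper3.ChevBasic
import Cfsg.Agent.Lib.Helper3.ChevGen
import Cfsg.Agent.Lib.Helper3.ChevAdd

set_option autoImplicit false

namespace Cfsg.Agent.Lib.Helper3

open Cfsg.Lie

/-- every root is positive, or its negative is positive and negation is involutive there -/
def chkNegPos (D : ChevalleyDatum) : Bool :=
  (List.range D.nroots).all fun r =>
    decide (D.IsPosRoot r) || (decide (D.IsPosRoot (D.neg r)) && decide (D.neg (D.neg r) = r))

theorem chkNegPos_spec (D : ChevalleyDatum) (hD : chkNegPos D = true) (r : ℕ) (hr : r < D.nroots) :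
    D.IsPosRoot r ∨ (D.IsPosRoot (D.neg r) ∧ D.neg (D.neg r) = r) := by
  have h1 := hD
  unfold chkNegPos at h1
  rw [List.all_eq_true] at h1
  have h2 := h1 r (List.mem_range.mpr hr)
  simpa [Bool.or_eq_true, Bool.and_eq_true] using h2

section bn

variable {F : Type*} [Field F] (D : ChevalleyDatum)

theorem x_mul_x (hD : chkAdd D = true) (r : ℕ) (a b : F) (hab : a + b = 0) :
    D.x F r a * D.x F r b = 1 := by
  by_cases hr : r < D.nroots
  · rw [x_add D hD r hr, hab, x_zero]
  · unfold ChevalleyDatum.x
    rw [dif_neg hr, dif_neg hr, one_mul]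

/-- the root element as an element of the general linear group -/
def xGL (hD : chkAdd D = true) (r : ℕ) (t : F) : GL D.Idx F :=
  ⟨D.x F r t, D.x F r (-t), x_mul_x D hD r t (-t) (add_neg_cancel t),
    x_mul_x D hD r (-t) t (neg_add_cancel t)⟩

theorem xGL_coe (hD : chkAdd D = true) (r : ℕ) (t : F) :
    ((xGL D hD r t : GL D.Idx F) : Matrix D.Idx D.Idx F) = D.x F r t := rfl

theorem xGL_mem_group (hD : chkAdd D = true) (r : ℕ) (t : F) : xGL D hD r t ∈ D.group F := by
  by_cases hr : r < D.nroots
  · exact Subgroup.subset_closure ⟨⟨r, hr⟩, t, by rw [xGL_coe, x_of_lt D r hr]⟩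
  · have h1 : xGL D hD r t = 1 := by
      apply Units.ext
      rw [xGL_coe]
      unfold ChevalleyDatum.x
      rw [dif_neg hr]
      rfl
    rw [h1]
    exact one_mem _

/-- a word in root elements as an element of the general linear group -/
def wordGL (hD : chkAdd D = true) (w : List (ℕ × F)) : GL D.Idx F :=
  (w.map fun p => xGL D hD p.1 p.2).prod

theorem wordGL_coe (hD : chkAdd D = true) (w : List (ℕ × F)) :
    ((wordGL D hD w : GL D.Idx F) : Matrix D.Idx D.Idx F) = D.wordMat F w := by
  unfold wordGL ChevalleyDatum.wordMat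
  induction w with
  | nil => simp
  | cons a w ih =>
    rw [List.map_cons, List.prod_cons, List.map_cons, List.prod_cons, Units.val_mul, ih, xGL_coe]

theorem wordGL_mem_group (hD : chkAdd D = true) (w : List (ℕ × F)) : wordGL D hD w ∈ D.group F := by
  unfold wordGL
  apply Subgroup.list_prod_mem
  intro x hx
  rw [List.mem_map] at hx
  obtain ⟨p, _, rfl⟩ := hx
  exact xGL_mem_group D hD p.1 p.2

theorem eq_wordGL (hD : chkAdd D = true) (g : GL D.Idx F) (w : List (ℕ × F))
    (h : (g : Matrix D.Idx D.Idx F) = D.wordMat F w) : g = wordGL D hD w :=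
  Units.ext (h.trans (wordGL_coe D hD w).symm)

theorem mem_group_of_wordMat (hD : chkAdd D = true) (g : GL D.Idx F) (w : List (ℕ × F))
    (h : (g : Matrix D.Idx D.Idx F) = D.wordMat F w) : g ∈ D.group F := by
  rw [eq_wordGL D hD g w h]
  exact wordGL_mem_group D hD w

theorem diagonal_le_group (hD : chkAdd D = true) : D.diagonalSubgroup F ≤ D.group F := by
  unfold ChevalleyDatum.diagonalSubgroup
  rw [Subgroup.closure_le]
  rintro g ⟨r, t, _, _, hg⟩
  exact mem_group_of_wordMat D hD g _ hg

theorem monomial_le_group (hD : chkAdd D = true) : D.monomialSubgroup F ≤ D.group F := by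
  unfold ChevalleyDatum.monomialSubgroup
  apply sup_le (diagonal_le_group D hD)
  rw [Subgroup.closure_le]
  rintro g ⟨r, _, hg⟩
  exact mem_group_of_wordMat D hD g _ hg

theorem borel_le_group (hD : chkAdd D = true) : D.borelSubgroup F ≤ D.group F :=
  sup_le (posUnipotent_le_group D) (diagonal_le_group D hD)

theorem wordMat_append (w₁ w₂ : List (ℕ × F)) :
    D.wordMat F (w₁ ++ w₂) = D.wordMat F w₁ * D.wordMat F w₂ := by
  unfold ChevalleyDatum.wordMat
  rw [List.map_append, List.prod_append]

theorem nMat_eq (r : ℕ) (t : F) :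
    D.nMat F r t = D.x F r t * (D.x F (D.neg r) (-t⁻¹) * D.x F r t) := by
  unfold ChevalleyDatum.nMat ChevalleyDatum.nWord ChevalleyDatum.wordMat
  simp only [List.map_cons, List.map_nil, List.prod_cons, List.prod_nil, mul_one]

theorem nMat_neg_one_mul (hD : chkAdd D = true) (r : ℕ) :
    D.nMat F r (-1) * D.nMat F r 1 = 1 := by
  rw [nMat_eq, nMat_eq]
  have e1 : -(-1 : F)⁻¹ = 1 := by rw [inv_neg, inv_one, neg_neg]
  have e2 : -(1 : F)⁻¹ = -1 := by rw [inv_one]
  rw [e1, e2]
  have h1 : D.x F r (-1) * D.x F r 1 = 1 := x_mul_x D hD r _ _ (by ring)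
  have h2 : D.x F (D.neg r) 1 * D.x F (D.neg r) (-1) = 1 := x_mul_x D hD _ _ _ (by ring)
  calc D.x F r (-1) * (D.x F (D.neg r) 1 * D.x F r (-1)) *
        (D.x F r 1 * (D.x F (D.neg r) (-1) * D.x F r 1))
      = D.x F r (-1) * (D.x F (D.neg r) 1 * ((D.x F r (-1) * D.x F r 1) *
          (D.x F (D.neg r) (-1) * D.x F r 1))) := by simp only [mul_assoc]
    _ = D.x F r (-1) * ((D.x F (D.neg r) 1 * D.x F (D.neg r) (-1)) * D.x F r 1) := by
        rw [h1, one_mul, mul_assoc]
    _ = 1 := by rw [h2, one_mul, h1]

theorem nMat_eq_hMat_mul (hD : chkAdd D = true) (r : ℕ) (c : F) :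
    D.nMat F r c = D.hMat F r c * D.nMat F r 1 := by
  have h : D.hMat F r c = D.nMat F r c * D.nMat F r (-1) := by
    unfold ChevalleyDatum.hMat ChevalleyDatum.hWord ChevalleyDatum.nMat
    exact wordMat_append D _ _
  rw [h, mul_assoc, nMat_neg_one_mul D hD, mul_one]

theorem borel_sup_monomial (hD : chkAdd D = true) (hD' : chkNegPos D = true) :
    D.borelSubgroup F ⊔ D.monomialSubgroup F = D.group F := by
  apply le_antisymm
  · exact sup_le (borel_le_group D hD) (monomial_le_group D hD)
  · have hU : D.posUnipotent F ≤ D.borelSubgroup F ⊔ D.monomialSubgroup F :=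
      le_trans le_sup_left le_sup_left
    have hH : D.diagonalSubgroup F ≤ D.monomialSubgroup F := le_sup_left
    unfold ChevalleyDatum.group
    rw [Subgroup.closure_le]
    rintro g ⟨r, t, hg⟩
    rw [← x_of_lt D r.val r.isLt] at hg
    rcases chkNegPos_spec D hD' r.val r.isLt with hpos | ⟨hpos, hnn⟩
    · exact hU (Subgroup.subset_closure ⟨r.val, t, hpos, hg⟩)
    · by_cases ht : t = 0
      · have : g = 1 := by
          apply Units.ext
          rw [hg, ht, x_zero]
          rfl
        rw [this]
        exact one_mem _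
      · set r' := D.neg r.val with hr'
        set c : F := -t⁻¹ with hc
        have hc0 : c ≠ 0 := neg_ne_zero.mpr (inv_ne_zero ht)
        have hct : -c⁻¹ = t := by rw [hc, inv_neg, inv_inv, neg_neg]
        have hxU : xGL D hD r' (-c) ∈ D.borelSubgroup F ⊔ D.monomialSubgroup F :=
          hU (Subgroup.subset_closure ⟨r', -c, hpos, rfl⟩)
        have hhG : wordGL D hD (D.hWord r' c) ∈ D.monomialSubgroup F :=
          hH (Subgroup.subset_closure ⟨r', c, hpos.1, hc0, wordGL_coe D hD _⟩)
        have hn1 : wordGL D hD (D.nWord r' 1) ∈ D.monomialSubgroup F := by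
          apply (le_sup_right : _ ≤ D.monomialSubgroup F)
          exact Subgroup.subset_closure ⟨r', hpos.1, wordGL_coe D hD _⟩
        have hnG : wordGL D hD (D.nWord r' c) =
            wordGL D hD (D.hWord r' c) * wordGL D hD (D.nWord r' 1) := by
          apply Units.ext
          rw [Units.val_mul, wordGL_coe, wordGL_coe, wordGL_coe]
          exact nMat_eq_hMat_mul D hD r' c
        have hnmem : wordGL D hD (D.nWord r' c) ∈ D.borelSubgroup F ⊔ D.monomialSubgroup F := by
          rw [hnG]
          exact (le_sup_right : D.monomialSubgroup F ≤ _) (mul_mem hhG hn1)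
        have hgeq : g = xGL D hD r' (-c) * wordGL D hD (D.nWord r' c) * xGL D hD r' (-c) := by
          apply Units.ext
          rw [Units.val_mul, Units.val_mul, wordGL_coe, xGL_coe]
          have hn : D.wordMat F (D.nWord r' c) = D.nMat F r' c := rfl
          rw [hn, nMat_eq, hnn, hct, ← hg]
          have h1 : D.x F r' c * D.x F r' (-c) = 1 := x_mul_x D hD r' _ _ (by ring)
          have h2 : D.x F r' (-c) * D.x F r' c = 1 := x_mul_x D hD r' _ _ (by ring)
          calc (g : Matrix D.Idx D.Idx F)
              = (D.x F r' (-c) * D.x F r' c) * g * (D.x F r' c * D.x F r' (-c)) := by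
                rw [h1, h2, one_mul, mul_one]
            _ = D.x F r' (-c) * (D.x F r' c * (↑g * D.x F r' c)) * D.x F r' (-c) := by
                simp only [mul_assoc]
        rw [hgeq]
        exact mul_mem (mul_mem hxU hnmem) hxU

end bn

end Cfsg.Agent.Lib.Helper3
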