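import Mathlib
import Cfsg.Agent.Lib.Helper3.ChevBN

set_option autoImplicit false
set_option linter.unusedSectionVars false
set_option linter.style.haveILetI false

namespace Cfsg.Agent.Lib.Helper3

open Cfsg.Lie
open scoped commutatorElement

/-- the level function on the coordinates: negative roots, then the coroots, then positive roots -/
def chevF (D : ChevalleyDatum) : D.Idx → ℕ
  | Sum.inl _ => D.nroots / 2
  | Sum.inr s => if s.val < D.nroots / 2 then s.val else s.val + 1

/-- table check: positive roots fill the upper half, their negatives the lower half, and the chains of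
positive roots increase -/
def chkUni (D : ChevalleyDatum) : Bool :=
  decide (1 ≤ D.rank) && (List.range D.nroots).all fun r =>
    !decide (D.IsPosRoot r) ||
      (decide (D.nroots / 2 ≤ r) && decide (D.negIdx.getD r 0 < D.nroots / 2) &&
        (D.chain.getD r #[]).toList.all fun e => e.2.toList.all fun q => decide (e.1 < q.1))

/-! ### matrices raising a level function -/

section raises

variable {ι : Type*} [Fintype ι] [DecidableEq ι] {F : Type*} [Field F]

/-- `N` raises the level `f` by at least `k` -/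
def Raises (f : ι → ℕ) (k : ℕ) (N : Matrix ι ι F) : Prop := ∀ i j, N i j ≠ 0 → f j + k ≤ f i

theorem Raises.mul {f : ι → ℕ} {k l : ℕ} {A B : Matrix ι ι F} (hA : Raises f k A) (hB : Raises f l B) :
    Raises f (k + l) (A * B) := by
  intro i j h
  rw [Matrix.mul_apply] at h
  obtain ⟨m, _, hm⟩ := Finset.exists_ne_zero_of_sum_ne_zero h
  have h1 := hA i m (left_ne_zero_of_mul hm)
  have h2 := hB m j (right_ne_zero_of_mul hm)
  omega

theorem Raises.add {f : ι → ℕ} {k : ℕ} {A B : Matrix ι ι F} (hA : Raises f k A) (hB : Raises f k B) :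
    Raises f k (A + B) := by
  intro i j h
  rw [Matrix.add_apply] at h
  by_cases h1 : A i j = 0
  · rw [h1, zero_add] at h
    exact hB i j h
  · exact hA i j h1

theorem Raises.neg {f : ι → ℕ} {k : ℕ} {A : Matrix ι ι F} (hA : Raises f k A) : Raises f k (-A) := by
  intro i j h
  rw [Matrix.neg_apply, neg_ne_zero] at h
  exact hA i j h

theorem Raises.sub {f : ι → ℕ} {k : ℕ} {A B : Matrix ι ι F} (hA : Raises f k A) (hB : Raises f k B) :
    Raises f k (A - B) := by
  rw [sub_eq_add_neg]
  exact hA.add hB.neg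

theorem Raises.mono {f : ι → ℕ} {k l : ℕ} {A : Matrix ι ι F} (hA : Raises f k A) (h : l ≤ k) :
    Raises f l A := fun i j hij => by
  have := hA i j hij
  omega

theorem raises_one (f : ι → ℕ) : Raises f 0 (1 : Matrix ι ι F) := by
  intro i j h
  by_cases hij : i = j
  · subst hij
    exact le_refl _
  · rw [Matrix.one_apply_ne hij] at h
    exact absurd rfl h

theorem raises_zero (f : ι → ℕ) (k : ℕ) : Raises f k (0 : Matrix ι ι F) := fun i j h => by
  rw [Matrix.zero_apply] at h
  exact absurd rfl h

theorem Raises.pow {f : ι → ℕ} {N : Matrix ι ι F} (hN : Raises f 1 N) (k : ℕ) : Raises f k (N ^ k) := by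
  induction k with
  | zero =>
    rw [pow_zero]
    exact raises_one f
  | succ k ih =>
    rw [pow_succ]
    exact ih.mul hN

theorem Raises.eq_zero {f : ι → ℕ} {n : ℕ} {N : Matrix ι ι F} (hf : ∀ i, f i < n) (hN : Raises f n N) :
    N = 0 := by
  ext i j
  by_contra h
  have h1 := hN i j h
  have h2 := hf i
  omega

theorem Raises.of_sub_one {f : ι → ℕ} {k : ℕ} {A : Matrix ι ι F} (hA : Raises f k (A - 1)) :
    Raises f 0 A := by
  have h : A = (A - 1) + 1 := by rw [sub_add_cancel]
  rw [h]
  exact (hA.mono (Nat.zero_le k)).add (raises_one f)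

theorem Raises.mul_sub_one {f : ι → ℕ} {k : ℕ} {A B : Matrix ι ι F} (hA : Raises f k (A - 1))
    (hB : Raises f k (B - 1)) : Raises f k (A * B - 1) := by
  have h : A * B - 1 = (A - 1) * (B - 1) + (A - 1) + (B - 1) := by noncomm_ring
  rw [h]
  exact (((hA.mul hB).mono (by omega)).add hA).add hB

/-- the invertible matrices `g` with `g - 1` and `g⁻¹ - 1` raising the level by at least `k` -/
def utLevel (f : ι → ℕ) (k : ℕ) : Subgroup (GL ι F) where
  carrier := {g | Raises f k ((g : Matrix ι ι F) - 1) ∧ Raises f k (((g⁻¹ : GL ι F) : Matrix ι ι F) - 1)}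
  mul_mem' := by
    rintro a b ⟨ha, ha'⟩ ⟨hb, hb'⟩
    refine ⟨?_, ?_⟩
    · rw [Units.val_mul]
      exact ha.mul_sub_one hb
    · rw [mul_inv_rev, Units.val_mul]
      exact hb'.mul_sub_one ha'
  one_mem' := by
    refine ⟨?_, ?_⟩
    · rw [Units.val_one, sub_self]
      exact raises_zero f k
    · rw [inv_one, Units.val_one, sub_self]
      exact raises_zero f k
  inv_mem' := by
    rintro a ⟨ha, ha'⟩
    refine ⟨ha', ?_⟩
    rw [inv_inv]
    exact ha

theorem mem_utLevel (f : ι → ℕ) (k : ℕ) (g : GL ι F) :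
    g ∈ utLevel f k ↔ Raises f k ((g : Matrix ι ι F) - 1) ∧
      Raises f k (((g⁻¹ : GL ι F) : Matrix ι ι F) - 1) := Iff.rfl

theorem utLevel_eq_bot (f : ι → ℕ) (n : ℕ) (hf : ∀ i, f i < n) :
    (utLevel f n : Subgroup (GL ι F)) = ⊥ := by
  rw [eq_bot_iff]
  intro g hg
  rw [Subgroup.mem_bot]
  apply Units.ext
  have h := Raises.eq_zero hf hg.1
  rw [sub_eq_zero] at h
  rw [h]
  rfl

theorem comm_raises {f : ι → ℕ} {k l : ℕ} (a b : GL ι F) (ha : a ∈ utLevel f k) (hb : b ∈ utLevel f l) :
    Raises f (k + l) (((⁅a, b⁆ : GL ι F) : Matrix ι ι F) - 1) := by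
  have h1 : ((⁅a, b⁆ : GL ι F) : Matrix ι ι F) - 1 =
      (((a : Matrix ι ι F) - 1) * ((b : Matrix ι ι F) - 1) -
        ((b : Matrix ι ι F) - 1) * ((a : Matrix ι ι F) - 1)) *
        (((a⁻¹ : GL ι F) : Matrix ι ι F) * ((b⁻¹ : GL ι F) : Matrix ι ι F)) := by
    have e1 : (a : Matrix ι ι F) * ((a⁻¹ : GL ι F) : Matrix ι ι F) = 1 := by
      rw [← Units.val_mul, mul_inv_cancel, Units.val_one]
    have e2 : (b : Matrix ι ι F) * ((b⁻¹ : GL ι F) : Matrix ι ι F) = 1 := by
      rw [← Units.val_mul, mul_inv_cancel, Units.val_one]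
    have e3 : ((a : Matrix ι ι F) - 1) * ((b : Matrix ι ι F) - 1) -
        ((b : Matrix ι ι F) - 1) * ((a : Matrix ι ι F) - 1) =
        (a : Matrix ι ι F) * (b : Matrix ι ι F) - (b : Matrix ι ι F) * (a : Matrix ι ι F) := by
      noncomm_ring
    rw [e3, commutatorElement_def, Units.val_mul, Units.val_mul, Units.val_mul, sub_mul]
    have e4 : (b : Matrix ι ι F) * (a : Matrix ι ι F) *
        (((a⁻¹ : GL ι F) : Matrix ι ι F) * ((b⁻¹ : GL ι F) : Matrix ι ι F)) = 1 := by
      rw [mul_assoc, ← mul_assoc (a : Matrix ι ι F), e1, one_mul, e2]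
    rw [e4]
    simp only [mul_assoc]
  rw [h1]
  have h2 : Raises f (k + l) (((a : Matrix ι ι F) - 1) * ((b : Matrix ι ι F) - 1) -
      ((b : Matrix ι ι F) - 1) * ((a : Matrix ι ι F) - 1)) := by
    apply Raises.sub (ha.1.mul hb.1)
    have := hb.1.mul ha.1
    rwa [add_comm] at this
  have h3 : Raises f 0 (((a⁻¹ : GL ι F) : Matrix ι ι F) * ((b⁻¹ : GL ι F) : Matrix ι ι F)) := by
    have := (Raises.of_sub_one ha.2).mul (Raises.of_sub_one hb.2)
    simpa using this
  have := h2.mul h3
  simpa using this

theorem comm_mem_utLevel {f : ι → ℕ} {k l : ℕ} (a b : GL ι F) (ha : a ∈ utLevel f k)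
    (hb : b ∈ utLevel f l) : ⁅a, b⁆ ∈ utLevel f (k + l) := by
  refine ⟨comm_raises a b ha hb, ?_⟩
  rw [commutatorElement_inv]
  have := comm_raises b a hb ha
  rwa [add_comm] at this

theorem utLevel_nilpotent (f : ι → ℕ) (n : ℕ) (hf : ∀ i, f i < n) :
    Group.IsNilpotent ↥(utLevel f 1 : Subgroup (GL ι F)) := by
  rw [Subgroup.nilpotent_iff_finite_descending_central_series]
  refine ⟨n, fun m => (utLevel f (m + 1)).subgroupOf (utLevel f 1), ⟨?_, ?_⟩, ?_⟩
  · exact Subgroup.subgroupOf_self _
  · intro x m hx g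
    rw [Subgroup.mem_subgroupOf] at hx ⊢
    have := comm_mem_utLevel (x : GL ι F) (g : GL ι F) hx g.2
    exact this
  · show (utLevel f (n + 1)).subgroupOf (utLevel f 1) = ⊥
    rw [utLevel_eq_bot f (n + 1) (fun i => Nat.lt_succ_of_lt (hf i))]
    exact Subgroup.bot_subgroupOf _

theorem nilpotent_of_le_utLevel (f : ι → ℕ) (n : ℕ) (hf : ∀ i, f i < n) (U : Subgroup (GL ι F))
    (hU : U ≤ utLevel f 1) : Group.IsNilpotent ↥U := by
  haveI := utLevel_nilpotent (F := F) f n hf
  haveI : Group.IsNilpotent ↥(U.subgroupOf (utLevel f 1)) := Subgroup.isNilpotent _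
  exact Group.nilpotent_of_mulEquiv (Subgroup.subgroupOfEquivOfLe hU)

theorem pow_eq_zero_of_mem_utLevel (f : ι → ℕ) (n : ℕ) (hf : ∀ i, f i < n) (g : GL ι F)
    (hg : g ∈ utLevel f 1) : ((g : Matrix ι ι F) - 1) ^ n = 0 :=
  Raises.eq_zero hf (hg.1.pow n)

end raises

/-! ### the positive unipotent subgroup -/

section chev

variable {F : Type*} [Field F] (D : ChevalleyDatum)

theorem chevF_lt (i : D.Idx) : chevF D i < D.nroots + 1 := by
  rcases i with i | s
  · simp only [chevF]
    omega
  · have := s.isLt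
    simp only [chevF]
    split_ifs <;> omega

theorem chkUni_spec (hD : chkUni D = true) :
    1 ≤ D.rank ∧ ∀ r, D.IsPosRoot r → D.nroots / 2 ≤ r ∧ D.negIdx.getD r 0 < D.nroots / 2 ∧
      ∀ e ∈ (D.chain.getD r #[]).toList, ∀ q ∈ e.2.toList, e.1 < q.1 := by
  unfold chkUni at hD
  rw [Bool.and_eq_true, decide_eq_true_eq, List.all_eq_true] at hD
  refine ⟨hD.1, fun r hr => ?_⟩
  have h := hD.2 r (List.mem_range.mpr hr.1)
  rw [Bool.or_eq_true] at h
  rcases h with h | h
  · simp [hr] at h
  · rw [Bool.and_eq_true, Bool.and_eq_true, decide_eq_true_eq, decide_eq_true_eq, List.all_eq_true] at h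
    refine ⟨h.1.1, h.1.2, fun e he q hq => ?_⟩
    have h2 := h.2 e he
    rw [List.all_eq_true] at h2
    simpa using h2 q hq

theorem chP_ne_zero (r s u : ℕ) (t : F) (h : chP D r s u t ≠ 0) :
    ∃ e ∈ (D.chain.getD r #[]).toList, e.1 = s ∧ ∃ q ∈ e.2.toList, q.1 = u := by
  unfold chP at h
  have hne : D.chainCoeff r s u ≠ [] := by
    intro h'
    rw [h'] at h
    simp at h
  obtain ⟨km, hkm⟩ := List.exists_mem_of_ne_nil _ hne
  unfold ChevalleyDatum.chainCoeff at hkm
  rw [List.mem_flatMap] at hkm
  obtain ⟨e, he, hkm⟩ := hkm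
  rw [List.mem_filter] at he
  rw [List.mem_map] at hkm
  obtain ⟨q, hq, _⟩ := hkm
  rw [List.mem_filter] at hq
  refine ⟨e, he.1, by simpa using he.2, q.1, ?_, by simpa using hq.2⟩
  obtain ⟨a, k⟩ := q
  exact (List.mem_zipIdx hq.1).2.2 ▸ List.getElem_mem _

theorem xMat_raises (hD : chkUni D = true) (r : Fin D.nroots) (hr : D.IsPosRoot r.val) (t : F) :
    Raises (chevF D) 1 (D.xMat F r t - 1) := by
  obtain ⟨_, hspec⟩ := chkUni_spec D hD
  obtain ⟨hN, hneg, hch⟩ := hspec r.val hr
  intro row col h
  rw [Matrix.sub_apply] at h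
  rcases col with i | s
  · rcases row with i' | u
    · exfalso
      apply h
      rw [xMat_inl_inl, Matrix.one_apply]
      by_cases hi : i' = i
      · subst hi
        simp
      · have : (Sum.inl i' : D.Idx) ≠ Sum.inl i := fun h' => hi (Sum.inl.inj h')
        simp [hi, this]
    · rw [xMat_inr_inl, Matrix.one_apply_ne (by simp : (Sum.inr u : D.Idx) ≠ Sum.inl i), sub_zero] at h
      have hu : u = r := by
        by_contra hu
        rw [if_neg hu] at h
        exact h rfl
      subst hu
      simp only [chevF]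
      rw [if_neg (by omega)]
      omega
  · by_cases h1 : s = r
    · subst h1
      exfalso
      apply h
      rcases row with i' | u
      · rw [xMat_inl_inr_self, Matrix.one_apply_ne (by simp), sub_zero]
      · rw [xMat_inr_inr_self, Matrix.one_apply]
        by_cases hu : u = s
        · subst hu
          simp
        · have : (Sum.inr u : D.Idx) ≠ Sum.inr s := fun h' => hu (Sum.inr.inj h')
          simp [hu, this]
    · by_cases h2 : s.val = D.negIdx.getD r.val 0
      · rcases row with i' | u
        · simp only [chevF]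
          rw [if_pos (by omega)]
          omega
        · rw [xMat_inr_inr_neg D r t u s h1 h2, Matrix.one_apply] at h
          by_cases hu : u = s
          · subst hu
            simp at h
          · have hne : (Sum.inr u : D.Idx) ≠ Sum.inr s := fun h' => hu (Sum.inr.inj h')
            rw [if_neg hu, if_neg hne, sub_zero] at h
            have hur : u = r := by
              by_contra hur
              rw [if_neg hur] at h
              exact h rfl
            subst hur
            simp only [chevF]
            rw [if_pos (by omega), if_neg (by omega)]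
            omega
      · rcases row with i' | u
        · exfalso
          apply h
          rw [xMat_inl_inr_gen D r t i' s h1 h2, Matrix.one_apply_ne (by simp), sub_zero]
        · rw [xMat_inr_inr_gen D r t u s h1 h2, Matrix.one_apply] at h
          have hsu : s.val < u.val := by
            by_cases hu : u = s
            · subst hu
              simp only [if_true, add_sub_cancel_left] at h
              obtain ⟨e, he, hes, q, hq, hqu⟩ := chP_ne_zero D _ _ _ t h
              have := hch e he q hq
              omega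
            · have hne : (Sum.inr u : D.Idx) ≠ Sum.inr s := fun h' => hu (Sum.inr.inj h')
              have hne' : ¬ s.val = u.val := fun h' => hu (Fin.ext h'.symm)
              rw [if_neg hne', if_neg hne, zero_add, sub_zero] at h
              obtain ⟨e, he, hes, q, hq, hqu⟩ := chP_ne_zero D _ _ _ t h
              have := hch e he q hq
              omega
          simp only [chevF]
          split_ifs <;> omega

theorem posUnipotent_le_utLevel (hD : chkUni D = true) (hA : chkAdd D = true) :
    D.posUnipotent F ≤ utLevel (chevF D) 1 := by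
  unfold ChevalleyDatum.posUnipotent
  rw [Subgroup.closure_le]
  rintro g ⟨r, t, hr, hg⟩
  have hinv : g⁻¹ = xGL D hA r (-t) := by
    apply inv_eq_of_mul_eq_one_right
    apply Units.ext
    rw [Units.val_mul, hg, xGL_coe, x_mul_x D hA r t (-t) (add_neg_cancel t)]
    rfl
  refine ⟨?_, ?_⟩
  · rw [hg, x_of_lt D r hr.1]
    exact xMat_raises D hD ⟨r, hr.1⟩ hr t
  · rw [hinv, xGL_coe, x_of_lt D r hr.1]
    exact xMat_raises D hD ⟨r, hr.1⟩ hr (-t)

theorem posUnipotent_pow (hD : chkUni D = true) (hA : chkAdd D = true) (g : GL D.Idx F)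
    (hg : g ∈ D.posUnipotent F) : ((g : Matrix D.Idx D.Idx F) - 1) ^ (D.rank + D.nroots) = 0 := by
  have h1 := pow_eq_zero_of_mem_utLevel (chevF D) (D.nroots + 1) (chevF_lt D) g
    (posUnipotent_le_utLevel D hD hA hg)
  have hrank := (chkUni_spec D hD).1
  have h2 : D.rank + D.nroots = (D.nroots + 1) + (D.rank - 1) := by omega
  rw [h2, pow_add, h1, zero_mul]

theorem posUnipotent_nilpotent (hD : chkUni D = true) (hA : chkAdd D = true) :
    Group.IsNilpotent (D.posUnipotent F) :=
  nilpotent_of_le_utLevel (chevF D) (D.nroots + 1) (chevF_lt D) _ (posUnipotent_le_utLevel D hD hA)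

end chev

end Cfsg.Agent.Lib.Helper3
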