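import Mathlib
import Cfsg.Agent.Lib.Helper3.ChevHDefs
import Cfsg.Agent.Lib.Helper3.ChevUni
import Cfsg.Agent.Lib.Helper3.ChevDiag

set_option autoImplicit false

namespace Cfsg.Agent.Lib.Helper3

open Cfsg.Lie

/-! ### the table checks, row by row

Each table check is a conjunction over the roots `r`; the rows are checked by the kernel one at a
time, so that no single declaration needs much memory. -/

theorem rows_nil (f : ℕ → Bool) (a : ℕ) : ∀ r, a ≤ r → r < a → f r = true := by
  intro r h1 h2
  omega

theorem rows_succ (f : ℕ → Bool) (a n : ℕ) (h : ∀ r, a ≤ r → r < n → f r = true)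
    (hn : f n = true) : ∀ r, a ≤ r → r < n + 1 → f r = true := by
  intro r h1 h2
  rcases Nat.lt_succ_iff_lt_or_eq.mp h2 with h3 | h3
  · exact h r h1 h3
  · rw [h3]; exact hn

theorem rows_append (f : ℕ → Bool) (a b c : ℕ) (h1 : ∀ r, a ≤ r → r < b → f r = true)
    (h2 : ∀ r, b ≤ r → r < c → f r = true) : ∀ r, a ≤ r → r < c → f r = true := by
  intro r h3 h4
  by_cases h : r < b
  · exact h1 r h3 h
  · exact h2 r (by omega) h4

theorem rows_range' (f : ℕ → Bool) (a k : ℕ) (h : (List.range' a k).all f = true) :
    ∀ r, a ≤ r → r < a + k → f r = true := by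
  intro r h1 h2
  rw [List.all_eq_true] at h
  exact h r (List.mem_range'_1.mpr ⟨h1, h2⟩)

theorem all_range_of_rows (f : ℕ → Bool) (n : ℕ) (h : ∀ r, 0 ≤ r → r < n → f r = true) :
    (List.range n).all f = true := by
  rw [List.all_eq_true]
  intro r hr
  exact h r (Nat.zero_le _) (List.mem_range.mp hr)

def rowAdd (D : ChevalleyDatum) (r : ℕ) : Bool :=
  decide (((List.finRange D.rank).map fun i =>
    (D.coroot.getD r #[]).getD i.val 0 * (D.cartanSR.getD i.val #[]).getD r 0).sum = 2) &&
  (D.chain.getD r #[]).toList.all fun e => chkAddList D r e.2.toList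

theorem chkAdd_eq_rows (D : ChevalleyDatum) :
    chkAdd D = (List.range D.nroots).all (rowAdd D) := rfl

def rowUni (D : ChevalleyDatum) (r : ℕ) : Bool :=
  !decide (D.IsPosRoot r) ||
    (decide (D.nroots / 2 ≤ r) && decide (D.negIdx.getD r 0 < D.nroots / 2) &&
      (D.chain.getD r #[]).toList.all fun e => e.2.toList.all fun q => decide (e.1 < q.1))

theorem chkUni_eq_rows (D : ChevalleyDatum) :
    chkUni D = (decide (1 ≤ D.rank) && (List.range D.nroots).all (rowUni D)) := rfl

def rowChev (D : ChevalleyDatum) (r : ℕ) : Bool :=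
  (D.chain.getD r #[]).toList.all fun e => decide (e.1 < D.nroots) && chkChain D r e.1 e.2.toList

theorem chkChev_eq_rows (D : ChevalleyDatum) :
    chkChev D = (List.range D.nroots).all (rowChev D) := rfl

def rowS (D : ChevalleyDatum) (r : ℕ) : Bool :=
  (D.chain.getD r #[]).toList.all fun e =>
    okRoot D r e.1 &&
      (!(chainEntries D (D.neg r) e.1).isEmpty || chkBottom D r (D.neg r) e.1 e.2.toList)

theorem chkS_eq_rows (D : ChevalleyDatum) : chkS D = (List.range D.nroots).all (rowS D) := rfl

def rowY (D : ChevalleyDatum) (r : ℕ) : Bool :=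
  (D.chain.getD r #[]).toList.all fun e =>
    match e.2.toList.getLast? with
    | none => false
    | some b =>
      match chainEntries D (D.neg r) b.1 with
      | [Lb] => Lb.any (fun q => q.1 == e.1)
      | _ => false

/-- the row check `rowS`, destructuring the chain entries (so that the kernel sees numerals) -/
def rowS' (D : ChevalleyDatum) (r : ℕ) : Bool :=
  (D.chain.getD r #[]).toList.all fun e =>
    match e with
    | (s, L) => okRoot D r s &&
        (!(chainEntries D (D.neg r) s).isEmpty || chkBottom D r (D.neg r) s L.toList)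

theorem rowS'_eq (D : ChevalleyDatum) (r : ℕ) : rowS' D r = rowS D r := rfl

theorem chkS_eq_rows' (D : ChevalleyDatum) : chkS D = (List.range D.nroots).all (rowS' D) := rfl

theorem chkY_eq_rows (D : ChevalleyDatum) : chkY D = (List.range D.nroots).all (rowY D) := rfl

def rowP (D : ChevalleyDatum) (r : ℕ) : Bool :=
  (List.range D.nroots).all fun s =>
    s == r || s == D.neg r ||
      pCase (D.pairing r s) (!(chainEntries D r s).isEmpty) (!(chainEntries D (D.neg r) s).isEmpty)

theorem chkP_eq_rows (D : ChevalleyDatum) : chkP D = (List.range D.nroots).all (rowP D) := rfl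

def rowNg (D : ChevalleyDatum) (r : ℕ) : Bool :=
  decide (D.neg r < D.nroots) && decide (D.neg r ≠ r) && decide (D.neg (D.neg r) = r) &&
  (List.range D.rank).all fun i => decide (D.cartan i (D.neg r) = - D.cartan i r) &&
    decide ((D.coroot.getD (D.neg r) #[]).getD i 0 = - (D.coroot.getD r #[]).getD i 0)

theorem chkNg_eq_rows (D : ChevalleyDatum) : chkNg D = (List.range D.nroots).all (rowNg D) := rfl

end Cfsg.Agent.Lib.Helper3
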