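import Mathlib
import Cfsg.Prelude.Def_ChevG2
import Cfsg.Prelude.Def_ChevB2
import Cfsg.Prelude.Def_ChevD4
import Cfsg.Prelude.Def_ChevF4
import Cfsg.Prelude.Def_ChevE6
import Cfsg.Prelude.Def_ChevE7
import Cfsg.Prelude.Def_ChevE8
import Cfsg.Agent.Lib.Helper3.ChevRAdds

set_option autoImplicit false

namespace Cfsg.Agent.Lib.Helper3

open Cfsg.Lie

theorem chkAdd_E6 : chkAdd chevE6 = true := by
  rw [chkAdd_eq_rows]
  have h := rows_nil (rowAdd chevE6) 0
  have h := rows_append _ 0 0 72 h (rows_range' _ 0 72 rowAdd_E6_g0)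
  exact all_range_of_rows _ _ h

theorem chkAdd_E7 : chkAdd chevE7 = true := by
  rw [chkAdd_eq_rows]
  have h := rows_nil (rowAdd chevE7) 0
  have h := rows_append _ 0 0 126 h (rows_range' _ 0 126 rowAdd_E7_g0)
  exact all_range_of_rows _ _ h

theorem chkAdd_E8 : chkAdd chevE8 = true := by
  rw [chkAdd_eq_rows]
  have h := rows_nil (rowAdd chevE8) 0
  have h := rows_append _ 0 0 40 h (rows_range' _ 0 40 rowAdd_E8_g0)
  have h := rows_append _ 0 40 80 h (rows_range' _ 40 40 rowAdd_E8_g40)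
  have h := rows_append _ 0 80 120 h (rows_range' _ 80 40 rowAdd_E8_g80)
  have h := rows_append _ 0 120 160 h (rows_range' _ 120 40 rowAdd_E8_g120)
  have h := rows_append _ 0 160 200 h (rows_range' _ 160 40 rowAdd_E8_g160)
  have h := rows_append _ 0 200 240 h (rows_range' _ 200 40 rowAdd_E8_g200)
  exact all_range_of_rows _ _ h

theorem chkAdd_all : ∀ D ∈ [chevG2, chevB2, chevD4, chevF4, chevE6, chevE7, chevE8],
    chkAdd D = true := by
  intro D hD
  simp only [List.mem_cons, List.not_mem_nil, or_false] at hD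
  rcases hD with h | h | h | h | h | h | h
  · rw [h]; exact chkAdd_G2
  · rw [h]; exact chkAdd_B2
  · rw [h]; exact chkAdd_D4
  · rw [h]; exact chkAdd_F4
  · rw [h]; exact chkAdd_E6
  · rw [h]; exact chkAdd_E7
  · rw [h]; exact chkAdd_E8

/-- additivity of the root elements in the seven tabulated types -/
theorem x_add_all {F : Type*} [Field F] (D : ChevalleyDatum)
    (hD : D ∈ [chevG2, chevB2, chevD4, chevF4, chevE6, chevE7, chevE8]) (r : ℕ) (hr : r < D.nroots)
    (t₁ t₂ : F) : D.x F r t₁ * D.x F r t₂ = D.x F r (t₁ + t₂) :=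
  x_add D (chkAdd_all D hD) r hr t₁ t₂

end Cfsg.Agent.Lib.Helper3
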