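import Mathlib

set_option autoImplicit false

namespace Cfsg.Agent.Lib.Helper3

/-! ### abstract `sl₂`-strings -/

section strings

variable {F : Type*} [Field F] {V : Type*} [AddCommGroup V] [Module F V]

/-- `n(t) = X(t) Y(-t⁻¹) X(t)` -/
def nOp (X Y : F → V →ₗ[F] V) (t : F) : V →ₗ[F] V := (X t).comp ((Y (-t⁻¹)).comp (X t))

theorem nOp_apply (X Y : F → V →ₗ[F] V) (t : F) (v : V) :
    nOp X Y t v = X t (Y (-t⁻¹) (X t v)) := rfl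

/-- `h(t) = n(t) n(-1)` -/
def hOp (X Y : F → V →ₗ[F] V) (t : F) : V →ₗ[F] V := (nOp X Y t).comp (nOp X Y (-1))

theorem hOp_apply (X Y : F → V →ₗ[F] V) (t : F) (v : V) :
    hOp X Y t v = nOp X Y t (nOp X Y (-1) v) := rfl

theorem string0 (X Y : F → V →ₗ[F] V) (a : V) (hX : ∀ t, X t a = a) (hY : ∀ u, Y u a = a) (t : F) :
    hOp X Y t a = a := by
  simp [hOp_apply, nOp_apply, hX, hY]

theorem string1n (X Y : F → V →ₗ[F] V) (a₀ a₁ : V) (σ : F) (hσ : σ = 1 ∨ σ = -1)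
    (hX0 : ∀ t, X t a₀ = a₀ + (σ * t) • a₁) (hX1 : ∀ t, X t a₁ = a₁)
    (hY1 : ∀ u, Y u a₁ = a₁ + (σ * u) • a₀) (hY0 : ∀ u, Y u a₀ = a₀) (t : F) (ht : t ≠ 0) :
    nOp X Y t a₀ = (σ * t) • a₁ ∧ nOp X Y t a₁ = (-σ * t⁻¹) • a₀ := by
  rcases hσ with rfl | rfl <;> constructor <;>
  · simp only [nOp_apply, hX0, hX1, hY0, hY1, map_add, map_smul]
    match_scalars <;> field_simp <;> ring

theorem string1 (X Y : F → V →ₗ[F] V) (a₀ a₁ : V) (σ : F) (hσ : σ = 1 ∨ σ = -1)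
    (hX0 : ∀ t, X t a₀ = a₀ + (σ * t) • a₁) (hX1 : ∀ t, X t a₁ = a₁)
    (hY1 : ∀ u, Y u a₁ = a₁ + (σ * u) • a₀) (hY0 : ∀ u, Y u a₀ = a₀) (t : F) (ht : t ≠ 0) :
    hOp X Y t a₀ = (t ^ (-1 : ℤ)) • a₀ ∧ hOp X Y t a₁ = (t ^ (1 : ℤ)) • a₁ := by
  have h1 := string1n X Y a₀ a₁ σ hσ hX0 hX1 hY1 hY0 t ht
  have h2 := string1n X Y a₀ a₁ σ hσ hX0 hX1 hY1 hY0 (-1) (by norm_num)
  have hσ2 : σ * σ = 1 := by rcases hσ with rfl | rfl <;> norm_num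
  constructor
  · rw [hOp_apply, h2.1, map_smul, h1.2, smul_smul]
    congr 1
    rw [zpow_neg, zpow_one]
    linear_combination (t⁻¹) * hσ2
  · rw [hOp_apply, h2.2, map_smul, h1.1, smul_smul]
    congr 1
    rw [zpow_one]
    have : (-1 : F)⁻¹ = -1 := by norm_num
    rw [this]
    linear_combination t * hσ2

theorem string2n (X Y : F → V →ₗ[F] V) (a₀ a₁ a₂ : V) (σ₁ σ₂ : F) (hσ₁ : σ₁ = 1 ∨ σ₁ = -1)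
    (hσ₂ : σ₂ = 1 ∨ σ₂ = -1)
    (hX0 : ∀ t, X t a₀ = a₀ + (σ₁ * t) • a₁ + (σ₂ * t ^ 2) • a₂)
    (hX1 : ∀ t, X t a₁ = a₁ + (2 * σ₁ * σ₂ * t) • a₂) (hX2 : ∀ t, X t a₂ = a₂)
    (hY2 : ∀ u, Y u a₂ = a₂ + (σ₂ * σ₁ * u) • a₁ + (σ₂ * u ^ 2) • a₀)
    (hY1 : ∀ u, Y u a₁ = a₁ + (2 * σ₁ * u) • a₀) (hY0 : ∀ u, Y u a₀ = a₀) (t : F) (ht : t ≠ 0) :
    nOp X Y t a₀ = (σ₂ * t ^ 2) • a₂ ∧ nOp X Y t a₁ = (-1 : F) • a₁ ∧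
      nOp X Y t a₂ = (σ₂ * (t⁻¹) ^ 2) • a₀ := by
  rcases hσ₁ with rfl | rfl <;> rcases hσ₂ with rfl | rfl <;> refine ⟨?_, ?_, ?_⟩ <;>
  · simp only [nOp_apply, hX0, hX1, hX2, hY0, hY1, hY2, map_add, map_smul]
    match_scalars <;> field_simp <;> ring

theorem string2 (X Y : F → V →ₗ[F] V) (a₀ a₁ a₂ : V) (σ₁ σ₂ : F) (hσ₁ : σ₁ = 1 ∨ σ₁ = -1)
    (hσ₂ : σ₂ = 1 ∨ σ₂ = -1)
    (hX0 : ∀ t, X t a₀ = a₀ + (σ₁ * t) • a₁ + (σ₂ * t ^ 2) • a₂)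
    (hX1 : ∀ t, X t a₁ = a₁ + (2 * σ₁ * σ₂ * t) • a₂) (hX2 : ∀ t, X t a₂ = a₂)
    (hY2 : ∀ u, Y u a₂ = a₂ + (σ₂ * σ₁ * u) • a₁ + (σ₂ * u ^ 2) • a₀)
    (hY1 : ∀ u, Y u a₁ = a₁ + (2 * σ₁ * u) • a₀) (hY0 : ∀ u, Y u a₀ = a₀) (t : F) (ht : t ≠ 0) :
    hOp X Y t a₀ = (t ^ (-2 : ℤ)) • a₀ ∧ hOp X Y t a₁ = (t ^ (0 : ℤ)) • a₁ ∧
      hOp X Y t a₂ = (t ^ (2 : ℤ)) • a₂ := by
  have h1 := string2n X Y a₀ a₁ a₂ σ₁ σ₂ hσ₁ hσ₂ hX0 hX1 hX2 hY2 hY1 hY0 t ht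
  have h2 := string2n X Y a₀ a₁ a₂ σ₁ σ₂ hσ₁ hσ₂ hX0 hX1 hX2 hY2 hY1 hY0 (-1) (by norm_num)
  have hσ2 : σ₂ * σ₂ = 1 := by rcases hσ₂ with rfl | rfl <;> norm_num
  have hm1 : (-1 : F)⁻¹ = -1 := by norm_num
  refine ⟨?_, ?_, ?_⟩
  · rw [hOp_apply, h2.1, map_smul, h1.2.2, smul_smul]
    congr 1
    rw [zpow_neg, zpow_ofNat, inv_pow]
    linear_combination ((t ^ 2)⁻¹) * hσ2
  · rw [hOp_apply, h2.2.1, map_smul, h1.2.1, smul_smul]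
    congr 1
    rw [zpow_zero]
    norm_num
  · rw [hOp_apply, h2.2.2, map_smul, h1.1, smul_smul]
    congr 1
    rw [zpow_ofNat, hm1]
    linear_combination (t ^ 2) * hσ2

theorem string3n (X Y : F → V →ₗ[F] V) (a₀ a₁ a₂ a₃ : V) (σ₁ σ₂ σ₃ : F) (hσ₁ : σ₁ = 1 ∨ σ₁ = -1)
    (hσ₂ : σ₂ = 1 ∨ σ₂ = -1) (hσ₃ : σ₃ = 1 ∨ σ₃ = -1)
    (hX0 : ∀ t, X t a₀ = a₀ + (σ₁ * t) • a₁ + (σ₂ * t ^ 2) • a₂ + (σ₃ * t ^ 3) • a₃)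
    (hX1 : ∀ t, X t a₁ = a₁ + (2 * σ₁ * σ₂ * t) • a₂ + (3 * σ₁ * σ₃ * t ^ 2) • a₃)
    (hX2 : ∀ t, X t a₂ = a₂ + (3 * σ₂ * σ₃ * t) • a₃) (hX3 : ∀ t, X t a₃ = a₃)
    (hY3 : ∀ u, Y u a₃ = a₃ + (σ₃ * σ₂ * u) • a₂ + (σ₃ * σ₁ * u ^ 2) • a₁ + (σ₃ * u ^ 3) • a₀)
    (hY2 : ∀ u, Y u a₂ = a₂ + (2 * σ₁ * σ₂ * u) • a₁ + (3 * σ₂ * u ^ 2) • a₀)
    (hY1 : ∀ u, Y u a₁ = a₁ + (3 * σ₁ * u) • a₀) (hY0 : ∀ u, Y u a₀ = a₀) (t : F) (ht : t ≠ 0) :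
    nOp X Y t a₀ = (σ₃ * t ^ 3) • a₃ ∧ nOp X Y t a₁ = (-σ₁ * σ₂ * t) • a₂ ∧
      nOp X Y t a₂ = (σ₁ * σ₂ * t⁻¹) • a₁ ∧ nOp X Y t a₃ = (-σ₃ * (t⁻¹) ^ 3) • a₀ := by
  rcases hσ₁ with rfl | rfl <;> rcases hσ₂ with rfl | rfl <;> rcases hσ₃ with rfl | rfl <;>
    refine ⟨?_, ?_, ?_, ?_⟩ <;>
  · simp only [nOp_apply, hX0, hX1, hX2, hX3, hY0, hY1, hY2, hY3, map_add, map_smul]
    match_scalars <;> field_simp <;> ring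

theorem string3 (X Y : F → V →ₗ[F] V) (a₀ a₁ a₂ a₃ : V) (σ₁ σ₂ σ₃ : F) (hσ₁ : σ₁ = 1 ∨ σ₁ = -1)
    (hσ₂ : σ₂ = 1 ∨ σ₂ = -1) (hσ₃ : σ₃ = 1 ∨ σ₃ = -1)
    (hX0 : ∀ t, X t a₀ = a₀ + (σ₁ * t) • a₁ + (σ₂ * t ^ 2) • a₂ + (σ₃ * t ^ 3) • a₃)
    (hX1 : ∀ t, X t a₁ = a₁ + (2 * σ₁ * σ₂ * t) • a₂ + (3 * σ₁ * σ₃ * t ^ 2) • a₃)
    (hX2 : ∀ t, X t a₂ = a₂ + (3 * σ₂ * σ₃ * t) • a₃) (hX3 : ∀ t, X t a₃ = a₃)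
    (hY3 : ∀ u, Y u a₃ = a₃ + (σ₃ * σ₂ * u) • a₂ + (σ₃ * σ₁ * u ^ 2) • a₁ + (σ₃ * u ^ 3) • a₀)
    (hY2 : ∀ u, Y u a₂ = a₂ + (2 * σ₁ * σ₂ * u) • a₁ + (3 * σ₂ * u ^ 2) • a₀)
    (hY1 : ∀ u, Y u a₁ = a₁ + (3 * σ₁ * u) • a₀) (hY0 : ∀ u, Y u a₀ = a₀) (t : F) (ht : t ≠ 0) :
    hOp X Y t a₀ = (t ^ (-3 : ℤ)) • a₀ ∧ hOp X Y t a₁ = (t ^ (-1 : ℤ)) • a₁ ∧
      hOp X Y t a₂ = (t ^ (1 : ℤ)) • a₂ ∧ hOp X Y t a₃ = (t ^ (3 : ℤ)) • a₃ := by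
  have h1 := string3n X Y a₀ a₁ a₂ a₃ σ₁ σ₂ σ₃ hσ₁ hσ₂ hσ₃ hX0 hX1 hX2 hX3 hY3 hY2 hY1 hY0 t ht
  have h2 := string3n X Y a₀ a₁ a₂ a₃ σ₁ σ₂ σ₃ hσ₁ hσ₂ hσ₃ hX0 hX1 hX2 hX3 hY3 hY2 hY1 hY0 (-1)
    (by norm_num)
  have hs1 : σ₁ * σ₁ = 1 := by rcases hσ₁ with rfl | rfl <;> norm_num
  have hs2 : σ₂ * σ₂ = 1 := by rcases hσ₂ with rfl | rfl <;> norm_num
  have hs3 : σ₃ * σ₃ = 1 := by rcases hσ₃ with rfl | rfl <;> norm_num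
  have hm1 : (-1 : F)⁻¹ = -1 := by norm_num
  refine ⟨?_, ?_, ?_, ?_⟩
  · rw [hOp_apply, h2.1, map_smul, h1.2.2.2, smul_smul]
    congr 1
    rw [zpow_neg, zpow_ofNat, inv_pow]
    linear_combination ((t ^ 3)⁻¹) * hs3
  · rw [hOp_apply, h2.2.1, map_smul, h1.2.2.1, smul_smul]
    congr 1
    rw [zpow_neg, zpow_one]
    linear_combination (t⁻¹ * σ₂ * σ₂) * hs1 + (t⁻¹) * hs2
  · rw [hOp_apply, h2.2.2.1, map_smul, h1.2.1, smul_smul]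
    congr 1
    rw [zpow_one, hm1]
    linear_combination (t * σ₂ * σ₂) * hs1 + t * hs2
  · rw [hOp_apply, h2.2.2.2, map_smul, h1.1, smul_smul]
    congr 1
    rw [zpow_ofNat, hm1]
    linear_combination (t ^ 3) * hs3

theorem stringAdjn (X Y : F → V →ₗ[F] V) (e f h : V)
    (hXe : ∀ t, X t e = e) (hXf : ∀ t, X t f = f + t • h - (t ^ 2) • e)
    (hXh : ∀ t, X t h = h - (2 * t) • e)
    (hYf : ∀ u, Y u f = f) (hYe : ∀ u, Y u e = e - u • h - (u ^ 2) • f)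
    (hYh : ∀ u, Y u h = h + (2 * u) • f) (t : F) (ht : t ≠ 0) :
    nOp X Y t e = (-(t⁻¹) ^ 2) • f ∧ nOp X Y t f = (-(t ^ 2)) • e ∧ nOp X Y t h = (-1 : F) • h := by
  refine ⟨?_, ?_, ?_⟩ <;>
  · simp only [nOp_apply, hXe, hXf, hXh, hYe, hYf, hYh, map_add, map_sub, map_smul]
    match_scalars <;> field_simp <;> ring

theorem stringAdjGn (X Y : F → V →ₗ[F] V) (e f h g : V) (A : F)
    (hXe : ∀ t, X t e = e) (hXf : ∀ t, X t f = f + t • h - (t ^ 2) • e)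
    (hXh : ∀ t, X t h = h - (2 * t) • e)
    (hYf : ∀ u, Y u f = f) (hYe : ∀ u, Y u e = e - u • h - (u ^ 2) • f)
    (hYh : ∀ u, Y u h = h + (2 * u) • f)
    (hXg : ∀ t, X t g = g - (A * t) • e) (hYg : ∀ u, Y u g = g + (A * u) • f) (t : F) (ht : t ≠ 0) :
    nOp X Y t g = g - A • h := by
  simp only [nOp_apply, hXe, hXf, hXh, hYe, hYf, hYh, hXg, hYg, map_add, map_sub, map_smul]
  match_scalars <;> field_simp <;> ring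

theorem stringAdj (X Y : F → V →ₗ[F] V) (e f h : V)
    (hXe : ∀ t, X t e = e) (hXf : ∀ t, X t f = f + t • h - (t ^ 2) • e)
    (hXh : ∀ t, X t h = h - (2 * t) • e)
    (hYf : ∀ u, Y u f = f) (hYe : ∀ u, Y u e = e - u • h - (u ^ 2) • f)
    (hYh : ∀ u, Y u h = h + (2 * u) • f) (t : F) (ht : t ≠ 0) :
    hOp X Y t e = (t ^ (2 : ℤ)) • e ∧ hOp X Y t f = (t ^ (-2 : ℤ)) • f := by
  have h1 := stringAdjn X Y e f h hXe hXf hXh hYf hYe hYh t ht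
  have h2 := stringAdjn X Y e f h hXe hXf hXh hYf hYe hYh (-1) (by norm_num)
  have hm1 : (-1 : F)⁻¹ = -1 := by norm_num
  constructor
  · rw [hOp_apply, h2.1, map_smul, h1.2.1, smul_smul]
    congr 1
    rw [zpow_ofNat, hm1]
    ring
  · rw [hOp_apply, h2.2.1, map_smul, h1.1, smul_smul]
    congr 1
    rw [zpow_neg, zpow_ofNat, inv_pow]
    ring

theorem stringAdjG (X Y : F → V →ₗ[F] V) (e f h g : V) (A : F)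
    (hXe : ∀ t, X t e = e) (hXf : ∀ t, X t f = f + t • h - (t ^ 2) • e)
    (hXh : ∀ t, X t h = h - (2 * t) • e)
    (hYf : ∀ u, Y u f = f) (hYe : ∀ u, Y u e = e - u • h - (u ^ 2) • f)
    (hYh : ∀ u, Y u h = h + (2 * u) • f)
    (hXg : ∀ t, X t g = g - (A * t) • e) (hYg : ∀ u, Y u g = g + (A * u) • f) (t : F) (ht : t ≠ 0) :
    hOp X Y t g = g := by
  have h1 := stringAdjGn X Y e f h g A hXe hXf hXh hYf hYe hYh hXg hYg t ht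
  have h2 := stringAdjGn X Y e f h g A hXe hXf hXh hYf hYe hYh hXg hYg (-1) (by norm_num)
  have h3 := (stringAdjn X Y e f h hXe hXf hXh hYf hYe hYh t ht).2.2
  rw [hOp_apply, h2, map_sub, map_smul, h1, h3]
  module

end strings

end Cfsg.Agent.Lib.Helper3
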