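import Mathlib
import Cfsg.Agent.Lib.Helper3.ChevAdd
import Cfsg.Agent.Lib.Helper3.ChevGen
import Cfsg.Agent.Lib.Helper3.ChevStr

set_option autoImplicit false

namespace Cfsg.Agent.Lib.Helper3

open Cfsg.Lie

section col

variable {F : Type*} [Field F] (D : ChevalleyDatum)

/-- basis vector of the root `u` (zero when out of range) -/
def Ev (u : ℕ) : D.Idx → F := if h : u < D.nroots then Pi.single (Sum.inr ⟨u, h⟩) 1 else 0

/-- basis vector of the `i`-th fundamental coroot -/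
def Hv (i : Fin D.rank) : D.Idx → F := Pi.single (Sum.inl i) 1

/-- the coroot vector `h_r` -/
def Hr (r : ℕ) : D.Idx → F :=
  ∑ i : Fin D.rank, (((D.coroot.getD r #[]).getD i.val 0 : ℤ) : F) • Hv D i

/-- `x_r(t)` as a linear map on column vectors -/
def Xl (r : ℕ) (t : F) : (D.Idx → F) →ₗ[F] (D.Idx → F) := Matrix.mulVecLin (D.x F r t)

theorem Ev_inr (u : ℕ) (v : Fin D.nroots) :
    (Ev D u : D.Idx → F) (Sum.inr v) = if u = v.val then 1 else 0 := by
  unfold Ev
  by_cases h : u < D.nroots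
  · rw [dif_pos h, Pi.single_apply]
    by_cases huv : u = v.val
    · subst huv
      simp
    · have : ¬ (Sum.inr v : D.Idx) = Sum.inr ⟨u, h⟩ := fun h' => huv (by
        have := Sum.inr.inj h'
        rw [this])
      rw [if_neg this, if_neg huv]
  · rw [dif_neg h]
    have : ¬ u = v.val := fun h' => h (h' ▸ v.isLt)
    rw [if_neg this]
    rfl

theorem Ev_inl (u : ℕ) (i : Fin D.rank) : (Ev D u : D.Idx → F) (Sum.inl i) = 0 := by
  unfold Ev
  by_cases h : u < D.nroots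
  · rw [dif_pos h, Pi.single_apply, if_neg (by simp)]
  · rw [dif_neg h]
    rfl

theorem Xl_Ev_apply (r s : ℕ) (hr : r < D.nroots) (hs : s < D.nroots) (t : F) (row : D.Idx) :
    Xl D r t (Ev D s) row = D.xMat F ⟨r, hr⟩ t row (Sum.inr ⟨s, hs⟩) := by
  unfold Xl Ev
  rw [dif_pos hs, Matrix.mulVecLin_apply, Matrix.mulVec_single_one, x_of_lt D r hr]
  rfl

theorem Xl_Hv_apply (r : ℕ) (hr : r < D.nroots) (i : Fin D.rank) (t : F) (row : D.Idx) :
    Xl D r t (Hv D i) row = D.xMat F ⟨r, hr⟩ t row (Sum.inl i) := by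
  unfold Xl Hv
  rw [Matrix.mulVecLin_apply, Matrix.mulVec_single_one, x_of_lt D r hr]
  rfl

theorem list_sum_apply {ι : Type*} (l : List (ι → F)) (i : ι) : l.sum i = (l.map fun f => f i).sum := by
  induction l with
  | nil => simp
  | cons a l ih => simp [ih]

theorem lvk_eq_sum_ite (L : List (ℕ × ℤ)) : ∀ (k : ℕ) (t : F) (v : ℕ),
    lvk L k t v = ((L.zipIdx k).map fun q =>
      (((q.1.2 : ℤ) : F) * t ^ (q.2 + 1)) * (if q.1.1 = v then 1 else 0)).sum := by
  induction L with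
  | nil => intro k t v; simp [lvk_nil]
  | cons a L ih =>
    intro k t v
    rw [lvk_cons, ih, List.zipIdx_cons, List.map_cons, List.sum_cons]
    congr 1
    split_ifs <;> simp

/-- the generic column of `x_r(t)` -/
theorem Xl_Ev_gen (r s : ℕ) (hr : r < D.nroots) (hs : s < D.nroots) (hsr : s ≠ r)
    (hsn : s ≠ D.negIdx.getD r 0) (t : F) :
    Xl D r t (Ev D s) = Ev D s + ((chainEntries D r s).map fun L =>
      ((L.zipIdx).map fun q => (((q.1.2 : ℤ) : F) * t ^ (q.2 + 1)) • (Ev D q.1.1 : D.Idx → F)).sum).sum := by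
  have h1 : (⟨s, hs⟩ : Fin D.nroots) ≠ ⟨r, hr⟩ := fun h => hsr (congrArg Fin.val h)
  funext row
  rw [Xl_Ev_apply D r s hr hs, Pi.add_apply, list_sum_apply, List.map_map]
  rcases row with i | v
  · rw [xMat_inl_inr_gen D ⟨r, hr⟩ t i ⟨s, hs⟩ h1 hsn, Ev_inl, zero_add]
    symm
    apply List.sum_eq_zero
    intro x hx
    rw [List.mem_map] at hx
    obtain ⟨L, _, rfl⟩ := hx
    simp only [Function.comp_apply]
    rw [list_sum_apply, List.map_map]
    apply List.sum_eq_zero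
    intro y hy
    rw [List.mem_map] at hy
    obtain ⟨q, _, rfl⟩ := hy
    simp [Ev_inl]
  · rw [xMat_inr_inr_gen D ⟨r, hr⟩ t v ⟨s, hs⟩ h1 hsn, Ev_inr, chP_eq]
    congr 2
    apply List.map_congr_left
    intro L _
    simp only [Function.comp_apply]
    rw [list_sum_apply, List.map_map, lvk_eq_sum_ite]
    congr 1
    apply List.map_congr_left
    intro q _
    simp [Ev_inr]

theorem Xl_Ev_col0 (r s : ℕ) (hr : r < D.nroots) (hs : s < D.nroots) (hsr : s ≠ r)
    (hsn : s ≠ D.negIdx.getD r 0) (hE : chainEntries D r s = []) (t : F) :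
    Xl D r t (Ev D s) = Ev D s := by
  rw [Xl_Ev_gen D r s hr hs hsr hsn, hE]
  simp

theorem Xl_Ev_col1 (r s : ℕ) (hr : r < D.nroots) (hs : s < D.nroots) (hsr : s ≠ r)
    (hsn : s ≠ D.negIdx.getD r 0) (a₁ : ℕ) (M₁ : ℤ) (hE : chainEntries D r s = [[(a₁, M₁)]]) (t : F) :
    Xl D r t (Ev D s) = Ev D s + ((M₁ : F) * t) • Ev D a₁ := by
  rw [Xl_Ev_gen D r s hr hs hsr hsn, hE]
  simp [List.zipIdx_cons]

theorem Xl_Ev_col2 (r s : ℕ) (hr : r < D.nroots) (hs : s < D.nroots) (hsr : s ≠ r)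
    (hsn : s ≠ D.negIdx.getD r 0) (a₁ a₂ : ℕ) (M₁ M₂ : ℤ)
    (hE : chainEntries D r s = [[(a₁, M₁), (a₂, M₂)]]) (t : F) :
    Xl D r t (Ev D s) = Ev D s + ((M₁ : F) * t) • Ev D a₁ + ((M₂ : F) * t ^ 2) • Ev D a₂ := by
  rw [Xl_Ev_gen D r s hr hs hsr hsn, hE]
  simp [List.zipIdx_cons, add_assoc]

theorem Xl_Ev_col3 (r s : ℕ) (hr : r < D.nroots) (hs : s < D.nroots) (hsr : s ≠ r)
    (hsn : s ≠ D.negIdx.getD r 0) (a₁ a₂ a₃ : ℕ) (M₁ M₂ M₃ : ℤ)
    (hE : chainEntries D r s = [[(a₁, M₁), (a₂, M₂), (a₃, M₃)]]) (t : F) :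
    Xl D r t (Ev D s) = Ev D s + ((M₁ : F) * t) • Ev D a₁ + ((M₂ : F) * t ^ 2) • Ev D a₂ +
      ((M₃ : F) * t ^ 3) • Ev D a₃ := by
  rw [Xl_Ev_gen D r s hr hs hsr hsn, hE]
  simp [List.zipIdx_cons, add_assoc]

theorem Hv_inl (i j : Fin D.rank) : (Hv D i : D.Idx → F) (Sum.inl j) = if j = i then 1 else 0 := by
  unfold Hv
  rw [Pi.single_apply]
  by_cases h : j = i
  · subst h
    simp
  · have : ¬ (Sum.inl j : D.Idx) = Sum.inl i := fun h' => h (Sum.inl.inj h')
    rw [if_neg this, if_neg h]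

theorem Hv_inr (i : Fin D.rank) (v : Fin D.nroots) : (Hv D i : D.Idx → F) (Sum.inr v) = 0 := by
  unfold Hv
  rw [Pi.single_apply, if_neg (by simp)]

theorem Hr_inl (r : ℕ) (j : Fin D.rank) :
    (Hr D r : D.Idx → F) (Sum.inl j) = (((D.coroot.getD r #[]).getD j.val 0 : ℤ) : F) := by
  unfold Hr
  rw [Finset.sum_apply]
  simp only [Pi.smul_apply, Hv_inl, smul_eq_mul, mul_ite, mul_one, mul_zero]
  rw [Finset.sum_ite_eq]
  simp

theorem Hr_inr (r : ℕ) (v : Fin D.nroots) : (Hr D r : D.Idx → F) (Sum.inr v) = 0 := by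
  unfold Hr
  rw [Finset.sum_apply]
  apply Finset.sum_eq_zero
  intro i _
  simp [Hv_inr]

theorem Xl_Ev_self (r : ℕ) (hr : r < D.nroots) (t : F) : Xl D r t (Ev D r) = Ev D r := by
  funext row
  rw [Xl_Ev_apply D r r hr hr]
  rcases row with i | v
  · rw [xMat_inl_inr_self, Ev_inl]
  · rw [xMat_inr_inr_self, Ev_inr]
    by_cases h : v = ⟨r, hr⟩
    · subst h
      simp
    · have : ¬ r = v.val := fun h' => h (Fin.ext h'.symm)
      rw [if_neg h, if_neg this]

theorem Xl_Ev_neg (r s : ℕ) (hr : r < D.nroots) (hs : s < D.nroots) (hsr : s ≠ r)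
    (hsn : s = D.negIdx.getD r 0) (t : F) :
    Xl D r t (Ev D s) = Ev D s + t • Hr D r - (t ^ 2) • Ev D r := by
  have h1 : (⟨s, hs⟩ : Fin D.nroots) ≠ ⟨r, hr⟩ := fun h => hsr (congrArg Fin.val h)
  funext row
  rw [Xl_Ev_apply D r s hr hs]
  rcases row with i | v
  · rw [xMat_inl_inr_neg D ⟨r, hr⟩ t i ⟨s, hs⟩ h1 hsn]
    simp only [Pi.add_apply, Pi.sub_apply, Pi.smul_apply, Ev_inl, Hr_inl, smul_eq_mul, mul_zero,
      zero_add, sub_zero]
    ring
  · rw [xMat_inr_inr_neg D ⟨r, hr⟩ t v ⟨s, hs⟩ h1 hsn]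
    simp only [Pi.add_apply, Pi.sub_apply, Pi.smul_apply, Ev_inr, Hr_inr, smul_eq_mul, mul_zero,
      add_zero]
    by_cases hv : v = ⟨s, hs⟩
    · have e1 : s = v.val := by rw [hv]
      have e2 : ¬ r = v.val := fun h => hsr (e1.trans h.symm)
      rw [if_pos hv, if_pos e1, if_neg e2]
      ring
    · have e1 : ¬ s = v.val := fun h => hv (Fin.ext h.symm)
      rw [if_neg hv, if_neg e1]
      by_cases hv' : v = ⟨r, hr⟩
      · have e2 : r = v.val := by rw [hv']
        rw [if_pos hv', if_pos e2]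
        ring
      · have e2 : ¬ r = v.val := fun h => hv' (Fin.ext h.symm)
        rw [if_neg hv', if_neg e2]
        ring

theorem Xl_Hv (r : ℕ) (hr : r < D.nroots) (i : Fin D.rank) (t : F) :
    Xl D r t (Hv D i) = Hv D i - (((D.cartan i.val r : ℤ) : F) * t) • Ev D r := by
  funext row
  rw [Xl_Hv_apply D r hr]
  rcases row with j | v
  · rw [xMat_inl_inl]
    simp only [Pi.sub_apply, Pi.smul_apply, Hv_inl, Ev_inl, smul_eq_mul, mul_zero, sub_zero]
  · rw [xMat_inr_inl]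
    simp only [Pi.sub_apply, Pi.smul_apply, Hv_inr, Ev_inr, smul_eq_mul, zero_sub,
      ChevalleyDatum.cartan]
    by_cases hv : v = ⟨r, hr⟩
    · have e2 : r = v.val := by rw [hv]
      rw [if_pos hv, if_pos e2]
      ring
    · have e2 : ¬ r = v.val := fun h => hv (Fin.ext h.symm)
      rw [if_neg hv, if_neg e2]
      ring

theorem list_range_sum_eq (n : ℕ) (f : ℕ → ℤ) :
    ((List.range n).map f).sum = ∑ i : Fin n, f i.val := by
  induction n with
  | zero => simp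
  | succ n ih =>
    rw [List.range_succ, List.map_append, List.sum_append, ih, Fin.sum_univ_castSucc]
    simp

theorem pairing_eq (r s : ℕ) :
    D.pairing r s = ∑ i : Fin D.rank, (D.coroot.getD r #[]).getD i.val 0 * D.cartan i.val s := by
  unfold ChevalleyDatum.pairing
  rw [list_range_sum_eq]

theorem Xl_Hr (r r' : ℕ) (hr : r < D.nroots) (t : F) :
    Xl D r t (Hr D r') = Hr D r' - (((D.pairing r' r : ℤ) : F) * t) • Ev D r := by
  unfold Hr
  rw [map_sum]
  simp_rw [map_smul, Xl_Hv D r hr, smul_sub, Finset.sum_sub_distrib, smul_smul]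
  congr 1
  rw [← Finset.sum_smul]
  congr 1
  rw [pairing_eq]
  push_cast
  rw [Finset.sum_mul]
  apply Finset.sum_congr rfl
  intro i _
  ring

theorem eq_diagonal_of_mulVec {ι : Type*} [Fintype ι] [DecidableEq ι] (M : Matrix ι ι F) (d : ι → F)
    (h : ∀ j, Matrix.mulVec M (Pi.single j 1) = d j • (Pi.single j 1 : ι → F)) : M = Matrix.diagonal d := by
  ext i j
  have h1 := congrFun (h j) i
  rw [Matrix.mulVec_single_one, Matrix.col_apply] at h1
  rw [h1, Matrix.diagonal_apply, Pi.smul_apply, Pi.single_apply, smul_eq_mul]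
  by_cases hij : i = j
  · subst hij
    simp
  · simp [hij]

theorem hMat_mulVec (r : ℕ) (t : F) (v : D.Idx → F) :
    Matrix.mulVec (D.hMat F r t) v = hOp (Xl D r) (Xl D (D.neg r)) t v := by
  unfold ChevalleyDatum.hMat ChevalleyDatum.hWord ChevalleyDatum.nWord ChevalleyDatum.wordMat
  simp only [List.cons_append, List.nil_append, List.map_cons, List.map_nil, List.prod_cons,
    List.prod_nil, mul_one, hOp_apply, nOp_apply, Xl, Matrix.mulVecLin_apply, Matrix.mulVec_mulVec]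

end col

end Cfsg.Agent.Lib.Helper3
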