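import Mathlib
import Cfsg.Agent.Lib.Helper3.ChevHDefs
import Cfsg.Agent.Lib.Helper3.ChevCol

set_option autoImplicit false

namespace Cfsg.Agent.Lib.Helper3

open Cfsg.Lie

/-! ### specifications of the table checks -/

theorem sgn_spec (u : ℤ) (h : sgn u = true) : u = 1 ∨ u = -1 := by
  unfold sgn at h
  simpa [Bool.or_eq_true] using h

theorem sortedKeys_pairwise : ∀ l : List (ℕ × Array (ℕ × ℤ)), sortedKeys l = true →
    l.Pairwise (fun a b => a.1 < b.1)
  | [], _ => List.Pairwise.nil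
  | [_], _ => List.pairwise_singleton _ _
  | a :: b :: l, h => by
    simp only [sortedKeys, Bool.and_eq_true, decide_eq_true_eq] at h
    have ih := sortedKeys_pairwise (b :: l) h.2
    rw [List.pairwise_cons]
    refine ⟨?_, ih⟩
    intro x hx
    rcases List.mem_cons.mp hx with rfl | hx'
    · exact h.1
    · exact lt_trans h.1 ((List.pairwise_cons.mp ih).1 x hx')

theorem pairwise_filter_key (l : List (ℕ × Array (ℕ × ℤ))) (hl : l.Pairwise (fun a b => a.1 < b.1))
    (e : ℕ × Array (ℕ × ℤ)) (he : e ∈ l) : l.filter (fun x => x.1 = e.1) = [e] := by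
  induction l with
  | nil => simp at he
  | cons a l ih =>
    rw [List.pairwise_cons] at hl
    rw [List.filter_cons]
    rcases List.mem_cons.mp he with rfl | he'
    · have h0 : l.filter (fun x => decide (x.1 = e.1)) = [] := by
        rw [List.filter_eq_nil_iff]
        intro x hx
        have := hl.1 x hx
        simp only [decide_eq_true_eq]
        omega
      simp [h0]
    · have hlt := hl.1 e he'
      have hne : ¬ a.1 = e.1 := by omega
      simp [hne, ih hl.2 he']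

section specs

variable (D : ChevalleyDatum)

theorem chainEntries_of_mem (hSo : chkSorted D = true) (r : ℕ) (hr : r < D.nroots)
    (e : ℕ × Array (ℕ × ℤ)) (he : e ∈ (D.chain.getD r #[]).toList) :
    chainEntries D r e.1 = [e.2.toList] := by
  unfold chkSorted at hSo
  rw [List.all_eq_true] at hSo
  have h1 := sortedKeys_pairwise _ (hSo r (List.mem_range.mpr hr))
  unfold chainEntries
  rw [pairwise_filter_key _ h1 e he]
  rfl

theorem mem_of_chainEntries (r s : ℕ) (L : List (ℕ × ℤ)) (h : L ∈ chainEntries D r s) :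
    ∃ e ∈ (D.chain.getD r #[]).toList, e.1 = s ∧ e.2.toList = L := by
  unfold chainEntries at h
  rw [List.mem_map] at h
  obtain ⟨e, he, rfl⟩ := h
  rw [List.mem_filter] at he
  exact ⟨e, he.1, by simpa using he.2, rfl⟩

theorem chkS_spec (hS : chkS D = true) (r : ℕ) (hr : r < D.nroots) (e : ℕ × Array (ℕ × ℤ))
    (he : e ∈ (D.chain.getD r #[]).toList) :
    okRoot D r e.1 = true ∧
      (chainEntries D (D.neg r) e.1 = [] → chkBottom D r (D.neg r) e.1 e.2.toList = true) := by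
  unfold chkS at hS
  rw [List.all_eq_true] at hS
  have h1 := hS r (List.mem_range.mpr hr)
  rw [List.all_eq_true] at h1
  have h2 := h1 e he
  rw [Bool.and_eq_true, Bool.or_eq_true] at h2
  refine ⟨h2.1, fun hE => ?_⟩
  rcases h2.2 with h3 | h3
  · rw [hE] at h3
    simp at h3
  · exact h3

theorem chkY_spec (hY : chkY D = true) (r : ℕ) (hr : r < D.nroots) (e : ℕ × Array (ℕ × ℤ))
    (he : e ∈ (D.chain.getD r #[]).toList) :
    ∃ b Lb, e.2.toList.getLast? = some b ∧ chainEntries D (D.neg r) b.1 = [Lb] ∧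
      ∃ q ∈ Lb, q.1 = e.1 := by
  unfold chkY at hY
  rw [List.all_eq_true] at hY
  have h1 := hY r (List.mem_range.mpr hr)
  rw [List.all_eq_true] at h1
  have h2 := h1 e he
  split at h2
  · exact absurd h2 (by simp)
  · rename_i b hb
    split at h2
    · rename_i Lb hLb
      rw [List.any_eq_true] at h2
      obtain ⟨q, hq, hq'⟩ := h2
      exact ⟨b, Lb, hb, hLb, q, hq, by simpa using hq'⟩
    · exact absurd h2 (by simp)

theorem pCase_ff (pr : ℤ) (h : pCase pr false false = true) : pr = 0 := by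
  unfold pCase at h
  split at h
  · rfl
  · exact absurd h (by simp)
  · exact absurd h (by simp)

theorem chkP_spec (hP : chkP D = true) (r s : ℕ) (hr : r < D.nroots) (hs : s < D.nroots)
    (hsr : s ≠ r) (hsn : s ≠ D.neg r) (h1 : chainEntries D r s = [])
    (h2 : chainEntries D (D.neg r) s = []) : D.pairing r s = 0 := by
  unfold chkP at hP
  rw [List.all_eq_true] at hP
  have h3 := hP r (List.mem_range.mpr hr)
  rw [List.all_eq_true] at h3
  have h4 := h3 s (List.mem_range.mpr hs)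
  rw [h1, h2] at h4
  simp only [Bool.or_eq_true, beq_iff_eq, hsr, hsn, false_or, List.isEmpty_nil, Bool.not_true] at h4
  exact pCase_ff _ h4

theorem chkNg_spec (hN : chkNg D = true) (r : ℕ) (hr : r < D.nroots) :
    D.neg r < D.nroots ∧ D.neg r ≠ r ∧ D.neg (D.neg r) = r ∧
      ∀ i, i < D.rank → D.cartan i (D.neg r) = - D.cartan i r ∧
        (D.coroot.getD (D.neg r) #[]).getD i 0 = - (D.coroot.getD r #[]).getD i 0 := by
  unfold chkNg at hN
  rw [List.all_eq_true] at hN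
  have h1 := hN r (List.mem_range.mpr hr)
  simp only [Bool.and_eq_true, decide_eq_true_eq, List.all_eq_true, List.mem_range] at h1
  exact ⟨h1.1.1.1, h1.1.1.2, h1.1.2, h1.2⟩

theorem chkAddList_last (r : ℕ) (L : List (ℕ × ℤ)) (h : chkAddList D r L = true) (b : ℕ × ℤ)
    (hb : L.getLast? = some b) : chainEntries D r b.1 = [] := by
  rcases L with _ | ⟨⟨u₁, M₁⟩, _ | ⟨⟨u₂, M₂⟩, _ | ⟨⟨u₃, M₃⟩, _ | ⟨c, L⟩⟩⟩⟩
  · simp at hb
  · simp only [chkAddList, Bool.and_eq_true, List.isEmpty_iff] at h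
    simp at hb
    subst hb
    exact h.2
  · simp only [chkAddList, Bool.and_eq_true, List.isEmpty_iff] at h
    simp at hb
    subst hb
    exact h.2
  · simp only [chkAddList, Bool.and_eq_true, List.isEmpty_iff] at h
    simp at hb
    subst hb
    exact h.2
  · simp [chkAddList] at h

end specs

/-! ### the action of `h_r(t)` on a string -/

section hact

variable {F : Type*} [Field F] (D : ChevalleyDatum)

theorem sgn_specF (u : ℤ) (h : sgn u = true) : ((u : ℤ) : F) = 1 ∨ ((u : ℤ) : F) = -1 := by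
  rcases sgn_spec u h with rfl | rfl
  · left
    norm_num
  · right
    norm_num

theorem bottom_spec (hA : chkAdd D = true) (r : ℕ) (hr : r < D.nroots) (rn : ℕ) (hrn : rn < D.nroots)
    (hrn' : rn = D.negIdx.getD r 0) (hnn : D.negIdx.getD rn 0 = r)
    (a₀ : ℕ) (L : List (ℕ × ℤ)) (hok : okRoot D r a₀ = true)
    (hup : chainEntries D r a₀ = [L]) (hdn : chainEntries D rn a₀ = [])
    (hB : chkBottom D r rn a₀ L = true) (t : F) (ht : t ≠ 0) :
    hOp (Xl D r) (Xl D rn) t (Ev D a₀) = (t ^ (D.pairing r a₀)) • (Ev D a₀ : D.Idx → F) ∧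
    ∀ q ∈ L, hOp (Xl D r) (Xl D rn) t (Ev D q.1) = (t ^ (D.pairing r q.1)) • (Ev D q.1 : D.Idx → F) := by
  obtain ⟨h0, h0r, h0n⟩ := okRoot_spec D r a₀ hok
  have hLchk : chkAddList D r L = true :=
    chainEntries_chk D hA r hr a₀ L (by rw [hup]; exact List.mem_singleton.mpr rfl)
  have h0n' : a₀ ≠ rn := by rw [hrn']; exact h0n
  have h0r' : a₀ ≠ D.negIdx.getD rn 0 := by rw [hnn]; exact h0r
  rcases L with _ | ⟨⟨a₁, u₁⟩, _ | ⟨⟨a₂, u₂⟩, _ | ⟨⟨a₃, u₃⟩, _ | ⟨b, L⟩⟩⟩⟩
  · simp [chkBottom] at hB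
  · simp only [chkBottom, Bool.and_eq_true, decide_eq_true_eq, beq_iff_eq] at hB
    obtain ⟨⟨⟨⟨hs1, hk1⟩, hdn1⟩, hp0⟩, hp1⟩ := hB
    obtain ⟨h1, h1r, h1n⟩ := okRoot_spec D r a₁ hk1
    have h1n' : a₁ ≠ rn := by rw [hrn']; exact h1n
    have h1r' : a₁ ≠ D.negIdx.getD rn 0 := by rw [hnn]; exact h1r
    simp only [chkAddList, Bool.and_eq_true, List.isEmpty_iff] at hLchk
    obtain ⟨_, hup1⟩ := hLchk
    have key := string1 (Xl D r) (Xl D rn) (Ev D a₀) (Ev D a₁) ((u₁ : ℤ) : F) (sgn_specF u₁ hs1)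
      (fun t => Xl_Ev_col1 D r a₀ hr h0 h0r h0n a₁ u₁ hup t)
      (fun t => Xl_Ev_col0 D r a₁ hr h1 h1r h1n hup1 t)
      (fun u => Xl_Ev_col1 D rn a₁ hrn h1 h1n' h1r' a₀ u₁ hdn1 u)
      (fun u => Xl_Ev_col0 D rn a₀ hrn h0 h0n' h0r' hdn u) t ht
    refine ⟨by rw [hp0]; exact key.1, ?_⟩
    intro q hq
    simp only [List.mem_cons, List.not_mem_nil, or_false] at hq
    subst hq
    rw [hp1]
    exact key.2
  · simp only [chkBottom, Bool.and_eq_true, decide_eq_true_eq, beq_iff_eq] at hB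
    obtain ⟨⟨⟨⟨⟨⟨⟨hs1, hs2⟩, hk1⟩, hk2⟩, hdn2⟩, hp0⟩, hp1⟩, hp2⟩ := hB
    obtain ⟨h1, h1r, h1n⟩ := okRoot_spec D r a₁ hk1
    obtain ⟨h2, h2r, h2n⟩ := okRoot_spec D r a₂ hk2
    have h1n' : a₁ ≠ rn := by rw [hrn']; exact h1n
    have h1r' : a₁ ≠ D.negIdx.getD rn 0 := by rw [hnn]; exact h1r
    have h2n' : a₂ ≠ rn := by rw [hrn']; exact h2n
    have h2r' : a₂ ≠ D.negIdx.getD rn 0 := by rw [hnn]; exact h2r
    simp only [chkAddList, Bool.and_eq_true, List.isEmpty_iff] at hLchk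
    obtain ⟨⟨_, hsng⟩, hup2⟩ := hLchk
    obtain ⟨M', hup1, hM'⟩ := isSingle1_spec _ _ _ hsng
    rw [decide_eq_true_eq] at hM'
    have hLc := chainEntries_chk D hA rn hrn a₂ _ (by rw [hdn2]; exact List.mem_singleton.mpr rfl)
    simp only [chkAddList, Bool.and_eq_true, List.isEmpty_iff] at hLc
    obtain ⟨⟨_, hsng'⟩, _⟩ := hLc
    obtain ⟨M'', hdn1, hM''⟩ := isSingle1_spec _ _ _ hsng'
    rw [decide_eq_true_eq] at hM''
    have e1 : u₁ = 1 ∨ u₁ = -1 := sgn_spec u₁ hs1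
    have e2 : u₂ = 1 ∨ u₂ = -1 := sgn_spec u₂ hs2
    have hM'v : M' = 2 * u₁ * u₂ := by
      rcases e1 with rfl | rfl <;> rcases e2 with rfl | rfl <;> omega
    have hM''v : M'' = 2 * u₁ := by
      rcases e1 with rfl | rfl <;> rcases e2 with rfl | rfl <;> omega
    subst hM'v hM''v
    have key := string2 (Xl D r) (Xl D rn) (Ev D a₀) (Ev D a₁) (Ev D a₂) ((u₁ : ℤ) : F) ((u₂ : ℤ) : F)
      (sgn_specF u₁ hs1) (sgn_specF u₂ hs2)
      (fun t => Xl_Ev_col2 D r a₀ hr h0 h0r h0n a₁ a₂ u₁ u₂ hup t)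
      (fun t => by
        have := Xl_Ev_col1 (F := F) D r a₁ hr h1 h1r h1n a₂ (2 * u₁ * u₂) hup1 t
        push_cast at this
        exact this)
      (fun t => Xl_Ev_col0 D r a₂ hr h2 h2r h2n hup2 t)
      (fun u => by
        have := Xl_Ev_col2 (F := F) D rn a₂ hrn h2 h2n' h2r' a₁ a₀ (u₂ * u₁) u₂ hdn2 u
        push_cast at this
        exact this)
      (fun u => by
        have := Xl_Ev_col1 (F := F) D rn a₁ hrn h1 h1n' h1r' a₀ (2 * u₁) hdn1 u
        push_cast at this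
        exact this)
      (fun u => Xl_Ev_col0 D rn a₀ hrn h0 h0n' h0r' hdn u) t ht
    refine ⟨by rw [hp0]; exact key.1, ?_⟩
    intro q hq
    simp only [List.mem_cons, List.not_mem_nil, or_false] at hq
    rcases hq with rfl | rfl
    · rw [hp1]
      exact key.2.1
    · rw [hp2]
      exact key.2.2
  · simp only [chkBottom, Bool.and_eq_true, decide_eq_true_eq, beq_iff_eq] at hB
    obtain ⟨⟨⟨⟨⟨⟨⟨⟨⟨⟨hs1, hs2⟩, hs3⟩, hk1⟩, hk2⟩, hk3⟩, hdn3⟩, hp0⟩, hp1⟩, hp2⟩, hp3⟩ := hB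
    obtain ⟨h1, h1r, h1n⟩ := okRoot_spec D r a₁ hk1
    obtain ⟨h2, h2r, h2n⟩ := okRoot_spec D r a₂ hk2
    obtain ⟨h3, h3r, h3n⟩ := okRoot_spec D r a₃ hk3
    have h1n' : a₁ ≠ rn := by rw [hrn']; exact h1n
    have h1r' : a₁ ≠ D.negIdx.getD rn 0 := by rw [hnn]; exact h1r
    have h2n' : a₂ ≠ rn := by rw [hrn']; exact h2n
    have h2r' : a₂ ≠ D.negIdx.getD rn 0 := by rw [hnn]; exact h2r
    have h3n' : a₃ ≠ rn := by rw [hrn']; exact h3n
    have h3r' : a₃ ≠ D.negIdx.getD rn 0 := by rw [hnn]; exact h3r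
    simp only [chkAddList, Bool.and_eq_true, List.isEmpty_iff] at hLchk
    obtain ⟨⟨⟨_, hsng2⟩, hsng1⟩, hup3⟩ := hLchk
    obtain ⟨M', M'', hup1, hM⟩ := isSingle2_spec _ _ _ _ hsng2
    obtain ⟨N', hup2, hN⟩ := isSingle1_spec _ _ _ hsng1
    rw [Bool.and_eq_true, decide_eq_true_eq, decide_eq_true_eq] at hM
    rw [decide_eq_true_eq] at hN
    have hLc := chainEntries_chk D hA rn hrn a₃ _ (by rw [hdn3]; exact List.mem_singleton.mpr rfl)
    simp only [chkAddList, Bool.and_eq_true, List.isEmpty_iff] at hLc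
    obtain ⟨⟨⟨_, hsng2'⟩, hsng1'⟩, _⟩ := hLc
    obtain ⟨K', K'', hdn2, hK⟩ := isSingle2_spec _ _ _ _ hsng2'
    obtain ⟨J', hdn1, hJ⟩ := isSingle1_spec _ _ _ hsng1'
    rw [Bool.and_eq_true, decide_eq_true_eq, decide_eq_true_eq] at hK
    rw [decide_eq_true_eq] at hJ
    have e1 : u₁ = 1 ∨ u₁ = -1 := sgn_spec u₁ hs1
    have e2 : u₂ = 1 ∨ u₂ = -1 := sgn_spec u₂ hs2
    have e3 : u₃ = 1 ∨ u₃ = -1 := sgn_spec u₃ hs3
    have hM'v : M' = 2 * u₁ * u₂ := by
      rcases e1 with rfl | rfl <;> rcases e2 with rfl | rfl <;> omega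
    have hM''v : M'' = 3 * u₁ * u₃ := by
      rcases e1 with rfl | rfl <;> rcases e3 with rfl | rfl <;> omega
    have hN'v : N' = 3 * u₂ * u₃ := by
      rcases e2 with rfl | rfl <;> rcases e3 with rfl | rfl <;> omega
    have hK'v : K' = 2 * u₁ * u₂ := by
      rcases e1 with rfl | rfl <;> rcases e2 with rfl | rfl <;> rcases e3 with rfl | rfl <;> omega
    have hK''v : K'' = 3 * u₂ := by
      rcases e1 with rfl | rfl <;> rcases e2 with rfl | rfl <;> rcases e3 with rfl | rfl <;> omega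
    have hJ'v : J' = 3 * u₁ := by
      rcases e1 with rfl | rfl <;> rcases e2 with rfl | rfl <;> rcases e3 with rfl | rfl <;> omega
    subst hM'v hM''v hN'v hK'v hK''v hJ'v
    have key := string3 (Xl D r) (Xl D rn) (Ev D a₀) (Ev D a₁) (Ev D a₂) (Ev D a₃)
      ((u₁ : ℤ) : F) ((u₂ : ℤ) : F) ((u₃ : ℤ) : F)
      (sgn_specF u₁ hs1) (sgn_specF u₂ hs2) (sgn_specF u₃ hs3)
      (fun t => Xl_Ev_col3 D r a₀ hr h0 h0r h0n a₁ a₂ a₃ u₁ u₂ u₃ hup t)
      (fun t => by
        have := Xl_Ev_col2 (F := F) D r a₁ hr h1 h1r h1n a₂ a₃ (2 * u₁ * u₂) (3 * u₁ * u₃) hup1 t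
        push_cast at this
        exact this)
      (fun t => by
        have := Xl_Ev_col1 (F := F) D r a₂ hr h2 h2r h2n a₃ (3 * u₂ * u₃) hup2 t
        push_cast at this
        exact this)
      (fun t => Xl_Ev_col0 D r a₃ hr h3 h3r h3n hup3 t)
      (fun u => by
        have := Xl_Ev_col3 (F := F) D rn a₃ hrn h3 h3n' h3r' a₂ a₁ a₀ (u₃ * u₂) (u₃ * u₁) u₃ hdn3 u
        push_cast at this
        exact this)
      (fun u => by
        have := Xl_Ev_col2 (F := F) D rn a₂ hrn h2 h2n' h2r' a₁ a₀ (2 * u₁ * u₂) (3 * u₂) hdn2 u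
        push_cast at this
        exact this)
      (fun u => by
        have := Xl_Ev_col1 (F := F) D rn a₁ hrn h1 h1n' h1r' a₀ (3 * u₁) hdn1 u
        push_cast at this
        exact this)
      (fun u => Xl_Ev_col0 D rn a₀ hrn h0 h0n' h0r' hdn u) t ht
    refine ⟨by rw [hp0]; exact key.1, ?_⟩
    intro q hq
    simp only [List.mem_cons, List.not_mem_nil, or_false] at hq
    rcases hq with rfl | rfl | rfl
    · rw [hp1]
      exact key.2.1
    · rw [hp2]
      exact key.2.2.1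
    · rw [hp3]
      exact key.2.2.2
  · simp [chkBottom] at hB

theorem hOp_Ev (hA : chkAdd D = true) (hSo : chkSorted D = true) (hS : chkS D = true)
    (hY : chkY D = true) (hP : chkP D = true) (hN : chkNg D = true)
    (r : ℕ) (hr : r < D.nroots) (t : F) (ht : t ≠ 0) (s : ℕ) (hs : s < D.nroots) (hsr : s ≠ r)
    (hsn : s ≠ D.neg r) :
    hOp (Xl D r) (Xl D (D.neg r)) t (Ev D s) = (t ^ (D.pairing r s)) • (Ev D s : D.Idx → F) := by
  obtain ⟨hrn, hne, hnn, _⟩ := chkNg_spec D hN r hr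
  have hsr' : s ≠ D.negIdx.getD (D.neg r) 0 := by
    have : D.negIdx.getD (D.neg r) 0 = r := hnn
    rw [this]
    exact hsr
  by_cases hdn : chainEntries D (D.neg r) s = []
  · by_cases hup : chainEntries D r s = []
    · have hp := chkP_spec D hP r s hr hs hsr hsn hup hdn
      rw [hp, zpow_zero, one_smul]
      exact string0 _ _ _ (fun t => Xl_Ev_col0 D r s hr hs hsr hsn hup t)
        (fun u => Xl_Ev_col0 D (D.neg r) s hrn hs hsn hsr' hdn u) t
    · obtain ⟨L, hL⟩ := List.exists_mem_of_ne_nil _ hup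
      obtain ⟨e, he, hes, heL⟩ := mem_of_chainEntries D r s L hL
      have hup' : chainEntries D r s = [L] := by
        rw [← hes, ← heL]
        exact chainEntries_of_mem D hSo r hr e he
      obtain ⟨hok, hbot⟩ := chkS_spec D hS r hr e he
      rw [hes] at hok hbot
      rw [heL] at hbot
      exact (bottom_spec D hA r hr (D.neg r) hrn rfl hnn s L hok hup' hdn (hbot hdn) t ht).1
  · obtain ⟨L, hL⟩ := List.exists_mem_of_ne_nil _ hdn
    obtain ⟨e, he, hes, heL⟩ := mem_of_chainEntries D (D.neg r) s L hL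
    obtain ⟨b, Lb, hb, hLb, q, hq, hqs⟩ := chkY_spec D hY (D.neg r) hrn e he
    rw [hnn] at hLb
    have hbdn : chainEntries D (D.neg r) b.1 = [] :=
      chkAddList_last D (D.neg r) e.2.toList ((chkAdd_spec D hA (D.neg r) hrn).2 e he) b hb
    obtain ⟨e', he', hes', heL'⟩ := mem_of_chainEntries D r b.1 Lb
      (by rw [hLb]; exact List.mem_singleton.mpr rfl)
    obtain ⟨hok, hbot⟩ := chkS_spec D hS r hr e' he'
    rw [hes'] at hok hbot
    rw [heL'] at hbot
    have h1 := (bottom_spec D hA r hr (D.neg r) hrn rfl hnn b.1 Lb hok hLb hbdn (hbot hbdn) t ht).2 q hq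
    rw [hqs, hes] at h1
    exact h1

theorem pairing_self (hA : chkAdd D = true) (r : ℕ) (hr : r < D.nroots) : D.pairing r r = 2 := by
  have h := (chkAdd_spec D hA r hr).1
  rw [← Fin.sum_univ_def] at h
  rw [pairing_eq]
  exact h

theorem pairing_neg (hA : chkAdd D = true) (hN : chkNg D = true) (r : ℕ) (hr : r < D.nroots) :
    D.pairing r (D.neg r) = -2 := by
  obtain ⟨_, _, _, hcc⟩ := chkNg_spec D hN r hr
  rw [← pairing_self D hA r hr, pairing_eq, pairing_eq, ← Finset.sum_neg_distrib]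
  apply Finset.sum_congr rfl
  intro i _
  rw [(hcc i.val i.isLt).1]
  ring

theorem hOp_adj (hA : chkAdd D = true) (hN : chkNg D = true)
    (r : ℕ) (hr : r < D.nroots) (t : F) (ht : t ≠ 0) :
    hOp (Xl D r) (Xl D (D.neg r)) t (Ev D r) = (t ^ (D.pairing r r)) • (Ev D r : D.Idx → F) ∧
    hOp (Xl D r) (Xl D (D.neg r)) t (Ev D (D.neg r)) =
      (t ^ (D.pairing r (D.neg r))) • (Ev D (D.neg r) : D.Idx → F) ∧
    ∀ i : Fin D.rank, hOp (Xl D r) (Xl D (D.neg r)) t (Hv D i) = (Hv D i : D.Idx → F) := by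
  obtain ⟨hrn, hne, hnn, hcc⟩ := chkNg_spec D hN r hr
  have hpr := pairing_self D hA r hr
  have hprn := pairing_neg D hA hN r hr
  have hHr : (Hr D (D.neg r) : D.Idx → F) = - Hr D r := by
    unfold Hr
    rw [← Finset.sum_neg_distrib]
    apply Finset.sum_congr rfl
    intro i _
    rw [(hcc i.val i.isLt).2]
    push_cast
    rw [neg_smul]
  have hXe : ∀ t : F, Xl D r t (Ev D r) = Ev D r := Xl_Ev_self D r hr
  have hXf : ∀ t : F, Xl D r t (Ev D (D.neg r)) = Ev D (D.neg r) + t • Hr D r - (t ^ 2) • Ev D r :=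
    fun t => Xl_Ev_neg D r (D.neg r) hr hrn hne rfl t
  have hXh : ∀ t : F, Xl D r t (Hr D r) = Hr D r - (2 * t) • Ev D r := fun t => by
    rw [Xl_Hr D r r hr, hpr]
    norm_num
  have hYf : ∀ u : F, Xl D (D.neg r) u (Ev D (D.neg r)) = Ev D (D.neg r) := Xl_Ev_self D _ hrn
  have hYe : ∀ u : F, Xl D (D.neg r) u (Ev D r) = Ev D r - u • Hr D r - (u ^ 2) • Ev D (D.neg r) :=
    fun u => by
      rw [Xl_Ev_neg D (D.neg r) r hrn hr hne.symm hnn.symm u, hHr, smul_neg, ← sub_eq_add_neg]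
  have hYh : ∀ u : F, Xl D (D.neg r) u (Hr D r) = Hr D r + (2 * u) • Ev D (D.neg r) := fun u => by
    rw [Xl_Hr D (D.neg r) r hrn, hprn]
    push_cast
    rw [neg_mul, neg_smul, sub_neg_eq_add]
  have hst := stringAdj _ _ _ _ _ hXe hXf hXh hYf hYe hYh t ht
  refine ⟨by rw [hpr]; exact hst.1, by rw [hprn]; exact hst.2, fun i => ?_⟩
  exact stringAdjG _ _ _ _ _ (Hv D i) ((D.cartan i.val r : ℤ) : F) hXe hXf hXh hYf hYe hYh
    (fun t => Xl_Hv D r hr i t)
    (fun u => by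
      rw [Xl_Hv D (D.neg r) hrn i u, (hcc i.val i.isLt).1]
      push_cast
      rw [neg_mul, neg_smul, sub_neg_eq_add]) t ht

/-- `h_r(t)` is the diagonal matrix with entries `1` on the coroots and `t ^ ⟨s, r⟩` on `e_s` -/
theorem hMat_eq_diag (hA : chkAdd D = true) (hSo : chkSorted D = true) (hS : chkS D = true)
    (hY : chkY D = true) (hP : chkP D = true) (hN : chkNg D = true)
    (r : ℕ) (hr : r < D.nroots) (t : F) (ht : t ≠ 0) :
    D.hMat F r t = Matrix.diagonal (Sum.elim (fun _ => (1 : F))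
      (fun s : Fin D.nroots => t ^ (D.pairing r s.val))) := by
  apply eq_diagonal_of_mulVec
  intro j
  rw [hMat_mulVec]
  have hadj := hOp_adj D hA hN r hr t ht
  rcases j with i | s
  · have h1 := hadj.2.2 i
    unfold Hv at h1
    rw [h1]
    simp
  · have hEv : (Pi.single (Sum.inr s) 1 : D.Idx → F) = Ev D s.val := by
      unfold Ev
      rw [dif_pos s.isLt]
    rw [hEv]
    simp only [Sum.elim_inr]
    by_cases h1 : s.val = r
    · rw [h1]
      exact hadj.1
    · by_cases h2 : s.val = D.neg r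
      · rw [h2]
        exact hadj.2.1
      · exact hOp_Ev D hA hSo hS hY hP hN r hr t ht s.val s.isLt h1 h2

end hact

end Cfsg.Agent.Lib.Helper3
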