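import Mathlib
import Cfsg.Agent.Lib.Helper3.ChevH
import Cfsg.Agent.S2157

set_option autoImplicit false

namespace Cfsg.Agent.Lib.Helper3

open Cfsg.Lie

/-- the Cartan integers are additive along the chain table -/
def chkCA (D : ChevalleyDatum) : Bool :=
  (List.range D.nroots).all fun r => (D.chain.getD r #[]).toList.all fun e =>
    match e.2.toList with
    | [] => true
    | q :: _ => (List.range D.rank).all fun i =>
        decide (D.cartan i q.1 = D.cartan i r + D.cartan i e.1)

/-- the coroot of a fundamental root pairs with the roots through the Cartan integers -/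
def chkSimple (D : ChevalleyDatum) : Bool :=
  (List.range D.rank).all fun i => decide (D.simple i < D.nroots) &&
    (List.range D.nroots).all fun s => decide (D.pairing (D.simple i) s = D.cartan i s)

section char

variable {F : Type*} [Field F] (D : ChevalleyDatum)

theorem chainRoot_one (r s k : ℕ) (hk : D.chainRoot r s 1 = some k) :
    ∃ e ∈ (D.chain.getD r #[]).toList, e.1 = s ∧ ∃ q l, e.2.toList = q :: l ∧ q.1 = k := by
  unfold ChevalleyDatum.chainRoot ChevalleyDatum.chainEntry at hk
  split at hk
  · simp at hk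
  · rename_i e he
    have hmem := List.mem_of_find?_eq_some he
    have hp := List.find?_some he
    refine ⟨e, hmem, by simpa using hp, ?_⟩
    cases hl : e.2.toList with
    | nil =>
      rw [hl] at hk
      simp at hk
    | cons q l =>
      rw [hl] at hk
      simp at hk
      exact ⟨q, l, rfl, hk⟩

theorem chkCA_spec (hCA : chkCA D = true) (r s k : ℕ) (hr : r < D.nroots)
    (hk : D.chainRoot r s 1 = some k) (i : ℕ) (hi : i < D.rank) :
    D.cartan i k = D.cartan i r + D.cartan i s := by
  obtain ⟨e, he, hes, q, l, hl, hq⟩ := chainRoot_one D r s k hk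
  unfold chkCA at hCA
  rw [List.all_eq_true] at hCA
  have h1 := hCA r (List.mem_range.mpr hr)
  rw [List.all_eq_true] at h1
  have h2 := h1 e he
  rw [hl] at h2
  simp only [List.all_eq_true, List.mem_range, decide_eq_true_eq] at h2
  have h3 := h2 i hi
  rw [hq, hes] at h3
  exact h3

theorem chkSimple_spec (hSi : chkSimple D = true) (i : ℕ) (hi : i < D.rank) :
    D.simple i < D.nroots ∧ ∀ s, s < D.nroots → D.pairing (D.simple i) s = D.cartan i s := by
  unfold chkSimple at hSi
  rw [List.all_eq_true] at hSi
  have h1 := hSi i (List.mem_range.mpr hi)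
  simp only [Bool.and_eq_true, decide_eq_true_eq, List.all_eq_true, List.mem_range] at h1
  exact h1

/-- the character `s ↦ t ^ ⟨s, r⟩` of the root lattice -/
noncomputable def hChar (r : ℕ) (t : F) (ht : t ≠ 0) : ℕ → Fˣ :=
  fun s => Units.mk0 (t ^ D.pairing r s) (zpow_ne_zero _ ht)

theorem pairing_neg_right (hN : chkNg D = true) (r s : ℕ) (hs : s < D.nroots) :
    D.pairing r (D.neg s) = - D.pairing r s := by
  obtain ⟨_, _, _, hcc⟩ := chkNg_spec D hN s hs
  rw [pairing_eq, pairing_eq, ← Finset.sum_neg_distrib]
  apply Finset.sum_congr rfl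
  intro i _
  rw [(hcc i.val i.isLt).1]
  ring

theorem pairing_add (hCA : chkCA D = true) (r r' s k : ℕ) (hr' : r' < D.nroots)
    (hk : D.chainRoot r' s 1 = some k) : D.pairing r k = D.pairing r r' + D.pairing r s := by
  rw [pairing_eq, pairing_eq, pairing_eq, ← Finset.sum_add_distrib]
  apply Finset.sum_congr rfl
  intro i _
  rw [chkCA_spec D hCA r' s k hr' hk i.val i.isLt]
  ring

theorem hChar_isRootCharacter (hCA : chkCA D = true) (hN : chkNg D = true) (r : ℕ) (t : F)
    (ht : t ≠ 0) : D.IsRootCharacter (hChar D r t ht) := by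
  constructor
  · intro s hs
    apply Units.ext
    simp only [hChar, Units.val_mk0, Units.val_inv_eq_inv_val]
    rw [pairing_neg_right D hN r s hs, zpow_neg]
  · intro r' s k hr' _ hk
    apply Units.ext
    simp only [hChar, Units.val_mk0, Units.val_mul]
    rw [pairing_add D hCA r r' s k hr' hk, zpow_add₀ ht]

theorem charDiag_inv_mul (χ : ℕ → Fˣ) :
    D.charDiag F (fun s => (χ s)⁻¹) * D.charDiag F χ = 1 := by
  unfold ChevalleyDatum.charDiag
  rw [Matrix.diagonal_mul_diagonal, ← Matrix.diagonal_one]
  congr 1
  funext j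
  rcases j with i | s
  · simp
  · simp

theorem charDiag_mul_inv (χ : ℕ → Fˣ) :
    D.charDiag F χ * D.charDiag F (fun s => (χ s)⁻¹) = 1 := by
  unfold ChevalleyDatum.charDiag
  rw [Matrix.diagonal_mul_diagonal, ← Matrix.diagonal_one]
  congr 1
  funext j
  rcases j with i | s
  · simp
  · simp

theorem charDiag_mul_x (hD : D ∈ [chevG2, chevB2, chevD4, chevF4, chevE6, chevE7, chevE8])
    (χ : ℕ → Fˣ) (hχ : D.IsRootCharacter χ) (s : ℕ) (hs : s < D.nroots) (t : F) :
    D.charDiag F χ * D.x F s t = D.x F s ((χ s : F) * t) * D.charDiag F χ := by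
  have h := Cfsg.Agent.S2157.result D hD χ hχ s hs t
  calc D.charDiag F χ * D.x F s t
      = D.charDiag F χ * D.x F s t * (D.charDiag F (fun s => (χ s)⁻¹) * D.charDiag F χ) := by
        rw [charDiag_inv_mul, mul_one]
    _ = (D.charDiag F χ * D.x F s t * D.charDiag F (fun s => (χ s)⁻¹)) * D.charDiag F χ := by
        simp only [mul_assoc]
    _ = D.x F s ((χ s : F) * t) * D.charDiag F χ := by rw [h]

end char

end Cfsg.Agent.Lib.Helper3
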