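import Mathlib
import Cfsg.Agent.Lib.Helper3.ChevHChar
import Cfsg.Agent.Lib.Helper3.ChevDiag
import Cfsg.Agent.Lib.Helper3.ChevUni

set_option autoImplicit false

namespace Cfsg.Agent.Lib.Helper3

open Cfsg.Lie

/-- all table checks used for the diagonal subgroup -/
structure ChevOK (D : ChevalleyDatum) : Prop where
  add : chkAdd D = true
  sorted : chkSorted D = true
  s : chkS D = true
  y : chkY D = true
  p : chkP D = true
  ng : chkNg D = true
  ca : chkCA D = true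
  chev : chkChev D = true
  uni : chkUni D = true

section hat

variable {F : Type*} [Field F] (D : ChevalleyDatum)

theorem isRootCharacter_mul (χ ψ : ℕ → Fˣ) (hχ : D.IsRootCharacter χ) (hψ : D.IsRootCharacter ψ) :
    D.IsRootCharacter (fun s => χ s * ψ s) := by
  refine ⟨fun r hr => ?_, fun r s k hr hs hk => ?_⟩
  · show χ (D.neg r) * ψ (D.neg r) = (χ r * ψ r)⁻¹
    rw [hχ.1 r hr, hψ.1 r hr, mul_inv]
  · show χ k * ψ k = (χ r * ψ r) * (χ s * ψ s)
    rw [hχ.2 r s k hr hs hk, hψ.2 r s k hr hs hk, mul_mul_mul_comm]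

theorem isRootCharacter_inv (χ : ℕ → Fˣ) (hχ : D.IsRootCharacter χ) :
    D.IsRootCharacter (fun s => (χ s)⁻¹) := by
  refine ⟨fun r hr => ?_, fun r s k hr hs hk => ?_⟩
  · show (χ (D.neg r))⁻¹ = ((χ r)⁻¹)⁻¹
    rw [hχ.1 r hr]
  · show (χ k)⁻¹ = (χ r)⁻¹ * (χ s)⁻¹
    rw [hχ.2 r s k hr hs hk, mul_inv]

theorem isRootCharacter_one : D.IsRootCharacter (fun _ => (1 : Fˣ)) :=
  ⟨fun _ _ => by simp, fun _ _ _ _ _ _ => by simp⟩

theorem charDiag_mul (χ ψ : ℕ → Fˣ) :
    D.charDiag F χ * D.charDiag F ψ = D.charDiag F (fun s => χ s * ψ s) := by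
  unfold ChevalleyDatum.charDiag
  rw [Matrix.diagonal_mul_diagonal]
  congr 1
  funext j
  rcases j with i | s
  · simp
  · simp

theorem charDiag_one : D.charDiag F (fun _ => (1 : Fˣ)) = 1 := by
  unfold ChevalleyDatum.charDiag
  rw [← Matrix.diagonal_one]
  congr 1
  funext j
  rcases j with i | s
  · simp
  · simp

theorem coe_inv_of_charDiag (g : GL D.Idx F) (χ : ℕ → Fˣ)
    (hg : (g : Matrix D.Idx D.Idx F) = D.charDiag F χ) :
    ((g⁻¹ : GL D.Idx F) : Matrix D.Idx D.Idx F) = D.charDiag F (fun s => (χ s)⁻¹) := by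
  have h1 : ((g⁻¹ : GL D.Idx F) : Matrix D.Idx D.Idx F) * (g : Matrix D.Idx D.Idx F) = 1 := by
    rw [← Units.val_mul, inv_mul_cancel, Units.val_one]
  calc ((g⁻¹ : GL D.Idx F) : Matrix D.Idx D.Idx F)
      = ((g⁻¹ : GL D.Idx F) : Matrix D.Idx D.Idx F) *
          (D.charDiag F χ * D.charDiag F (fun s => (χ s)⁻¹)) := by rw [charDiag_mul_inv, mul_one]
    _ = (((g⁻¹ : GL D.Idx F) : Matrix D.Idx D.Idx F) * (g : Matrix D.Idx D.Idx F)) *
          D.charDiag F (fun s => (χ s)⁻¹) := by rw [hg, mul_assoc]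
    _ = D.charDiag F (fun s => (χ s)⁻¹) := by rw [h1, one_mul]

/-- the diagonal matrices of the characters of the root lattice -/
def hatH (F : Type*) [Field F] : Subgroup (GL D.Idx F) where
  carrier := {g | ∃ χ : ℕ → Fˣ, D.IsRootCharacter χ ∧ (g : Matrix D.Idx D.Idx F) = D.charDiag F χ}
  mul_mem' := by
    rintro a b ⟨χ, hχ, ha⟩ ⟨ψ, hψ, hb⟩
    exact ⟨fun s => χ s * ψ s, isRootCharacter_mul D χ ψ hχ hψ, by
      rw [Units.val_mul, ha, hb, charDiag_mul]⟩
  one_mem' := ⟨fun _ => 1, isRootCharacter_one D, by rw [Units.val_one, charDiag_one]⟩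
  inv_mem' := by
    rintro a ⟨χ, hχ, ha⟩
    exact ⟨fun s => (χ s)⁻¹, isRootCharacter_inv D χ hχ, coe_inv_of_charDiag D a χ ha⟩

theorem mem_hatH (g : GL D.Idx F) :
    g ∈ hatH D F ↔ ∃ χ : ℕ → Fˣ, D.IsRootCharacter χ ∧ (g : Matrix D.Idx D.Idx F) = D.charDiag F χ :=
  Iff.rfl

theorem hMat_eq_charDiag (ok : ChevOK D) (r : ℕ) (hr : r < D.nroots) (t : F) (ht : t ≠ 0) :
    D.hMat F r t = D.charDiag F (hChar D r t ht) := by
  rw [hMat_eq_diag D ok.add ok.sorted ok.s ok.y ok.p ok.ng r hr t ht]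
  rfl

theorem diagonal_le_hatH (ok : ChevOK D) : D.diagonalSubgroup F ≤ hatH D F := by
  unfold ChevalleyDatum.diagonalSubgroup
  rw [Subgroup.closure_le]
  rintro g ⟨r, t, hr, ht, hg⟩
  exact ⟨hChar D r t ht, hChar_isRootCharacter D ok.ca ok.ng r t ht,
    hg.trans (hMat_eq_charDiag D ok r hr t ht)⟩

theorem hatH_comm (a b : GL D.Idx F) (ha : a ∈ hatH D F) (hb : b ∈ hatH D F) : a * b = b * a := by
  obtain ⟨χ, _, ha⟩ := ha
  obtain ⟨ψ, _, hb⟩ := hb
  apply Units.ext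
  rw [Units.val_mul, Units.val_mul, ha, hb, charDiag_mul, charDiag_mul]
  congr 1
  funext s
  exact mul_comm _ _

theorem hatH_le_normalizer_pos (ok : ChevOK D) :
    hatH D F ≤ Subgroup.normalizer (D.posUnipotent F : Set (GL D.Idx F)) := by
  rw [Subgroup.le_normalizer_iff]
  rintro h ⟨χ, hχ, hh⟩ k hk
  have hinv := coe_inv_of_charDiag D h χ hh
  unfold ChevalleyDatum.posUnipotent at hk ⊢
  induction hk using Subgroup.closure_induction with
  | mem x hx =>
    obtain ⟨r, t, hr, hx⟩ := hx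
    apply Subgroup.subset_closure
    refine ⟨r, (χ r : F) * t, hr, ?_⟩
    rw [Units.val_mul, Units.val_mul, hh, hx, hinv]
    exact charDiag_conj D ok.chev χ hχ r hr.1 t
  | one =>
    rw [mul_one, mul_inv_cancel]
    exact one_mem _
  | mul x y _ _ hx hy =>
    have e : h * (x * y) * h⁻¹ = (h * x * h⁻¹) * (h * y * h⁻¹) := by group
    rw [e]
    exact mul_mem hx hy
  | inv x _ hx =>
    have e : h * x⁻¹ * h⁻¹ = (h * x * h⁻¹)⁻¹ := by group
    rw [e]
    exact inv_mem hx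

theorem pos_inf_hatH (ok : ChevOK D) : D.posUnipotent F ⊓ hatH D F = ⊥ := by
  rw [eq_bot_iff]
  rintro g ⟨hgU, χ, hχ, hg⟩
  rw [Subgroup.mem_bot]
  have hR := (posUnipotent_le_utLevel D ok.uni ok.add hgU).1
  apply Units.ext
  rw [hg]
  unfold ChevalleyDatum.charDiag
  rw [Units.val_one, ← Matrix.diagonal_one]
  congr 1
  funext j
  by_contra hj
  have h1 : ((g : Matrix D.Idx D.Idx F) - 1) j j ≠ 0 := by
    rw [hg, Matrix.sub_apply, Matrix.one_apply_eq]
    unfold ChevalleyDatum.charDiag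
    rw [Matrix.diagonal_apply_eq]
    exact sub_ne_zero.mpr hj
  have := hR j j h1
  omega

/-- `H` normalises `U` and meets it trivially -/
theorem diagonal_normalizes_pos (ok : ChevOK D) :
    D.diagonalSubgroup F ≤ Subgroup.normalizer (D.posUnipotent F : Set (GL D.Idx F)) ∧
      D.posUnipotent F ⊓ D.diagonalSubgroup F = ⊥ := by
  refine ⟨le_trans (diagonal_le_hatH D ok) (hatH_le_normalizer_pos D ok), ?_⟩
  rw [eq_bot_iff, ← pos_inf_hatH D ok]
  exact inf_le_inf_left _ (diagonal_le_hatH D ok)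

end hat

end Cfsg.Agent.Lib.Helper3
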