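import Mathlib
import Cfsg.Agent.Lib.Helper3.ChevHhat

set_option autoImplicit false
set_option linter.style.haveILetI false

namespace Cfsg.Agent.Lib.Helper3

open Cfsg.Lie

section hn

variable {F : Type*} [Field F] (D : ChevalleyDatum)

/-- `B = UH` is solvable -/
theorem borel_solvable (ok : ChevOK D) : Group.IsSolvable ↥(D.borelSubgroup F) := by
  have hLE : D.diagonalSubgroup F ≤ Subgroup.normalizer (D.posUnipotent F : Set (GL D.Idx F)) :=
    (diagonal_normalizes_pos D ok).1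
  have hUB : D.posUnipotent F ≤ D.borelSubgroup F := le_sup_left
  have hHB : D.diagonalSubgroup F ≤ D.borelSubgroup F := le_sup_right
  haveI hnorm : ((D.posUnipotent F).subgroupOf (D.borelSubgroup F)).Normal :=
    (Subgroup.normal_subgroupOf_iff_le_normalizer hUB).mpr (sup_le Subgroup.le_normalizer hLE)
  haveI hnil : Group.IsNilpotent ↥(D.posUnipotent F) := posUnipotent_nilpotent D ok.uni ok.add
  haveI : Group.IsNilpotent ↥((D.posUnipotent F).subgroupOf (D.borelSubgroup F)) :=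
    Group.nilpotent_of_mulEquiv (Subgroup.subgroupOfEquivOfLe hUB).symm
  haveI : Group.IsSolvable ↥((D.posUnipotent F).subgroupOf (D.borelSubgroup F)) := inferInstance
  haveI : Group.IsSolvable (↥(D.borelSubgroup F) ⧸ (D.posUnipotent F).subgroupOf (D.borelSubgroup F)) := by
    apply Group.isSolvable_of_comm
    have key : ∀ x : ↥(D.borelSubgroup F), ∃ h : ↥(D.borelSubgroup F),
        (h : GL D.Idx F) ∈ D.diagonalSubgroup F ∧
        (QuotientGroup.mk x : ↥(D.borelSubgroup F) ⧸ (D.posUnipotent F).subgroupOf (D.borelSubgroup F)) =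
          QuotientGroup.mk h := by
      intro x
      have hx : (x : GL D.Idx F) ∈ ((D.posUnipotent F ⊔ D.diagonalSubgroup F : Subgroup (GL D.Idx F)) :
          Set (GL D.Idx F)) := x.2
      rw [Subgroup.coe_mul_of_right_le_normalizer_left _ _ hLE] at hx
      obtain ⟨u, hu, h, hh, hxe⟩ := hx
      refine ⟨⟨h, hHB hh⟩, hh, ?_⟩
      rw [QuotientGroup.eq, Subgroup.mem_subgroupOf]
      have e : ((x⁻¹ * ⟨h, hHB hh⟩ : ↥(D.borelSubgroup F)) : GL D.Idx F) = h⁻¹ * u⁻¹ * h⁻¹⁻¹ := by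
        show (x : GL D.Idx F)⁻¹ * h = h⁻¹ * u⁻¹ * h⁻¹⁻¹
        rw [← hxe]
        group
      rw [e]
      exact (Subgroup.le_normalizer_iff.mp hLE) h⁻¹ (inv_mem hh) u⁻¹ (inv_mem hu)
    intro a b
    induction a using QuotientGroup.induction_on with
    | H x =>
      induction b using QuotientGroup.induction_on with
      | H y =>
        obtain ⟨h₁, hh₁, e₁⟩ := key x
        obtain ⟨h₂, hh₂, e₂⟩ := key y
        rw [e₁, e₂, ← QuotientGroup.mk_mul, ← QuotientGroup.mk_mul]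
        congr 1
        apply Subtype.ext
        exact hatH_comm D _ _ (diagonal_le_hatH D ok hh₁) (diagonal_le_hatH D ok hh₂)
  exact Group.isSolvable_of_ker_le_range ((D.posUnipotent F).subgroupOf (D.borelSubgroup F)).subtype
    (QuotientGroup.mk' ((D.posUnipotent F).subgroupOf (D.borelSubgroup F)))
    (by rw [QuotientGroup.ker_mk', Subgroup.range_subtype])

theorem charDiag_mul_x_gen (ok : ChevOK D) (χ : ℕ → Fˣ) (hχ : D.IsRootCharacter χ) (s : ℕ) (t : F) :
    D.charDiag F χ * D.x F s t = D.x F s ((χ s : F) * t) * D.charDiag F χ := by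
  by_cases hs : s < D.nroots
  · have h := charDiag_conj D ok.chev χ hχ s hs t
    calc D.charDiag F χ * D.x F s t
        = D.charDiag F χ * D.x F s t * (D.charDiag F (fun s => (χ s)⁻¹) * D.charDiag F χ) := by
          rw [charDiag_inv_mul, mul_one]
      _ = (D.charDiag F χ * D.x F s t * D.charDiag F (fun s => (χ s)⁻¹)) * D.charDiag F χ := by
          simp only [mul_assoc]
      _ = D.x F s ((χ s : F) * t) * D.charDiag F χ := by rw [h]
  · unfold ChevalleyDatum.x
    rw [dif_neg hs, dif_neg hs, mul_one, one_mul]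

theorem charDiag_mul_nMat (ok : ChevOK D) (ψ : ℕ → Fˣ) (hψ : D.IsRootCharacter ψ) (r : ℕ)
    (hr : r < D.nroots) (a : F) :
    D.charDiag F ψ * D.nMat F r a = D.nMat F r ((ψ r : F) * a) * D.charDiag F ψ := by
  rw [nMat_eq, nMat_eq]
  have e1 : ((ψ (D.neg r) : Fˣ) : F) * (-a⁻¹) = -((ψ r : F) * a)⁻¹ := by
    rw [hψ.1 r hr, Units.val_inv_eq_inv_val, mul_inv]
    ring
  calc D.charDiag F ψ * (D.x F r a * (D.x F (D.neg r) (-a⁻¹) * D.x F r a))
      = (D.charDiag F ψ * D.x F r a) * (D.x F (D.neg r) (-a⁻¹) * D.x F r a) := by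
        simp only [mul_assoc]
    _ = D.x F r ((ψ r : F) * a) * ((D.charDiag F ψ * D.x F (D.neg r) (-a⁻¹)) * D.x F r a) := by
        rw [charDiag_mul_x_gen D ok ψ hψ]
        simp only [mul_assoc]
    _ = D.x F r ((ψ r : F) * a) * (D.x F (D.neg r) (-((ψ r : F) * a)⁻¹) *
          (D.charDiag F ψ * D.x F r a)) := by
        rw [charDiag_mul_x_gen D ok ψ hψ, e1]
        simp only [mul_assoc]
    _ = D.x F r ((ψ r : F) * a) * (D.x F (D.neg r) (-((ψ r : F) * a)⁻¹) *
          D.x F r ((ψ r : F) * a)) * D.charDiag F ψ := by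
        rw [charDiag_mul_x_gen D ok ψ hψ]
        simp only [mul_assoc]

/-- conjugation by `n_r(a)` maps `H` into `H` -/
theorem n_conj_mem (ok : ChevOK D) (r : ℕ) (hr : r < D.nroots) (a : F) (ha : a ≠ 0)
    (m : GL D.Idx F) (hm : (m : Matrix D.Idx D.Idx F) = D.nMat F r a) (h : GL D.Idx F)
    (hh : h ∈ D.diagonalSubgroup F) : m * h * m⁻¹ ∈ D.diagonalSubgroup F := by
  obtain ⟨χ, hχ, hhc⟩ := diagonal_le_hatH D ok hh
  have hψ := isRootCharacter_inv D χ hχ
  have hinv := coe_inv_of_charDiag D h χ hhc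
  have hc : ((χ r)⁻¹ : Fˣ).val * a ≠ 0 := mul_ne_zero (Units.ne_zero _) ha
  have hk₁ : wordGL D ok.add (D.hWord r (((χ r)⁻¹ : Fˣ).val * a)) ∈ D.diagonalSubgroup F :=
    Subgroup.subset_closure ⟨r, _, hr, hc, wordGL_coe D ok.add _⟩
  have hk₂ : wordGL D ok.add (D.hWord r a) ∈ D.diagonalSubgroup F :=
    Subgroup.subset_closure ⟨r, _, hr, ha, wordGL_coe D ok.add _⟩
  have hm2 : m = wordGL D ok.add (D.hWord r a) * wordGL D ok.add (D.nWord r 1) := by
    apply Units.ext
    rw [Units.val_mul, wordGL_coe, wordGL_coe, hm]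
    exact nMat_eq_hMat_mul D ok.add r a
  have e : h⁻¹ * m = wordGL D ok.add (D.hWord r (((χ r)⁻¹ : Fˣ).val * a)) *
      wordGL D ok.add (D.nWord r 1) * h⁻¹ := by
    apply Units.ext
    rw [Units.val_mul, Units.val_mul, Units.val_mul, wordGL_coe, wordGL_coe, hm, hinv,
      charDiag_mul_nMat D ok _ hψ r hr a]
    congr 1
    exact nMat_eq_hMat_mul D ok.add r _
  have hn1 : wordGL D ok.add (D.nWord r 1) = (wordGL D ok.add (D.hWord r a))⁻¹ * m := by
    rw [hm2]
    group
  have e2 : m * h * m⁻¹ = h * (wordGL D ok.add (D.hWord r (((χ r)⁻¹ : Fˣ).val * a)) *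
      (wordGL D ok.add (D.hWord r a))⁻¹) := by
    calc m * h * m⁻¹ = h * (h⁻¹ * m) * h * m⁻¹ := by group
      _ = h * (wordGL D ok.add (D.hWord r (((χ r)⁻¹ : Fˣ).val * a)) *
            ((wordGL D ok.add (D.hWord r a))⁻¹ * m) * h⁻¹) * h * m⁻¹ := by rw [e, hn1]
      _ = h * (wordGL D ok.add (D.hWord r (((χ r)⁻¹ : Fˣ).val * a)) *
            (wordGL D ok.add (D.hWord r a))⁻¹) := by group
  rw [e2]
  exact mul_mem hh (mul_mem hk₁ (inv_mem hk₂))

theorem monomial_le_normalizer_diagonal (ok : ChevOK D) :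
    D.monomialSubgroup F ≤ Subgroup.normalizer (D.diagonalSubgroup F : Set (GL D.Idx F)) := by
  unfold ChevalleyDatum.monomialSubgroup
  apply sup_le Subgroup.le_normalizer
  rw [Subgroup.closure_le]
  rintro n ⟨r, hr, hn⟩
  rw [SetLike.mem_coe, Subgroup.mem_normalizer_iff]
  have h1 : ∀ h ∈ D.diagonalSubgroup F, n * h * n⁻¹ ∈ D.diagonalSubgroup F :=
    fun h hh => n_conj_mem D ok r hr 1 one_ne_zero n hn h hh
  have hninv : ((n⁻¹ : GL D.Idx F) : Matrix D.Idx D.Idx F) = D.nMat F r (-1) := by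
    have e1 : ((n⁻¹ : GL D.Idx F) : Matrix D.Idx D.Idx F) * (n : Matrix D.Idx D.Idx F) = 1 := by
      rw [← Units.val_mul, inv_mul_cancel, Units.val_one]
    have e2 : (n : Matrix D.Idx D.Idx F) * ((n⁻¹ : GL D.Idx F) : Matrix D.Idx D.Idx F) = 1 := by
      rw [← Units.val_mul, mul_inv_cancel, Units.val_one]
    calc ((n⁻¹ : GL D.Idx F) : Matrix D.Idx D.Idx F)
        = (D.nMat F r (-1) * D.nMat F r 1) * ((n⁻¹ : GL D.Idx F) : Matrix D.Idx D.Idx F) := by
          rw [nMat_neg_one_mul D ok.add, one_mul]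
      _ = D.nMat F r (-1) * ((n : Matrix D.Idx D.Idx F) *
            ((n⁻¹ : GL D.Idx F) : Matrix D.Idx D.Idx F)) := by rw [← hn, mul_assoc]
      _ = D.nMat F r (-1) := by rw [e2, mul_one]
  have h2 : ∀ h ∈ D.diagonalSubgroup F, n⁻¹ * h * n⁻¹⁻¹ ∈ D.diagonalSubgroup F :=
    fun h hh => n_conj_mem D ok r hr (-1) (by norm_num) n⁻¹ hninv h hh
  intro h
  constructor
  · exact h1 h
  · intro hh
    have h3 := h2 _ hh
    have e : n⁻¹ * (n * h * n⁻¹) * n⁻¹⁻¹ = h := by group
    rwa [e] at h3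

/-- `H` is normal in `N` -/
theorem diagonal_normal_in_monomial (ok : ChevOK D) :
    ((D.diagonalSubgroup F).subgroupOf (D.monomialSubgroup F)).Normal :=
  (Subgroup.normal_subgroupOf_iff_le_normalizer le_sup_left).mpr
    (monomial_le_normalizer_diagonal D ok)

end hn

end Cfsg.Agent.Lib.Helper3
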