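import Mathlib
import Cfsg.Agent.Lib.Helper3.ChevHN

set_option autoImplicit false
set_option linter.unusedSectionVars false

namespace Cfsg.Agent.Lib.Helper3

open Cfsg.Lie

/-- the level function `chevF`, reversed -/
def chevG (D : ChevalleyDatum) (i : D.Idx) : ℕ := D.nroots - chevF D i

/-- table check: negative roots fill the lower half, their negatives the upper half, and the chains of
negative roots decrease -/
def chkUniNeg (D : ChevalleyDatum) : Bool :=
  (List.range D.nroots).all fun r =>
    !decide (D.IsNegRoot r) ||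
      (decide (r < D.nroots / 2) && decide (D.nroots / 2 ≤ D.negIdx.getD r 0) &&
        (D.chain.getD r #[]).toList.all fun e => e.2.toList.all fun q => decide (q.1 < e.1))

section negchev

variable {F : Type*} [Field F] (D : ChevalleyDatum)

theorem chkUniNeg_spec (hD : chkUniNeg D = true) :
    ∀ r, D.IsNegRoot r → r < D.nroots / 2 ∧ D.nroots / 2 ≤ D.negIdx.getD r 0 ∧
      ∀ e ∈ (D.chain.getD r #[]).toList, ∀ q ∈ e.2.toList, q.1 < e.1 := by
  unfold chkUniNeg at hD
  rw [List.all_eq_true] at hD
  intro r hr
  have h := hD r (List.mem_range.mpr hr.1)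
  rw [Bool.or_eq_true] at h
  rcases h with h | h
  · simp [hr] at h
  · rw [Bool.and_eq_true, Bool.and_eq_true, decide_eq_true_eq, decide_eq_true_eq, List.all_eq_true] at h
    refine ⟨h.1.1, h.1.2, fun e he q hq => ?_⟩
    have h2 := h.2 e he
    rw [List.all_eq_true] at h2
    simpa using h2 q hq

theorem xMat_lowers (hD : chkUniNeg D = true) (r : Fin D.nroots) (hr : D.IsNegRoot r.val) (t : F) :
    Raises (chevG D) 1 (D.xMat F r t - 1) := by
  obtain ⟨hN, hneg, hch⟩ := chkUniNeg_spec D hD r.val hr
  intro row col h
  rw [Matrix.sub_apply] at h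
  rcases col with i | s
  · rcases row with i' | u
    · exfalso
      apply h
      rw [xMat_inl_inl, Matrix.one_apply]
      by_cases hi : i' = i
      · subst hi
        simp
      · have : (Sum.inl i' : D.Idx) ≠ Sum.inl i := fun h' => hi (Sum.inl.inj h')
        simp [hi, this]
    · rw [xMat_inr_inl, Matrix.one_apply_ne (by simp : (Sum.inr u : D.Idx) ≠ Sum.inl i), sub_zero] at h
      have hu : u = r := by
        by_contra hu
        rw [if_neg hu] at h
        exact h rfl
      subst hu
      have := u.isLt
      simp only [chevG, chevF]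
      split_ifs <;> omega
  · by_cases h1 : s = r
    · subst h1
      exfalso
      apply h
      rcases row with i' | u
      · rw [xMat_inl_inr_self, Matrix.one_apply_ne (by simp), sub_zero]
      · rw [xMat_inr_inr_self, Matrix.one_apply]
        by_cases hu : u = s
        · subst hu
          simp
        · have : (Sum.inr u : D.Idx) ≠ Sum.inr s := fun h' => hu (Sum.inr.inj h')
          simp [hu, this]
    · by_cases h2 : s.val = D.negIdx.getD r.val 0
      · rcases row with i' | u
        · have := s.isLt
          simp only [chevG, chevF]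
          split_ifs <;> omega
        · rw [xMat_inr_inr_neg D r t u s h1 h2, Matrix.one_apply] at h
          by_cases hu : u = s
          · subst hu
            simp at h
          · have hne : (Sum.inr u : D.Idx) ≠ Sum.inr s := fun h' => hu (Sum.inr.inj h')
            rw [if_neg hu, if_neg hne, sub_zero] at h
            have hur : u = r := by
              by_contra hur
              rw [if_neg hur] at h
              exact h rfl
            subst hur
            have := s.isLt
            have := u.isLt
            simp only [chevG, chevF]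
            split_ifs <;> omega
      · rcases row with i' | u
        · exfalso
          apply h
          rw [xMat_inl_inr_gen D r t i' s h1 h2, Matrix.one_apply_ne (by simp), sub_zero]
        · rw [xMat_inr_inr_gen D r t u s h1 h2, Matrix.one_apply] at h
          have hsu : u.val < s.val := by
            by_cases hu : u = s
            · subst hu
              simp only [if_true, add_sub_cancel_left] at h
              obtain ⟨e, he, hes, q, hq, hqu⟩ := chP_ne_zero D _ _ _ t h
              have := hch e he q hq
              omega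
            · have hne : (Sum.inr u : D.Idx) ≠ Sum.inr s := fun h' => hu (Sum.inr.inj h')
              have hne' : ¬ s.val = u.val := fun h' => hu (Fin.ext h'.symm)
              rw [if_neg hne', if_neg hne, zero_add, sub_zero] at h
              obtain ⟨e, he, hes, q, hq, hqu⟩ := chP_ne_zero D _ _ _ t h
              have := hch e he q hq
              omega
          have := s.isLt
          have := u.isLt
          simp only [chevG, chevF]
          split_ifs <;> omega

theorem negUnipotent_le_utLevel (hD : chkUniNeg D = true) (hA : chkAdd D = true) :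
    D.negUnipotent F ≤ utLevel (chevG D) 1 := by
  unfold ChevalleyDatum.negUnipotent
  rw [Subgroup.closure_le]
  rintro g ⟨r, t, hr, hg⟩
  have hinv : g⁻¹ = xGL D hA r (-t) := by
    apply inv_eq_of_mul_eq_one_right
    apply Units.ext
    rw [Units.val_mul, hg, xGL_coe, x_mul_x D hA r t (-t) (add_neg_cancel t)]
    rfl
  refine ⟨?_, ?_⟩
  · rw [hg, x_of_lt D r hr.1]
    exact xMat_lowers D hD ⟨r, hr.1⟩ hr t
  · rw [hinv, xGL_coe, x_of_lt D r hr.1]
    exact xMat_lowers D hD ⟨r, hr.1⟩ hr (-t)

theorem hatH_le_utLevel_zero : hatH D F ≤ utLevel (chevF D) 0 := by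
  have key : ∀ χ : ℕ → Fˣ, Raises (chevF D) 0 (D.charDiag F χ - 1) := by
    intro χ i j h
    by_cases hij : i = j
    · subst hij
      exact le_refl _
    · exfalso
      apply h
      unfold ChevalleyDatum.charDiag
      rw [Matrix.sub_apply, Matrix.diagonal_apply_ne _ hij, Matrix.one_apply_ne hij, sub_zero]
  rintro g ⟨χ, _, hg⟩
  refine ⟨?_, ?_⟩
  · rw [hg]
    exact key χ
  · rw [coe_inv_of_charDiag D g χ hg]
    exact key _

theorem utLevel_mono {ι : Type*} [Fintype ι] [DecidableEq ι] (f : ι → ℕ) {k l : ℕ} (h : l ≤ k) :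
    (utLevel f k : Subgroup (GL ι F)) ≤ utLevel f l :=
  fun _ hg => ⟨hg.1.mono h, hg.2.mono h⟩

theorem borel_le_utLevel_zero (ok : ChevOK D) : D.borelSubgroup F ≤ utLevel (chevF D) 0 := by
  unfold ChevalleyDatum.borelSubgroup
  apply sup_le
  · exact le_trans (posUnipotent_le_utLevel D ok.uni ok.add) (utLevel_mono (chevF D) (Nat.zero_le 1))
  · exact le_trans (diagonal_le_hatH D ok) (hatH_le_utLevel_zero D)

theorem borel_inf_neg (ok : ChevOK D) (hUN : chkUniNeg D = true) :
    D.borelSubgroup F ⊓ D.negUnipotent F = ⊥ := by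
  rw [eq_bot_iff]
  rintro g ⟨hgB, hgV⟩
  rw [Subgroup.mem_bot]
  have h1 := (borel_le_utLevel_zero D ok hgB).1
  have h2 := (negUnipotent_le_utLevel D hUN ok.add hgV).1
  apply Units.ext
  rw [Units.val_one, ← sub_eq_zero]
  ext i j
  by_contra h
  have e1 := h1 i j h
  have e2 := h2 i j h
  have l1 := chevF_lt D i
  have l2 := chevF_lt D j
  simp only [chevG] at e2
  omega

theorem hatH_le_normalizer_neg (ok : ChevOK D) :
    hatH D F ≤ Subgroup.normalizer (D.negUnipotent F : Set (GL D.Idx F)) := by
  rw [Subgroup.le_normalizer_iff]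
  rintro h ⟨χ, hχ, hh⟩ k hk
  have hinv := coe_inv_of_charDiag D h χ hh
  unfold ChevalleyDatum.negUnipotent at hk ⊢
  induction hk using Subgroup.closure_induction with
  | mem x hx =>
    obtain ⟨r, t, hr, hx⟩ := hx
    apply Subgroup.subset_closure
    refine ⟨r, (χ r : F) * t, hr, ?_⟩
    rw [Units.val_mul, Units.val_mul, hh, hx, hinv]
    exact charDiag_conj D ok.chev χ hχ r hr.1 t
  | one =>
    rw [mul_one, mul_inv_cancel]
    exact one_mem _
  | mul x y _ _ hx hy =>
    have e : h * (x * y) * h⁻¹ = (h * x * h⁻¹) * (h * y * h⁻¹) := by group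
    rw [e]
    exact mul_mem hx hy
  | inv x _ hx =>
    have e : h * x⁻¹ * h⁻¹ = (h * x * h⁻¹)⁻¹ := by group
    rw [e]
    exact inv_mem hx

/-- `B ∩ V = 1` and `B ∩ VH = H` -/
theorem borel_inf_neg_diag (ok : ChevOK D) (hUN : chkUniNeg D = true) :
    D.borelSubgroup F ⊓ D.negUnipotent F = ⊥ ∧
      D.borelSubgroup F ⊓ (D.negUnipotent F ⊔ D.diagonalSubgroup F) = D.diagonalSubgroup F := by
  refine ⟨borel_inf_neg D ok hUN, ?_⟩
  have hHB : D.diagonalSubgroup F ≤ D.borelSubgroup F := le_sup_right
  apply le_antisymm
  · rintro g ⟨hgB, hgVH⟩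
    have hLE : D.diagonalSubgroup F ≤ Subgroup.normalizer (D.negUnipotent F : Set (GL D.Idx F)) :=
      le_trans (diagonal_le_hatH D ok) (hatH_le_normalizer_neg D ok)
    have hmem : g ∈ ((D.negUnipotent F ⊔ D.diagonalSubgroup F : Subgroup (GL D.Idx F)) :
        Set (GL D.Idx F)) := hgVH
    rw [Subgroup.coe_mul_of_right_le_normalizer_left _ _ hLE] at hmem
    obtain ⟨v, hv, h, hh, rfl⟩ := Set.mem_mul.mp hmem
    have hvB : v ∈ D.borelSubgroup F := by
      have : v = (v * h) * h⁻¹ := by group
      rw [this]
      exact mul_mem hgB (inv_mem (hHB hh))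
    have hv1 : v ∈ D.borelSubgroup F ⊓ D.negUnipotent F := ⟨hvB, hv⟩
    rw [borel_inf_neg D ok hUN, Subgroup.mem_bot] at hv1
    rw [hv1, one_mul]
    exact hh
  · exact le_inf hHB le_sup_right

end negchev

end Cfsg.Agent.Lib.Helper3
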