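import Mathlib
import Cfsg.Agent.Lib.Helper3.ChevNOp

set_option autoImplicit false
set_option linter.unusedVariables false
set_option linter.unusedSectionVars false

namespace Cfsg.Agent.Lib.Helper3

open Cfsg.Lie

/-- the image (index and sign) under `n_r` of the `k`-th member of the `r`-string with bottom `a₀`
and up-list `L` -/
def nImgBottom (a₀ : ℕ) (L : List (ℕ × ℤ)) (k : ℕ) : ℕ × ℤ :=
  match L, k with
  | [(a₁, u₁)], 0 => (a₁, u₁)
  | [(_, u₁)], 1 => (a₀, -u₁)
  | [(_, _), (a₂, u₂)], 0 => (a₂, u₂)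
  | [(a₁, _), (_, _)], 1 => (a₁, -1)
  | [(_, _), (_, u₂)], 2 => (a₀, u₂)
  | [(_, _), (_, _), (a₃, u₃)], 0 => (a₃, u₃)
  | [(_, u₁), (a₂, u₂), (_, _)], 1 => (a₂, -(u₁ * u₂))
  | [(a₁, u₁), (_, u₂), (_, _)], 2 => (a₁, u₁ * u₂)
  | [(_, _), (_, _), (_, u₃)], 3 => (a₀, -u₃)
  | _, _ => (a₀, 1)

/-- the image (index and sign) of the root vector `e_s` under `n_r = n_r(1)`, read off the chain
tables -/
def nImg (D : ChevalleyDatum) (r s : ℕ) : ℕ × ℤ :=
  if s = r then (D.neg r, -1) else if s = D.neg r then (r, -1) else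
  match chainEntries D (D.neg r) s with
  | [] =>
    (match chainEntries D r s with
     | [L] => nImgBottom s L 0
     | _ => (s, 1))
  | [Ld] =>
    (match Ld.getLast? with
     | some b =>
       (match chainEntries D r b.1 with
        | [Lb] => nImgBottom b.1 Lb (Lb.findIdx (fun q => q.1 == s) + 1)
        | _ => (s, 1))
     | none => (s, 1))
  | _ => (s, 1)

/-- one fundamental root's part of the table check for the signs of `n_p` -/
def rowEta (D : ChevalleyDatum) (i : ℕ) : Bool :=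
  (List.range D.nroots).all fun s =>
    decide ((nImg D (D.simple i) s).1 = D.reflectRoot i s) &&
    sgn (nImg D (D.simple i) s).2 &&
    decide ((nImg D (D.simple i) s).2 * (nImg D (D.simple i) (D.reflectRoot i s)).2 =
      (-1) ^ (D.cartan i s).natAbs) &&
    decide ((nImg D (D.simple i) s).2 * (nImg D (D.simple i) (D.neg s)).2 = 1)

/-- table check for the signs of `n_p`, `p` fundamental -/
def chkEta (D : ChevalleyDatum) : Bool := (List.range D.rank).all (rowEta D)

/-- table check: the coroot of the `i`-th fundamental root is the `i`-th fundamental coroot -/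
def chkSimpCo (D : ChevalleyDatum) : Bool :=
  (List.range D.rank).all fun i => (List.range D.rank).all fun k =>
    decide ((D.coroot.getD (D.simple i) #[]).getD k 0 = if k = i then 1 else 0)

theorem chkEta_spec (D : ChevalleyDatum) (h : chkEta D = true) (i : ℕ) (hi : i < D.rank) (s : ℕ)
    (hs : s < D.nroots) :
    (nImg D (D.simple i) s).1 = D.reflectRoot i s ∧
    sgn (nImg D (D.simple i) s).2 = true ∧
    (nImg D (D.simple i) s).2 * (nImg D (D.simple i) (D.reflectRoot i s)).2 =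
      (-1) ^ (D.cartan i s).natAbs ∧
    (nImg D (D.simple i) s).2 * (nImg D (D.simple i) (D.neg s)).2 = 1 := by
  unfold chkEta at h
  rw [List.all_eq_true] at h
  have h1 := h i (List.mem_range.mpr hi)
  unfold rowEta at h1
  rw [List.all_eq_true] at h1
  have h2 := h1 s (List.mem_range.mpr hs)
  simp only [Bool.and_eq_true, decide_eq_true_eq] at h2
  exact ⟨h2.1.1.1, h2.1.1.2, h2.1.2, h2.2⟩

theorem chkSimpCo_spec (D : ChevalleyDatum) (h : chkSimpCo D = true) (i k : ℕ) (hi : i < D.rank)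
    (hk : k < D.rank) :
    (D.coroot.getD (D.simple i) #[]).getD k 0 = if k = i then 1 else 0 := by
  unfold chkSimpCo at h
  rw [List.all_eq_true] at h
  have h1 := h i (List.mem_range.mpr hi)
  rw [List.all_eq_true] at h1
  have h2 := h1 k (List.mem_range.mpr hk)
  simpa using h2

section nexact

variable {F : Type*} [Field F] (D : ChevalleyDatum)

theorem bottom_spec_n1 (hA : chkAdd D = true) (r : ℕ) (hr : r < D.nroots) (rn : ℕ) (hrn : rn < D.nroots)
    (hrn' : rn = D.negIdx.getD r 0) (hnn : D.negIdx.getD rn 0 = r)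
    (a₀ : ℕ) (L : List (ℕ × ℤ)) (hok : okRoot D r a₀ = true)
    (hup : chainEntries D r a₀ = [L]) (hdn : chainEntries D rn a₀ = [])
    (hB : chkBottom D r rn a₀ L = true) :
    nOp (Xl D r) (Xl D rn) 1 (Ev D a₀) =
      (((nImgBottom a₀ L 0).2 : ℤ) : F) • (Ev D (nImgBottom a₀ L 0).1 : D.Idx → F) ∧
    ∀ (k : ℕ) (hk : k < L.length), nOp (Xl D r) (Xl D rn) 1 (Ev D (L[k]).1) =
      (((nImgBottom a₀ L (k + 1)).2 : ℤ) : F) • (Ev D (nImgBottom a₀ L (k + 1)).1 : D.Idx → F) := by
  obtain ⟨h0, h0r, h0n⟩ := okRoot_spec D r a₀ hok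
  have hLchk : chkAddList D r L = true :=
    chainEntries_chk D hA r hr a₀ L (by rw [hup]; exact List.mem_singleton.mpr rfl)
  have h0n' : a₀ ≠ rn := by rw [hrn']; exact h0n
  have h0r' : a₀ ≠ D.negIdx.getD rn 0 := by rw [hnn]; exact h0r
  rcases L with _ | ⟨⟨a₁, u₁⟩, _ | ⟨⟨a₂, u₂⟩, _ | ⟨⟨a₃, u₃⟩, _ | ⟨b, L⟩⟩⟩⟩
  · simp [chkBottom] at hB
  · simp only [chkBottom, Bool.and_eq_true, decide_eq_true_eq, beq_iff_eq] at hB
    obtain ⟨⟨⟨⟨hs1, hk1⟩, hdn1⟩, hp0⟩, hp1⟩ := hB
    obtain ⟨h1, h1r, h1n⟩ := okRoot_spec D r a₁ hk1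
    have h1n' : a₁ ≠ rn := by rw [hrn']; exact h1n
    have h1r' : a₁ ≠ D.negIdx.getD rn 0 := by rw [hnn]; exact h1r
    simp only [chkAddList, Bool.and_eq_true, List.isEmpty_iff] at hLchk
    obtain ⟨_, hup1⟩ := hLchk
    have key := string1n (Xl D r) (Xl D rn) (Ev D a₀) (Ev D a₁) ((u₁ : ℤ) : F) (sgn_specF u₁ hs1)
      (fun t => Xl_Ev_col1 D r a₀ hr h0 h0r h0n a₁ u₁ hup t)
      (fun t => Xl_Ev_col0 D r a₁ hr h1 h1r h1n hup1 t)
      (fun u => Xl_Ev_col1 D rn a₁ hrn h1 h1n' h1r' a₀ u₁ hdn1 u)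
      (fun u => Xl_Ev_col0 D rn a₀ hrn h0 h0n' h0r' hdn u) 1 one_ne_zero
    refine ⟨?_, ?_⟩
    · simpa [nImgBottom] using key.1
    · intro k hk
      simp only [List.length_cons, List.length_nil] at hk
      interval_cases k
      simpa [nImgBottom] using key.2
  · simp only [chkBottom, Bool.and_eq_true, decide_eq_true_eq, beq_iff_eq] at hB
    obtain ⟨⟨⟨⟨⟨⟨⟨hs1, hs2⟩, hk1⟩, hk2⟩, hdn2⟩, hp0⟩, hp1⟩, hp2⟩ := hB
    obtain ⟨h1, h1r, h1n⟩ := okRoot_spec D r a₁ hk1
    obtain ⟨h2, h2r, h2n⟩ := okRoot_spec D r a₂ hk2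
    have h1n' : a₁ ≠ rn := by rw [hrn']; exact h1n
    have h1r' : a₁ ≠ D.negIdx.getD rn 0 := by rw [hnn]; exact h1r
    have h2n' : a₂ ≠ rn := by rw [hrn']; exact h2n
    have h2r' : a₂ ≠ D.negIdx.getD rn 0 := by rw [hnn]; exact h2r
    simp only [chkAddList, Bool.and_eq_true, List.isEmpty_iff] at hLchk
    obtain ⟨⟨_, hsng⟩, hup2⟩ := hLchk
    obtain ⟨M', hup1, hM'⟩ := isSingle1_spec _ _ _ hsng
    rw [decide_eq_true_eq] at hM'
    have hLc := chainEntries_chk D hA rn hrn a₂ _ (by rw [hdn2]; exact List.mem_singleton.mpr rfl)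
    simp only [chkAddList, Bool.and_eq_true, List.isEmpty_iff] at hLc
    obtain ⟨⟨_, hsng'⟩, _⟩ := hLc
    obtain ⟨M'', hdn1, hM''⟩ := isSingle1_spec _ _ _ hsng'
    rw [decide_eq_true_eq] at hM''
    have e1 : u₁ = 1 ∨ u₁ = -1 := sgn_spec u₁ hs1
    have e2 : u₂ = 1 ∨ u₂ = -1 := sgn_spec u₂ hs2
    have hM'v : M' = 2 * u₁ * u₂ := by
      rcases e1 with rfl | rfl <;> rcases e2 with rfl | rfl <;> omega
    have hM''v : M'' = 2 * u₁ := by
      rcases e1 with rfl | rfl <;> rcases e2 with rfl | rfl <;> omega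
    subst hM'v hM''v
    have key := string2n (Xl D r) (Xl D rn) (Ev D a₀) (Ev D a₁) (Ev D a₂) ((u₁ : ℤ) : F) ((u₂ : ℤ) : F)
      (sgn_specF u₁ hs1) (sgn_specF u₂ hs2)
      (fun t => Xl_Ev_col2 D r a₀ hr h0 h0r h0n a₁ a₂ u₁ u₂ hup t)
      (fun t => by
        have := Xl_Ev_col1 (F := F) D r a₁ hr h1 h1r h1n a₂ (2 * u₁ * u₂) hup1 t
        push_cast at this
        exact this)
      (fun t => Xl_Ev_col0 D r a₂ hr h2 h2r h2n hup2 t)
      (fun u => by
        have := Xl_Ev_col2 (F := F) D rn a₂ hrn h2 h2n' h2r' a₁ a₀ (u₂ * u₁) u₂ hdn2 u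
        push_cast at this
        exact this)
      (fun u => by
        have := Xl_Ev_col1 (F := F) D rn a₁ hrn h1 h1n' h1r' a₀ (2 * u₁) hdn1 u
        push_cast at this
        exact this)
      (fun u => Xl_Ev_col0 D rn a₀ hrn h0 h0n' h0r' hdn u) 1 one_ne_zero
    refine ⟨?_, ?_⟩
    · simpa [nImgBottom] using key.1
    · intro k hk
      simp only [List.length_cons, List.length_nil] at hk
      interval_cases k
      · simpa [nImgBottom] using key.2.1
      · simpa [nImgBottom] using key.2.2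
  · simp only [chkBottom, Bool.and_eq_true, decide_eq_true_eq, beq_iff_eq] at hB
    obtain ⟨⟨⟨⟨⟨⟨⟨⟨⟨⟨hs1, hs2⟩, hs3⟩, hk1⟩, hk2⟩, hk3⟩, hdn3⟩, hp0⟩, hp1⟩, hp2⟩, hp3⟩ := hB
    obtain ⟨h1, h1r, h1n⟩ := okRoot_spec D r a₁ hk1
    obtain ⟨h2, h2r, h2n⟩ := okRoot_spec D r a₂ hk2
    obtain ⟨h3, h3r, h3n⟩ := okRoot_spec D r a₃ hk3
    have h1n' : a₁ ≠ rn := by rw [hrn']; exact h1n
    have h1r' : a₁ ≠ D.negIdx.getD rn 0 := by rw [hnn]; exact h1r
    have h2n' : a₂ ≠ rn := by rw [hrn']; exact h2n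
    have h2r' : a₂ ≠ D.negIdx.getD rn 0 := by rw [hnn]; exact h2r
    have h3n' : a₃ ≠ rn := by rw [hrn']; exact h3n
    have h3r' : a₃ ≠ D.negIdx.getD rn 0 := by rw [hnn]; exact h3r
    simp only [chkAddList, Bool.and_eq_true, List.isEmpty_iff] at hLchk
    obtain ⟨⟨⟨_, hsng2⟩, hsng1⟩, hup3⟩ := hLchk
    obtain ⟨M', M'', hup1, hM⟩ := isSingle2_spec _ _ _ _ hsng2
    obtain ⟨N', hup2, hN⟩ := isSingle1_spec _ _ _ hsng1
    rw [Bool.and_eq_true, decide_eq_true_eq, decide_eq_true_eq] at hM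
    rw [decide_eq_true_eq] at hN
    have hLc := chainEntries_chk D hA rn hrn a₃ _ (by rw [hdn3]; exact List.mem_singleton.mpr rfl)
    simp only [chkAddList, Bool.and_eq_true, List.isEmpty_iff] at hLc
    obtain ⟨⟨⟨_, hsng2'⟩, hsng1'⟩, _⟩ := hLc
    obtain ⟨K', K'', hdn2, hK⟩ := isSingle2_spec _ _ _ _ hsng2'
    obtain ⟨J', hdn1, hJ⟩ := isSingle1_spec _ _ _ hsng1'
    rw [Bool.and_eq_true, decide_eq_true_eq, decide_eq_true_eq] at hK
    rw [decide_eq_true_eq] at hJ
    have e1 : u₁ = 1 ∨ u₁ = -1 := sgn_spec u₁ hs1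
    have e2 : u₂ = 1 ∨ u₂ = -1 := sgn_spec u₂ hs2
    have e3 : u₃ = 1 ∨ u₃ = -1 := sgn_spec u₃ hs3
    have hM'v : M' = 2 * u₁ * u₂ := by
      rcases e1 with rfl | rfl <;> rcases e2 with rfl | rfl <;> omega
    have hM''v : M'' = 3 * u₁ * u₃ := by
      rcases e1 with rfl | rfl <;> rcases e3 with rfl | rfl <;> omega
    have hN'v : N' = 3 * u₂ * u₃ := by
      rcases e2 with rfl | rfl <;> rcases e3 with rfl | rfl <;> omega
    have hK'v : K' = 2 * u₁ * u₂ := by
      rcases e1 with rfl | rfl <;> rcases e2 with rfl | rfl <;> rcases e3 with rfl | rfl <;> omega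
    have hK''v : K'' = 3 * u₂ := by
      rcases e1 with rfl | rfl <;> rcases e2 with rfl | rfl <;> rcases e3 with rfl | rfl <;> omega
    have hJ'v : J' = 3 * u₁ := by
      rcases e1 with rfl | rfl <;> rcases e2 with rfl | rfl <;> rcases e3 with rfl | rfl <;> omega
    subst hM'v hM''v hN'v hK'v hK''v hJ'v
    have key := string3n (Xl D r) (Xl D rn) (Ev D a₀) (Ev D a₁) (Ev D a₂) (Ev D a₃)
      ((u₁ : ℤ) : F) ((u₂ : ℤ) : F) ((u₃ : ℤ) : F)
      (sgn_specF u₁ hs1) (sgn_specF u₂ hs2) (sgn_specF u₃ hs3)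
      (fun t => Xl_Ev_col3 D r a₀ hr h0 h0r h0n a₁ a₂ a₃ u₁ u₂ u₃ hup t)
      (fun t => by
        have := Xl_Ev_col2 (F := F) D r a₁ hr h1 h1r h1n a₂ a₃ (2 * u₁ * u₂) (3 * u₁ * u₃) hup1 t
        push_cast at this
        exact this)
      (fun t => by
        have := Xl_Ev_col1 (F := F) D r a₂ hr h2 h2r h2n a₃ (3 * u₂ * u₃) hup2 t
        push_cast at this
        exact this)
      (fun t => Xl_Ev_col0 D r a₃ hr h3 h3r h3n hup3 t)
      (fun u => by
        have := Xl_Ev_col3 (F := F) D rn a₃ hrn h3 h3n' h3r' a₂ a₁ a₀ (u₃ * u₂) (u₃ * u₁) u₃ hdn3 u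
        push_cast at this
        exact this)
      (fun u => by
        have := Xl_Ev_col2 (F := F) D rn a₂ hrn h2 h2n' h2r' a₁ a₀ (2 * u₁ * u₂) (3 * u₂) hdn2 u
        push_cast at this
        exact this)
      (fun u => by
        have := Xl_Ev_col1 (F := F) D rn a₁ hrn h1 h1n' h1r' a₀ (3 * u₁) hdn1 u
        push_cast at this
        exact this)
      (fun u => Xl_Ev_col0 D rn a₀ hrn h0 h0n' h0r' hdn u) 1 one_ne_zero
    refine ⟨?_, ?_⟩
    · simpa [nImgBottom] using key.1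
    · intro k hk
      simp only [List.length_cons, List.length_nil] at hk
      interval_cases k
      · simpa [nImgBottom] using key.2.1
      · simpa [nImgBottom] using key.2.2.1
      · simpa [nImgBottom] using key.2.2.2
  · simp [chkBottom] at hB


theorem nOp_adj1 (hA : chkAdd D = true) (hN : chkNg D = true) (r : ℕ) (hr : r < D.nroots) :
    nOp (Xl D r) (Xl D (D.neg r)) 1 (Ev D r) = (((-1 : ℤ) : ℤ) : F) • (Ev D (D.neg r) : D.Idx → F) ∧
    nOp (Xl D r) (Xl D (D.neg r)) 1 (Ev D (D.neg r)) = (((-1 : ℤ) : ℤ) : F) • (Ev D r : D.Idx → F) := by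
  obtain ⟨hrn, hne, hnn, hcc⟩ := chkNg_spec D hN r hr
  have hpr := pairing_self D hA r hr
  have hprn := pairing_neg D hA hN r hr
  have hHr : (Hr D (D.neg r) : D.Idx → F) = - Hr D r := by
    unfold Hr
    rw [← Finset.sum_neg_distrib]
    apply Finset.sum_congr rfl
    intro i _
    rw [(hcc i.val i.isLt).2]
    push_cast
    rw [neg_smul]
  have hXe : ∀ t : F, Xl D r t (Ev D r) = Ev D r := Xl_Ev_self D r hr
  have hXf : ∀ t : F, Xl D r t (Ev D (D.neg r)) = Ev D (D.neg r) + t • Hr D r - (t ^ 2) • Ev D r :=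
    fun t => Xl_Ev_neg D r (D.neg r) hr hrn hne rfl t
  have hXh : ∀ t : F, Xl D r t (Hr D r) = Hr D r - (2 * t) • Ev D r := fun t => by
    rw [Xl_Hr D r r hr, hpr]
    norm_num
  have hYf : ∀ u : F, Xl D (D.neg r) u (Ev D (D.neg r)) = Ev D (D.neg r) := Xl_Ev_self D _ hrn
  have hYe : ∀ u : F, Xl D (D.neg r) u (Ev D r) = Ev D r - u • Hr D r - (u ^ 2) • Ev D (D.neg r) :=
    fun u => by
      rw [Xl_Ev_neg D (D.neg r) r hrn hr hne.symm hnn.symm u, hHr, smul_neg, ← sub_eq_add_neg]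
  have hYh : ∀ u : F, Xl D (D.neg r) u (Hr D r) = Hr D r + (2 * u) • Ev D (D.neg r) := fun u => by
    rw [Xl_Hr D (D.neg r) r hrn, hprn]
    push_cast
    rw [neg_mul, neg_smul, sub_neg_eq_add]
  have hst := stringAdjn _ _ _ _ _ hXe hXf hXh hYf hYe hYh (1 : F) one_ne_zero
  constructor
  · simpa using hst.1
  · simpa using hst.2.1

/-- `n_r e_s = ± e_{s'}`, with the sign and `s'` read off the tables -/
theorem nMat_Ev (ok : ChevOK D) (r : ℕ) (hr : r < D.nroots) (s : ℕ) (hs : s < D.nroots) :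
    Matrix.mulVec (D.nMat F r 1) (Ev D s) =
      (((nImg D r s).2 : ℤ) : F) • (Ev D (nImg D r s).1 : D.Idx → F) := by
  rw [nMat_mulVec]
  obtain ⟨hrn, hne, hnn, _⟩ := chkNg_spec D ok.ng r hr
  unfold nImg
  by_cases h1 : s = r
  · rw [if_pos h1, h1]
    exact (nOp_adj1 D ok.add ok.ng r hr).1
  · rw [if_neg h1]
    by_cases h2 : s = D.neg r
    · rw [if_pos h2, h2]
      exact (nOp_adj1 D ok.add ok.ng r hr).2
    · rw [if_neg h2]
      have hsr' : s ≠ D.negIdx.getD (D.neg r) 0 := by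
        have : D.negIdx.getD (D.neg r) 0 = r := hnn
        rw [this]
        exact h1
      by_cases hdn : chainEntries D (D.neg r) s = []
      · by_cases hup : chainEntries D r s = []
        · simp only [hdn, hup]
          rw [Int.cast_one, one_smul, nOp_apply, Xl_Ev_col0 D r s hr hs h1 h2 hup 1,
            Xl_Ev_col0 D (D.neg r) s hrn hs h2 hsr' hdn, Xl_Ev_col0 D r s hr hs h1 h2 hup 1]
        · obtain ⟨L, hL⟩ := List.exists_mem_of_ne_nil _ hup
          obtain ⟨e, he, hes, heL⟩ := mem_of_chainEntries D r s L hL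
          have hup' : chainEntries D r s = [L] := by
            rw [← hes, ← heL]
            exact chainEntries_of_mem D ok.sorted r hr e he
          obtain ⟨hok, hbot⟩ := chkS_spec D ok.s r hr e he
          rw [hes] at hok hbot
          rw [heL] at hbot
          simp only [hdn, hup']
          exact (bottom_spec_n1 D ok.add r hr (D.neg r) hrn rfl hnn s L hok hup' hdn (hbot hdn)).1
      · obtain ⟨L, hL⟩ := List.exists_mem_of_ne_nil _ hdn
        obtain ⟨e, he, hes, heL⟩ := mem_of_chainEntries D (D.neg r) s L hL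
        have hdn' : chainEntries D (D.neg r) s = [e.2.toList] := by
          rw [← hes]
          exact chainEntries_of_mem D ok.sorted (D.neg r) hrn e he
        obtain ⟨b, Lb, hb, hLb, q, hq, hqs⟩ := chkY_spec D ok.y (D.neg r) hrn e he
        rw [hnn] at hLb
        have hbdn : chainEntries D (D.neg r) b.1 = [] :=
          chkAddList_last D (D.neg r) e.2.toList ((chkAdd_spec D ok.add (D.neg r) hrn).2 e he) b hb
        obtain ⟨e', he', hes', heL'⟩ := mem_of_chainEntries D r b.1 Lb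
          (by rw [hLb]; exact List.mem_singleton.mpr rfl)
        obtain ⟨hok, hbot⟩ := chkS_spec D ok.s r hr e' he'
        rw [hes'] at hok hbot
        rw [heL'] at hbot
        simp only [hdn', hb, hLb]
        have hex : ∃ x ∈ Lb, (fun q : ℕ × ℤ => q.1 == s) x = true :=
          ⟨q, hq, by simp [hqs, hes]⟩
        have hk : Lb.findIdx (fun q => q.1 == s) < Lb.length :=
          List.findIdx_lt_length_of_exists hex
        have hks : (Lb[Lb.findIdx (fun q => q.1 == s)]).1 = s := by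
          have := List.findIdx_getElem (w := hk)
          simpa using this
        have h1' := (bottom_spec_n1 (F := F) D ok.add r hr (D.neg r) hrn rfl hnn b.1 Lb hok hLb hbdn
          (hbot hbdn)).2 _ hk
        rw [hks] at h1'
        exact h1'

/-- `n_p`, `p` fundamental, as a signed monomial matrix -/
theorem nMat_simple_eq (ok : ChevOK D) (hE : chkEta D = true) (hC : chkSimpCo D = true)
    (hSi : chkSimple D = true) (i : ℕ) (hi : i < D.rank) :
    ∃ η : ℕ → ℤ, (∀ s < D.nroots, η s = 1 ∨ η s = -1) ∧ η (D.simple i) = -1 ∧ η (D.neg (D.simple i)) = -1 ∧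
      (∀ s < D.nroots, η s * η (D.reflectRoot i s) = (-1) ^ (D.cartan i s).natAbs ∧ η s * η (D.neg s) = 1) ∧
      D.nMat F (D.simple i) 1 = Matrix.of (fun (row col : D.Idx) =>
        Sum.elim
          (fun j' : Fin D.rank => Sum.elim
            (fun j : Fin D.rank => (if j' = j then (1 : F) else 0) - (if (j' : ℕ) = i then ((D.cartan j (D.simple i) : ℤ) : F) else 0))
            (fun _ => (0 : F)) col)
          (fun s' : Fin D.nroots => Sum.elim
            (fun _ => (0 : F))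
            (fun s : Fin D.nroots => if (s' : ℕ) = D.reflectRoot i s then ((η s : ℤ) : F) else 0) col)
          row) := by
  obtain ⟨hp, _⟩ := chkSimple_spec D hSi i hi
  obtain ⟨hrn, hne, hnn, _⟩ := chkNg_spec D ok.ng (D.simple i) hp
  refine ⟨fun s => (nImg D (D.simple i) s).2, ?_, ?_, ?_, ?_, ?_⟩
  · intro s hs
    exact sgn_spec _ (chkEta_spec D hE i hi s hs).2.1
  · show (nImg D (D.simple i) (D.simple i)).2 = -1
    unfold nImg
    rw [if_pos rfl]
  · show (nImg D (D.simple i) (D.neg (D.simple i))).2 = -1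
    unfold nImg
    rw [if_neg hne, if_pos rfl]
  · intro s hs
    exact ⟨(chkEta_spec D hE i hi s hs).2.2.1, (chkEta_spec D hE i hi s hs).2.2.2⟩
  · ext row col
    have hcol : D.nMat F (D.simple i) 1 row col =
        Matrix.mulVec (D.nMat F (D.simple i) 1) (Pi.single col 1) row := by
      rw [Matrix.mulVec_single_one]
      rfl
    rw [hcol]
    rcases col with j | s
    · have hHv : (Pi.single (Sum.inl j) 1 : D.Idx → F) = Hv D j := rfl
      have hHr : (Hr D (D.simple i) : D.Idx → F) = Hv D ⟨i, hi⟩ := by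
        unfold Hr
        rw [Finset.sum_eq_single (⟨i, hi⟩ : Fin D.rank)]
        · rw [chkSimpCo_spec D hC i i hi hi, if_pos rfl]
          simp
        · intro k _ hk
          rw [chkSimpCo_spec D hC i k.val hi k.isLt, if_neg (fun h => hk (Fin.ext h))]
          simp
        · intro h
          exact absurd (Finset.mem_univ _) h
      rw [hHv, nMat_mulVec, (nOp_adj D ok.add ok.ng (D.simple i) hp 1 one_ne_zero).2.2 j, hHr]
      rcases row with j' | s'
      · simp only [Matrix.of_apply, Sum.elim_inl, Pi.sub_apply, Pi.smul_apply, Hv_inl, smul_eq_mul]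
        by_cases h : (j' : ℕ) = i
        · have h' : j' = ⟨i, hi⟩ := Fin.ext h
          simp [h, h']
        · have h' : j' ≠ ⟨i, hi⟩ := fun h'' => h (congrArg Fin.val h'')
          simp [h, h']
      · simp only [Matrix.of_apply, Sum.elim_inr, Sum.elim_inl, Pi.sub_apply, Pi.smul_apply, Hv_inr,
          smul_eq_mul, mul_zero, sub_zero]
    · have hEv : (Pi.single (Sum.inr s) 1 : D.Idx → F) = Ev D s.val := by
        unfold Ev
        rw [dif_pos s.isLt]
      rw [hEv, nMat_Ev D ok (D.simple i) hp s.val s.isLt, (chkEta_spec D hE i hi s.val s.isLt).1]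
      rcases row with j' | s'
      · simp only [Matrix.of_apply, Sum.elim_inl, Sum.elim_inr, Pi.smul_apply, Ev_inl, smul_eq_mul,
          mul_zero]
      · simp only [Matrix.of_apply, Sum.elim_inr, Pi.smul_apply, Ev_inr, smul_eq_mul]
        by_cases h : (s' : ℕ) = D.reflectRoot i s.val
        · simp [h]
        · have h' : ¬ D.reflectRoot i s.val = (s' : ℕ) := fun h'' => h h''.symm
          simp [h, h']

end nexact

end Cfsg.Agent.Lib.Helper3
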