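import Mathlib
import Cfsg.Prelude.Def_ChevStructure

set_option autoImplicit false

namespace Cfsg.Agent.Lib.Helper3

open Cfsg.Lie

/-- tables of a graph symmetry of a Chevalley datum: the permutation of the fundamental roots and
of all roots (with inverses) and the signs of the induced map on root vectors -/
structure GraphData where
  rho0 : List ℕ
  rho0inv : List ℕ
  rho : List ℕ
  rhoinv : List ℕ
  eps : List ℤ

def chkG1 (D : ChevalleyDatum) (G : GraphData) : Bool :=
  (List.range D.nroots).all fun s =>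
    decide (G.rho.getD s 0 < D.nroots) && decide (G.rhoinv.getD s 0 < D.nroots) &&
    decide (G.rhoinv.getD (G.rho.getD s 0) 0 = s) && decide (G.rho.getD (G.rhoinv.getD s 0) 0 = s) &&
    (decide (G.eps.getD s 1 = 1) || decide (G.eps.getD s 1 = -1)) &&
    decide (D.negIdx.getD s 0 < D.nroots) &&
    decide (D.negIdx.getD (G.rho.getD s 0) 0 = G.rho.getD (D.negIdx.getD s 0) 0) &&
    decide (G.eps.getD (D.negIdx.getD s 0) 1 = G.eps.getD s 1)

structure G1Spec (D : ChevalleyDatum) (G : GraphData) : Prop where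
  rho_lt : ∀ s < D.nroots, G.rho.getD s 0 < D.nroots
  rhoinv_lt : ∀ s < D.nroots, G.rhoinv.getD s 0 < D.nroots
  left : ∀ s < D.nroots, G.rhoinv.getD (G.rho.getD s 0) 0 = s
  right : ∀ s < D.nroots, G.rho.getD (G.rhoinv.getD s 0) 0 = s
  eps : ∀ s < D.nroots, G.eps.getD s 1 = 1 ∨ G.eps.getD s 1 = -1
  neg_lt : ∀ s < D.nroots, D.negIdx.getD s 0 < D.nroots
  neg_rho : ∀ s < D.nroots, D.negIdx.getD (G.rho.getD s 0) 0 = G.rho.getD (D.negIdx.getD s 0) 0
  eps_neg : ∀ s < D.nroots, G.eps.getD (D.negIdx.getD s 0) 1 = G.eps.getD s 1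

theorem chkG1_spec (D : ChevalleyDatum) (G : GraphData) (h : chkG1 D G = true) : G1Spec D G := by
  unfold chkG1 at h
  rw [List.all_eq_true] at h
  have h' : ∀ s < D.nroots, _ := fun s hs => by
    have := h s (List.mem_range.mpr hs)
    simpa only [Bool.and_eq_true, Bool.or_eq_true, decide_eq_true_eq] using this
  exact ⟨fun s hs => (h' s hs).1.1.1.1.1.1.1, fun s hs => (h' s hs).1.1.1.1.1.1.2,
    fun s hs => (h' s hs).1.1.1.1.1.2, fun s hs => (h' s hs).1.1.1.1.2,
    fun s hs => (h' s hs).1.1.1.2, fun s hs => (h' s hs).1.1.2, fun s hs => (h' s hs).1.2,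
    fun s hs => (h' s hs).2⟩

def chkG2 (D : ChevalleyDatum) (G : GraphData) : Bool :=
  (List.range D.rank).all fun i =>
    decide (G.rho0.getD i 0 < D.rank) && decide (G.rho0inv.getD i 0 < D.rank) &&
    decide (G.rho0inv.getD (G.rho0.getD i 0) 0 = i) && decide (G.rho0.getD (G.rho0inv.getD i 0) 0 = i) &&
    decide (D.simple i < D.nroots) && decide (D.neg (D.simple i) < D.nroots) &&
    decide (G.rho.getD (D.simple i) 0 = D.simple (G.rho0.getD i 0)) &&
    decide (G.rho.getD (D.neg (D.simple i)) 0 = D.neg (D.simple (G.rho0.getD i 0))) &&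
    decide (G.eps.getD (D.simple i) 1 = 1) && decide (G.eps.getD (D.neg (D.simple i)) 1 = 1) &&
    (List.range D.nroots).all fun r =>
      decide ((D.cartanSR.getD (G.rho0.getD i 0) #[]).getD (G.rho.getD r 0) 0 =
        (D.cartanSR.getD i #[]).getD r 0) &&
      decide ((D.coroot.getD (G.rho.getD r 0) #[]).getD (G.rho0.getD i 0) 0 =
        (D.coroot.getD r #[]).getD i 0)

structure G2Spec (D : ChevalleyDatum) (G : GraphData) : Prop where
  rho0_lt : ∀ i < D.rank, G.rho0.getD i 0 < D.rank
  rho0inv_lt : ∀ i < D.rank, G.rho0inv.getD i 0 < D.rank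
  left : ∀ i < D.rank, G.rho0inv.getD (G.rho0.getD i 0) 0 = i
  right : ∀ i < D.rank, G.rho0.getD (G.rho0inv.getD i 0) 0 = i
  simple_lt : ∀ i < D.rank, D.simple i < D.nroots
  nsimple_lt : ∀ i < D.rank, D.neg (D.simple i) < D.nroots
  rho_simple : ∀ i < D.rank, G.rho.getD (D.simple i) 0 = D.simple (G.rho0.getD i 0)
  rho_nsimple : ∀ i < D.rank, G.rho.getD (D.neg (D.simple i)) 0 = D.neg (D.simple (G.rho0.getD i 0))
  eps_simple : ∀ i < D.rank, G.eps.getD (D.simple i) 1 = 1
  eps_nsimple : ∀ i < D.rank, G.eps.getD (D.neg (D.simple i)) 1 = 1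
  cart : ∀ i < D.rank, ∀ r < D.nroots,
    (D.cartanSR.getD (G.rho0.getD i 0) #[]).getD (G.rho.getD r 0) 0 = (D.cartanSR.getD i #[]).getD r 0
  coroot : ∀ i < D.rank, ∀ r < D.nroots,
    (D.coroot.getD (G.rho.getD r 0) #[]).getD (G.rho0.getD i 0) 0 = (D.coroot.getD r #[]).getD i 0

theorem chkG2_spec (D : ChevalleyDatum) (G : GraphData) (h : chkG2 D G = true) : G2Spec D G := by
  unfold chkG2 at h
  rw [List.all_eq_true] at h
  have h' : ∀ i < D.rank, _ := fun i hi => by
    have := h i (List.mem_range.mpr hi)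
    simpa only [Bool.and_eq_true, decide_eq_true_eq, List.all_eq_true, List.mem_range] using this
  exact ⟨fun s hs => (h' s hs).1.1.1.1.1.1.1.1.1.1, fun s hs => (h' s hs).1.1.1.1.1.1.1.1.1.2,
    fun s hs => (h' s hs).1.1.1.1.1.1.1.1.2, fun s hs => (h' s hs).1.1.1.1.1.1.1.2,
    fun s hs => (h' s hs).1.1.1.1.1.1.2, fun s hs => (h' s hs).1.1.1.1.1.2,
    fun s hs => (h' s hs).1.1.1.1.2, fun s hs => (h' s hs).1.1.1.2,
    fun s hs => (h' s hs).1.1.2, fun s hs => (h' s hs).1.2,
    fun s hs r hr => ((h' s hs).2 r hr).1, fun s hs r hr => ((h' s hs).2 r hr).2⟩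

def cmpChain (G : GraphData) (N : ℕ) (er es : ℤ) : List (ℕ × ℤ) → List (ℕ × ℤ) → ℕ → Bool
  | [], [], _ => true
  | (u, M) :: l, (u', M') :: l', n =>
      decide (u < N) && decide (u' = G.rho.getD u 0) &&
        decide (M' = er ^ (n + 1) * G.eps.getD u 1 * es * M) && cmpChain G N er es l l' (n + 1)
  | _, _, _ => false

def chkGPair (D : ChevalleyDatum) (G : GraphData) (r s : ℕ) : Bool :=
  match (D.chain.getD r #[]).toList.filter (fun e => e.1 = s),
        (D.chain.getD (G.rho.getD r 0) #[]).toList.filter (fun e => e.1 = G.rho.getD s 0) with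
  | [], [] => true
  | [e], [e'] => cmpChain G D.nroots (G.eps.getD r 1) (G.eps.getD s 1) e.2.toList e'.2.toList 0
  | _, _ => false

def chkG3 (D : ChevalleyDatum) (G : GraphData) (r : ℕ) : Bool :=
  (List.range D.nroots).all fun s => chkGPair D G r s

section spec

variable (D : ChevalleyDatum) (G : GraphData)

theorem cmpChain_spec (N : ℕ)
    (hinj : ∀ u u', u < N → u' < N → G.rho.getD u 0 = G.rho.getD u' 0 → u = u')
    (er es : ℤ) (her : er * er = 1) {F : Type*} [Field F] (t : F) (u : ℕ) (hu : u < N) :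
    ∀ (l l' : List (ℕ × ℤ)) (n : ℕ), cmpChain G N er es l l' n = true →
      ((((l'.zipIdx n).filter (fun q => q.1.1 = G.rho.getD u 0)).map
          fun q => (q.2 + 1, q.1.2)).map fun km => ((km.2 : ℤ) : F) * ((er : F) * t) ^ km.1).sum =
        ((G.eps.getD u 1 : ℤ) : F) * (es : F) *
          ((((l.zipIdx n).filter (fun q => q.1.1 = u)).map
            fun q => (q.2 + 1, q.1.2)).map fun km => ((km.2 : ℤ) : F) * t ^ km.1).sum := by
  intro l
  induction l with
  | nil =>
    intro l' n h
    cases l' with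
    | nil => simp
    | cons a l' => simp [cmpChain] at h
  | cons a l ih =>
    intro l' n h
    cases l' with
    | nil => simp [cmpChain] at h
    | cons a' l' =>
      obtain ⟨u1, M1⟩ := a
      obtain ⟨u1', M1'⟩ := a'
      simp only [cmpChain, Bool.and_eq_true, decide_eq_true_eq] at h
      obtain ⟨⟨⟨h1, h2⟩, h3⟩, h4⟩ := h
      have hrec := ih l' (n + 1) h4
      rw [List.zipIdx_cons, List.zipIdx_cons, List.filter_cons, List.filter_cons]
      by_cases hu1 : u1 = u
      · subst hu1
        have e1 : decide (((u1', M1'), n).1.1 = G.rho.getD u1 0) = true := by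
          simp [h2]
        have e2 : decide (((u1, M1), n).1.1 = u1) = true := by simp
        rw [if_pos e1, if_pos e2]
        simp only [List.map_cons, List.sum_cons]
        rw [hrec, h3]
        have her' : ((er : ℤ) : F) ^ (n + 1) * ((er : ℤ) : F) ^ (n + 1) = 1 := by
          rw [← mul_pow, ← Int.cast_mul, her, Int.cast_one, one_pow]
        push_cast
        rw [mul_pow]
        linear_combination (((G.eps.getD u1 1 : ℤ) : F) * (es : F) * (M1 : F) * t ^ (n + 1)) * her'
      · have e1 : ¬ decide (((u1', M1'), n).1.1 = G.rho.getD u 0) = true := by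
          simp only [decide_eq_true_eq]
          rw [h2]
          intro hh
          exact hu1 (hinj u1 u h1 hu hh)
        have e2 : ¬ decide (((u1, M1), n).1.1 = u) = true := by simpa using hu1
        rw [if_neg e1, if_neg e2]
        exact hrec

theorem rho_inj (h1 : G1Spec D G) (u u' : ℕ) (hu : u < D.nroots) (hu' : u' < D.nroots)
    (h : G.rho.getD u 0 = G.rho.getD u' 0) : u = u' := by
  have := h1.left u hu
  rw [h, h1.left u' hu'] at this
  exact this.symm

theorem eps_sq (h1 : G1Spec D G) (s : ℕ) (hs : s < D.nroots) :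
    G.eps.getD s 1 * G.eps.getD s 1 = 1 := by
  rcases h1.eps s hs with h | h <;> rw [h] <;> rfl

theorem chainCoeff_graph (h1 : G1Spec D G) (r s u : ℕ) (hr : r < D.nroots) (hs : s < D.nroots)
    (hu : u < D.nroots) (hp : chkGPair D G r s = true) {F : Type*} [Field F] (t : F) :
    ((D.chainCoeff (G.rho.getD r 0) (G.rho.getD s 0) (G.rho.getD u 0)).map
        fun km => ((km.2 : ℤ) : F) * (((G.eps.getD r 1 : ℤ) : F) * t) ^ km.1).sum =
      ((G.eps.getD u 1 : ℤ) : F) * ((G.eps.getD s 1 : ℤ) : F) *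
        ((D.chainCoeff r s u).map fun km => ((km.2 : ℤ) : F) * t ^ km.1).sum := by
  unfold chkGPair at hp
  unfold ChevalleyDatum.chainCoeff
  generalize (D.chain.getD r #[]).toList.filter (fun e => e.1 = s) = L at hp ⊢
  generalize (D.chain.getD (G.rho.getD r 0) #[]).toList.filter
    (fun e => e.1 = G.rho.getD s 0) = L' at hp ⊢
  match L, L', hp with
  | [], [], _ => simp
  | [e], [e'], hp =>
    simp only [List.flatMap_cons, List.flatMap_nil, List.append_nil]
    exact cmpChain_spec G D.nroots (rho_inj D G h1) _ _ (eps_sq D G h1 r hr) t u hu _ _ 0 hp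

/-- the permutation of the root indices -/
def rootPerm (h1 : G1Spec D G) : Equiv.Perm (Fin D.nroots) where
  toFun s := ⟨G.rho.getD s.val 0, h1.rho_lt s.val s.isLt⟩
  invFun s := ⟨G.rhoinv.getD s.val 0, h1.rhoinv_lt s.val s.isLt⟩
  left_inv s := Fin.ext (h1.left s.val s.isLt)
  right_inv s := Fin.ext (h1.right s.val s.isLt)

/-- the permutation of the fundamental root indices -/
def simpPerm (h2 : G2Spec D G) : Equiv.Perm (Fin D.rank) where
  toFun i := ⟨G.rho0.getD i.val 0, h2.rho0_lt i.val i.isLt⟩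
  invFun i := ⟨G.rho0inv.getD i.val 0, h2.rho0inv_lt i.val i.isLt⟩
  left_inv i := Fin.ext (h2.left i.val i.isLt)
  right_inv i := Fin.ext (h2.right i.val i.isLt)

theorem rootPerm_val (h1 : G1Spec D G) (s : Fin D.nroots) :
    (rootPerm D G h1 s).val = G.rho.getD s.val 0 := rfl

theorem simpPerm_val (h2 : G2Spec D G) (i : Fin D.rank) :
    (simpPerm D G h2 i).val = G.rho0.getD i.val 0 := rfl

/-- the permutation of the coordinate index set -/
def idxPerm (h1 : G1Spec D G) (h2 : G2Spec D G) : Equiv.Perm D.Idx :=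
  Equiv.sumCongr (simpPerm D G h2) (rootPerm D G h1)

/-- the signs on the coordinates -/
def sgnF (F : Type*) [Field F] : D.Idx → F :=
  Sum.elim (fun _ => 1) (fun s => ((G.eps.getD s.val 1 : ℤ) : F))

theorem xMat_graph (h1 : G1Spec D G) (h2 : G2Spec D G)
    (h3 : ∀ r < D.nroots, chkG3 D G r = true) {F : Type*} [Field F]
    (r : Fin D.nroots) (t : F) (a b : D.Idx) :
    D.xMat F (rootPerm D G h1 r) (((G.eps.getD r.val 1 : ℤ) : F) * t)
        (idxPerm D G h1 h2 a) (idxPerm D G h1 h2 b) =
      sgnF D G F a * sgnF D G F b * D.xMat F r t a b := by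
  have hε : ∀ s : Fin D.nroots,
      ((G.eps.getD s.val 1 : ℤ) : F) * ((G.eps.getD s.val 1 : ℤ) : F) = 1 := by
    intro s
    rw [← Int.cast_mul, eps_sq D G h1 s.val s.isLt, Int.cast_one]
  have hinj : ∀ u v : Fin D.nroots, rootPerm D G h1 u = rootPerm D G h1 v ↔ u = v :=
    fun u v => (rootPerm D G h1).apply_eq_iff_eq
  rcases b with i | s
  · rcases a with i' | u
    · simp [idxPerm, sgnF, ChevalleyDatum.xMat]
    · simp only [idxPerm, Equiv.sumCongr_apply, Sum.map_inl, Sum.map_inr, ChevalleyDatum.xMat,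
        Matrix.of_apply, sgnF, Sum.elim_inl, Sum.elim_inr, hinj, rootPerm_val, simpPerm_val]
      by_cases h : u = r
      · subst h
        rw [if_pos rfl, if_pos rfl, h2.cart i.val i.isLt u.val u.isLt]
        ring
      · rw [if_neg h, if_neg h, mul_zero]
  · by_cases hs : s = r
    · subst hs
      rcases a with i' | u
      · simp [idxPerm, sgnF, ChevalleyDatum.xMat]
      · simp only [idxPerm, Equiv.sumCongr_apply, Sum.map_inr, ChevalleyDatum.xMat,
          Matrix.of_apply, sgnF, Sum.elim_inr, hinj, if_true]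
        by_cases h : u = s
        · subst h
          rw [if_pos rfl, mul_one, hε]
        · rw [if_neg h, mul_zero]
    · by_cases hn : s.val = D.negIdx.getD r.val 0
      · have hn' : (rootPerm D G h1 s).val = D.negIdx.getD (rootPerm D G h1 r).val 0 := by
          rw [rootPerm_val, rootPerm_val, h1.neg_rho r.val r.isLt, hn]
        have hεs : G.eps.getD s.val 1 = G.eps.getD r.val 1 := by
          rw [hn, h1.eps_neg r.val r.isLt]
        rcases a with i' | u
        · simp only [idxPerm, Equiv.sumCongr_apply, Sum.map_inl, Sum.map_inr, ChevalleyDatum.xMat,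
            Matrix.of_apply, sgnF, Sum.elim_inl, Sum.elim_inr, hinj, if_neg hs, if_pos hn,
            if_pos hn']
          rw [rootPerm_val, simpPerm_val, h2.coroot i'.val i'.isLt r.val r.isLt, hεs]
          ring
        · simp only [idxPerm, Equiv.sumCongr_apply, Sum.map_inr, ChevalleyDatum.xMat,
            Matrix.of_apply, sgnF, Sum.elim_inr, hinj, if_neg hs, if_pos hn, if_pos hn']
          by_cases h : u = s
          · subst h
            rw [if_pos rfl, if_pos rfl, mul_one, hε]
          · rw [if_neg h, if_neg h]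
            by_cases h' : u = r
            · subst h'
              rw [if_pos rfl, if_pos rfl, hεs]
              ring
            · rw [if_neg h', if_neg h', mul_zero]
      · have hn' : ¬ (rootPerm D G h1 s).val = D.negIdx.getD (rootPerm D G h1 r).val 0 := by
          rw [rootPerm_val, rootPerm_val, h1.neg_rho r.val r.isLt]
          intro hh
          exact hn (rho_inj D G h1 _ _ s.isLt (h1.neg_lt r.val r.isLt) hh)
        rcases a with i' | u
        · simp only [idxPerm, Equiv.sumCongr_apply, Sum.map_inl, Sum.map_inr, ChevalleyDatum.xMat,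
            Matrix.of_apply, sgnF, Sum.elim_inl, Sum.elim_inr, hinj, if_neg hs, if_neg hn,
            if_neg hn', mul_zero]
        · simp only [idxPerm, Equiv.sumCongr_apply, Sum.map_inr, ChevalleyDatum.xMat,
            Matrix.of_apply, sgnF, Sum.elim_inr, hinj, if_neg hs, if_neg hn, if_neg hn']
          have hp : chkGPair D G r.val s.val = true := by
            have := h3 r.val r.isLt
            unfold chkG3 at this
            rw [List.all_eq_true] at this
            exact this s.val (List.mem_range.mpr s.isLt)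
          rw [rootPerm_val, rootPerm_val, rootPerm_val,
            chainCoeff_graph D G h1 r.val s.val u.val r.isLt s.isLt u.isLt hp t, mul_add]
          congr 1
          by_cases h : u = s
          · subst h
            rw [if_pos rfl, mul_one, hε]
          · rw [if_neg h, mul_zero]

end spec

section aut

variable (D : ChevalleyDatum) (G : GraphData) {F : Type*} [Field F]

/-- the signed permutation matrix of the graph symmetry -/
noncomputable def graphMat (h1 : G1Spec D G) (h2 : G2Spec D G) : Matrix D.Idx D.Idx F :=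
  (idxPerm D G h1 h2).symm.toPEquiv.toMatrix * Matrix.diagonal (sgnF D G F)

/-- its inverse -/
noncomputable def graphMatInv (h1 : G1Spec D G) (h2 : G2Spec D G) : Matrix D.Idx D.Idx F :=
  Matrix.diagonal (sgnF D G F) * (idxPerm D G h1 h2).toPEquiv.toMatrix

theorem sgnF_sq (h1 : G1Spec D G) (a : D.Idx) : sgnF D G F a * sgnF D G F a = 1 := by
  rcases a with i | s
  · simp [sgnF]
  · simp only [sgnF, Sum.elim_inr]
    rw [← Int.cast_mul, eps_sq D G h1 s.val s.isLt, Int.cast_one]

theorem diag_sgn_sq (h1 : G1Spec D G) :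
    Matrix.diagonal (sgnF D G F) * Matrix.diagonal (sgnF D G F) = 1 := by
  rw [Matrix.diagonal_mul_diagonal, ← Matrix.diagonal_one]
  congr 1
  funext a
  exact sgnF_sq D G h1 a

theorem perm_symm_mul (π : Equiv.Perm D.Idx) :
    (π.symm.toPEquiv.toMatrix * π.toPEquiv.toMatrix : Matrix D.Idx D.Idx F) = 1 := by
  rw [← PEquiv.toMatrix_trans, ← Equiv.toPEquiv_trans, Equiv.symm_trans_self, Equiv.toPEquiv_refl,
    PEquiv.toMatrix_refl]

theorem perm_mul_symm (π : Equiv.Perm D.Idx) :
    (π.toPEquiv.toMatrix * π.symm.toPEquiv.toMatrix : Matrix D.Idx D.Idx F) = 1 := by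
  rw [← PEquiv.toMatrix_trans, ← Equiv.toPEquiv_trans, Equiv.self_trans_symm, Equiv.toPEquiv_refl,
    PEquiv.toMatrix_refl]

theorem graphMat_mul_inv (h1 : G1Spec D G) (h2 : G2Spec D G) :
    graphMat D G h1 h2 * graphMatInv D G h1 h2 = (1 : Matrix D.Idx D.Idx F) := by
  unfold graphMat graphMatInv
  rw [Matrix.mul_assoc, ← Matrix.mul_assoc (Matrix.diagonal _), diag_sgn_sq D G h1, Matrix.one_mul,
    perm_symm_mul]

theorem graphMatInv_mul (h1 : G1Spec D G) (h2 : G2Spec D G) :
    graphMatInv D G h1 h2 * graphMat D G h1 h2 = (1 : Matrix D.Idx D.Idx F) := by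
  unfold graphMat graphMatInv
  rw [Matrix.mul_assoc, ← Matrix.mul_assoc (Equiv.toPEquiv _).toMatrix, perm_mul_symm, Matrix.one_mul,
    diag_sgn_sq D G h1]

theorem graphMat_conj (h1 : G1Spec D G) (h2 : G2Spec D G)
    (h3 : ∀ r < D.nroots, chkG3 D G r = true) (r : Fin D.nroots) (t : F) :
    graphMat D G h1 h2 * D.xMat F r t * graphMatInv D G h1 h2 =
      D.xMat F (rootPerm D G h1 r) (((G.eps.getD r.val 1 : ℤ) : F) * t) := by
  unfold graphMat graphMatInv
  have e : (idxPerm D G h1 h2).symm.toPEquiv.toMatrix * Matrix.diagonal (sgnF D G F) * D.xMat F r t *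
      (Matrix.diagonal (sgnF D G F) * (idxPerm D G h1 h2).toPEquiv.toMatrix) =
      (idxPerm D G h1 h2).symm.toPEquiv.toMatrix *
        (Matrix.diagonal (sgnF D G F) * D.xMat F r t * Matrix.diagonal (sgnF D G F)) *
        (idxPerm D G h1 h2).toPEquiv.toMatrix := by
    simp only [Matrix.mul_assoc]
  rw [e, PEquiv.toMatrix_toPEquiv_mul, PEquiv.mul_toMatrix_toPEquiv]
  ext a b
  simp only [Matrix.submatrix_apply, id, Matrix.diagonal_mul, Matrix.mul_diagonal]
  have h := xMat_graph D G h1 h2 h3 r t ((idxPerm D G h1 h2).symm a) ((idxPerm D G h1 h2).symm b)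
  rw [Equiv.apply_symm_apply, Equiv.apply_symm_apply] at h
  rw [h]
  ring

/-- the signed permutation matrix as an element of the general linear group -/
noncomputable def graphGL (h1 : G1Spec D G) (h2 : G2Spec D G) : GL D.Idx F :=
  ⟨graphMat D G h1 h2, graphMatInv D G h1 h2, graphMat_mul_inv D G h1 h2, graphMatInv_mul D G h1 h2⟩

/-- conjugation by the signed permutation matrix -/
noncomputable def graphEquiv (h1 : G1Spec D G) (h2 : G2Spec D G) : GL D.Idx F ≃* GL D.Idx F :=
  MulAut.conj (graphGL D G h1 h2)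

theorem graphEquiv_coe (h1 : G1Spec D G) (h2 : G2Spec D G) (g : GL D.Idx F) :
    ((graphEquiv D G h1 h2 g : GL D.Idx F) : Matrix D.Idx D.Idx F) =
      graphMat D G h1 h2 * (g : Matrix D.Idx D.Idx F) * graphMatInv D G h1 h2 := rfl

theorem graphEquiv_symm_coe (h1 : G1Spec D G) (h2 : G2Spec D G) (g : GL D.Idx F) :
    (((graphEquiv D G h1 h2).symm g : GL D.Idx F) : Matrix D.Idx D.Idx F) =
      graphMatInv D G h1 h2 * (g : Matrix D.Idx D.Idx F) * graphMat D G h1 h2 := rfl

theorem group_map_graph (h1 : G1Spec D G) (h2 : G2Spec D G)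
    (h3 : ∀ r < D.nroots, chkG3 D G r = true) :
    (D.group F).map ((graphEquiv D G h1 h2 : GL D.Idx F ≃* GL D.Idx F) : GL D.Idx F →* GL D.Idx F) =
      D.group F := by
  unfold ChevalleyDatum.group
  rw [MonoidHom.map_closure]
  congr 1
  ext g
  constructor
  · rintro ⟨g0, ⟨r, t, hg0⟩, rfl⟩
    refine ⟨rootPerm D G h1 r, ((G.eps.getD r.val 1 : ℤ) : F) * t, ?_⟩
    have h := graphEquiv_coe D G h1 h2 g0
    rw [hg0, graphMat_conj D G h1 h2 h3] at h
    exact h
  · rintro ⟨r, t, hg⟩
    refine ⟨(graphEquiv D G h1 h2).symm g,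
      ⟨(rootPerm D G h1).symm r,
        ((G.eps.getD ((rootPerm D G h1).symm r).val 1 : ℤ) : F) * t, ?_⟩, ?_⟩
    · have h := graphMat_conj D G h1 h2 h3 ((rootPerm D G h1).symm r)
        (((G.eps.getD ((rootPerm D G h1).symm r).val 1 : ℤ) : F) * t)
      have hε : ((G.eps.getD ((rootPerm D G h1).symm r).val 1 : ℤ) : F) *
          (((G.eps.getD ((rootPerm D G h1).symm r).val 1 : ℤ) : F) * t) = t := by
        rw [← mul_assoc, ← Int.cast_mul, eps_sq D G h1 _ (Fin.isLt _), Int.cast_one, one_mul]
      rw [Equiv.apply_symm_apply, hε] at h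
      rw [graphEquiv_symm_coe, hg, ← h]
      calc graphMatInv D G h1 h2 * (graphMat D G h1 h2 * D.xMat F ((rootPerm D G h1).symm r)
            (((G.eps.getD ((rootPerm D G h1).symm r).val 1 : ℤ) : F) * t) * graphMatInv D G h1 h2) *
            graphMat D G h1 h2
          = (graphMatInv D G h1 h2 * graphMat D G h1 h2) * D.xMat F ((rootPerm D G h1).symm r)
            (((G.eps.getD ((rootPerm D G h1).symm r).val 1 : ℤ) : F) * t) *
            (graphMatInv D G h1 h2 * graphMat D G h1 h2) := by simp only [Matrix.mul_assoc]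
        _ = _ := by rw [graphMatInv_mul, Matrix.one_mul, Matrix.mul_one]
    · exact MulEquiv.apply_symm_apply _ g

theorem exists_graph_aut (h1 : G1Spec D G) (h2 : G2Spec D G)
    (h3 : ∀ r < D.nroots, chkG3 D G r = true) :
    ∃ α : ↥(D.group F) ≃* ↥(D.group F), ∀ (g : ↥(D.group F)) (i : ℕ) (t : F), i < D.rank →
      (((g : GL D.Idx F) : Matrix D.Idx D.Idx F) = D.x F (D.simple i) t →
        ((α g : GL D.Idx F) : Matrix D.Idx D.Idx F) = D.x F (D.simple (G.rho0.getD i 0)) t) ∧
      (((g : GL D.Idx F) : Matrix D.Idx D.Idx F) = D.x F (D.neg (D.simple i)) t →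
        ((α g : GL D.Idx F) : Matrix D.Idx D.Idx F) =
          D.x F (D.neg (D.simple (G.rho0.getD i 0))) t) := by
  refine ⟨((graphEquiv D G h1 h2).subgroupMap (D.group F)).trans
    (MulEquiv.subgroupCongr (group_map_graph D G h1 h2 h3)), ?_⟩
  intro g i t hi
  have hval : ∀ g : ↥(D.group F),
      (((((graphEquiv D G h1 h2).subgroupMap (D.group F)).trans
        (MulEquiv.subgroupCongr (group_map_graph D G h1 h2 h3)) g : ↥(D.group F)) :
          GL D.Idx F) : Matrix D.Idx D.Idx F) =
        graphMat D G h1 h2 * ((g : GL D.Idx F) : Matrix D.Idx D.Idx F) * graphMatInv D G h1 h2 := by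
    intro g
    rw [MulEquiv.trans_apply, MulEquiv.subgroupCongr_apply, MulEquiv.coe_subgroupMap_apply,
      graphEquiv_coe]
  have hi' : G.rho0.getD i 0 < D.rank := h2.rho0_lt i hi
  constructor
  · intro hg
    have hlt := h2.simple_lt i hi
    have hlt' := h2.simple_lt _ hi'
    rw [hval, hg]
    unfold ChevalleyDatum.x
    rw [dif_pos hlt, dif_pos hlt', graphMat_conj D G h1 h2 h3]
    have e : rootPerm D G h1 ⟨D.simple i, hlt⟩ = ⟨D.simple (G.rho0.getD i 0), hlt'⟩ :=
      Fin.ext (h2.rho_simple i hi)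
    rw [e]
    simp only [h2.eps_simple i hi, Int.cast_one, one_mul]
  · intro hg
    have hlt := h2.nsimple_lt i hi
    have hlt' := h2.nsimple_lt _ hi'
    rw [hval, hg]
    unfold ChevalleyDatum.x
    rw [dif_pos hlt, dif_pos hlt', graphMat_conj D G h1 h2 h3]
    have e : rootPerm D G h1 ⟨D.neg (D.simple i), hlt⟩ =
        ⟨D.neg (D.simple (G.rho0.getD i 0)), hlt'⟩ :=
      Fin.ext (h2.rho_nsimple i hi)
    rw [e]
    simp only [h2.eps_nsimple i hi, Int.cast_one, one_mul]

end aut

end Cfsg.Agent.Lib.Helper3
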