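import Mathlib
import Cfsg.Agent.Lib.Helper3.ChevHChar

set_option autoImplicit false

namespace Cfsg.Agent.Lib.Helper3

open Cfsg.Lie

/-- evaluate the argument first, so that the continuation receives a numeral -/
def forceNat (n : ℕ) (k : ℕ → Bool) : Bool :=
  match n with
  | 0 => k 0
  | m + 1 => k (m + 1)

theorem forceNat_eq (n : ℕ) (k : ℕ → Bool) : forceNat n k = k n := by
  cases n <;> rfl

/-- a row of small integers packed into one natural number, base 16 -/
def packRow : List ℤ → ℕ
  | [] => 0
  | a :: l => (a + 8).toNat + 16 * packRow l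

def okRow : List ℤ → Bool
  | [] => true
  | a :: l => decide (-8 ≤ a) && decide (a < 8) && okRow l

def digit (R s : ℕ) : ℕ := (R / 16 ^ s) % 16

theorem digit_packRow (l : List ℤ) (hl : okRow l = true) (s : ℕ) (hs : s < l.length) :
    (digit (packRow l) s : ℤ) = l.getD s 0 + 8 := by
  induction l generalizing s with
  | nil => simp at hs
  | cons a l ih =>
    simp only [okRow, Bool.and_eq_true, decide_eq_true_eq] at hl
    obtain ⟨⟨h1, h2⟩, h3⟩ := hl
    have hlt : (a + 8).toNat < 16 := by omega
    cases s with
    | zero =>
      simp only [digit, packRow, pow_zero, Nat.div_one, List.getD_cons_zero]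
      rw [Nat.add_mul_mod_self_left, Nat.mod_eq_of_lt hlt]
      omega
    | succ s =>
      have hs' : s < l.length := by simpa using hs
      have := ih h3 s hs'
      simp only [List.getD_cons_succ]
      rw [← this]
      simp only [digit, packRow]
      rw [pow_succ, mul_comm (16 ^ s) 16, ← Nat.div_div_eq_div_mul, Nat.add_mul_div_left _ _ (by norm_num : 0 < 16),
        Nat.div_eq_of_lt hlt, zero_add]

theorem cartan_eq_getD (D : ChevalleyDatum) (i s : ℕ) :
    D.cartan i s = (D.cartanSR.getD i #[]).toList.getD s 0 := by
  unfold ChevalleyDatum.cartan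
  generalize D.cartanSR.getD i #[] = a
  rcases a with ⟨l⟩
  simp only [Array.getD, List.getD, List.size_toArray, List.getElem_toArray,
    Array.getInternal_eq_getElem]
  split
  · rename_i h
    rw [List.getElem?_eq_getElem h]
    rfl
  · rename_i h
    rw [List.getElem?_eq_none (by omega)]
    rfl

/-- one row (one fundamental root) of the check `chkCA`, on the packed row -/
def rowCA (D : ChevalleyDatum) (i : ℕ) : Bool :=
  okRow (D.cartanSR.getD i #[]).toList &&
  forceNat (packRow (D.cartanSR.getD i #[]).toList) fun R =>
  forceNat (D.cartanSR.getD i #[]).toList.length fun n =>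
    (List.range D.nroots).all fun r => decide (r < n) &&
      (D.chain.getD r #[]).toList.all fun e =>
        match e.2.toList with
        | [] => true
        | q :: _ => decide (e.1 < n) && decide (q.1 < n) &&
            (digit R q.1 + 8 == digit R r + digit R e.1)

/-- the check `chkCA`, on packed rows -/
def chkCAp (D : ChevalleyDatum) : Bool :=
  (List.range D.rank).all (rowCA D)

theorem chkCA_of_chkCAp (D : ChevalleyDatum) (h : chkCAp D = true) : chkCA D = true := by
  unfold chkCA
  unfold chkCAp rowCA at h
  rw [List.all_eq_true] at h ⊢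
  intro r hr
  rw [List.all_eq_true]
  intro e he
  cases hq : e.2.toList with
  | nil => rfl
  | cons q l =>
    simp only
    rw [List.all_eq_true]
    intro i hi
    have h1 := h i hi
    rw [forceNat_eq, forceNat_eq, Bool.and_eq_true, List.all_eq_true] at h1
    obtain ⟨hok, h2⟩ := h1
    have h3 := h2 r hr
    rw [Bool.and_eq_true, List.all_eq_true, decide_eq_true_eq] at h3
    obtain ⟨hrn, h4⟩ := h3
    have h5 := h4 e he
    rw [hq] at h5
    simp only [Bool.and_eq_true, decide_eq_true_eq, beq_iff_eq] at h5
    obtain ⟨⟨hen, hqn⟩, h6⟩ := h5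
    have e1 := digit_packRow _ hok q.1 hqn
    have e2 := digit_packRow _ hok r hrn
    have e3 := digit_packRow _ hok e.1 hen
    rw [decide_eq_true_eq, cartan_eq_getD, cartan_eq_getD, cartan_eq_getD]
    have h7 : ((digit (packRow (D.cartanSR.getD i #[]).toList) q.1 : ℕ) : ℤ) + 8
        = (digit (packRow (D.cartanSR.getD i #[]).toList) r : ℕ)
          + (digit (packRow (D.cartanSR.getD i #[]).toList) e.1 : ℕ) := by
      exact_mod_cast h6
    rw [e1, e2, e3] at h7
    linarith

end Cfsg.Agent.Lib.Helper3
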