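import Mathlib
import Cfsg.Agent.Lib.Helper3.ChevGraph
import Cfsg.Agent.Lib.Helper3.ChevEta
import Cfsg.Agent.Lib.Helper3.ChevPack

set_option autoImplicit false

namespace Cfsg.Agent.Lib.Helper3

open Cfsg.Lie

/-- base 256 digit -/
def dig256 (R s : ℕ) : ℕ := (R / 256 ^ s) % 256

/-- sign read off a bit mask -/
def sgnBit (E s : ℕ) : ℤ := if (E / 2 ^ s) % 2 = 0 then 1 else -1

/-- the graph datum given by two functions on the root indices (an involution and signs) -/
def fnG (N : ℕ) (ρf : ℕ → ℕ) (εf : ℕ → ℤ) : GraphData :=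
  ⟨[], [], (List.range N).map ρf, (List.range N).map ρf, (List.range N).map εf⟩

/-- table check: `ρf` is an involution of the root indices commuting with negation, `εf` is a
sign invariant under negation -/
def chkF1 (D : ChevalleyDatum) (ρf : ℕ → ℕ) (εf : ℕ → ℤ) : Bool :=
  (List.range D.nroots).all fun s =>
    forceNat (ρf s) fun ws =>
      decide (ws < D.nroots) && decide (ρf ws = s) &&
      (decide (εf s = 1) || decide (εf s = -1)) &&
      decide (D.nroots - 1 - ws = ρf (D.nroots - 1 - s)) &&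
      decide (εf (D.nroots - 1 - s) = εf s)

/-- table check: negation is `s ↦ N - 1 - s` -/
def chkNegF (D : ChevalleyDatum) : Bool :=
  (List.range D.nroots).all fun s => decide (D.negIdx.getD s 0 = D.nroots - 1 - s)

def cmpChainF (ρf : ℕ → ℕ) (εf : ℕ → ℤ) (N : ℕ) (er es : ℤ) :
    List (ℕ × ℤ) → List (ℕ × ℤ) → ℕ → Bool
  | [], [], _ => true
  | (u, M) :: l, (u', M') :: l', n =>
      decide (u < N) && decide (u' = ρf u) &&
        decide (M' = er ^ (n + 1) * εf u * es * M) && cmpChainF ρf εf N er es l l' (n + 1)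
  | _, _, _ => false

def goRow (ρf : ℕ → ℕ) (εf : ℕ → ℤ) (N : ℕ) (er : ℤ) (L' : List (ℕ × Array (ℕ × ℤ))) :
    List (ℕ × Array (ℕ × ℤ)) → List ℕ → Bool
  | [], _ => true
  | e :: L, p :: ps =>
      (match L'[p]? with
       | some e' => decide (e.1 < N) && decide (e'.1 = ρf e.1) &&
           cmpChainF ρf εf N er (εf e.1) e.2.toList e'.2.toList 0
       | none => false) && goRow ρf εf N er L' L ps
  | _ :: _, [] => false

/-- one row of the chain-table check, with the positions of the image entries given -/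
def rowF (D : ChevalleyDatum) (ρf : ℕ → ℕ) (εf : ℕ → ℤ) (r : ℕ) (pos : List ℕ) : Bool :=
  forceNat (ρf r) fun rr =>
    goRow ρf εf D.nroots (εf r) (D.chain.getD rr #[]).toList (D.chain.getD r #[]).toList pos

/-- table check of the action of the reflection on the Cartan integers -/
def chkH2 (D : ChevalleyDatum) (ρf : ℕ → ℕ) (i : ℕ) : Bool :=
  decide (D.simple i < D.nroots) &&
  okRow (D.cartanSR.getD i #[]).toList &&
  decide ((D.cartanSR.getD i #[]).toList.length = D.nroots) &&
  forceNat (packRow (D.cartanSR.getD i #[]).toList) fun Ri =>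
  (List.range D.rank).all fun j =>
    okRow (D.cartanSR.getD j #[]).toList &&
    decide ((D.cartanSR.getD j #[]).toList.length = D.nroots) &&
    forceNat (packRow (D.cartanSR.getD j #[]).toList) fun Rj =>
    forceNat (digit Rj (D.simple i)) fun cjp =>
    (List.range D.nroots).all fun s => forceNat (ρf s) fun ws =>
      decide (ws < D.nroots) &&
      decide ((digit Rj s : ℤ) - 8 =
        ((digit Rj ws : ℤ) - 8) - ((digit Ri ws : ℤ) - 8) * ((cjp : ℤ) - 8))

/-- table check of the action of the reflection on the coroots -/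
def chkH1 (D : ChevalleyDatum) (ρf : ℕ → ℕ) (i : ℕ) : Bool :=
  (List.range D.nroots).all fun s => forceNat (ρf s) fun ws =>
    (List.range D.rank).all fun j =>
      decide ((D.coroot.getD ws #[]).getD j 0 = (D.coroot.getD s #[]).getD j 0 -
        (if j = i then ((List.range D.rank).map fun j' =>
          D.cartan j' (D.simple i) * (D.coroot.getD s #[]).getD j' 0).sum else 0))

/-- table check: the functions describe `n_p` -/
def chkLinkF (D : ChevalleyDatum) (ρf : ℕ → ℕ) (εf : ℕ → ℤ) (i : ℕ) : Bool :=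
  (List.range D.nroots).all fun s => decide (nImg D (D.simple i) s = (ρf s, εf s))

/-- several consecutive rows of the chain-table check -/
def rowsF (D : ChevalleyDatum) (ρf : ℕ → ℕ) (εf : ℕ → ℤ) : ℕ → List (List ℕ) → Bool
  | _, [] => true
  | r, pos :: rest => forceNat r fun r' => rowF D ρf εf r' pos && rowsF D ρf εf (r' + 1) rest

/-- the chain table of `r` is carried to that of its image, entry by entry -/
def RowOK (D : ChevalleyDatum) (G : GraphData) (r : ℕ) : Prop :=
  ∀ e ∈ (D.chain.getD r #[]).toList, ∃ e' ∈ (D.chain.getD (G.rho.getD r 0) #[]).toList,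
    e'.1 = G.rho.getD e.1 0 ∧
    cmpChain G D.nroots (G.eps.getD r 1) (G.eps.getD e.1 1) e.2.toList e'.2.toList 0 = true

section specF

variable (D : ChevalleyDatum) (ρf : ℕ → ℕ) (εf : ℕ → ℤ)

theorem fnG_rho (N s : ℕ) (hs : s < N) : (fnG N ρf εf).rho.getD s 0 = ρf s := by
  simp [fnG, List.getD_eq_getElem?_getD, hs]

theorem fnG_rhoinv (N s : ℕ) (hs : s < N) : (fnG N ρf εf).rhoinv.getD s 0 = ρf s := by
  simp [fnG, List.getD_eq_getElem?_getD, hs]

theorem fnG_eps (N s : ℕ) (hs : s < N) : (fnG N ρf εf).eps.getD s 1 = εf s := by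
  simp [fnG, List.getD_eq_getElem?_getD, hs]

theorem chkNegF_spec (hn : chkNegF D = true) (s : ℕ) (hs : s < D.nroots) :
    D.negIdx.getD s 0 = D.nroots - 1 - s := by
  unfold chkNegF at hn
  rw [List.all_eq_true] at hn
  simpa using hn s (List.mem_range.mpr hs)

theorem chkF1_spec' (h : chkF1 D ρf εf = true) (s : ℕ) (hs : s < D.nroots) :
    ρf s < D.nroots ∧ ρf (ρf s) = s ∧ (εf s = 1 ∨ εf s = -1) ∧
      D.nroots - 1 - ρf s = ρf (D.nroots - 1 - s) ∧ εf (D.nroots - 1 - s) = εf s := by
  unfold chkF1 at h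
  rw [List.all_eq_true] at h
  have := h s (List.mem_range.mpr hs)
  rw [forceNat_eq] at this
  simp only [Bool.and_eq_true, Bool.or_eq_true, decide_eq_true_eq] at this
  exact ⟨this.1.1.1.1, this.1.1.1.2, this.1.1.2, this.1.2, this.2⟩

theorem chkF1_spec (h : chkF1 D ρf εf = true) (hn : chkNegF D = true) :
    G1Spec D (fnG D.nroots ρf εf) := by
  have hneg := chkNegF_spec D hn
  have h' := chkF1_spec' D ρf εf h
  refine ⟨?_, ?_, ?_, ?_, ?_, ?_, ?_, ?_⟩
  · intro s hs
    rw [fnG_rho _ _ _ s hs]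
    exact (h' s hs).1
  · intro s hs
    rw [fnG_rhoinv _ _ _ s hs]
    exact (h' s hs).1
  · intro s hs
    rw [fnG_rho _ _ _ s hs, fnG_rhoinv _ _ _ _ (h' s hs).1]
    exact (h' s hs).2.1
  · intro s hs
    rw [fnG_rhoinv _ _ _ s hs, fnG_rho _ _ _ _ (h' s hs).1]
    exact (h' s hs).2.1
  · intro s hs
    rw [fnG_eps _ _ _ s hs]
    exact (h' s hs).2.2.1
  · intro s hs
    rw [hneg s hs]
    omega
  · intro s hs
    rw [fnG_rho _ _ _ s hs, hneg _ (h' s hs).1, hneg s hs, fnG_rho _ _ _ _ (by omega)]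
    exact (h' s hs).2.2.2.1
  · intro s hs
    rw [hneg s hs, fnG_eps _ _ _ _ (by omega), fnG_eps _ _ _ s hs]
    exact (h' s hs).2.2.2.2

theorem cmpChainF_imp (N : ℕ) (er es : ℤ) :
    ∀ (l l' : List (ℕ × ℤ)) (n : ℕ), cmpChainF ρf εf N er es l l' n = true →
      cmpChain (fnG N ρf εf) N er es l l' n = true := by
  intro l
  induction l with
  | nil =>
    intro l' n h
    cases l' with
    | nil => simp [cmpChain]
    | cons a l' => simp [cmpChainF] at h
  | cons a l ih =>
    intro l' n h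
    cases l' with
    | nil => simp [cmpChainF] at h
    | cons a' l' =>
      obtain ⟨u, M⟩ := a
      obtain ⟨u', M'⟩ := a'
      simp only [cmpChainF, Bool.and_eq_true, decide_eq_true_eq] at h
      obtain ⟨⟨⟨h1, h2⟩, h3⟩, h4⟩ := h
      simp only [cmpChain, Bool.and_eq_true, decide_eq_true_eq]
      refine ⟨⟨⟨h1, ?_⟩, ?_⟩, ih l' (n + 1) h4⟩
      · rw [fnG_rho _ _ N u h1]
        exact h2
      · rw [fnG_eps _ _ N u h1]
        exact h3

theorem goRow_spec (N : ℕ) (er : ℤ) (L' : List (ℕ × Array (ℕ × ℤ))) :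
    ∀ (L : List (ℕ × Array (ℕ × ℤ))) (ps : List ℕ), goRow ρf εf N er L' L ps = true →
      ∀ e ∈ L, ∃ e' ∈ L', e.1 < N ∧ e'.1 = ρf e.1 ∧
        cmpChainF ρf εf N er (εf e.1) e.2.toList e'.2.toList 0 = true := by
  intro L
  induction L with
  | nil =>
    intro ps _ e he
    simp at he
  | cons a L ih =>
    intro ps h e he
    cases ps with
    | nil => simp [goRow] at h
    | cons p ps =>
      simp only [goRow, Bool.and_eq_true] at h
      obtain ⟨h1, h2⟩ := h
      rcases List.mem_cons.mp he with rfl | he'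
      · cases hp : L'[p]? with
        | none =>
          rw [hp] at h1
          simp at h1
        | some e' =>
          rw [hp] at h1
          simp only [Bool.and_eq_true, decide_eq_true_eq] at h1
          exact ⟨e', List.mem_of_getElem? hp, h1.1.1, h1.1.2, h1.2⟩
      · exact ih ps h2 e he'

theorem rowF_spec (r : ℕ) (hr : r < D.nroots) (pos : List ℕ) (h : rowF D ρf εf r pos = true) :
    RowOK D (fnG D.nroots ρf εf) r := by
  unfold rowF at h
  rw [forceNat_eq] at h
  intro e he
  obtain ⟨e', he', h1, h2, h3⟩ := goRow_spec ρf εf _ _ _ _ _ h e he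
  refine ⟨e', ?_, ?_, ?_⟩
  · rw [fnG_rho _ _ _ r hr]
    exact he'
  · rw [fnG_rho _ _ _ e.1 h1]
    exact h2
  · rw [fnG_eps _ _ _ r hr, fnG_eps _ _ _ e.1 h1]
    exact cmpChainF_imp ρf εf _ _ _ _ _ _ h3

theorem rowsF_spec : ∀ (P : List (List ℕ)) (r0 : ℕ), rowsF D ρf εf r0 P = true →
    ∀ r, r0 ≤ r → r < r0 + P.length → r < D.nroots → RowOK D (fnG D.nroots ρf εf) r := by
  intro P
  induction P with
  | nil =>
    intro r0 _ r h1 h2
    simp at h2
    omega
  | cons pos rest ih =>
    intro r0 h r h1 h2 hr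
    simp only [rowsF] at h
    rw [forceNat_eq, Bool.and_eq_true] at h
    by_cases hr0 : r = r0
    · subst hr0
      exact rowF_spec D ρf εf r hr pos h.1
    · exact ih (r0 + 1) h.2 r (by omega) (by simp at h2; omega) hr

end specF

theorem chkGPair_of_rows (D : ChevalleyDatum) (G : GraphData) (hSo : chkSorted D = true)
    (h1 : G1Spec D G) (hinv : ∀ s < D.nroots, G.rho.getD (G.rho.getD s 0) 0 = s)
    (hrow : ∀ r < D.nroots, RowOK D G r) (r s : ℕ) (hr : r < D.nroots) (hs : s < D.nroots) :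
    chkGPair D G r s = true := by
  have hsorted : ∀ r < D.nroots,
      (D.chain.getD r #[]).toList.Pairwise (fun a b => a.1 < b.1) := by
    intro r hr
    unfold chkSorted at hSo
    rw [List.all_eq_true] at hSo
    exact sortedKeys_pairwise _ (hSo r (List.mem_range.mpr hr))
  unfold chkGPair
  by_cases hex : ∃ e ∈ (D.chain.getD r #[]).toList, e.1 = s
  · obtain ⟨e, he, rfl⟩ := hex
    obtain ⟨e', he', hk, hc⟩ := hrow r hr e he
    rw [pairwise_filter_key _ (hsorted r hr) e he, ← hk,
      pairwise_filter_key _ (hsorted _ (h1.rho_lt r hr)) e' he']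
    exact hc
  · have hL : (D.chain.getD r #[]).toList.filter (fun e => e.1 = s) = [] := by
      rw [List.filter_eq_nil_iff]
      intro e he hh
      exact hex ⟨e, he, by simpa using hh⟩
    have hL' : (D.chain.getD (G.rho.getD r 0) #[]).toList.filter
        (fun e => e.1 = G.rho.getD s 0) = [] := by
      rw [List.filter_eq_nil_iff]
      intro e' he' hh
      have hk : e'.1 = G.rho.getD s 0 := by simpa using hh
      obtain ⟨e'', he'', hk'', -⟩ := hrow _ (h1.rho_lt r hr) e' he'
      rw [hinv r hr, hk, hinv s hs] at *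
      have : e'' ∈ (D.chain.getD r #[]).toList.filter (fun e => e.1 = s) := by
        rw [List.mem_filter]
        exact ⟨he'', by simpa using hk''⟩
      rw [hL] at this
      simp at this
    rw [hL, hL']

section specH

variable (D : ChevalleyDatum) (ρf : ℕ → ℕ) (εf : ℕ → ℤ)

theorem chkH2_spec (i : ℕ) (h : chkH2 D ρf i = true) (j : ℕ) (hj : j < D.rank) (s : ℕ)
    (hs : s < D.nroots) :
    D.cartan j s = D.cartan j (ρf s) - D.cartan i (ρf s) * D.cartan j (D.simple i) := by
  unfold chkH2 at h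
  simp only [Bool.and_eq_true, forceNat_eq, List.all_eq_true, decide_eq_true_eq,
    List.mem_range] at h
  obtain ⟨⟨⟨hp, hoki⟩, hleni⟩, hall⟩ := h
  obtain ⟨⟨hokj, hlenj⟩, h2⟩ := hall j hj
  obtain ⟨hws, h3⟩ := h2 s hs
  have e1 := digit_packRow _ hokj s (by rw [hlenj]; exact hs)
  have e2 := digit_packRow _ hokj (ρf s) (by rw [hlenj]; exact hws)
  have e3 := digit_packRow _ hoki (ρf s) (by rw [hleni]; exact hws)
  have e4 := digit_packRow _ hokj (D.simple i) (by rw [hlenj]; exact hp)
  rw [cartan_eq_getD, cartan_eq_getD, cartan_eq_getD, cartan_eq_getD]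
  rw [e1, e2, e3, e4] at h3
  linear_combination h3

theorem chkH1_spec (i : ℕ) (h : chkH1 D ρf i = true) (s : ℕ) (hs : s < D.nroots) (j : ℕ)
    (hj : j < D.rank) :
    (D.coroot.getD (ρf s) #[]).getD j 0 = (D.coroot.getD s #[]).getD j 0 -
      (if j = i then ((List.range D.rank).map fun j' =>
        D.cartan j' (D.simple i) * (D.coroot.getD s #[]).getD j' 0).sum else 0) := by
  unfold chkH1 at h
  simp only [forceNat_eq, List.all_eq_true, decide_eq_true_eq, List.mem_range] at h
  exact h s hs j hj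

theorem chkLinkF_spec (i : ℕ) (h : chkLinkF D ρf εf i = true) (s : ℕ) (hs : s < D.nroots) :
    nImg D (D.simple i) s = (ρf s, εf s) := by
  unfold chkLinkF at h
  simp only [List.all_eq_true, decide_eq_true_eq, List.mem_range] at h
  exact h s hs

end specH

section rr

variable (D : ChevalleyDatum) (G : GraphData)

theorem xMat_graph_rr (h1 : G1Spec D G)
    (hp : ∀ r s, r < D.nroots → s < D.nroots → chkGPair D G r s = true) {F : Type*} [Field F]
    (r : Fin D.nroots) (t : F) (u s : Fin D.nroots) :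
    D.xMat F (rootPerm D G h1 r) (((G.eps.getD r.val 1 : ℤ) : F) * t)
        (Sum.inr (rootPerm D G h1 u)) (Sum.inr (rootPerm D G h1 s)) =
      ((G.eps.getD u.val 1 : ℤ) : F) * ((G.eps.getD s.val 1 : ℤ) : F) *
        D.xMat F r t (Sum.inr u) (Sum.inr s) := by
  have hε : ∀ s : Fin D.nroots,
      ((G.eps.getD s.val 1 : ℤ) : F) * ((G.eps.getD s.val 1 : ℤ) : F) = 1 := by
    intro s
    rw [← Int.cast_mul, eps_sq D G h1 s.val s.isLt, Int.cast_one]
  have hinj : ∀ u v : Fin D.nroots, rootPerm D G h1 u = rootPerm D G h1 v ↔ u = v :=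
    fun u v => (rootPerm D G h1).apply_eq_iff_eq
  by_cases hs : s = r
  · subst hs
    simp only [ChevalleyDatum.xMat, Matrix.of_apply, hinj, if_true]
    by_cases h : u = s
    · subst h
      rw [if_pos rfl, mul_one, hε]
    · rw [if_neg h, mul_zero]
  · by_cases hn : s.val = D.negIdx.getD r.val 0
    · have hn' : (rootPerm D G h1 s).val = D.negIdx.getD (rootPerm D G h1 r).val 0 := by
        rw [rootPerm_val, rootPerm_val, h1.neg_rho r.val r.isLt, hn]
      have hεs : G.eps.getD s.val 1 = G.eps.getD r.val 1 := by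
        rw [hn, h1.eps_neg r.val r.isLt]
      simp only [ChevalleyDatum.xMat, Matrix.of_apply, hinj, if_neg hs, if_pos hn, if_pos hn']
      by_cases h : u = s
      · subst h
        rw [if_pos rfl, if_pos rfl, mul_one, hε]
      · rw [if_neg h, if_neg h]
        by_cases h' : u = r
        · subst h'
          rw [if_pos rfl, if_pos rfl, hεs]
          ring
        · rw [if_neg h', if_neg h', mul_zero]
    · have hn' : ¬ (rootPerm D G h1 s).val = D.negIdx.getD (rootPerm D G h1 r).val 0 := by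
        rw [rootPerm_val, rootPerm_val, h1.neg_rho r.val r.isLt]
        intro hh
        exact hn (rho_inj D G h1 _ _ s.isLt (h1.neg_lt r.val r.isLt) hh)
      simp only [ChevalleyDatum.xMat, Matrix.of_apply, hinj, if_neg hs, if_neg hn, if_neg hn']
      rw [rootPerm_val, rootPerm_val, rootPerm_val,
        chainCoeff_graph D G h1 r.val s.val u.val r.isLt s.isLt u.isLt
          (hp r.val s.val r.isLt s.isLt) t, mul_add]
      congr 1
      by_cases h : u = s
      · subst h
        rw [if_pos rfl, mul_one, hε]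
      · rw [if_neg h, mul_zero]

end rr

section main

variable (D : ChevalleyDatum) {F : Type*} [Field F]

theorem xMat_ll (r : Fin D.nroots) (t : F) (j' j : Fin D.rank) :
    D.xMat F r t (Sum.inl j') (Sum.inl j) = if j' = j then 1 else 0 := rfl

theorem xMat_rl (r : Fin D.nroots) (t : F) (u : Fin D.nroots) (j : Fin D.rank) :
    D.xMat F r t (Sum.inr u) (Sum.inl j) =
      if u = r then -(((D.cartan j.val r.val : ℤ)) : F) * t else 0 := rfl

theorem xMat_lr (r : Fin D.nroots) (t : F) (j : Fin D.rank) (u : Fin D.nroots) :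
    D.xMat F r t (Sum.inl j) (Sum.inr u) =
      if u = r then 0 else if u.val = D.negIdx.getD r.val 0 then
        (((D.coroot.getD r.val #[]).getD j.val 0 : ℤ) : F) * t else 0 := by
  simp only [ChevalleyDatum.xMat, Matrix.of_apply]

theorem sum_ite_mul' {α : Type*} [Fintype α] [DecidableEq α] (a : α) (g f : α → F) :
    ∑ x, (if x = a then g x else 0) * f x = g a * f a := by
  rw [Finset.sum_eq_single a]
  · rw [if_pos rfl]
  · intro b _ hb
    rw [if_neg hb, zero_mul]
  · intro h
    exact absurd (Finset.mem_univ a) h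

theorem sum_mul_ite' {α : Type*} [Fintype α] [DecidableEq α] (a : α) (f : α → F) (c : F) :
    ∑ x, f x * (if x = a then c else 0) = f a * c := by
  rw [Finset.sum_eq_single a]
  · rw [if_pos rfl]
  · intro b _ hb
    rw [if_neg hb, mul_zero]
  · intro h
    exact absurd (Finset.mem_univ a) h

/-- the table checks for the reflection in the `i`-th fundamental root -/
structure ReflOK (D : ChevalleyDatum) (i : ℕ) (ρf : ℕ → ℕ) (εf : ℕ → ℤ) : Prop where
  f1 : chkF1 D ρf εf = true
  rows : ∀ r < D.nroots, RowOK D (fnG D.nroots ρf εf) r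
  h2 : chkH2 D ρf i = true
  h1 : chkH1 D ρf i = true
  link : chkLinkF D ρf εf i = true

theorem nMat_entries (ok : ChevOK D) (hE : chkEta D = true) (hC : chkSimpCo D = true)
    (hSi : chkSimple D = true) (hn : chkNegF D = true) (i : ℕ) (hi : i < D.rank)
    (ρf : ℕ → ℕ) (εf : ℕ → ℤ) (R : ReflOK D i ρf εf) :
    (∀ j' j : Fin D.rank, D.nMat F (D.simple i) 1 (Sum.inl j') (Sum.inl j) =
      (if j' = j then (1 : F) else 0) -
        (if (j' : ℕ) = i then ((D.cartan j (D.simple i) : ℤ) : F) else 0)) ∧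
    (∀ (j' : Fin D.rank) (u : Fin D.nroots), D.nMat F (D.simple i) 1 (Sum.inl j') (Sum.inr u) = 0) ∧
    (∀ (u' : Fin D.nroots) (j : Fin D.rank), D.nMat F (D.simple i) 1 (Sum.inr u') (Sum.inl j) = 0) ∧
    (∀ u' u : Fin D.nroots, D.nMat F (D.simple i) 1 (Sum.inr u') (Sum.inr u) =
      if u' = rootPerm D (fnG D.nroots ρf εf) (chkF1_spec D ρf εf R.f1 hn) u then
        ((εf u.val : ℤ) : F) else 0) := by
  have hG1 : G1Spec D (fnG D.nroots ρf εf) := chkF1_spec D ρf εf R.f1 hn
  have hf := chkF1_spec' D ρf εf R.f1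
  have hlink := chkLinkF_spec D ρf εf i R.link
  have hrefl : ∀ u < D.nroots, D.reflectRoot i u = ρf u := by
    intro u hu
    rw [← (chkEta_spec D hE i hi u hu).1, hlink u hu]
  obtain ⟨hp, _⟩ := chkSimple_spec D hSi i hi
  obtain ⟨η, -, -, -, -, hN⟩ := nMat_simple_eq (F := F) D ok hE hC hSi i hi
  have hπ : ∀ u : Fin D.nroots, (rootPerm D (fnG D.nroots ρf εf) hG1 u).val = ρf u.val :=
    fun u => by rw [rootPerm_val, fnG_rho _ _ _ u.val u.isLt]
  have hηε : ∀ u : Fin D.nroots, ((η u.val : ℤ) : F) = ((εf u.val : ℤ) : F) := by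
    intro u
    have h1 := nMat_Ev (F := F) D ok (D.simple i) hp u.val u.isLt
    have h2 := congrFun h1 (Sum.inr (rootPerm D (fnG D.nroots ρf εf) hG1 u))
    rw [hlink u.val u.isLt] at h2
    have hEv : (Ev D u.val : D.Idx → F) = Pi.single (Sum.inr u) 1 := by
      unfold Ev
      rw [dif_pos u.isLt]
    have hcol : D.nMat F (D.simple i) 1 (Sum.inr (rootPerm D (fnG D.nroots ρf εf) hG1 u)) (Sum.inr u) =
        Matrix.mulVec (D.nMat F (D.simple i) 1) (Pi.single (Sum.inr u) 1)
          (Sum.inr (rootPerm D (fnG D.nroots ρf εf) hG1 u)) := by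
      rw [Matrix.mulVec_single_one]
      rfl
    rw [hEv, ← hcol] at h2
    simp only [Pi.smul_apply, Ev_inr, hπ, if_true, smul_eq_mul, mul_one] at h2
    rw [← h2, hN]
    simp only [Matrix.of_apply, Sum.elim_inr]
    rw [hrefl u.val u.isLt, hπ, if_pos rfl]
  refine ⟨?_, ?_, ?_, ?_⟩
  · intro j' j
    rw [hN]
    rfl
  · intro j' u
    rw [hN]
    rfl
  · intro u' j
    rw [hN]
    rfl
  · intro u' u
    rw [hN]
    simp only [Matrix.of_apply, Sum.elim_inr]
    rw [hrefl u.val u.isLt, ← hπ u, hηε u]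
    by_cases h : u' = rootPerm D (fnG D.nroots ρf εf) hG1 u
    · rw [if_pos h, if_pos (congrArg Fin.val h)]
    · rw [if_neg h, if_neg (fun hh => h (Fin.ext hh))]

theorem conj_of_entries (i : ℕ) (hi : i < D.rank) (N X X' : Matrix D.Idx D.Idx F)
    (π : Equiv.Perm (Fin D.nroots)) (hππ : ∀ u, π (π u) = u) (ε : Fin D.nroots → F)
    (hε : ∀ u, ε u * ε u = 1) (A : Fin D.rank → F) (s0 ns : Fin D.nroots)
    (c c' b b' : Fin D.rank → F)
    (hNll : ∀ j' j : Fin D.rank, N (Sum.inl j') (Sum.inl j) =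
      (if j' = j then (1 : F) else 0) - (if (j' : ℕ) = i then A j else 0))
    (hNlr : ∀ (j' : Fin D.rank) (u : Fin D.nroots), N (Sum.inl j') (Sum.inr u) = 0)
    (hNrl : ∀ (u' : Fin D.nroots) (j : Fin D.rank), N (Sum.inr u') (Sum.inl j) = 0)
    (hNrr : ∀ u' u : Fin D.nroots, N (Sum.inr u') (Sum.inr u) = if u' = π u then ε u else 0)
    (hXll : ∀ j' j : Fin D.rank, X (Sum.inl j') (Sum.inl j) = if j' = j then 1 else 0)
    (hXrl : ∀ (u : Fin D.nroots) (j : Fin D.rank), X (Sum.inr u) (Sum.inl j) =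
      if u = s0 then c j else 0)
    (hXlr : ∀ (j : Fin D.rank) (u : Fin D.nroots), X (Sum.inl j) (Sum.inr u) =
      if u = s0 then 0 else if u = ns then b j else 0)
    (hX'll : ∀ j' j : Fin D.rank, X' (Sum.inl j') (Sum.inl j) = if j' = j then 1 else 0)
    (hX'rl : ∀ (u : Fin D.nroots) (j : Fin D.rank), X' (Sum.inr u) (Sum.inl j) =
      if u = π s0 then c' j else 0)
    (hX'lr : ∀ (j : Fin D.rank) (u : Fin D.nroots), X' (Sum.inl j) (Sum.inr u) =
      if u = π s0 then 0 else if u = π ns then b' j else 0)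
    (hK : ∀ u₀ u : Fin D.nroots, X' (Sum.inr (π u₀)) (Sum.inr (π u)) =
      ε u₀ * ε u * X (Sum.inr u₀) (Sum.inr u))
    (hc : ∀ j, ε s0 * c j = c' j - c' ⟨i, hi⟩ * A j)
    (hb : ∀ j' : Fin D.rank, b j' - (if (j' : ℕ) = i then ∑ x, A x * b x else 0) = b' j' * ε ns) :
    N * X = X' * N := by
  have hsumL : ∀ (j' : Fin D.rank) (g : Fin D.rank → F),
      ∑ x : Fin D.rank, (if j' = x then (1 : F) else 0) * g x = g j' := by
    intro j' g
    rw [Finset.sum_eq_single j']
    · rw [if_pos rfl, one_mul]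
    · intro b _ hb
      rw [if_neg (Ne.symm hb), zero_mul]
    · intro h
      exact absurd (Finset.mem_univ _) h
  ext a b0
  rw [Matrix.mul_apply, Matrix.mul_apply, Fintype.sum_sum_type, Fintype.sum_sum_type]
  rcases a with j' | u' <;> rcases b0 with j | u
  · have e1 : ∑ x : Fin D.rank, N (Sum.inl j') (Sum.inl x) * X (Sum.inl x) (Sum.inl j) =
        N (Sum.inl j') (Sum.inl j) := by
      simp only [hXll]
      rw [sum_mul_ite', mul_one]
    have e2 : ∑ x : Fin D.nroots, N (Sum.inl j') (Sum.inr x) * X (Sum.inr x) (Sum.inl j) = 0 :=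
      Finset.sum_eq_zero fun x _ => by rw [hNlr, zero_mul]
    have e3 : ∑ x : Fin D.rank, X' (Sum.inl j') (Sum.inl x) * N (Sum.inl x) (Sum.inl j) =
        N (Sum.inl j') (Sum.inl j) := by
      simp only [hX'll]
      exact hsumL j' _
    have e4 : ∑ x : Fin D.nroots, X' (Sum.inl j') (Sum.inr x) * N (Sum.inr x) (Sum.inl j) = 0 :=
      Finset.sum_eq_zero fun x _ => by rw [hNrl, mul_zero]
    rw [e1, e2, e3, e4]
  · have e2 : ∑ x : Fin D.nroots, N (Sum.inl j') (Sum.inr x) * X (Sum.inr x) (Sum.inr u) = 0 :=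
      Finset.sum_eq_zero fun x _ => by rw [hNlr, zero_mul]
    have e3 : ∑ x : Fin D.rank, X' (Sum.inl j') (Sum.inl x) * N (Sum.inl x) (Sum.inr u) = 0 :=
      Finset.sum_eq_zero fun x _ => by rw [hNlr, mul_zero]
    have e4 : ∑ x : Fin D.nroots, X' (Sum.inl j') (Sum.inr x) * N (Sum.inr x) (Sum.inr u) =
        X' (Sum.inl j') (Sum.inr (π u)) * ε u := by
      simp only [hNrr]
      rw [sum_mul_ite']
    rw [e2, e3, e4, add_zero, zero_add]
    simp only [hNll, hXlr, hX'lr]
    by_cases hus : u = s0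
    · have hπ : π u = π s0 := by rw [hus]
      simp only [if_pos hus, if_pos hπ, mul_zero, zero_mul, Finset.sum_const_zero]
    · have hπ : ¬ π u = π s0 := fun h => hus (π.injective h)
      simp only [if_neg hus, if_neg hπ]
      by_cases hun : u = ns
      · have hπn : π u = π ns := by rw [hun]
        simp only [if_pos hun, if_pos hπn]
        rw [← hun] at hb
        rw [← hb j']
        simp only [sub_mul, Finset.sum_sub_distrib]
        rw [hsumL j' b]
        congr 1
        by_cases hji : (j' : ℕ) = i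
        · simp only [if_pos hji]
        · simp only [if_neg hji, zero_mul, Finset.sum_const_zero]
      · have hπn : ¬ π u = π ns := fun h => hun (π.injective h)
        simp only [if_neg hun, if_neg hπn, mul_zero, zero_mul, Finset.sum_const_zero]
  · have e1 : ∑ x : Fin D.rank, N (Sum.inr u') (Sum.inl x) * X (Sum.inl x) (Sum.inl j) = 0 :=
      Finset.sum_eq_zero fun x _ => by rw [hNrl, zero_mul]
    have e2 : ∑ x : Fin D.nroots, N (Sum.inr u') (Sum.inr x) * X (Sum.inr x) (Sum.inl j) =
        N (Sum.inr u') (Sum.inr s0) * c j := by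
      simp only [hXrl]
      rw [sum_mul_ite']
    have e4 : ∑ x : Fin D.nroots, X' (Sum.inr u') (Sum.inr x) * N (Sum.inr x) (Sum.inl j) = 0 :=
      Finset.sum_eq_zero fun x _ => by rw [hNrl, mul_zero]
    rw [e1, e2, e4, zero_add, add_zero]
    simp only [hNrr, hNll, hX'rl]
    by_cases hu : u' = π s0
    · simp only [if_pos hu]
      simp only [mul_sub, Finset.sum_sub_distrib]
      rw [sum_mul_ite', mul_one]
      have e5 : ∑ x : Fin D.rank, c' x * (if (x : ℕ) = i then A j else 0) = c' ⟨i, hi⟩ * A j := by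
        rw [Finset.sum_eq_single ⟨i, hi⟩]
        · rw [if_pos rfl]
        · intro b _ hb
          rw [if_neg (fun h => hb (Fin.ext h)), mul_zero]
        · intro h
          exact absurd (Finset.mem_univ _) h
      rw [e5]
      exact hc j
    · simp only [if_neg hu, zero_mul, Finset.sum_const_zero]
  · have e1 : ∑ x : Fin D.rank, N (Sum.inr u') (Sum.inl x) * X (Sum.inl x) (Sum.inr u) = 0 :=
      Finset.sum_eq_zero fun x _ => by rw [hNrl, zero_mul]
    have e3 : ∑ x : Fin D.rank, X' (Sum.inr u') (Sum.inl x) * N (Sum.inl x) (Sum.inr u) = 0 :=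
      Finset.sum_eq_zero fun x _ => by rw [hNlr, mul_zero]
    have e2 : ∑ x : Fin D.nroots, N (Sum.inr u') (Sum.inr x) * X (Sum.inr x) (Sum.inr u) =
        ε (π u') * X (Sum.inr (π u')) (Sum.inr u) := by
      simp only [hNrr]
      rw [Finset.sum_eq_single (π u')]
      · rw [if_pos (hππ u').symm]
      · intro b _ hb
        rw [if_neg (fun h => hb (by rw [h, hππ])), zero_mul]
      · intro h
        exact absurd (Finset.mem_univ _) h
    have e4 : ∑ x : Fin D.nroots, X' (Sum.inr u') (Sum.inr x) * N (Sum.inr x) (Sum.inr u) =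
        X' (Sum.inr u') (Sum.inr (π u)) * ε u := by
      simp only [hNrr]
      rw [sum_mul_ite']
    rw [e1, e2, e3, e4, zero_add, zero_add]
    have h := hK (π u') u
    rw [hππ] at h
    rw [h]
    linear_combination (-(ε (π u') * X (Sum.inr (π u')) (Sum.inr u))) * hε u

theorem sum_range_fin (g : ℕ → F) (n : ℕ) :
    ((List.range n).map g).sum = ∑ x : Fin n, g x.val := by
  induction n with
  | zero => simp
  | succ n ih =>
    rw [List.range_succ, List.map_append, List.sum_append, ih, Fin.sum_univ_castSucc]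
    simp

theorem nMat_conj_x (ok : ChevOK D) (hE : chkEta D = true) (hC : chkSimpCo D = true)
    (hSi : chkSimple D = true) (hn : chkNegF D = true) (i : ℕ) (hi : i < D.rank)
    (ρf : ℕ → ℕ) (εf : ℕ → ℤ) (R : ReflOK D i ρf εf) (s : ℕ) (hs : s < D.nroots) (t : F) :
    D.nMat F (D.simple i) 1 * D.x F s t =
      D.x F (D.reflectRoot i s) (((εf s : ℤ) : F) * t) * D.nMat F (D.simple i) 1 := by
  have hf := chkF1_spec' D ρf εf R.f1
  have hneg := chkNegF_spec D hn
  have hpair : ∀ r s, r < D.nroots → s < D.nroots →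
      chkGPair D (fnG D.nroots ρf εf) r s = true :=
    fun r s hr hs => chkGPair_of_rows D _ ok.sorted (chkF1_spec D ρf εf R.f1 hn)
      (fun s hs => by
        rw [fnG_rho _ _ _ s hs, fnG_rho _ _ _ _ (hf s hs).1]
        exact (hf s hs).2.1)
      R.rows r s hr hs
  have hlink := chkLinkF_spec D ρf εf i R.link
  have hrefl : ∀ u < D.nroots, D.reflectRoot i u = ρf u := by
    intro u hu
    rw [← (chkEta_spec D hE i hi u hu).1, hlink u hu]
  obtain ⟨hNll, hNlr, hNrl, hNrr⟩ := nMat_entries (F := F) D ok hE hC hSi hn i hi ρf εf R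
  obtain ⟨π, hπ⟩ : ∃ π : Equiv.Perm (Fin D.nroots),
      π = rootPerm D (fnG D.nroots ρf εf) (chkF1_spec D ρf εf R.f1 hn) := ⟨_, rfl⟩
  rw [← hπ] at hNrr
  have hπv : ∀ u : Fin D.nroots, (π u).val = ρf u.val := by
    intro u
    rw [hπ, rootPerm_val, fnG_rho _ _ _ u.val u.isLt]
  have hππ : ∀ u, π (π u) = u := fun u => Fin.ext (by
    rw [hπv, hπv]
    exact (hf u.val u.isLt).2.1)
  have he2 : ∀ u : Fin D.nroots, ((εf u.val : ℤ) : F) * ((εf u.val : ℤ) : F) = 1 := by
    intro u
    rcases (hf u.val u.isLt).2.2.1 with h | h <;> rw [h] <;> simp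
  have hK : ∀ u₀ u : Fin D.nroots,
      D.xMat F (π ⟨s, hs⟩) (((εf s : ℤ) : F) * t) (Sum.inr (π u₀)) (Sum.inr (π u)) =
        ((εf u₀.val : ℤ) : F) * ((εf u.val : ℤ) : F) *
          D.xMat F ⟨s, hs⟩ t (Sum.inr u₀) (Sum.inr u) := by
    intro u₀ u
    have h := xMat_graph_rr D (fnG D.nroots ρf εf) (chkF1_spec D ρf εf R.f1 hn) hpair ⟨s, hs⟩ t u₀ u
    rw [← hπ, fnG_eps _ _ _ _ (Fin.isLt _), fnG_eps _ _ _ _ u₀.isLt, fnG_eps _ _ _ _ u.isLt] at h
    exact h
  have hX : D.x F s t = D.xMat F ⟨s, hs⟩ t := by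
    unfold ChevalleyDatum.x
    rw [dif_pos hs]
  have hws : D.reflectRoot i s < D.nroots := by
    rw [hrefl s hs]
    exact (hf s hs).1
  have hX' : D.x F (D.reflectRoot i s) (((εf s : ℤ) : F) * t) =
      D.xMat F (π ⟨s, hs⟩) (((εf s : ℤ) : F) * t) := by
    unfold ChevalleyDatum.x
    rw [dif_pos hws]
    congr 1
    exact Fin.ext (by rw [hπv]; exact hrefl s hs)
  rw [hX, hX']
  have hns : D.nroots - 1 - s < D.nroots := by omega
  refine conj_of_entries D i hi _ _ _ π hππ (fun u => ((εf u.val : ℤ) : F)) he2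
    (fun j => ((D.cartan j (D.simple i) : ℤ) : F)) ⟨s, hs⟩ ⟨D.nroots - 1 - s, hns⟩
    (fun j => -((D.cartan j.val s : ℤ) : F) * t)
    (fun j => -((D.cartan j.val (ρf s) : ℤ) : F) * (((εf s : ℤ) : F) * t))
    (fun j => (((D.coroot.getD s #[]).getD j.val 0 : ℤ) : F) * t)
    (fun j => (((D.coroot.getD (ρf s) #[]).getD j.val 0 : ℤ) : F) * (((εf s : ℤ) : F) * t))
    hNll hNlr hNrl hNrr ?_ ?_ ?_ ?_ ?_ ?_ hK ?_ ?_
  · exact fun j' j => xMat_ll D _ t j' j
  · exact fun u j => xMat_rl D _ t u j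
  · intro j u
    rw [xMat_lr]
    have h1 : ((u : ℕ) = D.negIdx.getD s 0) ↔ u = ⟨D.nroots - 1 - s, hns⟩ := by
      rw [hneg s hs, Fin.ext_iff]
    simp only [h1]
  · exact fun j' j => xMat_ll D _ _ j' j
  · intro u j
    rw [xMat_rl, hπv]
  · intro j u
    rw [xMat_lr, hπv]
    have h1 : ((u : ℕ) = D.negIdx.getD (ρf s) 0) ↔ u = π ⟨D.nroots - 1 - s, hns⟩ := by
      rw [hneg _ (hf s hs).1, Fin.ext_iff, hπv, (hf s hs).2.2.2.1]
    simp only [h1]
  · intro j
    have h2 := chkH2_spec D ρf i R.h2 j.val j.isLt s hs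
    simp only
    rw [h2]
    push_cast
    ring
  · intro j'
    have h1 := chkH1_spec D ρf i R.h1 s hs j'.val j'.isLt
    have hεn : εf (D.nroots - 1 - s) = εf s := (hf s hs).2.2.2.2
    have he := he2 ⟨s, hs⟩
    simp only at he ⊢
    rw [h1, hεn]
    by_cases hji : (j' : ℕ) = i
    · simp only [if_pos hji]
      push_cast
      rw [List.map_map, sum_range_fin]
      simp only [Function.comp_apply]
      push_cast
      have hS : ∑ x : Fin D.rank, ((D.cartan x (D.simple i) : ℤ) : F) *
          ((((D.coroot.getD s #[]).getD x.val 0 : ℤ) : F) * t) =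
          (∑ x : Fin D.rank, ((D.cartan x (D.simple i) : ℤ) : F) *
            (((D.coroot.getD s #[]).getD x.val 0 : ℤ) : F)) * t := by
        rw [Finset.sum_mul]
        refine Finset.sum_congr rfl fun x _ => by ring
      rw [hS]
      linear_combination (-(((((D.coroot.getD s #[]).getD j'.val 0 : ℤ) : F) -
        ∑ x : Fin D.rank, ((D.cartan x (D.simple i) : ℤ) : F) *
          (((D.coroot.getD s #[]).getD x.val 0 : ℤ) : F)) * t)) * he
    · simp only [if_neg hji, sub_zero]
      linear_combination (-((((D.coroot.getD s #[]).getD j'.val 0 : ℤ) : F) * t)) * he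

end main

end Cfsg.Agent.Lib.Helper3
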