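import Mathlib
import Cfsg.Agent.Lib.Helper3.ChevRefC
import Cfsg.Agent.Lib.Helper3.ChevBN

set_option autoImplicit false

namespace Cfsg.Agent.Lib.Helper3

open Cfsg.Lie

/-- the image of a root under the product of the reflections of a word, on packed tables -/
def wfold (Rs : List ℕ) (L : List ℕ) (s : ℕ) : ℕ :=
  L.foldr (fun i acc => dig256 (Rs.getD i 0) acc) s

/-- table check: the word carries the positive roots to negative roots, and its reverse the
negative roots to positive roots -/
def chkW0 (D : ChevalleyDatum) (Rs L Lr : List ℕ) : Bool :=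
  (List.range D.nroots).all fun s =>
    forceNat (wfold Rs L s) fun ws => forceNat (wfold Rs Lr s) fun ws' =>
      (!decide (D.IsPosRoot s) || decide (D.IsNegRoot ws)) &&
      (!decide (D.IsNegRoot s) || decide (D.IsPosRoot ws'))

section w0

variable (D : ChevalleyDatum) {F : Type*} [Field F]

theorem reflectRoot_eq (hE : chkEta D = true) (i : ℕ) (hi : i < D.rank) (ρf : ℕ → ℕ) (εf : ℕ → ℤ)
    (R : ReflOK D i ρf εf) (u : ℕ) (hu : u < D.nroots) : D.reflectRoot i u = ρf u := by
  rw [← (chkEta_spec D hE i hi u hu).1, chkLinkF_spec D ρf εf i R.link u hu]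

theorem wfold_lt (Rs Es : List ℕ)
    (hR : ∀ i < D.rank, ReflOK D i (dig256 (Rs.getD i 0)) (sgnBit (Es.getD i 0))) :
    ∀ (L : List ℕ), (∀ i ∈ L, i < D.rank) → ∀ s < D.nroots, wfold Rs L s < D.nroots := by
  intro L
  induction L with
  | nil => intro _ s hs; exact hs
  | cons i L ih =>
    intro hL s hs
    have h1 := ih (fun j hj => hL j (List.mem_cons_of_mem _ hj)) s hs
    exact (chkF1_spec' D _ _ (hR i (hL i List.mem_cons_self)).f1 _ h1).1

theorem wfold_reverse (Rs Es : List ℕ)
    (hR : ∀ i < D.rank, ReflOK D i (dig256 (Rs.getD i 0)) (sgnBit (Es.getD i 0))) :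
    ∀ (L : List ℕ), (∀ i ∈ L, i < D.rank) → ∀ s < D.nroots,
      wfold Rs L (wfold Rs L.reverse s) = s := by
  intro L
  induction L with
  | nil => intro _ s _; rfl
  | cons i L ih =>
    intro hL s hs
    have hL' : ∀ j ∈ L, j < D.rank := fun j hj => hL j (List.mem_cons_of_mem _ hj)
    have hi := hL i List.mem_cons_self
    have hf := chkF1_spec' D _ _ (hR i hi).f1
    have e1 : wfold Rs (i :: L).reverse s = wfold Rs L.reverse (dig256 (Rs.getD i 0) s) := by
      unfold wfold
      rw [List.reverse_cons, List.foldr_append]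
      rfl
    have e2 : ∀ u, wfold Rs (i :: L) u = dig256 (Rs.getD i 0) (wfold Rs L u) := fun u => rfl
    rw [e1, e2, ih hL' _ (hf s hs).1]
    exact (hf s hs).2.1

theorem conj_word (ok : ChevOK D) (hE : chkEta D = true) (hC : chkSimpCo D = true)
    (hSi : chkSimple D = true) (hn : chkNegF D = true) (Rs Es : List ℕ)
    (hR : ∀ i < D.rank, ReflOK D i (dig256 (Rs.getD i 0)) (sgnBit (Es.getD i 0))) :
    ∀ (L : List ℕ), (∀ i ∈ L, i < D.rank) → ∀ s < D.nroots,
      ∃ η : ℤ, (η = 1 ∨ η = -1) ∧ ∀ t : F,
        (L.map fun i => wordGL D ok.add (D.nWord (D.simple i) (1 : F))).prod * xGL D ok.add s t =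
          xGL D ok.add (wfold Rs L s) ((η : F) * t) *
            (L.map fun i => wordGL D ok.add (D.nWord (D.simple i) (1 : F))).prod := by
  intro L
  induction L with
  | nil =>
    intro _ s _
    refine ⟨1, Or.inl rfl, fun t => ?_⟩
    simp [wfold]
  | cons i L ih =>
    intro hL s hs
    have hL' : ∀ j ∈ L, j < D.rank := fun j hj => hL j (List.mem_cons_of_mem _ hj)
    have hi := hL i List.mem_cons_self
    obtain ⟨η', hη', h'⟩ := ih hL' s hs
    have hws := wfold_lt D Rs Es hR L hL' s hs
    have R := hR i hi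
    have hf := chkF1_spec' D _ _ R.f1
    refine ⟨sgnBit (Es.getD i 0) (wfold Rs L s) * η', ?_, fun t => ?_⟩
    · rcases (hf _ hws).2.2.1 with h | h <;> rcases hη' with h2 | h2 <;> rw [h, h2] <;> simp
    · have hc := nMat_conj_x (F := F) D ok hE hC hSi hn i hi _ _ R (wfold Rs L s) hws ((η' : F) * t)
      rw [reflectRoot_eq D hE i hi _ _ R _ hws] at hc
      have hc' : wordGL D ok.add (D.nWord (D.simple i) (1 : F)) *
          xGL D ok.add (wfold Rs L s) ((η' : F) * t) =
          xGL D ok.add (wfold Rs (i :: L) s)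
            (((sgnBit (Es.getD i 0) (wfold Rs L s) * η' : ℤ) : F) * t) *
            wordGL D ok.add (D.nWord (D.simple i) (1 : F)) := by
        apply Units.ext
        rw [Units.val_mul, Units.val_mul, wordGL_coe, xGL_coe, xGL_coe]
        have e : ((sgnBit (Es.getD i 0) (wfold Rs L s) * η' : ℤ) : F) * t =
            ((sgnBit (Es.getD i 0) (wfold Rs L s) : ℤ) : F) * ((η' : F) * t) := by
          push_cast
          ring
        rw [e]
        exact hc
      rw [List.map_cons, List.prod_cons, mul_assoc, h' t, ← mul_assoc, hc', mul_assoc]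

theorem chkW0_spec (Rs L Lr : List ℕ) (h : chkW0 D Rs L Lr = true) (s : ℕ) (hs : s < D.nroots) :
    (D.IsPosRoot s → D.IsNegRoot (wfold Rs L s)) ∧
      (D.IsNegRoot s → D.IsPosRoot (wfold Rs Lr s)) := by
  unfold chkW0 at h
  rw [List.all_eq_true] at h
  have := h s (List.mem_range.mpr hs)
  rw [forceNat_eq, forceNat_eq] at this
  simp only [Bool.and_eq_true, Bool.or_eq_true, Bool.not_eq_true', decide_eq_false_iff_not,
    decide_eq_true_eq] at this
  exact ⟨fun hp => this.1.resolve_left (not_not.mpr hp),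
    fun hp => this.2.resolve_left (not_not.mpr hp)⟩

/-- a representative of the longest element of the Weyl group conjugates `U` onto `V` -/
theorem exists_n0 (ok : ChevOK D) (hE : chkEta D = true) (hC : chkSimpCo D = true)
    (hSi : chkSimple D = true) (hn : chkNegF D = true) (Rs Es : List ℕ)
    (hR : ∀ i < D.rank, ReflOK D i (dig256 (Rs.getD i 0)) (sgnBit (Es.getD i 0)))
    (L Lr : List ℕ) (hLr : Lr = L.reverse) (hL : ∀ i ∈ L, i < D.rank)
    (hchk : chkW0 D Rs L Lr = true) :
    ∃ n ∈ D.monomialSubgroup F,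
      (D.posUnipotent F).map (MulAut.conj n).toMonoidHom = D.negUnipotent F := by
  subst hLr
  have hconj := conj_word (F := F) D ok hE hC hSi hn Rs Es hR L hL
  refine ⟨(L.map fun i => wordGL D ok.add (D.nWord (D.simple i) (1 : F))).prod, ?_, ?_⟩
  · apply Subgroup.list_prod_mem
    intro g hg
    rw [List.mem_map] at hg
    obtain ⟨i, hi, rfl⟩ := hg
    unfold ChevalleyDatum.monomialSubgroup
    apply Subgroup.mem_sup_right
    apply Subgroup.subset_closure
    refine ⟨D.simple i, (chkSimple_spec D hSi i (hL i hi)).1, ?_⟩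
    rw [wordGL_coe]
    rfl
  · unfold ChevalleyDatum.posUnipotent ChevalleyDatum.negUnipotent
    rw [MonoidHom.map_closure]
    congr 1
    ext g
    constructor
    · rintro ⟨g0, ⟨r, t, hr, hg0⟩, rfl⟩
      obtain ⟨η, -, hη⟩ := hconj r hr.1
      refine ⟨wfold Rs L r, (η : F) * t, (chkW0_spec D Rs L _ hchk r hr.1).1 hr, ?_⟩
      have hg0' : g0 = xGL D ok.add r t := Units.ext hg0
      rw [hg0']
      have h2 : (MulAut.conj (L.map fun i => wordGL D ok.add (D.nWord (D.simple i) (1 : F))).prod).toMonoidHom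
          (xGL D ok.add r t) = xGL D ok.add (wfold Rs L r) ((η : F) * t) := by
        show (L.map fun i => wordGL D ok.add (D.nWord (D.simple i) (1 : F))).prod * xGL D ok.add r t *
          ((L.map fun i => wordGL D ok.add (D.nWord (D.simple i) (1 : F))).prod)⁻¹ = _
        rw [hη t, mul_inv_cancel_right]
      rw [h2]
      rfl
    · rintro ⟨r', t, hr', hg⟩
      have hpos := (chkW0_spec D Rs L _ hchk r' hr'.1).2 hr'
      have hWr : wfold Rs L (wfold Rs L.reverse r') = r' := wfold_reverse D Rs Es hR L hL r' hr'.1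
      obtain ⟨η, hη1, hη⟩ := hconj (wfold Rs L.reverse r') hpos.1
      refine ⟨xGL D ok.add (wfold Rs L.reverse r') ((η : F) * t),
        ⟨wfold Rs L.reverse r', (η : F) * t, hpos, rfl⟩, ?_⟩
      show (L.map fun i => wordGL D ok.add (D.nWord (D.simple i) (1 : F))).prod *
          xGL D ok.add (wfold Rs L.reverse r') ((η : F) * t) *
          ((L.map fun i => wordGL D ok.add (D.nWord (D.simple i) (1 : F))).prod)⁻¹ = g
      rw [hη, mul_inv_cancel_right, hWr]
      apply Units.ext
      rw [xGL_coe, hg]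
      have h3 : (η : F) * ((η : F) * t) = t := by
        rcases hη1 with h | h <;> rw [h] <;> simp
      rw [h3]

end w0

end Cfsg.Agent.Lib.Helper3
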