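import Mathlib
import Cfsg.Agent.Lib.Helper3.ChevW0
import Cfsg.Agent.Lib.Helper3.ChevNegUni
import Cfsg.Agent.Lib.Helper3.ChevDiag

set_option autoImplicit false

namespace Cfsg.Agent.Lib.Helper3

open Cfsg.Lie

section core

variable (D : ChevalleyDatum) {F : Type*} [Field F]

/-- a root element which is diagonal is trivial -/
theorem x_mem_hatH_zero (ok : ChevOK D) (r : ℕ) (hr : r < D.nroots) (u : F) (g : GL D.Idx F)
    (hg : (g : Matrix D.Idx D.Idx F) = D.x F r u) (hh : g ∈ hatH D F) : u = 0 := by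
  obtain ⟨ψ, -, h9⟩ := hh
  obtain ⟨hrn, hne, -, -⟩ := chkNg_spec D ok.ng r hr
  have h10 := congrFun (congrFun (hg.symm.trans h9) (Sum.inr ⟨r, hr⟩)) (Sum.inr ⟨D.neg r, hrn⟩)
  rw [x_of_lt D r hr] at h10
  unfold ChevalleyDatum.charDiag at h10
  have hne' : (Sum.inr ⟨r, hr⟩ : D.Idx) ≠ Sum.inr ⟨D.neg r, hrn⟩ := by
    intro h
    have h2 := Sum.inr.inj h
    exact hne (congrArg Fin.val h2).symm
  rw [Matrix.diagonal_apply_ne _ hne'] at h10
  have h1 : (⟨D.neg r, hrn⟩ : Fin D.nroots) ≠ ⟨r, hr⟩ := fun h => hne (congrArg Fin.val h)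
  have h2 : ((⟨D.neg r, hrn⟩ : Fin D.nroots) : ℕ) = D.negIdx.getD r 0 := rfl
  simp only [ChevalleyDatum.xMat, Matrix.of_apply, if_neg h1, if_pos h2, if_neg h1.symm,
    if_true] at h10
  have h3 : u ^ 2 = 0 := neg_eq_zero.mp h10
  exact pow_eq_zero_iff (two_ne_zero) |>.mp h3

theorem borel_core_bot (ok : ChevOK D) (hUN : chkUniNeg D = true) (n₀ : GL D.Idx F)
    (hn₀ : n₀ ∈ D.monomialSubgroup F)
    (hconj : (D.posUnipotent F).map (MulAut.conj n₀).toMonoidHom = D.negUnipotent F) :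
    ((D.borelSubgroup F).subgroupOf (D.group F)).normalCore = ⊥ := by
  have hNG : D.monomialSubgroup F ≤ D.group F := monomial_le_group D ok.add
  have hA : ∀ c : ↥(D.group F), c ∈ ((D.borelSubgroup F).subgroupOf (D.group F)).normalCore →
      (c : GL D.Idx F) ∈ D.diagonalSubgroup F := by
    intro c hc
    have h1 : (c : GL D.Idx F) ∈ D.borelSubgroup F := by
      have := Subgroup.normalCore_le _ hc
      rwa [Subgroup.mem_subgroupOf] at this
    have h2 : n₀⁻¹ * (c : GL D.Idx F) * n₀ ∈ D.borelSubgroup F := by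
      have := hc ⟨n₀⁻¹, inv_mem (hNG hn₀)⟩
      rw [Subgroup.mem_subgroupOf] at this
      simpa using this
    have h3 : (c : GL D.Idx F) ∈ D.negUnipotent F ⊔ D.diagonalSubgroup F := by
      have e : (c : GL D.Idx F) =
          (MulAut.conj n₀).toMonoidHom (n₀⁻¹ * (c : GL D.Idx F) * n₀) := by
        show _ = n₀ * (n₀⁻¹ * _ * n₀) * n₀⁻¹
        group
      have h4 : (MulAut.conj n₀).toMonoidHom (n₀⁻¹ * (c : GL D.Idx F) * n₀) ∈
          (D.borelSubgroup F).map (MulAut.conj n₀).toMonoidHom := Subgroup.mem_map_of_mem _ h2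
      unfold ChevalleyDatum.borelSubgroup at h4
      rw [Subgroup.map_sup, hconj] at h4
      rw [e]
      have hle : (D.diagonalSubgroup F).map (MulAut.conj n₀).toMonoidHom ≤ D.diagonalSubgroup F := by
        rintro _ ⟨h, hh, rfl⟩
        have hnorm := monomial_le_normalizer_diagonal D ok hn₀
        exact (Subgroup.mem_normalizer_iff.mp hnorm h).mp hh
      have hle2 : D.negUnipotent F ⊔ (D.diagonalSubgroup F).map (MulAut.conj n₀).toMonoidHom ≤
          D.negUnipotent F ⊔ D.diagonalSubgroup F := sup_le_sup_left hle _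
      exact hle2 h4
    have h5 := (borel_inf_neg_diag (F := F) D ok hUN).2
    rw [← h5]
    exact ⟨h1, h3⟩
  rw [eq_bot_iff]
  intro c hc
  rw [Subgroup.mem_bot]
  have hcH := hA c hc
  obtain ⟨χ, hχ, hcχ⟩ := diagonal_le_hatH D ok hcH
  have hχ1 : ∀ r < D.nroots, χ r = 1 := by
    intro r hr
    have hb : xGL D ok.add r (1 : F) ∈ D.group F := xGL_mem_group D ok.add r 1
    have h5 : (⟨xGL D ok.add r 1, hb⟩ : ↥(D.group F)) * c * (⟨xGL D ok.add r 1, hb⟩)⁻¹ ∈
        ((D.borelSubgroup F).subgroupOf (D.group F)).normalCore :=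
      (Subgroup.normalCore_normal _).conj_mem c hc _
    have h6 := hA _ h5
    have h6' : xGL D ok.add r (1 : F) * (c : GL D.Idx F) * (xGL D ok.add r (1 : F))⁻¹ ∈
        D.diagonalSubgroup F := by simpa using h6
    have h7 : xGL D ok.add r (1 : F) * (c : GL D.Idx F) * (xGL D ok.add r (1 : F))⁻¹ *
        (c : GL D.Idx F)⁻¹ ∈ hatH D F :=
      diagonal_le_hatH D ok (mul_mem h6' (inv_mem hcH))
    have h8 : ((xGL D ok.add r (1 : F) * (c : GL D.Idx F) * (xGL D ok.add r (1 : F))⁻¹ *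
        (c : GL D.Idx F)⁻¹ : GL D.Idx F) : Matrix D.Idx D.Idx F) = D.x F r (1 - (χ r : F)) := by
      have e1 : (((xGL D ok.add r (1 : F))⁻¹ : GL D.Idx F) : Matrix D.Idx D.Idx F) = D.x F r (-1) :=
        rfl
      rw [Units.val_mul, Units.val_mul, Units.val_mul, xGL_coe, e1, hcχ,
        coe_inv_of_charDiag D _ χ hcχ, Matrix.mul_assoc, Matrix.mul_assoc,
        ← Matrix.mul_assoc (D.charDiag F χ), charDiag_conj D ok.chev χ hχ r hr, x_add D ok.add r hr]
      congr 1
      ring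
    have h9 := x_mem_hatH_zero D ok r hr _ _ h8 h7
    apply Units.ext
    rw [Units.val_one]
    exact (sub_eq_zero.mp h9).symm
  apply Subtype.ext
  apply Units.ext
  rw [hcχ]
  show D.charDiag F χ = 1
  unfold ChevalleyDatum.charDiag
  rw [← Matrix.diagonal_one]
  congr 1
  funext j
  rcases j with i | s
  · rfl
  · simp [hχ1 s.val s.isLt]

end core

end Cfsg.Agent.Lib.Helper3
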