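import Mathlib
import Cfsg.Prelude.Def_ChevG2
import Cfsg.Prelude.Def_ChevB2
import Cfsg.Prelude.Def_ChevD4
import Cfsg.Prelude.Def_ChevF4
import Cfsg.Prelude.Def_ChevE6
import Cfsg.Prelude.Def_ChevE7
import Cfsg.Prelude.Def_ChevE8
import Cfsg.Agent.Lib.Helper3.ChevREt6x0

set_option autoImplicit false

namespace Cfsg.Agent.Lib.Helper3

open Cfsg.Lie

set_option maxHeartbeats 0 in
theorem chkEta_G2 : chkEta chevG2 = true := by
  decide +kernel

set_option maxHeartbeats 0 in
theorem chkEta_B2 : chkEta chevB2 = true := by
  decide +kernel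

set_option maxHeartbeats 0 in
theorem chkEta_D4 : chkEta chevD4 = true := by
  decide +kernel

set_option maxHeartbeats 0 in
theorem chkEta_F4 : chkEta chevF4 = true := by
  decide +kernel

set_option maxHeartbeats 0 in
theorem chkSimpCo_G2 : chkSimpCo chevG2 = true := by
  decide +kernel

set_option maxHeartbeats 0 in
theorem chkSimpCo_B2 : chkSimpCo chevB2 = true := by
  decide +kernel

set_option maxHeartbeats 0 in
theorem chkSimpCo_D4 : chkSimpCo chevD4 = true := by
  decide +kernel

set_option maxHeartbeats 0 in
theorem chkSimpCo_F4 : chkSimpCo chevF4 = true := by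
  decide +kernel

set_option maxHeartbeats 0 in
theorem chkSimpCo_E6 : chkSimpCo chevE6 = true := by
  decide +kernel

set_option maxHeartbeats 0 in
theorem chkSimpCo_E7 : chkSimpCo chevE7 = true := by
  decide +kernel

set_option maxHeartbeats 0 in
theorem chkSimpCo_E8 : chkSimpCo chevE8 = true := by
  decide +kernel


end Cfsg.Agent.Lib.Helper3
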