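import Mathlib
import Cfsg.Prelude.Def_ChevG2
import Cfsg.Prelude.Def_ChevB2
import Cfsg.Prelude.Def_ChevD4
import Cfsg.Prelude.Def_ChevF4
import Cfsg.Prelude.Def_ChevE6
import Cfsg.Prelude.Def_ChevE7
import Cfsg.Prelude.Def_ChevE8
import Cfsg.Agent.Lib.Helper3.ChevREts
import Cfsg.Agent.Lib.Helper3.ChevRows

set_option autoImplicit false

namespace Cfsg.Agent.Lib.Helper3

open Cfsg.Lie

theorem chkEta_E6 : chkEta chevE6 = true := by
  unfold chkEta
  have h := rows_nil (rowEta chevE6) 0
  have h := rows_append _ 0 0 6 h (rows_range' _ 0 6 rowEta_E6_g0)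
  exact all_range_of_rows _ _ h

theorem chkEta_E7 : chkEta chevE7 = true := by
  unfold chkEta
  have h := rows_nil (rowEta chevE7) 0
  have h := rows_append _ 0 0 4 h (rows_range' _ 0 4 rowEta_E7_g0)
  have h := rows_append _ 0 4 7 h (rows_range' _ 4 3 rowEta_E7_g4)
  exact all_range_of_rows _ _ h

theorem chkEta_E8 : chkEta chevE8 = true := by
  unfold chkEta
  have h := rows_nil (rowEta chevE8) 0
  have h := rows_append _ 0 0 2 h (rows_range' _ 0 2 rowEta_E8_g0)
  have h := rows_append _ 0 2 4 h (rows_range' _ 2 2 rowEta_E8_g2)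
  have h := rows_append _ 0 4 6 h (rows_range' _ 4 2 rowEta_E8_g4)
  have h := rows_append _ 0 6 8 h (rows_range' _ 6 2 rowEta_E8_g6)
  exact all_range_of_rows _ _ h

theorem chkEta_all : ∀ D ∈ [chevG2, chevB2, chevD4, chevF4, chevE6, chevE7, chevE8],
    chkEta D = true := by
  intro D hD
  simp only [List.mem_cons, List.not_mem_nil, or_false] at hD
  rcases hD with h | h | h | h | h | h | h
  · rw [h]; exact chkEta_G2
  · rw [h]; exact chkEta_B2
  · rw [h]; exact chkEta_D4
  · rw [h]; exact chkEta_F4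
  · rw [h]; exact chkEta_E6
  · rw [h]; exact chkEta_E7
  · rw [h]; exact chkEta_E8

theorem chkSimpCo_all : ∀ D ∈ [chevG2, chevB2, chevD4, chevF4, chevE6, chevE7, chevE8],
    chkSimpCo D = true := by
  intro D hD
  simp only [List.mem_cons, List.not_mem_nil, or_false] at hD
  rcases hD with h | h | h | h | h | h | h
  · rw [h]; exact chkSimpCo_G2
  · rw [h]; exact chkSimpCo_B2
  · rw [h]; exact chkSimpCo_D4
  · rw [h]; exact chkSimpCo_F4
  · rw [h]; exact chkSimpCo_E6
  · rw [h]; exact chkSimpCo_E7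
  · rw [h]; exact chkSimpCo_E8


end Cfsg.Agent.Lib.Helper3
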