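import Mathlib
import Cfsg.Prelude.Def_ChevAutomorphisms

set_option autoImplicit false

namespace Cfsg.Agent.Lib.Helper3

open Cfsg.Lie

theorem xMat_map (D : ChevalleyDatum) {F : Type*} [Field F] (f : F ≃+* F) (r : Fin D.nroots) (t : F) :
    (D.xMat F r t).map f = D.xMat F r (f t) := by
  ext row col
  rw [Matrix.map_apply]
  rcases col with i | s
  · rcases row with i' | u
    · simp only [ChevalleyDatum.xMat, Matrix.of_apply]
      split_ifs <;> simp
    · simp only [ChevalleyDatum.xMat, Matrix.of_apply]
      split_ifs <;> simp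
  · by_cases h1 : s = r
    · subst h1
      rcases row with i' | u
      · simp [ChevalleyDatum.xMat]
      · simp only [ChevalleyDatum.xMat, Matrix.of_apply, if_true]
        split_ifs <;> simp
    · by_cases h2 : s.val = D.negIdx.getD r.val 0
      · rcases row with i' | u
        · simp only [ChevalleyDatum.xMat, Matrix.of_apply, if_neg h1, if_pos h2]
          simp
        · simp only [ChevalleyDatum.xMat, Matrix.of_apply, if_neg h1, if_pos h2]
          split_ifs <;> simp
      · rcases row with i' | u
        · simp only [ChevalleyDatum.xMat, Matrix.of_apply, if_neg h1, if_neg h2]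
          simp
        · simp only [ChevalleyDatum.xMat, Matrix.of_apply, if_neg h1, if_neg h2]
          rw [map_add, map_list_sum, List.map_map]
          congr 1
          · split_ifs <;> simp
          · congr 1
            apply List.map_congr_left
            intro km _
            simp

theorem x_map (D : ChevalleyDatum) {F : Type*} [Field F] (f : F ≃+* F) (r : ℕ) (t : F) :
    (D.x F r t).map f = D.x F r (f t) := by
  unfold ChevalleyDatum.x
  split
  · exact xMat_map D f _ t
  · exact Matrix.map_one f (map_zero f) (map_one f)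

/-- the entrywise action of a field automorphism on the general linear group -/
noncomputable def glFieldEquiv (D : ChevalleyDatum) {F : Type*} [Field F] (f : F ≃+* F) :
    GL D.Idx F ≃* GL D.Idx F :=
  Units.mapEquiv (RingEquiv.mapMatrix f).toMulEquiv

theorem glFieldEquiv_coe (D : ChevalleyDatum) {F : Type*} [Field F] (f : F ≃+* F) (g : GL D.Idx F) :
    ((glFieldEquiv D f g : GL D.Idx F) : Matrix D.Idx D.Idx F) = (g : Matrix D.Idx D.Idx F).map f := by
  unfold glFieldEquiv
  rw [Units.coe_mapEquiv]
  rfl

theorem glFieldEquiv_symm_coe (D : ChevalleyDatum) {F : Type*} [Field F] (f : F ≃+* F) (g : GL D.Idx F) :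
    (((glFieldEquiv D f).symm g : GL D.Idx F) : Matrix D.Idx D.Idx F) =
      (g : Matrix D.Idx D.Idx F).map f.symm := by
  have h := glFieldEquiv_coe D f ((glFieldEquiv D f).symm g)
  rw [MulEquiv.apply_symm_apply] at h
  rw [h, Matrix.map_map]
  ext i j
  simp

theorem group_map_field (D : ChevalleyDatum) {F : Type*} [Field F] (f : F ≃+* F) :
    (D.group F).map ((glFieldEquiv D f : GL D.Idx F ≃* GL D.Idx F) : GL D.Idx F →* GL D.Idx F) =
      D.group F := by
  unfold ChevalleyDatum.group
  rw [MonoidHom.map_closure]
  congr 1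
  ext g
  constructor
  · rintro ⟨g0, ⟨r, t, hg0⟩, rfl⟩
    refine ⟨r, f t, ?_⟩
    have h := glFieldEquiv_coe D f g0
    rw [hg0, xMat_map] at h
    exact h
  · rintro ⟨r, t, hg⟩
    refine ⟨(glFieldEquiv D f).symm g, ⟨r, f.symm t, ?_⟩, ?_⟩
    · rw [glFieldEquiv_symm_coe, hg, xMat_map]
    · exact MulEquiv.apply_symm_apply _ g

theorem exists_field_aut (D : ChevalleyDatum) {F : Type*} [Field F] (f : F ≃+* F) :
    ∃ α : ↥(D.group F) ≃* ↥(D.group F), ∀ (g : ↥(D.group F)) (r : ℕ) (t : F), r < D.nroots →
      ((g : GL D.Idx F) : Matrix D.Idx D.Idx F) = D.x F r t →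
        ((α g : GL D.Idx F) : Matrix D.Idx D.Idx F) = D.x F r (f t) := by
  refine ⟨((glFieldEquiv D f).subgroupMap (D.group F)).trans
    (MulEquiv.subgroupCongr (group_map_field D f)), ?_⟩
  intro g r t _ hg
  rw [MulEquiv.trans_apply, MulEquiv.subgroupCongr_apply, MulEquiv.coe_subgroupMap_apply,
    glFieldEquiv_coe, hg, x_map]

end Cfsg.Agent.Lib.Helper3
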