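import Mathlib
import Cfsg.Prelude.Def_ChevG2
import Cfsg.Prelude.Def_ChevB2
import Cfsg.Prelude.Def_ChevD4
import Cfsg.Prelude.Def_ChevF4
import Cfsg.Prelude.Def_ChevE6
import Cfsg.Prelude.Def_ChevE7
import Cfsg.Prelude.Def_ChevE8
import Cfsg.Agent.Lib.Helper3.ChevRNgs

set_option autoImplicit false

namespace Cfsg.Agent.Lib.Helper3

open Cfsg.Lie

theorem chkNg_E6 : chkNg chevE6 = true := by
  rw [chkNg_eq_rows]
  have h := rows_nil (rowNg chevE6) 0
  have h := rows_append _ 0 0 72 h (rows_range' _ 0 72 rowNg_E6_g0)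
  exact all_range_of_rows _ _ h

theorem chkNg_E7 : chkNg chevE7 = true := by
  rw [chkNg_eq_rows]
  have h := rows_nil (rowNg chevE7) 0
  have h := rows_append _ 0 0 126 h (rows_range' _ 0 126 rowNg_E7_g0)
  exact all_range_of_rows _ _ h

theorem chkNg_E8 : chkNg chevE8 = true := by
  rw [chkNg_eq_rows]
  have h := rows_nil (rowNg chevE8) 0
  have h := rows_append _ 0 0 80 h (rows_range' _ 0 80 rowNg_E8_g0)
  have h := rows_append _ 0 80 160 h (rows_range' _ 80 80 rowNg_E8_g80)
  have h := rows_append _ 0 160 240 h (rows_range' _ 160 80 rowNg_E8_g160)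
  exact all_range_of_rows _ _ h

theorem chkNg_all : ∀ D ∈ [chevG2, chevB2, chevD4, chevF4, chevE6, chevE7, chevE8],
    chkNg D = true := by
  intro D hD
  simp only [List.mem_cons, List.not_mem_nil, or_false] at hD
  rcases hD with h | h | h | h | h | h | h
  · rw [h]; exact chkNg_G2
  · rw [h]; exact chkNg_B2
  · rw [h]; exact chkNg_D4
  · rw [h]; exact chkNg_F4
  · rw [h]; exact chkNg_E6
  · rw [h]; exact chkNg_E7
  · rw [h]; exact chkNg_E8

end Cfsg.Agent.Lib.Helper3
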