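import Mathlib
import Cfsg.Prelude.Def_ChevE8
import Cfsg.Agent.Lib.Helper3.ChevRY8x160

set_option autoImplicit false

namespace Cfsg.Agent.Lib.Helper3

open Cfsg.Lie

set_option maxHeartbeats 0 in
theorem rowY_E8_g200 : (List.range' 200 40).all (rowY chevE8) = true := by
  decide +kernel

end Cfsg.Agent.Lib.Helper3
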