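import Mathlib
import Cfsg.Prelude.Def_ChevG2
import Cfsg.Prelude.Def_ChevB2
import Cfsg.Prelude.Def_ChevD4
import Cfsg.Prelude.Def_ChevF4
import Cfsg.Agent.Lib.Helper3.ChevRY6x0

set_option autoImplicit false

namespace Cfsg.Agent.Lib.Helper3

open Cfsg.Lie

theorem chkY_G2 : chkY chevG2 = true := by decide +kernel

theorem chkY_B2 : chkY chevB2 = true := by decide +kernel

theorem chkY_D4 : chkY chevD4 = true := by decide +kernel

theorem chkY_F4 : chkY chevF4 = true := by decide +kernel


end Cfsg.Agent.Lib.Helper3
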