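import Mathlib
import Cfsg.Prelude.Def_ChevG2
import Cfsg.Prelude.Def_ChevB2
import Cfsg.Prelude.Def_ChevD4
import Cfsg.Prelude.Def_ChevF4
import Cfsg.Agent.Lib.Helper3.ChevRP6x0

set_option autoImplicit false

namespace Cfsg.Agent.Lib.Helper3

open Cfsg.Lie

theorem chkP_G2 : chkP chevG2 = true := by decide +kernel

theorem chkP_B2 : chkP chevB2 = true := by decide +kernel

theorem chkP_D4 : chkP chevD4 = true := by decide +kernel

theorem chkP_F4 : chkP chevF4 = true := by decide +kernel


end Cfsg.Agent.Lib.Helper3
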