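import Mathlib
import Cfsg.Prelude.Def_ChevG2
import Cfsg.Prelude.Def_ChevB2
import Cfsg.Prelude.Def_ChevD4
import Cfsg.Prelude.Def_ChevF4
import Cfsg.Prelude.Def_ChevE6
import Cfsg.Prelude.Def_ChevE7
import Cfsg.Prelude.Def_ChevE8
import Cfsg.Agent.Lib.Helper3.ChevRS8x210
import Cfsg.Agent.Lib.Helper3.ChevRSs

set_option autoImplicit false

namespace Cfsg.Agent.Lib.Helper3

open Cfsg.Lie

theorem chkS_E6 : chkS chevE6 = true := by
  rw [chkS_eq_rows']
  have h := rows_nil (rowS' chevE6) 0
  have h := rows_append _ 0 0 72 h (rows_range' _ 0 72 rowS_E6_g0)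
  exact all_range_of_rows _ _ h

theorem chkS_E7 : chkS chevE7 = true := by
  rw [chkS_eq_rows']
  have h := rows_nil (rowS' chevE7) 0
  have h := rows_append _ 0 0 63 h (rows_range' _ 0 63 rowS_E7_g0)
  have h := rows_append _ 0 63 126 h (rows_range' _ 63 63 rowS_E7_g63)
  exact all_range_of_rows _ _ h

theorem chkS_E8 : chkS chevE8 = true := by
  rw [chkS_eq_rows']
  have h := rows_nil (rowS' chevE8) 0
  have h := rows_append _ 0 0 30 h (rows_range' _ 0 30 rowS_E8_g0)
  have h := rows_append _ 0 30 60 h (rows_range' _ 30 30 rowS_E8_g30)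
  have h := rows_append _ 0 60 90 h (rows_range' _ 60 30 rowS_E8_g60)
  have h := rows_append _ 0 90 120 h (rows_range' _ 90 30 rowS_E8_g90)
  have h := rows_append _ 0 120 150 h (rows_range' _ 120 30 rowS_E8_g120)
  have h := rows_append _ 0 150 180 h (rows_range' _ 150 30 rowS_E8_g150)
  have h := rows_append _ 0 180 210 h (rows_range' _ 180 30 rowS_E8_g180)
  have h := rows_append _ 0 210 240 h (rows_range' _ 210 30 rowS_E8_g210)
  exact all_range_of_rows _ _ h

theorem chkS_all : ∀ D ∈ [chevG2, chevB2, chevD4, chevF4, chevE6, chevE7, chevE8],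
    chkS D = true := by
  intro D hD
  simp only [List.mem_cons, List.not_mem_nil, or_false] at hD
  rcases hD with h | h | h | h | h | h | h
  · rw [h]; exact chkS_G2
  · rw [h]; exact chkS_B2
  · rw [h]; exact chkS_D4
  · rw [h]; exact chkS_F4
  · rw [h]; exact chkS_E6
  · rw [h]; exact chkS_E7
  · rw [h]; exact chkS_E8

end Cfsg.Agent.Lib.Helper3
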