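import Mathlib
import Cfsg.Prelude.Def_ChevG2
import Cfsg.Prelude.Def_ChevB2
import Cfsg.Prelude.Def_ChevD4
import Cfsg.Prelude.Def_ChevF4
import Cfsg.Prelude.Def_ChevE6
import Cfsg.Prelude.Def_ChevE7
import Cfsg.Prelude.Def_ChevE8
import Cfsg.Agent.Lib.Helper3.ChevRYs

set_option autoImplicit false

namespace Cfsg.Agent.Lib.Helper3

open Cfsg.Lie

theorem chkY_E6 : chkY chevE6 = true := by
  rw [chkY_eq_rows]
  have h := rows_nil (rowY chevE6) 0
  have h := rows_append _ 0 0 72 h (rows_range' _ 0 72 rowY_E6_g0)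
  exact all_range_of_rows _ _ h

theorem chkY_E7 : chkY chevE7 = true := by
  rw [chkY_eq_rows]
  have h := rows_nil (rowY chevE7) 0
  have h := rows_append _ 0 0 126 h (rows_range' _ 0 126 rowY_E7_g0)
  exact all_range_of_rows _ _ h

theorem chkY_E8 : chkY chevE8 = true := by
  rw [chkY_eq_rows]
  have h := rows_nil (rowY chevE8) 0
  have h := rows_append _ 0 0 40 h (rows_range' _ 0 40 rowY_E8_g0)
  have h := rows_append _ 0 40 80 h (rows_range' _ 40 40 rowY_E8_g40)
  have h := rows_append _ 0 80 120 h (rows_range' _ 80 40 rowY_E8_g80)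
  have h := rows_append _ 0 120 160 h (rows_range' _ 120 40 rowY_E8_g120)
  have h := rows_append _ 0 160 200 h (rows_range' _ 160 40 rowY_E8_g160)
  have h := rows_append _ 0 200 240 h (rows_range' _ 200 40 rowY_E8_g200)
  exact all_range_of_rows _ _ h

theorem chkY_all : ∀ D ∈ [chevG2, chevB2, chevD4, chevF4, chevE6, chevE7, chevE8],
    chkY D = true := by
  intro D hD
  simp only [List.mem_cons, List.not_mem_nil, or_false] at hD
  rcases hD with h | h | h | h | h | h | h
  · rw [h]; exact chkY_G2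
  · rw [h]; exact chkY_B2
  · rw [h]; exact chkY_D4
  · rw [h]; exact chkY_F4
  · rw [h]; exact chkY_E6
  · rw [h]; exact chkY_E7
  · rw [h]; exact chkY_E8

end Cfsg.Agent.Lib.Helper3
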