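import Mathlib
import Cfsg.Agent.Lib.Helper3.ChevAddChk
import Cfsg.Agent.Lib.Helper3.ChevHChkSorted
import Cfsg.Agent.Lib.Helper3.ChevHChkS
import Cfsg.Agent.Lib.Helper3.ChevHChkY
import Cfsg.Agent.Lib.Helper3.ChevHChkP
import Cfsg.Agent.Lib.Helper3.ChevHChkNg
import Cfsg.Agent.Lib.Helper3.ChevH

set_option autoImplicit false

namespace Cfsg.Agent.Lib.Helper3

open Cfsg.Lie

/-- in the seven tabulated types `h_r(t)` is diagonal, with entry `t ^ ⟨s, r⟩` at `e_s` -/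
theorem hMat_eq_diag_all {F : Type*} [Field F] (D : ChevalleyDatum)
    (hD : D ∈ [chevG2, chevB2, chevD4, chevF4, chevE6, chevE7, chevE8]) (r : ℕ) (hr : r < D.nroots)
    (t : F) (ht : t ≠ 0) :
    D.hMat F r t = Matrix.diagonal (Sum.elim (fun _ => (1 : F))
      (fun s : Fin D.nroots => t ^ (D.pairing r s.val))) :=
  hMat_eq_diag D (chkAdd_all D hD) (chkSorted_all D hD) (chkS_all D hD) (chkY_all D hD)
    (chkP_all D hD) (chkNg_all D hD) r hr t ht

theorem hMat_mul_all {F : Type*} [Field F] (D : ChevalleyDatum)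
    (hD : D ∈ [chevG2, chevB2, chevD4, chevF4, chevE6, chevE7, chevE8]) (r : ℕ) (hr : r < D.nroots)
    (t₁ t₂ : F) (h₁ : t₁ ≠ 0) (h₂ : t₂ ≠ 0) :
    D.hMat F r t₁ * D.hMat F r t₂ = D.hMat F r (t₁ * t₂) := by
  rw [hMat_eq_diag_all D hD r hr t₁ h₁, hMat_eq_diag_all D hD r hr t₂ h₂,
    hMat_eq_diag_all D hD r hr (t₁ * t₂) (mul_ne_zero h₁ h₂), Matrix.diagonal_mul_diagonal]
  congr 1
  funext j
  rcases j with i | s
  · simp
  · simp [mul_zpow]

end Cfsg.Agent.Lib.Helper3
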