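import Mathlib
import Cfsg.Prelude.Def_ChevG2
import Cfsg.Prelude.Def_ChevB2
import Cfsg.Prelude.Def_ChevD4
import Cfsg.Prelude.Def_ChevF4
import Cfsg.Prelude.Def_ChevE6
import Cfsg.Agent.Lib.Helper3.ChevRSi7
import Cfsg.Agent.Lib.Helper3.ChevRows

set_option autoImplicit false

namespace Cfsg.Agent.Lib.Helper3

open Cfsg.Lie

set_option maxHeartbeats 0 in
theorem chkSimple_G2 : chkSimple chevG2 = true := by
  decide +kernel

set_option maxHeartbeats 0 in
theorem chkSimple_B2 : chkSimple chevB2 = true := by
  decide +kernel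

set_option maxHeartbeats 0 in
theorem chkSimple_D4 : chkSimple chevD4 = true := by
  decide +kernel

set_option maxHeartbeats 0 in
theorem chkSimple_F4 : chkSimple chevF4 = true := by
  decide +kernel

set_option maxHeartbeats 0 in
theorem chkSimple_E6 : chkSimple chevE6 = true := by
  decide +kernel


end Cfsg.Agent.Lib.Helper3
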