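import Mathlib
import Cfsg.Prelude.Def_ChevE6
import Cfsg.Agent.Lib.Helper3.ChevRCA7x0
import Cfsg.Agent.Lib.Helper3.ChevRows

set_option autoImplicit false

namespace Cfsg.Agent.Lib.Helper3

open Cfsg.Lie

set_option maxHeartbeats 0 in
theorem rowCA_E6_g0 : (List.range' 0 6).all (rowCA chevE6) = true := by
  decide +kernel

end Cfsg.Agent.Lib.Helper3
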