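import Mathlib
import Cfsg.Prelude.Def_ChevG2
import Cfsg.Prelude.Def_ChevB2
import Cfsg.Prelude.Def_ChevD4
import Cfsg.Prelude.Def_ChevF4
import Cfsg.Agent.Lib.Helper3.ChevRCA6x0
import Cfsg.Agent.Lib.Helper3.ChevRows

set_option autoImplicit false

namespace Cfsg.Agent.Lib.Helper3

open Cfsg.Lie

theorem chkCAp_G2 : chkCAp chevG2 = true := by decide +kernel

theorem chkCAp_B2 : chkCAp chevB2 = true := by decide +kernel

theorem chkCAp_D4 : chkCAp chevD4 = true := by decide +kernel

theorem chkCAp_F4 : chkCAp chevF4 = true := by decide +kernel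


end Cfsg.Agent.Lib.Helper3
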