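import Mathlib
import Cfsg.Prelude.Def_ChevG2
import Cfsg.Prelude.Def_ChevB2
import Cfsg.Prelude.Def_ChevD4
import Cfsg.Prelude.Def_ChevF4
import Cfsg.Prelude.Def_ChevE6
import Cfsg.Prelude.Def_ChevE7
import Cfsg.Prelude.Def_ChevE8
import Cfsg.Agent.Lib.Helper3.ChevRCAs

set_option autoImplicit false

namespace Cfsg.Agent.Lib.Helper3

open Cfsg.Lie

theorem chkCA_G2 : chkCA chevG2 = true := chkCA_of_chkCAp _ chkCAp_G2

theorem chkCA_B2 : chkCA chevB2 = true := chkCA_of_chkCAp _ chkCAp_B2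

theorem chkCA_D4 : chkCA chevD4 = true := chkCA_of_chkCAp _ chkCAp_D4

theorem chkCA_F4 : chkCA chevF4 = true := chkCA_of_chkCAp _ chkCAp_F4

theorem chkCA_E6 : chkCA chevE6 = true := by
  apply chkCA_of_chkCAp
  unfold chkCAp
  have h := rows_nil (rowCA chevE6) 0
  have h := rows_append _ 0 0 6 h (rows_range' _ 0 6 rowCA_E6_g0)
  exact all_range_of_rows _ _ h

theorem chkCA_E7 : chkCA chevE7 = true := by
  apply chkCA_of_chkCAp
  unfold chkCAp
  have h := rows_nil (rowCA chevE7) 0
  have h := rows_append _ 0 0 7 h (rows_range' _ 0 7 rowCA_E7_g0)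
  exact all_range_of_rows _ _ h

theorem chkCA_E8 : chkCA chevE8 = true := by
  apply chkCA_of_chkCAp
  unfold chkCAp
  have h := rows_nil (rowCA chevE8) 0
  have h := rows_append _ 0 0 4 h (rows_range' _ 0 4 rowCA_E8_g0)
  have h := rows_append _ 0 4 8 h (rows_range' _ 4 4 rowCA_E8_g4)
  exact all_range_of_rows _ _ h

theorem chkCA_all : ∀ D ∈ [chevG2, chevB2, chevD4, chevF4, chevE6, chevE7, chevE8],
    chkCA D = true := by
  intro D hD
  simp only [List.mem_cons, List.not_mem_nil, or_false] at hD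
  rcases hD with h | h | h | h | h | h | h
  · rw [h]; exact chkCA_G2
  · rw [h]; exact chkCA_B2
  · rw [h]; exact chkCA_D4
  · rw [h]; exact chkCA_F4
  · rw [h]; exact chkCA_E6
  · rw [h]; exact chkCA_E7
  · rw [h]; exact chkCA_E8

theorem chkSimple_all : ∀ D ∈ [chevG2, chevB2, chevD4, chevF4, chevE6, chevE7, chevE8],
    chkSimple D = true := by
  intro D hD
  simp only [List.mem_cons, List.not_mem_nil, or_false] at hD
  rcases hD with h | h | h | h | h | h | h
  · rw [h]; exact chkSimple_G2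
  · rw [h]; exact chkSimple_B2
  · rw [h]; exact chkSimple_D4
  · rw [h]; exact chkSimple_F4
  · rw [h]; exact chkSimple_E6
  · rw [h]; exact chkSimple_E7
  · rw [h]; exact chkSimple_E8


end Cfsg.Agent.Lib.Helper3
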