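import Mathlib
import Cfsg.Prelude.Def_ChevG2
import Cfsg.Prelude.Def_ChevB2
import Cfsg.Prelude.Def_ChevD4
import Cfsg.Prelude.Def_ChevF4
import Cfsg.Prelude.Def_ChevE6
import Cfsg.Prelude.Def_ChevE7
import Cfsg.Prelude.Def_ChevE8
import Cfsg.Agent.Lib.Helper3.ChevRUnis
import Cfsg.Agent.Lib.Helper3.ChevAddChk

set_option autoImplicit false

namespace Cfsg.Agent.Lib.Helper3

open Cfsg.Lie

theorem chkUni_E6 : chkUni chevE6 = true := by
  rw [chkUni_eq_rows]
  rw [Bool.and_eq_true]
  refine ⟨by decide, ?_⟩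
  have h := rows_nil (rowUni chevE6) 0
  have h := rows_append _ 0 0 72 h (rows_range' _ 0 72 rowUni_E6_g0)
  exact all_range_of_rows _ _ h

theorem chkUni_E7 : chkUni chevE7 = true := by
  rw [chkUni_eq_rows]
  rw [Bool.and_eq_true]
  refine ⟨by decide, ?_⟩
  have h := rows_nil (rowUni chevE7) 0
  have h := rows_append _ 0 0 126 h (rows_range' _ 0 126 rowUni_E7_g0)
  exact all_range_of_rows _ _ h

theorem chkUni_E8 : chkUni chevE8 = true := by
  rw [chkUni_eq_rows]
  rw [Bool.and_eq_true]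
  refine ⟨by decide, ?_⟩
  have h := rows_nil (rowUni chevE8) 0
  have h := rows_append _ 0 0 240 h (rows_range' _ 0 240 rowUni_E8_g0)
  exact all_range_of_rows _ _ h

theorem chkUni_all : ∀ D ∈ [chevG2, chevB2, chevD4, chevF4, chevE6, chevE7, chevE8],
    chkUni D = true := by
  intro D hD
  simp only [List.mem_cons, List.not_mem_nil, or_false] at hD
  rcases hD with h | h | h | h | h | h | h
  · rw [h]; exact chkUni_G2
  · rw [h]; exact chkUni_B2
  · rw [h]; exact chkUni_D4
  · rw [h]; exact chkUni_F4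
  · rw [h]; exact chkUni_E6
  · rw [h]; exact chkUni_E7
  · rw [h]; exact chkUni_E8

end Cfsg.Agent.Lib.Helper3
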