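import Mathlib
import Cfsg.Agent.Lib.Helper3.ChevHAll
import Cfsg.Agent.Lib.Helper3.ChevHCharChk
import Cfsg.Agent.Lib.Helper3.ChevUniChk
import Cfsg.Agent.Lib.Helper3.ChevHN
import Cfsg.Agent.S2157

set_option autoImplicit false

namespace Cfsg.Agent.Lib.Helper3

open Cfsg.Lie

theorem chkChev_all : ∀ D ∈ [chevG2, chevB2, chevD4, chevF4, chevE6, chevE7, chevE8],
    chkChev D = true := by
  intro D hD
  simp only [List.mem_cons, List.not_mem_nil, or_false] at hD
  rcases hD with rfl | rfl | rfl | rfl | rfl | rfl | rfl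
  · exact Cfsg.Agent.S2157.chk_G2
  · exact Cfsg.Agent.S2157.chk_B2
  · exact Cfsg.Agent.S2157.chk_D4
  · exact Cfsg.Agent.S2157.chk_F4
  · exact Cfsg.Agent.S2157.chk_E6
  · exact Cfsg.Agent.S2157.chk_E7
  · exact Cfsg.Agent.S2157.chk_E8

theorem chevOK_all : ∀ D ∈ [chevG2, chevB2, chevD4, chevF4, chevE6, chevE7, chevE8], ChevOK D :=
  fun D hD =>
    { add := chkAdd_all D hD
      sorted := chkSorted_all D hD
      s := chkS_all D hD
      y := chkY_all D hD
      p := chkP_all D hD
      ng := chkNg_all D hD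
      ca := chkCA_all D hD
      chev := chkChev_all D hD
      uni := chkUni_all D hD }

/-- `h_p(c)` for a fundamental root `p` -/
theorem hMat_simple_all {F : Type*} [Field F] (D : ChevalleyDatum)
    (hD : D ∈ [chevG2, chevB2, chevD4, chevF4, chevE6, chevE7, chevE8]) (i : ℕ) (hi : i < D.rank)
    (c : F) (hc : c ≠ 0) :
    D.hMat F (D.simple i) c = Matrix.diagonal (Sum.elim (fun _ => (1 : F))
      (fun s : Fin D.nroots => c ^ (D.cartan i s))) := by
  obtain ⟨hlt, hpair⟩ := chkSimple_spec D (chkSimple_all D hD) i hi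
  rw [hMat_eq_diag_all D hD (D.simple i) hlt c hc]
  congr 1
  funext j
  rcases j with k | s
  · rfl
  · simp only [Sum.elim_inr]
    rw [hpair s.val s.isLt]

theorem hMat_simple_mul_x_all {F : Type*} [Field F] (D : ChevalleyDatum)
    (hD : D ∈ [chevG2, chevB2, chevD4, chevF4, chevE6, chevE7, chevE8]) (i s : ℕ) (hi : i < D.rank)
    (hs : s < D.nroots) (c : F) (hc : c ≠ 0) (t : F) :
    D.hMat F (D.simple i) c * D.x F s t =
      D.x F s (c ^ (D.cartan i s) * t) * D.hMat F (D.simple i) c := by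
  obtain ⟨hlt, hpair⟩ := chkSimple_spec D (chkSimple_all D hD) i hi
  have ok := chevOK_all D hD
  have hχ := hChar_isRootCharacter D ok.ca ok.ng (D.simple i) c hc
  rw [hMat_eq_charDiag D ok (D.simple i) hlt c hc, charDiag_mul_x D hD _ hχ s hs t]
  have e : ((hChar D (D.simple i) c hc s : Fˣ) : F) = c ^ (D.cartan i s) := by
    show c ^ D.pairing (D.simple i) s = c ^ (D.cartan i s)
    rw [hpair s hs]
  rw [e]

end Cfsg.Agent.Lib.Helper3
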