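import Mathlib
import Cfsg.Agent.Lib.Helper3.ChevRc8i1
import Cfsg.Agent.Lib.Helper3.ChevRc8i7

set_option autoImplicit false

namespace Cfsg.Agent.Lib.Helper3

open Cfsg.Lie

theorem rfAllE8 : ∀ i < chevE8.rank, ∃ (ρf : ℕ → ℕ) (εf : ℕ → ℤ), ReflOK chevE8 i ρf εf := by
  intro i hi
  have hi' : i < 8 := hi
  interval_cases i
  · exact ⟨_, _, rfOKE8_0⟩
  · exact ⟨_, _, rfOKE8_1⟩
  · exact ⟨_, _, rfOKE8_2⟩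
  · exact ⟨_, _, rfOKE8_3⟩
  · exact ⟨_, _, rfOKE8_4⟩
  · exact ⟨_, _, rfOKE8_5⟩
  · exact ⟨_, _, rfOKE8_6⟩
  · exact ⟨_, _, rfOKE8_7⟩

theorem reflOK_all : ∀ D ∈ [chevG2, chevB2, chevD4, chevF4, chevE6, chevE7, chevE8],
    chkNegF D = true ∧ ∀ i < D.rank, ∃ (ρf : ℕ → ℕ) (εf : ℕ → ℤ), ReflOK D i ρf εf := by
  intro D hD
  simp only [List.mem_cons, List.not_mem_nil, or_false] at hD
  rcases hD with h | h | h | h | h | h | h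
  · rw [h]; exact ⟨rfNegG2, rfAllG2⟩
  · rw [h]; exact ⟨rfNegB2, rfAllB2⟩
  · rw [h]; exact ⟨rfNegD4, rfAllD4⟩
  · rw [h]; exact ⟨rfNegF4, rfAllF4⟩
  · rw [h]; exact ⟨rfNegE6, rfAllE6⟩
  · rw [h]; exact ⟨rfNegE7, rfAllE7⟩
  · rw [h]; exact ⟨rfNegE8, rfAllE8⟩

end Cfsg.Agent.Lib.Helper3
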