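import Mathlib
import Cfsg.Agent.Lib.Helper3.ChevRefCChk
import Cfsg.Agent.Lib.Helper3.ChevW0
import Cfsg.Agent.Lib.Helper3.ChevOKAll
import Cfsg.Agent.Lib.Helper3.ChevEtaChk

set_option autoImplicit false

namespace Cfsg.Agent.Lib.Helper3

open Cfsg.Lie

def w0RsG2 : List ℕ := [rfRG2_0, rfRG2_1]
def w0EsG2 : List ℕ := [rfEG2_0, rfEG2_1]
theorem w0RG2 : ∀ i < chevG2.rank, ReflOK chevG2 i (dig256 (w0RsG2.getD i 0)) (sgnBit (w0EsG2.getD i 0)) := by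
  intro i hi
  have hi' : i < 2 := hi
  interval_cases i
  · exact rfOKG2_0
  · exact rfOKG2_1
def w0LG2 : List ℕ := [0, 1, 0, 1, 0, 1]
def w0LrG2 : List ℕ := [1, 0, 1, 0, 1, 0]
theorem w0LrevG2 : w0LrG2 = w0LG2.reverse := by decide +kernel
theorem w0LmemG2 : ∀ i ∈ w0LG2, i < chevG2.rank := by decide +kernel
set_option maxHeartbeats 0 in
theorem w0ChkG2 : chkW0 chevG2 w0RsG2 w0LG2 w0LrG2 = true := by decide +kernel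

def w0RsB2 : List ℕ := [rfRB2_0, rfRB2_1]
def w0EsB2 : List ℕ := [rfEB2_0, rfEB2_1]
theorem w0RB2 : ∀ i < chevB2.rank, ReflOK chevB2 i (dig256 (w0RsB2.getD i 0)) (sgnBit (w0EsB2.getD i 0)) := by
  intro i hi
  have hi' : i < 2 := hi
  interval_cases i
  · exact rfOKB2_0
  · exact rfOKB2_1
def w0LB2 : List ℕ := [0, 1, 0, 1]
def w0LrB2 : List ℕ := [1, 0, 1, 0]
theorem w0LrevB2 : w0LrB2 = w0LB2.reverse := by decide +kernel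
theorem w0LmemB2 : ∀ i ∈ w0LB2, i < chevB2.rank := by decide +kernel
set_option maxHeartbeats 0 in
theorem w0ChkB2 : chkW0 chevB2 w0RsB2 w0LB2 w0LrB2 = true := by decide +kernel

def w0RsD4 : List ℕ := [rfRD4_0, rfRD4_1, rfRD4_2, rfRD4_3]
def w0EsD4 : List ℕ := [rfED4_0, rfED4_1, rfED4_2, rfED4_3]
theorem w0RD4 : ∀ i < chevD4.rank, ReflOK chevD4 i (dig256 (w0RsD4.getD i 0)) (sgnBit (w0EsD4.getD i 0)) := by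
  intro i hi
  have hi' : i < 4 := hi
  interval_cases i
  · exact rfOKD4_0
  · exact rfOKD4_1
  · exact rfOKD4_2
  · exact rfOKD4_3
def w0LD4 : List ℕ := [0, 1, 0, 2, 1, 0, 3, 1, 0, 2, 1, 3]
def w0LrD4 : List ℕ := [3, 1, 2, 0, 1, 3, 0, 1, 2, 0, 1, 0]
theorem w0LrevD4 : w0LrD4 = w0LD4.reverse := by decide +kernel
theorem w0LmemD4 : ∀ i ∈ w0LD4, i < chevD4.rank := by decide +kernel
set_option maxHeartbeats 0 in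
theorem w0ChkD4 : chkW0 chevD4 w0RsD4 w0LD4 w0LrD4 = true := by decide +kernel

def w0RsF4 : List ℕ := [rfRF4_0, rfRF4_1, rfRF4_2, rfRF4_3]
def w0EsF4 : List ℕ := [rfEF4_0, rfEF4_1, rfEF4_2, rfEF4_3]
theorem w0RF4 : ∀ i < chevF4.rank, ReflOK chevF4 i (dig256 (w0RsF4.getD i 0)) (sgnBit (w0EsF4.getD i 0)) := by
  intro i hi
  have hi' : i < 4 := hi
  interval_cases i
  · exact rfOKF4_0
  · exact rfOKF4_1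
  · exact rfOKF4_2
  · exact rfOKF4_3
def w0LF4 : List ℕ := [0, 1, 0, 2, 1, 0, 2, 1, 2, 3, 2, 1, 0, 2, 1, 2, 3, 2, 1, 0, 2, 1, 2, 3]
def w0LrF4 : List ℕ := [3, 2, 1, 2, 0, 1, 2, 3, 2, 1, 2, 0, 1, 2, 3, 2, 1, 2, 0, 1, 2, 0, 1, 0]
theorem w0LrevF4 : w0LrF4 = w0LF4.reverse := by decide +kernel
theorem w0LmemF4 : ∀ i ∈ w0LF4, i < chevF4.rank := by decide +kernel
set_option maxHeartbeats 0 in
theorem w0ChkF4 : chkW0 chevF4 w0RsF4 w0LF4 w0LrF4 = true := by decide +kernel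

def w0RsE6 : List ℕ := [rfRE6_0, rfRE6_1, rfRE6_2, rfRE6_3, rfRE6_4, rfRE6_5]
def w0EsE6 : List ℕ := [rfEE6_0, rfEE6_1, rfEE6_2, rfEE6_3, rfEE6_4, rfEE6_5]
theorem w0RE6 : ∀ i < chevE6.rank, ReflOK chevE6 i (dig256 (w0RsE6.getD i 0)) (sgnBit (w0EsE6.getD i 0)) := by
  intro i hi
  have hi' : i < 6 := hi
  interval_cases i
  · exact rfOKE6_0
  · exact rfOKE6_1
  · exact rfOKE6_2
  · exact rfOKE6_3
  · exact rfOKE6_4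
  · exact rfOKE6_5
def w0LE6 : List ℕ := [0, 1, 2, 0, 3, 1, 2, 0, 3, 2, 4, 3, 1, 2, 0, 3, 2, 4, 3, 1, 5, 4, 3, 1, 2, 0, 3, 2, 4, 3, 1, 5, 4, 3, 2, 0]
def w0LrE6 : List ℕ := [0, 2, 3, 4, 5, 1, 3, 4, 2, 3, 0, 2, 1, 3, 4, 5, 1, 3, 4, 2, 3, 0, 2, 1, 3, 4, 2, 3, 0, 2, 1, 3, 0, 2, 1, 0]
theorem w0LrevE6 : w0LrE6 = w0LE6.reverse := by decide +kernel
theorem w0LmemE6 : ∀ i ∈ w0LE6, i < chevE6.rank := by decide +kernel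
set_option maxHeartbeats 0 in
theorem w0ChkE6 : chkW0 chevE6 w0RsE6 w0LE6 w0LrE6 = true := by decide +kernel

def w0RsE7 : List ℕ := [rfRE7_0, rfRE7_1, rfRE7_2, rfRE7_3, rfRE7_4, rfRE7_5, rfRE7_6]
def w0EsE7 : List ℕ := [rfEE7_0, rfEE7_1, rfEE7_2, rfEE7_3, rfEE7_4, rfEE7_5, rfEE7_6]
theorem w0RE7 : ∀ i < chevE7.rank, ReflOK chevE7 i (dig256 (w0RsE7.getD i 0)) (sgnBit (w0EsE7.getD i 0)) := by
  intro i hi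
  have hi' : i < 7 := hi
  interval_cases i
  · exact rfOKE7_0
  · exact rfOKE7_1
  · exact rfOKE7_2
  · exact rfOKE7_3
  · exact rfOKE7_4
  · exact rfOKE7_5
  · exact rfOKE7_6
def w0LE7 : List ℕ := [0, 1, 2, 0, 3, 1, 2, 0, 3, 2, 4, 3, 1, 2, 0, 3, 2, 4, 3, 1, 5, 4, 3, 1, 2, 0, 3, 2, 4, 3, 1, 5, 4, 3, 2, 0, 6, 5, 4, 3, 1, 2, 0, 3, 2, 4, 3, 1, 5, 4, 3, 2, 0, 6, 5, 4, 3, 1, 2, 3, 4, 5, 6]
def w0LrE7 : List ℕ := [6, 5, 4, 3, 2, 1, 3, 4, 5, 6, 0, 2, 3, 4, 5, 1, 3, 4, 2, 3, 0, 2, 1, 3, 4, 5, 6, 0, 2, 3, 4, 5, 1, 3, 4, 2, 3, 0, 2, 1, 3, 4, 5, 1, 3, 4, 2, 3, 0, 2, 1, 3, 4, 2, 3, 0, 2, 1, 3, 0, 2, 1, 0]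
theorem w0LrevE7 : w0LrE7 = w0LE7.reverse := by decide +kernel
theorem w0LmemE7 : ∀ i ∈ w0LE7, i < chevE7.rank := by decide +kernel
set_option maxHeartbeats 0 in
theorem w0ChkE7 : chkW0 chevE7 w0RsE7 w0LE7 w0LrE7 = true := by decide +kernel

def w0RsE8 : List ℕ := [rfRE8_0, rfRE8_1, rfRE8_2, rfRE8_3, rfRE8_4, rfRE8_5, rfRE8_6, rfRE8_7]
def w0EsE8 : List ℕ := [rfEE8_0, rfEE8_1, rfEE8_2, rfEE8_3, rfEE8_4, rfEE8_5, rfEE8_6, rfEE8_7]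
theorem w0RE8 : ∀ i < chevE8.rank, ReflOK chevE8 i (dig256 (w0RsE8.getD i 0)) (sgnBit (w0EsE8.getD i 0)) := by
  intro i hi
  have hi' : i < 8 := hi
  interval_cases i
  · exact rfOKE8_0
  · exact rfOKE8_1
  · exact rfOKE8_2
  · exact rfOKE8_3
  · exact rfOKE8_4
  · exact rfOKE8_5
  · exact rfOKE8_6
  · exact rfOKE8_7
def w0LE8 : List ℕ := [0, 1, 2, 0, 3, 1, 2, 0, 3, 2, 4, 3, 1, 2, 0, 3, 2, 4, 3, 1, 5, 4, 3, 1, 2, 0, 3, 2, 4, 3, 1, 5, 4, 3, 2, 0, 6, 5, 4, 3, 1, 2, 0, 3, 2, 4, 3, 1, 5, 4, 3, 2, 0, 6, 5, 4, 3, 1, 2, 3, 4, 5, 6, 7, 6, 5, 4, 3, 1, 2, 0, 3, 2, 4, 3, 1, 5, 4, 3, 2, 0, 6, 5, 4, 3, 1, 2, 3, 4, 5, 6, 7, 6, 5, 4, 3, 1, 2, 0, 3, 2, 4, 3, 1, 5, 4, 3, 2, 0, 6, 5, 4, 3, 1, 2, 3, 4, 5, 6, 7]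
def w0LrE8 : List ℕ := [7, 6, 5, 4, 3, 2, 1, 3, 4, 5, 6, 0, 2, 3, 4, 5, 1, 3, 4, 2, 3, 0, 2, 1, 3, 4, 5, 6, 7, 6, 5, 4, 3, 2, 1, 3, 4, 5, 6, 0, 2, 3, 4, 5, 1, 3, 4, 2, 3, 0, 2, 1, 3, 4, 5, 6, 7, 6, 5, 4, 3, 2, 1, 3, 4, 5, 6, 0, 2, 3, 4, 5, 1, 3, 4, 2, 3, 0, 2, 1, 3, 4, 5, 6, 0, 2, 3, 4, 5, 1, 3, 4, 2, 3, 0, 2, 1, 3, 4, 5, 1, 3, 4, 2, 3, 0, 2, 1, 3, 4, 2, 3, 0, 2, 1, 3, 0, 2, 1, 0]
theorem w0LrevE8 : w0LrE8 = w0LE8.reverse := by decide +kernel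
theorem w0LmemE8 : ∀ i ∈ w0LE8, i < chevE8.rank := by decide +kernel
set_option maxHeartbeats 0 in
theorem w0ChkE8 : chkW0 chevE8 w0RsE8 w0LE8 w0LrE8 = true := by decide +kernel

theorem exists_n0_all {F : Type*} [Field F] (D : ChevalleyDatum)
    (hD : D ∈ [chevG2, chevB2, chevD4, chevF4, chevE6, chevE7, chevE8]) :
    ∃ n ∈ D.monomialSubgroup F,
      (D.posUnipotent F).map (MulAut.conj n).toMonoidHom = D.negUnipotent F := by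
  have ok := chevOK_all D hD
  have hE := chkEta_all D hD
  have hC := chkSimpCo_all D hD
  have hSi := chkSimple_all D hD
  simp only [List.mem_cons, List.not_mem_nil, or_false] at hD
  rcases hD with h | h | h | h | h | h | h
  · subst h
    exact exists_n0 chevG2 ok hE hC hSi rfNegG2 w0RsG2 w0EsG2 w0RG2 w0LG2 w0LrG2 w0LrevG2 w0LmemG2 w0ChkG2
  · subst h
    exact exists_n0 chevB2 ok hE hC hSi rfNegB2 w0RsB2 w0EsB2 w0RB2 w0LB2 w0LrB2 w0LrevB2 w0LmemB2 w0ChkB2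
  · subst h
    exact exists_n0 chevD4 ok hE hC hSi rfNegD4 w0RsD4 w0EsD4 w0RD4 w0LD4 w0LrD4 w0LrevD4 w0LmemD4 w0ChkD4
  · subst h
    exact exists_n0 chevF4 ok hE hC hSi rfNegF4 w0RsF4 w0EsF4 w0RF4 w0LF4 w0LrF4 w0LrevF4 w0LmemF4 w0ChkF4
  · subst h
    exact exists_n0 chevE6 ok hE hC hSi rfNegE6 w0RsE6 w0EsE6 w0RE6 w0LE6 w0LrE6 w0LrevE6 w0LmemE6 w0ChkE6
  · subst h
    exact exists_n0 chevE7 ok hE hC hSi rfNegE7 w0RsE7 w0EsE7 w0RE7 w0LE7 w0LrE7 w0LrevE7 w0LmemE7 w0ChkE7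
  · subst h
    exact exists_n0 chevE8 ok hE hC hSi rfNegE8 w0RsE8 w0EsE8 w0RE8 w0LE8 w0LrE8 w0LrevE8 w0LmemE8 w0ChkE8

end Cfsg.Agent.Lib.Helper3
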