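import Mathlib
import Cfsg.Agent.Lib.Helper3.ChevW0Chk

set_option autoImplicit false

namespace Cfsg.Agent.Lib.Helper3

open Cfsg.Lie

/-- table check: every root that is not positive is carried, by the reflection in a fundamental
root of its support, to a positive root or to a root of larger index -/
def chkDesc (D : ChevalleyDatum) (Rs : List ℕ) : Bool :=
  (List.range D.nroots).all fun s =>
    decide (D.IsPosRoot s) ||
    (List.range D.rank).any fun j =>
      !decide ((D.coroot.getD s #[]).getD j 0 = 0) &&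
      forceNat (dig256 (Rs.getD j 0) s) fun ws => decide (D.IsPosRoot ws) || decide (s < ws)

/-- table check: the fundamental roots are positive -/
def chkSimpPos (D : ChevalleyDatum) : Bool :=
  (List.range D.rank).all fun i => decide (D.IsPosRoot (D.simple i))

theorem chkDesc_spec (D : ChevalleyDatum) (Rs : List ℕ) (h : chkDesc D Rs = true) (s : ℕ)
    (hs : s < D.nroots) (hnp : ¬ D.IsPosRoot s) :
    ∃ j < D.rank, (D.coroot.getD s #[]).getD j 0 ≠ 0 ∧
      (D.IsPosRoot (dig256 (Rs.getD j 0) s) ∨ s < dig256 (Rs.getD j 0) s) := by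
  unfold chkDesc at h
  rw [List.all_eq_true] at h
  have h1 := h s (List.mem_range.mpr hs)
  rw [Bool.or_eq_true, decide_eq_true_eq] at h1
  rcases h1 with h1 | h1
  · exact absurd h1 hnp
  · rw [List.any_eq_true] at h1
    obtain ⟨j, hj, h2⟩ := h1
    rw [forceNat_eq] at h2
    simp only [Bool.and_eq_true, Bool.not_eq_true', decide_eq_false_iff_not, Bool.or_eq_true,
      decide_eq_true_eq] at h2
    exact ⟨j, List.mem_range.mp hj, h2.1, h2.2⟩

theorem chkSimpPos_spec (D : ChevalleyDatum) (h : chkSimpPos D = true) (i : ℕ) (hi : i < D.rank) :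
    D.IsPosRoot (D.simple i) := by
  unfold chkSimpPos at h
  rw [List.all_eq_true] at h
  simpa using h i (List.mem_range.mpr hi)

section para

variable (D : ChevalleyDatum) {F : Type*} [Field F]

theorem xGL_pos_mem_parabolic (ok : ChevOK D) (J : Set ℕ) (s : ℕ) (hp : D.IsPosRoot s) (t : F) :
    xGL D ok.add s t ∈ D.parabolicSubgroup F J := by
  unfold ChevalleyDatum.parabolicSubgroup ChevalleyDatum.borelSubgroup
    ChevalleyDatum.posUnipotent
  exact Subgroup.mem_sup_left (Subgroup.mem_sup_left (Subgroup.subset_closure ⟨s, t, hp, rfl⟩))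

/-- the root subgroups of the roots of `Φ_J` lie in `P_J` -/
theorem x_mem_parabolic (ok : ChevOK D) (hE : chkEta D = true) (hC : chkSimpCo D = true)
    (hSi : chkSimple D = true) (hn : chkNegF D = true) (Rs Es : List ℕ)
    (hR : ∀ i < D.rank, ReflOK D i (dig256 (Rs.getD i 0)) (sgnBit (Es.getD i 0)))
    (hdesc : chkDesc D Rs = true) (J : Set ℕ) :
    ∀ (m s : ℕ), s < D.nroots → D.nroots - s ≤ m → D.InRootSub J s → ∀ t : F,
      xGL D ok.add s t ∈ D.parabolicSubgroup F J := by
  intro m
  induction m with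
  | zero =>
    intro s hs hm
    omega
  | succ m ih =>
    intro s hs hm hJ t
    by_cases hp : D.IsPosRoot s
    · exact xGL_pos_mem_parabolic D ok J s hp t
    · obtain ⟨j, hj, hc, hw⟩ := chkDesc_spec D Rs hdesc s hs hp
      have R := hR j hj
      have hf := chkF1_spec' D _ _ R.f1
      have hws_lt : dig256 (Rs.getD j 0) s < D.nroots := (hf s hs).1
      have hjJ : j ∈ J := by
        by_contra hjJ
        exact hc (hJ.2 j hj hjJ)
      have hJws : D.InRootSub J (dig256 (Rs.getD j 0) s) := by
        refine ⟨hws_lt, fun k hk hkJ => ?_⟩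
        have h1 := chkH1_spec D _ j R.h1 s hs k hk
        have hkj : k ≠ j := fun h => hkJ (h ▸ hjJ)
        rw [h1, if_neg hkj, sub_zero]
        exact hJ.2 k hk hkJ
      have hmem : ∀ u : F, xGL D ok.add (dig256 (Rs.getD j 0) s) u ∈ D.parabolicSubgroup F J := by
        intro u
        rcases hw with hw | hw
        · exact xGL_pos_mem_parabolic D ok J _ hw u
        · exact ih _ hws_lt (by omega) hJws u
      have hcj := nMat_conj_x (F := F) D ok hE hC hSi hn j hj _ _ R (dig256 (Rs.getD j 0) s) hws_lt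
        (((sgnBit (Es.getD j 0) (dig256 (Rs.getD j 0) s) : ℤ) : F) * t)
      rw [reflectRoot_eq D hE j hj _ _ R _ hws_lt, (hf s hs).2.1] at hcj
      have hε : ((sgnBit (Es.getD j 0) (dig256 (Rs.getD j 0) s) : ℤ) : F) *
          (((sgnBit (Es.getD j 0) (dig256 (Rs.getD j 0) s) : ℤ) : F) * t) = t := by
        rcases (hf _ hws_lt).2.2.1 with h | h <;> rw [h] <;> simp
      rw [hε] at hcj
      have hnmem : wordGL D ok.add (D.nWord (D.simple j) (1 : F)) ∈ D.parabolicSubgroup F J := by
        unfold ChevalleyDatum.parabolicSubgroup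
        exact Subgroup.mem_sup_right (Subgroup.subset_closure ⟨j, hjJ, hj, by
          rw [wordGL_coe]; rfl⟩)
      have heq : xGL D ok.add s t = wordGL D ok.add (D.nWord (D.simple j) (1 : F)) *
          xGL D ok.add (dig256 (Rs.getD j 0) s)
            (((sgnBit (Es.getD j 0) (dig256 (Rs.getD j 0) s) : ℤ) : F) * t) *
          (wordGL D ok.add (D.nWord (D.simple j) (1 : F)))⁻¹ := by
        rw [eq_mul_inv_iff_mul_eq]
        apply Units.ext
        rw [Units.val_mul, Units.val_mul, wordGL_coe, xGL_coe, xGL_coe]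
        exact hcj.symm
      rw [heq]
      exact mul_mem (mul_mem hnmem (hmem _)) (inv_mem hnmem)

/-- `P_J = ⟨H, X_r : r ∈ Φ⁺ ∪ Φ_J⟩` -/
theorem parabolic_eq (ok : ChevOK D) (hE : chkEta D = true) (hC : chkSimpCo D = true)
    (hSi : chkSimple D = true) (hn : chkNegF D = true) (Rs Es : List ℕ)
    (hR : ∀ i < D.rank, ReflOK D i (dig256 (Rs.getD i 0)) (sgnBit (Es.getD i 0)))
    (hdesc : chkDesc D Rs = true) (hsp : chkSimpPos D = true) (J : Set ℕ) :
    D.parabolicSubgroup F J = D.diagonalSubgroup F ⊔
      Subgroup.closure {g : GL D.Idx F | ∃ (r : ℕ) (t : F),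
        (D.IsPosRoot r ∨ D.InRootSub J r) ∧ (g : Matrix D.Idx D.Idx F) = D.x F r t} := by
  apply le_antisymm
  · unfold ChevalleyDatum.parabolicSubgroup ChevalleyDatum.borelSubgroup
    refine sup_le (sup_le ?_ le_sup_left) ?_
    · unfold ChevalleyDatum.posUnipotent
      refine le_trans (Subgroup.closure_mono ?_) le_sup_right
      rintro g ⟨r, t, hr, hg⟩
      exact ⟨r, t, Or.inl hr, hg⟩
    · rw [Subgroup.closure_le]
      rintro g ⟨j, hjJ, hj, hg⟩
      apply Subgroup.mem_sup_right
      have hg' : g = wordGL D ok.add (D.nWord (D.simple j) (1 : F)) := eq_wordGL D ok.add g _ hg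
      have hpos := chkSimpPos_spec D hsp j hj
      have R := hR j hj
      have hf := chkF1_spec' D _ _ R.f1
      have hnegJ : D.InRootSub J (D.neg (D.simple j)) := by
        have e1 : D.neg (D.simple j) = D.reflectRoot j (D.simple j) := by
          simp only [ChevalleyDatum.reflectRoot, if_true]
        rw [e1, reflectRoot_eq D hE j hj _ _ R _ hpos.1]
        refine ⟨(hf _ hpos.1).1, fun k hk hkJ => ?_⟩
        have h1 := chkH1_spec D _ j R.h1 _ hpos.1 k hk
        have hkj : k ≠ j := fun h => hkJ (h ▸ hjJ)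
        rw [h1, if_neg hkj, sub_zero, chkSimpCo_spec D hC j k hj hk, if_neg hkj]
      rw [hg']
      unfold wordGL
      apply Subgroup.list_prod_mem
      intro x hx
      simp only [ChevalleyDatum.nWord, List.map_cons, List.map_nil, List.mem_cons,
        List.not_mem_nil, or_false] at hx
      rcases hx with rfl | rfl | rfl
      · exact Subgroup.subset_closure ⟨D.simple j, 1, Or.inl hpos, rfl⟩
      · exact Subgroup.subset_closure ⟨D.neg (D.simple j), -1⁻¹, Or.inr hnegJ, rfl⟩
      · exact Subgroup.subset_closure ⟨D.simple j, 1, Or.inl hpos, rfl⟩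
  · refine sup_le ?_ ?_
    · unfold ChevalleyDatum.parabolicSubgroup ChevalleyDatum.borelSubgroup
      exact le_trans le_sup_right le_sup_left
    · rw [Subgroup.closure_le]
      rintro g ⟨r, t, hr, hg⟩
      have hg' : g = xGL D ok.add r t := Units.ext hg
      rw [hg']
      rcases hr with hr | hr
      · exact xGL_pos_mem_parabolic D ok J r hr t
      · exact x_mem_parabolic D ok hE hC hSi hn Rs Es hR hdesc J D.nroots r hr.1 (by omega) hr t

end para

set_option maxHeartbeats 0 in
theorem descG2 : chkDesc chevG2 w0RsG2 = true := by decide +kernel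
set_option maxHeartbeats 0 in
theorem descB2 : chkDesc chevB2 w0RsB2 = true := by decide +kernel
set_option maxHeartbeats 0 in
theorem descD4 : chkDesc chevD4 w0RsD4 = true := by decide +kernel
set_option maxHeartbeats 0 in
theorem descF4 : chkDesc chevF4 w0RsF4 = true := by decide +kernel
set_option maxHeartbeats 0 in
theorem descE6 : chkDesc chevE6 w0RsE6 = true := by decide +kernel
set_option maxHeartbeats 0 in
theorem descE7 : chkDesc chevE7 w0RsE7 = true := by decide +kernel
set_option maxHeartbeats 0 in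
theorem descE8 : chkDesc chevE8 w0RsE8 = true := by decide +kernel

theorem simpPos_all : ∀ D ∈ [chevG2, chevB2, chevD4, chevF4, chevE6, chevE7, chevE8],
    chkSimpPos D = true := by decide +kernel

theorem parabolic_eq_all {F : Type*} [Field F] (D : ChevalleyDatum)
    (hD : D ∈ [chevG2, chevB2, chevD4, chevF4, chevE6, chevE7, chevE8]) (J : Set ℕ) :
    D.parabolicSubgroup F J = D.diagonalSubgroup F ⊔
      Subgroup.closure {g : GL D.Idx F | ∃ (r : ℕ) (t : F),
        (D.IsPosRoot r ∨ D.InRootSub J r) ∧ (g : Matrix D.Idx D.Idx F) = D.x F r t} := by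
  have ok := chevOK_all D hD
  have hE := chkEta_all D hD
  have hC := chkSimpCo_all D hD
  have hSi := chkSimple_all D hD
  have hsp := simpPos_all D hD
  simp only [List.mem_cons, List.not_mem_nil, or_false] at hD
  rcases hD with h | h | h | h | h | h | h
  · subst h
    exact parabolic_eq chevG2 ok hE hC hSi rfNegG2 w0RsG2 w0EsG2 w0RG2 descG2 hsp J
  · subst h
    exact parabolic_eq chevB2 ok hE hC hSi rfNegB2 w0RsB2 w0EsB2 w0RB2 descB2 hsp J
  · subst h
    exact parabolic_eq chevD4 ok hE hC hSi rfNegD4 w0RsD4 w0EsD4 w0RD4 descD4 hsp J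
  · subst h
    exact parabolic_eq chevF4 ok hE hC hSi rfNegF4 w0RsF4 w0EsF4 w0RF4 descF4 hsp J
  · subst h
    exact parabolic_eq chevE6 ok hE hC hSi rfNegE6 w0RsE6 w0EsE6 w0RE6 descE6 hsp J
  · subst h
    exact parabolic_eq chevE7 ok hE hC hSi rfNegE7 w0RsE7 w0EsE7 w0RE7 descE7 hsp J
  · subst h
    exact parabolic_eq chevE8 ok hE hC hSi rfNegE8 w0RsE8 w0EsE8 w0RE8 descE8 hsp J

end Cfsg.Agent.Lib.Helper3
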