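import Mathlib
import Cfsg.Agent.Lib.Helper3.ChevPara

set_option autoImplicit false

namespace Cfsg.Agent.Lib.Helper3

open Cfsg.Lie

/-- the absolute value of the sum of the coefficients of the coroot -/
def coht (D : ChevalleyDatum) (s : ℕ) : ℕ :=
  (((List.range D.rank).map fun k => (D.coroot.getD s #[]).getD k 0).sum).natAbs

/-- table check: every root other than a fundamental root or its negative is carried by a
fundamental reflection to a root whose coroot has a smaller sum of coefficients, in absolute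
value -/
def chkFund (D : ChevalleyDatum) (Rs : List ℕ) : Bool :=
  (List.range D.nroots).all fun s =>
    ((List.range D.rank).any fun i => decide (s = D.simple i) || decide (s = D.neg (D.simple i))) ||
    (List.range D.rank).any fun j =>
      forceNat (dig256 (Rs.getD j 0) s) fun ws => decide (coht D ws < coht D s)

theorem chkFund_spec (D : ChevalleyDatum) (Rs : List ℕ) (h : chkFund D Rs = true) (s : ℕ)
    (hs : s < D.nroots) :
    (∃ i < D.rank, s = D.simple i ∨ s = D.neg (D.simple i)) ∨
      ∃ j < D.rank, coht D (dig256 (Rs.getD j 0) s) < coht D s := by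
  unfold chkFund at h
  rw [List.all_eq_true] at h
  have h1 := h s (List.mem_range.mpr hs)
  rw [Bool.or_eq_true] at h1
  rcases h1 with h1 | h1
  · left
    rw [List.any_eq_true] at h1
    obtain ⟨i, hi, h2⟩ := h1
    simp only [Bool.or_eq_true, decide_eq_true_eq] at h2
    exact ⟨i, List.mem_range.mp hi, h2⟩
  · right
    rw [List.any_eq_true] at h1
    obtain ⟨j, hj, h2⟩ := h1
    rw [forceNat_eq, decide_eq_true_eq] at h2
    exact ⟨j, List.mem_range.mp hj, h2⟩

/-- the subgroup generated by the root elements of the fundamental roots and of their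
negatives -/
def fundSubgroup (D : ChevalleyDatum) (F : Type*) [Field F] : Subgroup (GL D.Idx F) :=
  Subgroup.closure {g | ∃ i < D.rank, ∃ t : F,
    (g : Matrix D.Idx D.Idx F) = D.x F (D.simple i) t ∨
      (g : Matrix D.Idx D.Idx F) = D.x F (D.neg (D.simple i)) t}

section fund

variable (D : ChevalleyDatum) {F : Type*} [Field F]

theorem xGL_eq_conj (ok : ChevOK D) (hE : chkEta D = true) (hC : chkSimpCo D = true)
    (hSi : chkSimple D = true) (hn : chkNegF D = true) (Rs Es : List ℕ)
    (hR : ∀ i < D.rank, ReflOK D i (dig256 (Rs.getD i 0)) (sgnBit (Es.getD i 0)))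
    (j : ℕ) (hj : j < D.rank) (s : ℕ) (hs : s < D.nroots) (t : F) :
    xGL D ok.add s t = wordGL D ok.add (D.nWord (D.simple j) (1 : F)) *
      xGL D ok.add (dig256 (Rs.getD j 0) s)
        (((sgnBit (Es.getD j 0) (dig256 (Rs.getD j 0) s) : ℤ) : F) * t) *
      (wordGL D ok.add (D.nWord (D.simple j) (1 : F)))⁻¹ := by
  have R := hR j hj
  have hf := chkF1_spec' D _ _ R.f1
  have hws_lt : dig256 (Rs.getD j 0) s < D.nroots := (hf s hs).1
  have hcj := nMat_conj_x (F := F) D ok hE hC hSi hn j hj _ _ R (dig256 (Rs.getD j 0) s) hws_lt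
    (((sgnBit (Es.getD j 0) (dig256 (Rs.getD j 0) s) : ℤ) : F) * t)
  rw [reflectRoot_eq D hE j hj _ _ R _ hws_lt, (hf s hs).2.1] at hcj
  have hε : ((sgnBit (Es.getD j 0) (dig256 (Rs.getD j 0) s) : ℤ) : F) *
      (((sgnBit (Es.getD j 0) (dig256 (Rs.getD j 0) s) : ℤ) : F) * t) = t := by
    rcases (hf _ hws_lt).2.2.1 with h | h <;> rw [h] <;> simp
  rw [hε] at hcj
  rw [eq_mul_inv_iff_mul_eq]
  apply Units.ext
  rw [Units.val_mul, Units.val_mul, wordGL_coe, xGL_coe, xGL_coe]
  exact hcj.symm

theorem fund_gen_mem (ok : ChevOK D) (i : ℕ) (hi : i < D.rank) (s : ℕ)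
    (h : s = D.simple i ∨ s = D.neg (D.simple i)) (t : F) :
    xGL D ok.add s t ∈ fundSubgroup D F := by
  unfold fundSubgroup
  apply Subgroup.subset_closure
  rcases h with rfl | rfl
  · exact ⟨i, hi, t, Or.inl rfl⟩
  · exact ⟨i, hi, t, Or.inr rfl⟩

theorem nWord_mem_fund (ok : ChevOK D) (j : ℕ) (hj : j < D.rank) :
    wordGL D ok.add (D.nWord (D.simple j) (1 : F)) ∈ fundSubgroup D F := by
  unfold wordGL
  apply Subgroup.list_prod_mem
  intro x hx
  simp only [ChevalleyDatum.nWord, List.map_cons, List.map_nil, List.mem_cons,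
    List.not_mem_nil, or_false] at hx
  rcases hx with rfl | rfl | rfl
  · exact fund_gen_mem D ok j hj _ (Or.inl rfl) _
  · exact fund_gen_mem D ok j hj _ (Or.inr rfl) _
  · exact fund_gen_mem D ok j hj _ (Or.inl rfl) _

theorem xGL_mem_fund (ok : ChevOK D) (hE : chkEta D = true) (hC : chkSimpCo D = true)
    (hSi : chkSimple D = true) (hn : chkNegF D = true) (Rs Es : List ℕ)
    (hR : ∀ i < D.rank, ReflOK D i (dig256 (Rs.getD i 0)) (sgnBit (Es.getD i 0)))
    (hfund : chkFund D Rs = true) :
    ∀ (m s : ℕ), s < D.nroots → coht D s ≤ m → ∀ t : F,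
      xGL D ok.add s t ∈ fundSubgroup D F := by
  intro m
  induction m with
  | zero =>
    intro s hs hm t
    rcases chkFund_spec D Rs hfund s hs with ⟨i, hi, h⟩ | ⟨j, hj, h⟩
    · exact fund_gen_mem D ok i hi s h t
    · omega
  | succ m ih =>
    intro s hs hm t
    rcases chkFund_spec D Rs hfund s hs with ⟨i, hi, h⟩ | ⟨j, hj, h⟩
    · exact fund_gen_mem D ok i hi s h t
    · have hws_lt : dig256 (Rs.getD j 0) s < D.nroots :=
        (chkF1_spec' D _ _ (hR j hj).f1 s hs).1
      rw [xGL_eq_conj D ok hE hC hSi hn Rs Es hR j hj s hs t]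
      have hnmem := nWord_mem_fund (F := F) D ok j hj
      exact mul_mem (mul_mem hnmem (ih _ hws_lt (by omega) _)) (inv_mem hnmem)

/-- the group is generated by the root elements of the fundamental roots and their negatives -/
theorem group_le_fund (ok : ChevOK D) (hE : chkEta D = true) (hC : chkSimpCo D = true)
    (hSi : chkSimple D = true) (hn : chkNegF D = true) (Rs Es : List ℕ)
    (hR : ∀ i < D.rank, ReflOK D i (dig256 (Rs.getD i 0)) (sgnBit (Es.getD i 0)))
    (hfund : chkFund D Rs = true) : D.group F ≤ fundSubgroup D F := by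
  unfold ChevalleyDatum.group
  rw [Subgroup.closure_le]
  rintro g ⟨r, t, hg⟩
  have hg' : g = xGL D ok.add r.val t :=
    Units.ext (by rw [xGL_coe, x_of_lt D r.val r.isLt]; exact hg)
  rw [hg']
  exact xGL_mem_fund D ok hE hC hSi hn Rs Es hR hfund (coht D r.val) r.val r.isLt le_rfl t

end fund

set_option maxHeartbeats 0 in
theorem fundG2 : chkFund chevG2 w0RsG2 = true := by decide +kernel
set_option maxHeartbeats 0 in
theorem fundB2 : chkFund chevB2 w0RsB2 = true := by decide +kernel
set_option maxHeartbeats 0 in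
theorem fundD4 : chkFund chevD4 w0RsD4 = true := by decide +kernel
set_option maxHeartbeats 0 in
theorem fundF4 : chkFund chevF4 w0RsF4 = true := by decide +kernel
set_option maxHeartbeats 0 in
theorem fundE6 : chkFund chevE6 w0RsE6 = true := by decide +kernel
set_option maxHeartbeats 0 in
theorem fundE7 : chkFund chevE7 w0RsE7 = true := by decide +kernel
set_option maxHeartbeats 0 in
theorem fundE8 : chkFund chevE8 w0RsE8 = true := by decide +kernel

theorem group_le_fund_all {F : Type*} [Field F] (D : ChevalleyDatum)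
    (hD : D ∈ [chevG2, chevB2, chevD4, chevF4, chevE6, chevE7, chevE8]) :
    D.group F ≤ fundSubgroup D F := by
  have ok := chevOK_all D hD
  have hE := chkEta_all D hD
  have hC := chkSimpCo_all D hD
  have hSi := chkSimple_all D hD
  simp only [List.mem_cons, List.not_mem_nil, or_false] at hD
  rcases hD with h | h | h | h | h | h | h
  · subst h
    exact group_le_fund chevG2 ok hE hC hSi rfNegG2 w0RsG2 w0EsG2 w0RG2 fundG2
  · subst h
    exact group_le_fund chevB2 ok hE hC hSi rfNegB2 w0RsB2 w0EsB2 w0RB2 fundB2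
  · subst h
    exact group_le_fund chevD4 ok hE hC hSi rfNegD4 w0RsD4 w0EsD4 w0RD4 fundD4
  · subst h
    exact group_le_fund chevF4 ok hE hC hSi rfNegF4 w0RsF4 w0EsF4 w0RF4 fundF4
  · subst h
    exact group_le_fund chevE6 ok hE hC hSi rfNegE6 w0RsE6 w0EsE6 w0RE6 fundE6
  · subst h
    exact group_le_fund chevE7 ok hE hC hSi rfNegE7 w0RsE7 w0EsE7 w0RE7 fundE7
  · subst h
    exact group_le_fund chevE8 ok hE hC hSi rfNegE8 w0RsE8 w0EsE8 w0RE8 fundE8

/-- a homomorphic identity holds on the group as soon as it holds on the root elements of the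
fundamental roots and their negatives -/
theorem fund_induction {F : Type*} [Field F] (D : ChevalleyDatum)
    (hD : D ∈ [chevG2, chevB2, chevD4, chevF4, chevE6, chevE7, chevE8])
    (E : Subgroup ↥(D.group F))
    (hE : ∀ (y : ↥(D.group F)) (i : ℕ) (t : F), i < D.rank →
      (((y : GL D.Idx F) : Matrix D.Idx D.Idx F) = D.x F (D.simple i) t ∨
        ((y : GL D.Idx F) : Matrix D.Idx D.Idx F) = D.x F (D.neg (D.simple i)) t) → y ∈ E)
    (y : ↥(D.group F)) : y ∈ E := by
  have key : ∀ x : GL D.Idx F, x ∈ fundSubgroup D F →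
      ∃ h : x ∈ D.group F, (⟨x, h⟩ : ↥(D.group F)) ∈ E := by
    intro x hx
    unfold fundSubgroup at hx
    induction hx using Subgroup.closure_induction with
    | mem x hx =>
      obtain ⟨i, hi, t, h⟩ := hx
      have ok := chevOK_all D hD
      have hmem : x ∈ D.group F := by
        rcases h with h | h
        · have e : x = xGL D ok.add (D.simple i) t := Units.ext h
          rw [e]
          exact xGL_mem_group D ok.add _ _
        · have e : x = xGL D ok.add (D.neg (D.simple i)) t := Units.ext h
          rw [e]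
          exact xGL_mem_group D ok.add _ _
      exact ⟨hmem, hE ⟨x, hmem⟩ i t hi h⟩
    | one => exact ⟨one_mem _, one_mem E⟩
    | mul x y _ _ ihx ihy =>
      obtain ⟨hx', ex⟩ := ihx
      obtain ⟨hy', ey⟩ := ihy
      exact ⟨mul_mem hx' hy', mul_mem ex ey⟩
    | inv x _ ih =>
      obtain ⟨hx', ex⟩ := ih
      exact ⟨inv_mem hx', inv_mem ex⟩
  obtain ⟨_, e⟩ := key y.val (group_le_fund_all D hD y.property)
  exact e

end Cfsg.Agent.Lib.Helper3
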