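import Mathlib
import Cfsg.Agent.Lib.Helper3.ChevGraphData

set_option autoImplicit false

namespace Cfsg.Agent.Lib.Helper3

open Cfsg.Lie

set_option maxHeartbeats 0 in
theorem chkG3_E6_0 : ∀ r < 18, chkG3 chevE6 gdE6 (0 + r) = true := by decide +kernel

end Cfsg.Agent.Lib.Helper3
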