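import Mathlib
import Cfsg.Agent.Lib.Helper3.ChevGraphE6x54

set_option autoImplicit false

namespace Cfsg.Agent.Lib.Helper3

open Cfsg.Lie

theorem chkG3_E6 : ∀ r < chevE6.nroots, chkG3 chevE6 gdE6 r = true := by
  intro r hr
  have hr' : r < 72 := hr
  by_cases h0 : r < 18
  · have h := chkG3_E6_0 (r - 0) (by omega)
    rwa [show 0 + (r - 0) = r by omega] at h
  by_cases h18 : r < 36
  · have h := chkG3_E6_18 (r - 18) (by omega)
    rwa [show 18 + (r - 18) = r by omega] at h
  by_cases h36 : r < 54
  · have h := chkG3_E6_36 (r - 36) (by omega)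
    rwa [show 36 + (r - 36) = r by omega] at h
  by_cases h54 : r < 72
  · have h := chkG3_E6_54 (r - 54) (by omega)
    rwa [show 54 + (r - 54) = r by omega] at h
  omega

end Cfsg.Agent.Lib.Helper3
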