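import Mathlib
import Cfsg.Agent.Lib.Helper3.ChevNOp

set_option autoImplicit false
set_option linter.unusedSectionVars false

namespace Cfsg.Agent.Lib.Helper3

open Cfsg.Lie

section mono

variable {F : Type*} [Field F] (D : ChevalleyDatum)

/-- `M` maps each root vector to a multiple of a root vector, and the span of the coroots to
itself -/
def BlockMono (M : Matrix D.Idx D.Idx F) : Prop :=
  (∀ s : Fin D.nroots, ∃ s' : Fin D.nroots, ∀ row : D.Idx, row ≠ Sum.inr s' →
    M row (Sum.inr s) = 0) ∧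
  (∀ (u : Fin D.nroots) (i : Fin D.rank), M (Sum.inr u) (Sum.inl i) = 0)

theorem BlockMono.mul {M N : Matrix D.Idx D.Idx F} (hM : BlockMono D M) (hN : BlockMono D N) :
    BlockMono D (M * N) := by
  constructor
  · intro s
    obtain ⟨s', hs'⟩ := hN.1 s
    obtain ⟨s'', hs''⟩ := hM.1 s'
    refine ⟨s'', fun row hrow => ?_⟩
    rw [Matrix.mul_apply]
    apply Finset.sum_eq_zero
    intro k _
    by_cases hk : k = Sum.inr s'
    · rw [hk, hs'' row hrow, zero_mul]
    · rw [hs' k hk, mul_zero]
  · intro u i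
    rw [Matrix.mul_apply]
    apply Finset.sum_eq_zero
    intro k _
    rcases k with j | v
    · rw [hM.2 u j, zero_mul]
    · rw [hN.2 v i, mul_zero]

theorem blockMono_diagonal (d : D.Idx → F) : BlockMono D (Matrix.diagonal d) := by
  constructor
  · intro s
    exact ⟨s, fun row hrow => Matrix.diagonal_apply_ne _ hrow⟩
  · intro u i
    exact Matrix.diagonal_apply_ne _ (by simp)

theorem blockMono_one : BlockMono D (1 : Matrix D.Idx D.Idx F) := by
  rw [← Matrix.diagonal_one]
  exact blockMono_diagonal D _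

theorem blockMono_nMat (ok : ChevOK D) (r : ℕ) (hr : r < D.nroots) (t : F) (ht : t ≠ 0) :
    BlockMono D (D.nMat F r t) := by
  obtain ⟨hrn, hne, hnn, _⟩ := chkNg_spec D ok.ng r hr
  have hadj := nOp_adj D ok.add ok.ng r hr t ht
  have hcol : ∀ (j row : D.Idx), D.nMat F r t row j =
      Matrix.mulVec (D.nMat F r t) (Pi.single j 1) row := by
    intro j row
    rw [Matrix.mulVec_single_one]
    rfl
  constructor
  · intro s
    have hEv : (Pi.single (Sum.inr s) 1 : D.Idx → F) = Ev D s.val := by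
      unfold Ev
      rw [dif_pos s.isLt]
    have key : ∃ (s' : ℕ) (c : F), s' < D.nroots ∧
        nOp (Xl D r) (Xl D (D.neg r)) t (Ev D s.val) = c • (Ev D s' : D.Idx → F) := by
      by_cases h1 : s.val = r
      · obtain ⟨c, hc⟩ := hadj.1
        exact ⟨D.neg r, c, hrn, by rw [h1]; exact hc⟩
      · by_cases h2 : s.val = D.neg r
        · obtain ⟨c, hc⟩ := hadj.2.1
          exact ⟨r, c, hr, by rw [h2]; exact hc⟩
        · exact nOp_Ev D ok.add ok.sorted ok.s ok.y ok.ng r hr t ht s.val s.isLt h1 h2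
    obtain ⟨s', c, hs', hc⟩ := key
    refine ⟨⟨s', hs'⟩, fun row hrow => ?_⟩
    rw [hcol, hEv, nMat_mulVec, hc, Pi.smul_apply, smul_eq_mul]
    rcases row with i | v
    · rw [Ev_inl, mul_zero]
    · rw [Ev_inr, if_neg, mul_zero]
      intro hv
      apply hrow
      congr 1
      exact Fin.ext hv.symm
  · intro u i
    have hHv : (Pi.single (Sum.inl i) 1 : D.Idx → F) = Hv D i := rfl
    rw [hcol, hHv, nMat_mulVec, hadj.2.2 i, Pi.sub_apply, Pi.smul_apply, Hv_inr, Hr_inr, smul_zero,
      sub_zero]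

/-- the invertible block-monomial matrices with block-monomial inverse -/
def monoGL : Subgroup (GL D.Idx F) where
  carrier := {g | BlockMono D (g : Matrix D.Idx D.Idx F) ∧
    BlockMono D ((g⁻¹ : GL D.Idx F) : Matrix D.Idx D.Idx F)}
  mul_mem' := by
    rintro a b ⟨ha, ha'⟩ ⟨hb, hb'⟩
    refine ⟨?_, ?_⟩
    · rw [Units.val_mul]
      exact BlockMono.mul D ha hb
    · rw [mul_inv_rev, Units.val_mul]
      exact BlockMono.mul D hb' ha'
  one_mem' := ⟨by rw [Units.val_one]; exact blockMono_one D,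
    by rw [inv_one, Units.val_one]; exact blockMono_one D⟩
  inv_mem' := by
    rintro a ⟨ha, ha'⟩
    exact ⟨ha', by rw [inv_inv]; exact ha⟩

theorem monomial_le_monoGL (ok : ChevOK D) : D.monomialSubgroup F ≤ monoGL D := by
  unfold ChevalleyDatum.monomialSubgroup
  apply sup_le
  · intro h hh
    obtain ⟨χ, _, hχ⟩ := diagonal_le_hatH D ok hh
    refine ⟨?_, ?_⟩
    · rw [hχ]
      exact blockMono_diagonal D _
    · rw [coe_inv_of_charDiag D h χ hχ]
      exact blockMono_diagonal D _
  · rw [Subgroup.closure_le]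
    rintro n ⟨r, hr, hn⟩
    have hinv : ((n⁻¹ : GL D.Idx F) : Matrix D.Idx D.Idx F) = D.nMat F r (-1) := by
      have h1 : D.nMat F r (-1) * (n : Matrix D.Idx D.Idx F) = 1 := by
        rw [hn]
        exact nMat_neg_one_mul D ok.add r
      calc ((n⁻¹ : GL D.Idx F) : Matrix D.Idx D.Idx F)
          = (D.nMat F r (-1) * (n : Matrix D.Idx D.Idx F)) *
              ((n⁻¹ : GL D.Idx F) : Matrix D.Idx D.Idx F) := by rw [h1, one_mul]
        _ = D.nMat F r (-1) := by
            rw [mul_assoc, ← Units.val_mul, mul_inv_cancel, Units.val_one, mul_one]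
    refine ⟨?_, ?_⟩
    · rw [hn]
      exact blockMono_nMat D ok r hr 1 one_ne_zero
    · rw [hinv]
      exact blockMono_nMat D ok r hr (-1) (by norm_num)

theorem pos_inf_monomial (ok : ChevOK D) : D.posUnipotent F ⊓ D.monomialSubgroup F = ⊥ := by
  rw [eq_bot_iff]
  rintro g ⟨hgU, hgN⟩
  rw [Subgroup.mem_bot]
  have hR := (posUnipotent_le_utLevel D ok.uni ok.add hgU).1
  have hM := (monomial_le_monoGL D ok hgN).1
  apply Units.ext
  rw [Units.val_one]
  ext row col
  rcases col with i | s
  · rcases row with j | u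
    · by_contra h
      have h' : ((g : Matrix D.Idx D.Idx F) - 1) (Sum.inl j) (Sum.inl i) ≠ 0 := by
        rw [Matrix.sub_apply]
        exact sub_ne_zero.mpr h
      have := hR _ _ h'
      simp only [chevF] at this
      omega
    · rw [hM.2 u i, Matrix.one_apply_ne (by simp)]
  · obtain ⟨s', hs'⟩ := hM.1 s
    have hdiag : (g : Matrix D.Idx D.Idx F) (Sum.inr s) (Sum.inr s) = 1 := by
      by_contra h
      have h' : ((g : Matrix D.Idx D.Idx F) - 1) (Sum.inr s) (Sum.inr s) ≠ 0 := by
        rw [Matrix.sub_apply, Matrix.one_apply_eq]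
        exact sub_ne_zero.mpr h
      have := hR _ _ h'
      omega
    have hss : s' = s := by
      by_contra hne
      have := hs' (Sum.inr s) (fun h => hne (Sum.inr.inj h).symm)
      rw [hdiag] at this
      exact one_ne_zero this
    subst hss
    by_cases hrow : row = Sum.inr s'
    · rw [hrow, hdiag, Matrix.one_apply_eq]
    · rw [hs' row hrow, Matrix.one_apply_ne hrow]

/-- `U ∩ N = 1` and `B ∩ N = H` -/
theorem pos_borel_inf_monomial (ok : ChevOK D) :
    D.posUnipotent F ⊓ D.monomialSubgroup F = ⊥ ∧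
      D.borelSubgroup F ⊓ D.monomialSubgroup F = D.diagonalSubgroup F := by
  refine ⟨pos_inf_monomial D ok, ?_⟩
  have hHB : D.diagonalSubgroup F ≤ D.borelSubgroup F := le_sup_right
  have hHN : D.diagonalSubgroup F ≤ D.monomialSubgroup F := le_sup_left
  apply le_antisymm
  · rintro g ⟨hgB, hgN⟩
    have hLE := (diagonal_normalizes_pos (F := F) D ok).1
    have hmem : g ∈ ((D.posUnipotent F ⊔ D.diagonalSubgroup F : Subgroup (GL D.Idx F)) :
        Set (GL D.Idx F)) := hgB
    rw [Subgroup.coe_mul_of_right_le_normalizer_left _ _ hLE] at hmem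
    obtain ⟨u, hu, h, hh, rfl⟩ := Set.mem_mul.mp hmem
    have huN : u ∈ D.monomialSubgroup F := by
      have : u = (u * h) * h⁻¹ := by group
      rw [this]
      exact mul_mem hgN (inv_mem (hHN hh))
    have hu1 : u ∈ D.posUnipotent F ⊓ D.monomialSubgroup F := ⟨hu, huN⟩
    rw [pos_inf_monomial D ok, Subgroup.mem_bot] at hu1
    rw [hu1, one_mul]
    exact hh
  · exact le_inf hHB hHN

end mono

end Cfsg.Agent.Lib.Helper3
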