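import Mathlib
import Cfsg.Prelude.Def_ChevG2
import Cfsg.Prelude.Def_ChevB2
import Cfsg.Prelude.Def_ChevD4
import Cfsg.Prelude.Def_ChevF4
import Cfsg.Prelude.Def_ChevE6
import Cfsg.Agent.Lib.Helper3.ChevRUn7

set_option autoImplicit false

namespace Cfsg.Agent.Lib.Helper3

open Cfsg.Lie

set_option maxHeartbeats 0 in
theorem chkUniNeg_G2 : chkUniNeg chevG2 = true := by
  decide +kernel

set_option maxHeartbeats 0 in
theorem chkUniNeg_B2 : chkUniNeg chevB2 = true := by
  decide +kernel

set_option maxHeartbeats 0 in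
theorem chkUniNeg_D4 : chkUniNeg chevD4 = true := by
  decide +kernel

set_option maxHeartbeats 0 in
theorem chkUniNeg_F4 : chkUniNeg chevF4 = true := by
  decide +kernel

set_option maxHeartbeats 0 in
theorem chkUniNeg_E6 : chkUniNeg chevE6 = true := by
  decide +kernel


end Cfsg.Agent.Lib.Helper3
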