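import Mathlib
import Cfsg.Prelude.Def_ChevG2
import Cfsg.Prelude.Def_ChevB2
import Cfsg.Prelude.Def_ChevD4
import Cfsg.Prelude.Def_ChevF4
import Cfsg.Prelude.Def_ChevE6
import Cfsg.Prelude.Def_ChevE7
import Cfsg.Prelude.Def_ChevE8
import Cfsg.Agent.Lib.Helper3.ChevRUns

set_option autoImplicit false

namespace Cfsg.Agent.Lib.Helper3

open Cfsg.Lie

theorem chkUniNeg_all : ∀ D ∈ [chevG2, chevB2, chevD4, chevF4, chevE6, chevE7, chevE8],
    chkUniNeg D = true := by
  intro D hD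
  simp only [List.mem_cons, List.not_mem_nil, or_false] at hD
  rcases hD with h | h | h | h | h | h | h
  · rw [h]; exact chkUniNeg_G2
  · rw [h]; exact chkUniNeg_B2
  · rw [h]; exact chkUniNeg_D4
  · rw [h]; exact chkUniNeg_F4
  · rw [h]; exact chkUniNeg_E6
  · rw [h]; exact chkUniNeg_E7
  · rw [h]; exact chkUniNeg_E8

end Cfsg.Agent.Lib.Helper3
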