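import Mathlib
import Cfsg.Prelude.Def_SteinbergCover

set_option autoImplicit false

namespace Cfsg.Agent.Lib.Helper3

open Cfsg.Lie

/-- evaluate the argument first, so that the continuation receives a numeral -/
def perfForce (n : ℕ) (k : ℕ → Bool) : Bool :=
  match n with
  | 0 => k 0
  | m + 1 => k (m + 1)

theorem perfForce_eq (n : ℕ) (k : ℕ → Bool) : perfForce n k = k n := by
  cases n <;> rfl

/-- one step of the perfectness check: the commutator relator of the pair `p` kills one or two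
further roots; `Z` is the set of the roots killed so far, as a bit mask -/
def perfStepN (D : ChevalleyDatum) (two : Bool) (Z : ℕ) (p : ℕ × ℕ) : ℕ :=
  if p.1 < D.nroots ∧ p.2 < D.nroots ∧ p.2 ≠ p.1 ∧ p.2 ≠ D.neg p.1 then
    match (D.commTerms p.1 p.2).filter (fun c => !Z.testBit c.1) with
    | [(k, c, i, j)] => if (c = 1 ∨ c = -1) ∧ (i = 1 ∨ j = 1) then Z ||| 2 ^ k else Z
    | [(k₁, c₁, i₁, j₁), (k₂, c₂, i₂, j₂)] =>
      if two = true ∧ (c₁ = 1 ∨ c₁ = -1) ∧ (c₂ = 1 ∨ c₂ = -1) ∧ i₁ = 1 ∧ j₁ = 1 ∧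
          ((i₂ = 1 ∧ j₂ = 2) ∨ (i₂ = 2 ∧ j₂ = 1)) then (Z ||| 2 ^ k₁) ||| 2 ^ k₂ else Z
    | _ => Z
  else Z

/-- the perfectness check: after the steps every root is killed -/
def perfRun (D : ChevalleyDatum) (two : Bool) : List (ℕ × ℕ) → ℕ → Bool
  | [], Z => (List.range D.nroots).all fun k => Z.testBit k
  | p :: rest, Z => perfForce (perfStepN D two Z p) fun Z' => perfRun D two rest Z'

section ab

variable {K : Type*} [Field K] {A : Type*} [CommGroup A]

theorem prod_filter_killed {α : Type*} (l : List α) (p : α → Bool) (f : α → A)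
    (h : ∀ x ∈ l, p x = false → f x = 1) : ((l.filter p).map f).prod = (l.map f).prod := by
  induction l with
  | nil => rfl
  | cons x l ih =>
    have ih' := ih fun y hy => h y (List.mem_cons_of_mem _ hy)
    by_cases hp : p x = true
    · rw [List.filter_cons_of_pos hp, List.map_cons, List.prod_cons, List.map_cons,
        List.prod_cons, ih']
    · have hp' : p x = false := by simpa using hp
      rw [List.filter_cons_of_neg hp, List.map_cons, List.prod_cons, ih',
        h x List.mem_cons_self hp', one_mul]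

theorem add_zero_one (b : K → A) (hb : ∀ x y, b (x + y) = b x * b y) : b 0 = 1 := by
  have h := hb 0 0
  rw [add_zero] at h
  exact (mul_eq_left.mp h.symm)

theorem add_neg_inv (b : K → A) (hb : ∀ x y, b (x + y) = b x * b y) (w : K) :
    b (-w) = (b w)⁻¹ := by
  have h := hb w (-w)
  rw [add_neg_cancel, add_zero_one b hb] at h
  exact eq_inv_of_mul_eq_one_right h.symm

theorem kill_one (b : K → A) (c : ℤ) (i j : ℕ) (hc : c = 1 ∨ c = -1) (hij : i = 1 ∨ j = 1)
    (h : ∀ t u : K, b ((c : K) * (-t) ^ i * u ^ j) = 1) : ∀ v, b v = 1 := by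
  intro v
  rcases hij with rfl | rfl
  · have h1 := h (-(c : K) * v) 1
    have e : (c : K) * (-(-(c : K) * v)) ^ 1 * 1 ^ j = v := by
      rcases hc with rfl | rfl <;> simp
    rwa [e] at h1
  · have h1 := h (-1) ((c : K) * v)
    have e : (c : K) * (-(-1 : K)) ^ i * ((c : K) * v) ^ 1 = v := by
      rcases hc with rfl | rfl <;> simp
    rwa [e] at h1

theorem kill_two_a (b₁ b₂ : K → A) (hb₁ : ∀ x y, b₁ (x + y) = b₁ x * b₁ y)
    (hb₂ : ∀ x y, b₂ (x + y) = b₂ x * b₂ y) (γ₁ γ₂ : K) (h₁ : γ₁ * γ₁ = 1) (h₂ : γ₂ * γ₂ = 1)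
    (x : K) (hx0 : x ≠ 0) (hx1 : x ≠ 1)
    (h : ∀ t u : K, b₁ (γ₁ * (-t) * u) * b₂ (γ₂ * (-t) * u ^ 2) = 1) :
    (∀ v, b₁ v = 1) ∧ (∀ v, b₂ v = 1) := by
  have n₂ := add_neg_inv b₂ hb₂
  have E1 : ∀ t, b₁ (γ₁ * (-t)) = b₂ (γ₂ * t) := by
    intro t
    have h1 := h t 1
    rw [mul_one, one_pow, mul_one] at h1
    have e : γ₂ * (-t) = -(γ₂ * t) := by ring
    rw [e, n₂, mul_inv_eq_one] at h1
    exact h1
  have key : ∀ t u, b₂ (γ₂ * t * u * (1 - u)) = 1 := by
    intro t u
    have h1 := h t u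
    have e1 : γ₁ * (-t) * u = γ₁ * (-(t * u)) := by ring
    rw [e1, E1, ← hb₂] at h1
    have e2 : γ₂ * (t * u) + γ₂ * (-t) * u ^ 2 = γ₂ * t * u * (1 - u) := by ring
    rwa [e2] at h1
  have k₂ : ∀ v, b₂ v = 1 := by
    intro v
    have h1 := key (γ₂ * v / (x * (1 - x))) x
    have hx1' : (1 : K) - x ≠ 0 := sub_ne_zero.mpr (Ne.symm hx1)
    have hne : x * (1 - x) ≠ 0 := mul_ne_zero hx0 hx1'
    have e : γ₂ * (γ₂ * v / (x * (1 - x))) * x * (1 - x) = v := by
      have e' : γ₂ * (γ₂ * v / (x * (1 - x))) * x * (1 - x) =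
          (γ₂ * γ₂) * v * ((x * (1 - x)) / (x * (1 - x))) := by ring
      rw [e', h₂, div_self hne, one_mul, mul_one]
    rwa [e] at h1
  refine ⟨fun v => ?_, k₂⟩
  have h1 := E1 (-(γ₁ * v))
  have e : γ₁ * (-(-(γ₁ * v))) = v := by linear_combination v * h₁
  rw [e, k₂] at h1
  exact h1

theorem kill_two_b (b₁ b₂ : K → A) (hb₁ : ∀ x y, b₁ (x + y) = b₁ x * b₁ y)
    (hb₂ : ∀ x y, b₂ (x + y) = b₂ x * b₂ y) (γ₁ γ₂ : K) (h₁ : γ₁ * γ₁ = 1) (h₂ : γ₂ * γ₂ = 1)
    (x : K) (hx0 : x ≠ 0) (hx1 : x ≠ 1)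
    (h : ∀ t u : K, b₁ (γ₁ * (-t) * u) * b₂ (γ₂ * (-t) ^ 2 * u) = 1) :
    (∀ v, b₁ v = 1) ∧ (∀ v, b₂ v = 1) := by
  have n₂ := add_neg_inv b₂ hb₂
  have E2 : ∀ u, b₁ (γ₁ * u) = b₂ (-(γ₂ * u)) := by
    intro u
    have h1 := h (-1) u
    have e1 : γ₁ * (-(-1 : K)) * u = γ₁ * u := by ring
    have e2 : γ₂ * (-(-1 : K)) ^ 2 * u = γ₂ * u := by ring
    rw [e1, e2, mul_eq_one_iff_eq_inv] at h1
    rw [n₂]
    exact h1
  have key : ∀ t u, b₂ (γ₂ * t * u * (1 + t)) = 1 := by
    intro t u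
    have h1 := h t u
    have e1 : γ₁ * (-t) * u = γ₁ * (-(t * u)) := by ring
    rw [e1, E2, ← hb₂] at h1
    have e2 : -(γ₂ * (-(t * u))) + γ₂ * (-t) ^ 2 * u = γ₂ * t * u * (1 + t) := by ring
    rwa [e2] at h1
  have k₂ : ∀ v, b₂ v = 1 := by
    intro v
    have h1 := key (-x) (-(γ₂ * v / (x * (1 - x))))
    have hx1' : (1 : K) - x ≠ 0 := sub_ne_zero.mpr (Ne.symm hx1)
    have hne : x * (1 - x) ≠ 0 := mul_ne_zero hx0 hx1'
    have e : γ₂ * (-x) * (-(γ₂ * v / (x * (1 - x)))) * (1 + -x) = v := by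
      have e' : γ₂ * (-x) * (-(γ₂ * v / (x * (1 - x)))) * (1 + -x) =
          (γ₂ * γ₂) * v * ((x * (1 - x)) / (x * (1 - x))) := by ring
      rw [e', h₂, div_self hne, one_mul, mul_one]
    rwa [e] at h1
  refine ⟨fun v => ?_, k₂⟩
  have h1 := E2 (γ₁ * v)
  have e : γ₁ * (γ₁ * v) = v := by linear_combination v * h₁
  rw [e, k₂] at h1
  exact h1

theorem cast_sq_one (c : ℤ) (hc : c = 1 ∨ c = -1) : ((c : ℤ) : K) * ((c : ℤ) : K) = 1 := by
  rcases hc with rfl | rfl <;> simp

variable (D : ChevalleyDatum) (a : ℕ → K → A)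

theorem perfStepN_sound (hadd : ∀ r t₁ t₂, a r (t₁ + t₂) = a r t₁ * a r t₂)
    (hcomm : ∀ r s t u, r < D.nroots → s < D.nroots → s ≠ r → s ≠ D.neg r →
      ((D.commTerms r s).map fun c =>
        a c.1 ((c.2.1 : K) * (-t) ^ c.2.2.1 * u ^ c.2.2.2)).prod = 1)
    (two : Bool) (htwo : two = true → ∃ x : K, x ≠ 0 ∧ x ≠ 1) (Z : ℕ)
    (hZ : ∀ k, Z.testBit k = true → ∀ v, a k v = 1) (p : ℕ × ℕ) :
    ∀ k, (perfStepN D two Z p).testBit k = true → ∀ v, a k v = 1 := by
  unfold perfStepN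
  split_ifs with hp
  · obtain ⟨hr, hs, hsr, hsn⟩ := hp
    have hprod : ∀ t u : K, (((D.commTerms p.1 p.2).filter (fun c => !Z.testBit c.1)).map fun c =>
        a c.1 ((c.2.1 : K) * (-t) ^ c.2.2.1 * u ^ c.2.2.2)).prod = 1 := by
      intro t u
      rw [prod_filter_killed]
      · exact hcomm p.1 p.2 t u hr hs hsr hsn
      · intro x _ hx
        have hx' : Z.testBit x.1 = true := by simpa using hx
        exact hZ x.1 hx' _
    split
    · rename_i k₀ c i j heq
      rw [heq] at hprod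
      split_ifs with hc
      · intro k hk
        rw [Nat.testBit_or, Bool.or_eq_true, Nat.testBit_two_pow, decide_eq_true_eq] at hk
        rcases hk with hk | hk
        · exact hZ k hk
        · subst hk
          refine kill_one (a k₀) c i j hc.1 hc.2 fun t u => ?_
          have h1 := hprod t u
          simpa using h1
      · exact hZ
    · rename_i k₁ c₁ i₁ j₁ k₂ c₂ i₂ j₂ heq
      rw [heq] at hprod
      split_ifs with hc
      · obtain ⟨h2, hc₁, hc₂, rfl, rfl, hij⟩ := hc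
        obtain ⟨x, hx0, hx1⟩ := htwo h2
        have hboth : (∀ v, a k₁ v = 1) ∧ (∀ v, a k₂ v = 1) := by
          rcases hij with ⟨rfl, rfl⟩ | ⟨rfl, rfl⟩
          · refine kill_two_a (a k₁) (a k₂) (hadd k₁) (hadd k₂) _ _ (cast_sq_one c₁ hc₁)
              (cast_sq_one c₂ hc₂) x hx0 hx1 fun t u => ?_
            have h1 := hprod t u
            simpa using h1
          · refine kill_two_b (a k₁) (a k₂) (hadd k₁) (hadd k₂) _ _ (cast_sq_one c₁ hc₁)
              (cast_sq_one c₂ hc₂) x hx0 hx1 fun t u => ?_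
            have h1 := hprod t u
            simpa using h1
        intro k hk
        rw [Nat.testBit_or, Bool.or_eq_true, Nat.testBit_or, Bool.or_eq_true, Nat.testBit_two_pow,
          Nat.testBit_two_pow, decide_eq_true_eq, decide_eq_true_eq] at hk
        rcases hk with (hk | hk) | hk
        · exact hZ k hk
        · subst hk
          exact hboth.1
        · subst hk
          exact hboth.2
      · exact hZ
    · exact hZ
  · exact hZ

theorem perfRun_sound (hadd : ∀ r t₁ t₂, a r (t₁ + t₂) = a r t₁ * a r t₂)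
    (hcomm : ∀ r s t u, r < D.nroots → s < D.nroots → s ≠ r → s ≠ D.neg r →
      ((D.commTerms r s).map fun c =>
        a c.1 ((c.2.1 : K) * (-t) ^ c.2.2.1 * u ^ c.2.2.2)).prod = 1)
    (two : Bool) (htwo : two = true → ∃ x : K, x ≠ 0 ∧ x ≠ 1) :
    ∀ (steps : List (ℕ × ℕ)) (Z : ℕ), (∀ k, Z.testBit k = true → ∀ v, a k v = 1) →
      perfRun D two steps Z = true → ∀ k < D.nroots, ∀ v, a k v = 1 := by
  intro steps
  induction steps with
  | nil =>
    intro Z hZ h k hk
    unfold perfRun at h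
    rw [List.all_eq_true] at h
    exact hZ k (h k (List.mem_range.mpr hk))
  | cons p rest ih =>
    intro Z hZ h
    unfold perfRun at h
    rw [perfForce_eq] at h
    exact ih _ (perfStepN_sound D a hadd hcomm two htwo Z hZ p) h

end ab

/-- the group presented by the relators (R1) and (R2) is perfect, given a certificate -/
theorem cover_perfect {K : Type*} [Field K] (D : ChevalleyDatum) (two : Bool)
    (htwo : two = true → ∃ x : K, x ≠ 0 ∧ x ≠ 1) (steps : List (ℕ × ℕ))
    (h : perfRun D two steps 0 = true) : commutator (D.SteinbergCover K) = ⊤ := by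
  have hadd : ∀ (r : ℕ) (t₁ t₂ : K),
      (Abelianization.of (PresentedGroup.mk (D.steinbergRelsAB K) (D.stX r (t₁ + t₂))) :
        Abelianization (D.SteinbergCover K)) =
      Abelianization.of (PresentedGroup.mk (D.steinbergRelsAB K) (D.stX r t₁)) *
        Abelianization.of (PresentedGroup.mk (D.steinbergRelsAB K) (D.stX r t₂)) := by
    intro r t₁ t₂
    by_cases hr : r < D.nroots
    · have hmem : D.stX r t₁ * D.stX r t₂ * (D.stX r (t₁ + t₂))⁻¹ ∈ D.steinbergRelsAB K :=
        Or.inl ⟨r, t₁, t₂, hr, rfl⟩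
      have h1 := PresentedGroup.one_of_mem hmem
      rw [map_mul, map_inv, mul_inv_eq_one] at h1
      rw [← map_mul, ← h1, map_mul]
    · have e : ∀ t : K, D.stX r t = 1 := by
        intro t
        unfold ChevalleyDatum.stX
        rw [dif_neg hr]
      rw [e, e, e, map_one, map_one, one_mul]
  have hcomm : ∀ (r s : ℕ) (t u : K), r < D.nroots → s < D.nroots → s ≠ r → s ≠ D.neg r →
      ((D.commTerms r s).map fun c =>
        (Abelianization.of (PresentedGroup.mk (D.steinbergRelsAB K)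
          (D.stX c.1 ((c.2.1 : K) * (-t) ^ c.2.2.1 * u ^ c.2.2.2))) :
          Abelianization (D.SteinbergCover K))).prod = 1 := by
    intro r s t u hr hs hsr hsn
    have hmem : (D.stX s u)⁻¹ * (D.stX r t)⁻¹ * D.stX s u * D.stX r t *
        (D.stWord (D.commWord K r s t u))⁻¹ ∈ D.steinbergRelsAB K :=
      Or.inr ⟨r, s, t, u, hr, hs, hsr, hsn, rfl⟩
    have h1 := congrArg (Abelianization.of (G := D.SteinbergCover K))
      (PresentedGroup.one_of_mem hmem)
    simp only [map_mul, map_inv, map_one] at h1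
    have h2 : (Abelianization.of (PresentedGroup.mk (D.steinbergRelsAB K)
        (D.stWord (D.commWord K r s t u))) : Abelianization (D.SteinbergCover K)) = 1 := by
      have h3 : ∀ x y z : Abelianization (D.SteinbergCover K),
          x⁻¹ * y⁻¹ * x * y * z⁻¹ = 1 → z = 1 := by
        intro x y z hxyz
        have e : x⁻¹ * y⁻¹ * x * y * z⁻¹ = z⁻¹ := by
          rw [mul_comm x⁻¹ y⁻¹, mul_assoc y⁻¹, inv_mul_cancel, mul_one, inv_mul_cancel, one_mul]
        rw [e, inv_eq_one] at hxyz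
        exact hxyz
      exact h3 _ _ _ h1
    unfold ChevalleyDatum.stWord ChevalleyDatum.commWord at h2
    rw [map_list_prod, map_list_prod, List.map_map, List.map_map, List.map_map] at h2
    exact h2
  have hall := perfRun_sound D
    (fun r t => (Abelianization.of (PresentedGroup.mk (D.steinbergRelsAB K) (D.stX r t)) :
      Abelianization (D.SteinbergCover K))) hadd hcomm two htwo steps 0
    (fun k hk => by rw [Nat.zero_testBit] at hk; exact absurd hk (by simp)) h
  have hhom : (Abelianization.of (G := D.SteinbergCover K)).comp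
      (PresentedGroup.mk (D.steinbergRelsAB K)) = 1 := by
    apply FreeGroup.ext_hom
    rintro ⟨r, t⟩
    have h1 := hall r.val r.isLt t
    have e : D.stX r.val t = FreeGroup.of (r, t) := by
      unfold ChevalleyDatum.stX
      rw [dif_pos r.isLt]
    rw [e] at h1
    exact h1
  rw [eq_top_iff]
  intro g _
  rw [← Abelianization.ker_of, MonoidHom.mem_ker]
  obtain ⟨x, rfl⟩ := PresentedGroup.mk_surjective (D.steinbergRelsAB K) g
  exact DFunLike.congr_fun hhom x

end Cfsg.Agent.Lib.Helper3
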