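import Mathlib
import Cfsg.Agent.Lib.Helper3.ChevFund

set_option autoImplicit false

namespace Cfsg.Agent.Lib.Helper3

open Cfsg.Lie

/-- table check: roots are determined by the coefficients of their coroots -/
def chkCoInj (D : ChevalleyDatum) : Bool :=
  (List.range D.nroots).all fun s => (List.range D.nroots).all fun s' =>
    decide (s = s') || (List.range D.rank).any fun k =>
      !decide ((D.coroot.getD s #[]).getD k 0 = (D.coroot.getD s' #[]).getD k 0)

/-- table check: the Cartan matrix is symmetric, with 2 on the diagonal and 0 or -1 off it -/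
def chkSL (D : ChevalleyDatum) : Bool :=
  (List.range D.rank).all fun i => (List.range D.rank).all fun j =>
    if i = j then decide (D.cartan i (D.simple j) = 2)
    else decide (D.cartan i (D.simple j) = D.cartan j (D.simple i)) &&
      (decide (D.cartan i (D.simple j) = 0) || decide (D.cartan i (D.simple j) = -1))

/-- table check: the coroots of the negatives of the fundamental roots -/
def chkNegSimpCo (D : ChevalleyDatum) : Bool :=
  (List.range D.rank).all fun i => (List.range D.rank).all fun k =>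
    decide ((D.coroot.getD (D.neg (D.simple i)) #[]).getD k 0 = if k = i then -1 else 0)

theorem chkCoInj_spec (D : ChevalleyDatum) (h : chkCoInj D = true) (s s' : ℕ) (hs : s < D.nroots)
    (hs' : s' < D.nroots)
    (hc : ∀ k < D.rank, (D.coroot.getD s #[]).getD k 0 = (D.coroot.getD s' #[]).getD k 0) :
    s = s' := by
  unfold chkCoInj at h
  rw [List.all_eq_true] at h
  have h1 := h s (List.mem_range.mpr hs)
  rw [List.all_eq_true] at h1
  have h2 := h1 s' (List.mem_range.mpr hs')
  rw [Bool.or_eq_true, decide_eq_true_eq] at h2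
  rcases h2 with h2 | h2
  · exact h2
  · rw [List.any_eq_true] at h2
    obtain ⟨k, hk, h3⟩ := h2
    simp only [Bool.not_eq_true', decide_eq_false_iff_not] at h3
    exact absurd (hc k (List.mem_range.mp hk)) h3

theorem chkSL_spec (D : ChevalleyDatum) (h : chkSL D = true) (i j : ℕ) (hi : i < D.rank)
    (hj : j < D.rank) :
    (i = j → D.cartan i (D.simple j) = 2) ∧
      (i ≠ j → D.cartan i (D.simple j) = D.cartan j (D.simple i) ∧
        (D.cartan i (D.simple j) = 0 ∨ D.cartan i (D.simple j) = -1)) := by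
  unfold chkSL at h
  rw [List.all_eq_true] at h
  have h1 := h i (List.mem_range.mpr hi)
  rw [List.all_eq_true] at h1
  have h2 := h1 j (List.mem_range.mpr hj)
  constructor
  · intro hij
    rw [if_pos hij, decide_eq_true_eq] at h2
    exact h2
  · intro hij
    rw [if_neg hij] at h2
    simpa only [Bool.and_eq_true, Bool.or_eq_true, decide_eq_true_eq] using h2

theorem chkNegSimpCo_spec (D : ChevalleyDatum) (h : chkNegSimpCo D = true) (i k : ℕ)
    (hi : i < D.rank) (hk : k < D.rank) :
    (D.coroot.getD (D.neg (D.simple i)) #[]).getD k 0 = if k = i then -1 else 0 := by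
  unfold chkNegSimpCo at h
  rw [List.all_eq_true] at h
  have h1 := h i (List.mem_range.mpr hi)
  rw [List.all_eq_true] at h1
  have h2 := h1 k (List.mem_range.mpr hk)
  simpa using h2

theorem sum_range_fin' {M : Type*} [AddCommMonoid M] (g : ℕ → M) (n : ℕ) :
    ((List.range n).map g).sum = ∑ x : Fin n, g x.val := by
  induction n with
  | zero => simp
  | succ n ih =>
    rw [List.range_succ, List.map_append, List.sum_append, ih, Fin.sum_univ_castSucc]
    simp

/-- the image of a root under a permutation of the nodes, once a root with the permuted coroot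
coefficients is known -/
theorem permRoot_eq (D : ChevalleyDatum) (hinj : chkCoInj D = true)
    (π : Equiv.Perm (Fin D.rank)) (r s' : ℕ) (hs' : s' < D.nroots)
    (h : ∀ i : Fin D.rank,
      (D.coroot.getD s' #[]).getD (π i).val 0 = (D.coroot.getD r #[]).getD i.val 0) :
    D.permRoot π r = s' := by
  have key : ∀ o : Option ℕ, (∀ s₀, o = some s₀ → s₀ = s') → o ≠ none → o.getD r = s' := by
    intro o h1 h2
    cases o with
    | none => exact absurd rfl h2
    | some s₀ => exact h1 s₀ rfl
  unfold ChevalleyDatum.permRoot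
  apply key
  · intro s₀ hf
    have hp := List.find?_some hf
    have hm := List.mem_of_find?_eq_some hf
    rw [List.mem_range] at hm
    simp only [List.all_eq_true, beq_iff_eq] at hp
    apply chkCoInj_spec D hinj s₀ s' hm hs'
    intro k hk
    obtain ⟨i, hi⟩ := π.surjective ⟨k, hk⟩
    have e1 := hp i (List.mem_finRange i)
    have e2 := h i
    rw [hi] at e1 e2
    exact e1.trans e2.symm
  · intro hf
    rw [List.find?_eq_none] at hf
    apply hf s' (List.mem_range.mpr hs')
    simp only [List.all_eq_true, beq_iff_eq]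
    intro i _
    exact h i

theorem cartan_perm (D : ChevalleyDatum) (hsl : chkSL D = true) (π : Equiv.Perm (Fin D.rank))
    (hπ : D.IsDiagramSymmetry π) (i j : Fin D.rank) :
    D.cartan (π i).val (D.simple (π j).val) = D.cartan i.val (D.simple j.val) := by
  by_cases hij : i = j
  · subst hij
    rw [(chkSL_spec D hsl _ _ (π i).isLt (π i).isLt).1 rfl,
      (chkSL_spec D hsl _ _ i.isLt i.isLt).1 rfl]
  · have hπij : π i ≠ π j := fun h => hij (π.injective h)
    have hb := hπ i j hij
    unfold ChevalleyDatum.bonds at hb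
    have h1 := (chkSL_spec D hsl (π i).val (π j).val (π i).isLt (π j).isLt).2
      (fun h => hπij (Fin.ext h))
    have h2 := (chkSL_spec D hsl i.val j.val i.isLt j.isLt).2 (fun h => hij (Fin.ext h))
    rw [← h1.1, ← h2.1] at hb
    rcases h1.2 with a | a <;> rcases h2.2 with b | b <;> rw [a, b] at hb <;> omega

section perm

variable (D : ChevalleyDatum) {F : Type*} [Field F]

/-- a graph automorphism without signs on the fundamental root elements carries every root
element to a root element of the permuted root, up to sign -/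
theorem graph_aut_roots (ok : ChevOK D) (hE : chkEta D = true) (hC : chkSimpCo D = true)
    (hSi : chkSimple D = true) (hn : chkNegF D = true) (Rs Es : List ℕ)
    (hR : ∀ i < D.rank, ReflOK D i (dig256 (Rs.getD i 0)) (sgnBit (Es.getD i 0)))
    (hfund : chkFund D Rs = true) (hsl : chkSL D = true) (hnc : chkNegSimpCo D = true)
    (π : Equiv.Perm (Fin D.rank)) (hπ : D.IsDiagramSymmetry π)
    (φ : ↥(D.group F) ≃* ↥(D.group F))
    (hφ : ∀ (g : ↥(D.group F)) (i : Fin D.rank) (t : F),
      (((g : GL D.Idx F) : Matrix D.Idx D.Idx F) = D.x F (D.simple i) t →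
        ((φ g : GL D.Idx F) : Matrix D.Idx D.Idx F) = D.x F (D.simple (π i)) t) ∧
      (((g : GL D.Idx F) : Matrix D.Idx D.Idx F) = D.x F (D.neg (D.simple i)) t →
        ((φ g : GL D.Idx F) : Matrix D.Idx D.Idx F) = D.x F (D.neg (D.simple (π i))) t)) :
    ∀ (m r : ℕ), r < D.nroots → coht D r ≤ m →
      ∃ r' < D.nroots,
        (∀ i : Fin D.rank,
          (D.coroot.getD r' #[]).getD (π i).val 0 = (D.coroot.getD r #[]).getD i.val 0) ∧
        ∃ ε : F, (ε = 1 ∨ ε = -1) ∧ ∀ t : F,
          ((φ ⟨xGL D ok.add r t, xGL_mem_group D ok.add r t⟩ : GL D.Idx F) :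
            Matrix D.Idx D.Idx F) = D.x F r' (ε * t) := by
  have hlt : ∀ i < D.rank, D.simple i < D.nroots ∧ D.neg (D.simple i) < D.nroots := by
    intro i hi
    have h1 := (chkSimple_spec D hSi i hi).1
    refine ⟨h1, ?_⟩
    have h2 := chkNegF_spec D hn _ h1
    unfold ChevalleyDatum.neg
    rw [h2]
    omega
  -- the fundamental roots and their negatives
  have hbase : ∀ (i : ℕ) (hi : i < D.rank) (r : ℕ), (r = D.simple i ∨ r = D.neg (D.simple i)) →
      ∃ r' < D.nroots,
        (∀ k : Fin D.rank,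
          (D.coroot.getD r' #[]).getD (π k).val 0 = (D.coroot.getD r #[]).getD k.val 0) ∧
        ∃ ε : F, (ε = 1 ∨ ε = -1) ∧ ∀ t : F,
          ((φ ⟨xGL D ok.add r t, xGL_mem_group D ok.add r t⟩ : GL D.Idx F) :
            Matrix D.Idx D.Idx F) = D.x F r' (ε * t) := by
    intro i hi r h
    have hiff : ∀ k : Fin D.rank, ((π k).val = (π ⟨i, hi⟩).val) ↔ (k.val = i) := by
      intro k
      rw [← Fin.ext_iff, π.injective.eq_iff, Fin.ext_iff]
    rcases h with rfl | rfl
    · refine ⟨D.simple (π ⟨i, hi⟩).val, (hlt _ (π ⟨i, hi⟩).isLt).1, fun k => ?_, 1, Or.inl rfl,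
        fun t => ?_⟩
      · rw [chkSimpCo_spec D hC _ _ (π ⟨i, hi⟩).isLt (π k).isLt,
          chkSimpCo_spec D hC _ _ hi k.isLt]
        exact if_congr (hiff k) rfl rfl
      · rw [one_mul]
        exact (hφ ⟨xGL D ok.add (D.simple i) t, xGL_mem_group D ok.add _ t⟩ ⟨i, hi⟩ t).1 rfl
    · refine ⟨D.neg (D.simple (π ⟨i, hi⟩).val), (hlt _ (π ⟨i, hi⟩).isLt).2, fun k => ?_, 1,
        Or.inl rfl, fun t => ?_⟩
      · rw [chkNegSimpCo_spec D hnc _ _ (π ⟨i, hi⟩).isLt (π k).isLt,
          chkNegSimpCo_spec D hnc _ _ hi k.isLt]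
        exact if_congr (hiff k) rfl rfl
      · rw [one_mul]
        exact (hφ ⟨xGL D ok.add (D.neg (D.simple i)) t, xGL_mem_group D ok.add _ t⟩
          ⟨i, hi⟩ t).2 rfl
  -- the images of the elements `n_p`
  have hN : ∀ (j : ℕ) (hj : j < D.rank),
      ((φ ⟨wordGL D ok.add (D.nWord (D.simple j) (1 : F)), wordGL_mem_group D ok.add _⟩ :
        ↥(D.group F)) : GL D.Idx F) =
        wordGL D ok.add (D.nWord (D.simple (π ⟨j, hj⟩).val) (1 : F)) := by
    intro j hj
    have e : (⟨wordGL D ok.add (D.nWord (D.simple j) (1 : F)), wordGL_mem_group D ok.add _⟩ :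
        ↥(D.group F)) =
        ⟨xGL D ok.add (D.simple j) 1, xGL_mem_group D ok.add _ _⟩ *
          (⟨xGL D ok.add (D.neg (D.simple j)) (-(1 : F)⁻¹), xGL_mem_group D ok.add _ _⟩ *
            ⟨xGL D ok.add (D.simple j) 1, xGL_mem_group D ok.add _ _⟩) := by
      apply Subtype.ext
      simp [wordGL, ChevalleyDatum.nWord]
    rw [e, map_mul, map_mul]
    apply Units.ext
    rw [Subgroup.coe_mul, Subgroup.coe_mul, Units.val_mul, Units.val_mul,
      (hφ ⟨xGL D ok.add (D.simple j) 1, xGL_mem_group D ok.add _ _⟩ ⟨j, hj⟩ 1).1 rfl,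
      (hφ ⟨xGL D ok.add (D.neg (D.simple j)) (-(1 : F)⁻¹), xGL_mem_group D ok.add _ _⟩
        ⟨j, hj⟩ (-(1 : F)⁻¹)).2 rfl,
      wordGL_coe]
    exact (nMat_eq D _ _).symm
  intro m
  induction m with
  | zero =>
    intro r hr hm
    rcases chkFund_spec D Rs hfund r hr with ⟨i, hi, h⟩ | ⟨j, hj, h⟩
    · exact hbase i hi r h
    · omega
  | succ m ih =>
    intro r hr hm
    rcases chkFund_spec D Rs hfund r hr with ⟨i, hi, h⟩ | ⟨j, hj, h⟩
    · exact hbase i hi r h
    · have Rj := hR j hj
      have hfj := chkF1_spec' D _ _ Rj.f1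
      have hs : dig256 (Rs.getD j 0) r < D.nroots := (hfj r hr).1
      obtain ⟨s', hs', hco, εs, hεs, hφs⟩ := ih _ hs (by omega)
      have Rjj := hR (π ⟨j, hj⟩).val (π ⟨j, hj⟩).isLt
      have hfjj := chkF1_spec' D _ _ Rjj.f1
      have hr' : dig256 (Rs.getD (π ⟨j, hj⟩).val 0) s' < D.nroots := (hfjj s' hs').1
      have hiff : ∀ k : Fin D.rank, ((π k).val = (π ⟨j, hj⟩).val) ↔ (k.val = j) := by
        intro k
        rw [← Fin.ext_iff, π.injective.eq_iff, Fin.ext_iff]
      refine ⟨dig256 (Rs.getD (π ⟨j, hj⟩).val 0) s', hr', fun k => ?_,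
        ((sgnBit (Es.getD (π ⟨j, hj⟩).val 0) s' : ℤ) : F) * (εs *
          ((sgnBit (Es.getD j 0) (dig256 (Rs.getD j 0) r) : ℤ) : F)), ?_, fun t => ?_⟩
      · -- the coroot coefficients
        have h1 := chkH1_spec D _ _ Rjj.h1 s' hs' (π k).val (π k).isLt
        have h2 := chkH1_spec D _ j Rj.h1 _ hs k.val k.isLt
        rw [(hfj r hr).2.1] at h2
        rw [h1, h2, hco k]
        have hsum : ((List.range D.rank).map fun j' =>
            D.cartan j' (D.simple (π ⟨j, hj⟩).val) * (D.coroot.getD s' #[]).getD j' 0).sum =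
            ((List.range D.rank).map fun j' =>
              D.cartan j' (D.simple j) *
                (D.coroot.getD (dig256 (Rs.getD j 0) r) #[]).getD j' 0).sum := by
          rw [sum_range_fin', sum_range_fin']
          rw [← Equiv.sum_comp π]
          refine Finset.sum_congr rfl fun x _ => ?_
          rw [hco x, cartan_perm D hsl π hπ x ⟨j, hj⟩]
        rw [hsum]
        congr 1
        exact if_congr (hiff k) rfl rfl
      · rcases (hfjj s' hs').2.2.1 with a | a <;> rcases hεs with b | b <;>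
          rcases (hfj _ hs).2.2.1 with c | c <;> rw [a, b, c] <;> simp
      · -- the conjugation
        have e1 := xGL_eq_conj (F := F) D ok hE hC hSi hn Rs Es hR j hj r hr t
        have e1' : (⟨xGL D ok.add r t, xGL_mem_group D ok.add r t⟩ : ↥(D.group F)) =
            ⟨wordGL D ok.add (D.nWord (D.simple j) (1 : F)), wordGL_mem_group D ok.add _⟩ *
              ⟨xGL D ok.add (dig256 (Rs.getD j 0) r)
                (((sgnBit (Es.getD j 0) (dig256 (Rs.getD j 0) r) : ℤ) : F) * t),
                xGL_mem_group D ok.add _ _⟩ *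
              (⟨wordGL D ok.add (D.nWord (D.simple j) (1 : F)),
                wordGL_mem_group D ok.add _⟩ : ↥(D.group F))⁻¹ := Subtype.ext e1
        have e2 := xGL_eq_conj (F := F) D ok hE hC hSi hn Rs Es hR (π ⟨j, hj⟩).val
          (π ⟨j, hj⟩).isLt (dig256 (Rs.getD (π ⟨j, hj⟩).val 0) s') hr'
          (((sgnBit (Es.getD (π ⟨j, hj⟩).val 0) s' : ℤ) : F) * (εs *
            (((sgnBit (Es.getD j 0) (dig256 (Rs.getD j 0) r) : ℤ) : F) * t)))
        rw [(hfjj s' hs').2.1] at e2
        have hsq : ((sgnBit (Es.getD (π ⟨j, hj⟩).val 0) s' : ℤ) : F) *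
            (((sgnBit (Es.getD (π ⟨j, hj⟩).val 0) s' : ℤ) : F) * (εs *
              (((sgnBit (Es.getD j 0) (dig256 (Rs.getD j 0) r) : ℤ) : F) * t))) =
            εs * (((sgnBit (Es.getD j 0) (dig256 (Rs.getD j 0) r) : ℤ) : F) * t) := by
          rcases (hfjj s' hs').2.2.1 with a | a <;> rw [a] <;> simp
        rw [hsq] at e2
        have e3 : ((φ ⟨xGL D ok.add (dig256 (Rs.getD j 0) r)
            (((sgnBit (Es.getD j 0) (dig256 (Rs.getD j 0) r) : ℤ) : F) * t),
            xGL_mem_group D ok.add _ _⟩ : ↥(D.group F)) : GL D.Idx F) =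
            xGL D ok.add s' (εs * (((sgnBit (Es.getD j 0) (dig256 (Rs.getD j 0) r) : ℤ) : F) * t)) :=
          Units.ext (hφs _)
        rw [e1', map_mul, map_mul, map_inv, Subgroup.coe_mul, Subgroup.coe_mul, Subgroup.coe_inv,
          hN j hj, e3, ← e2, xGL_coe]
        congr 1
        ring

end perm

theorem coInjD4 : chkCoInj chevD4 = true := by decide +kernel
theorem coInjE6 : chkCoInj chevE6 = true := by decide +kernel
theorem slD4 : chkSL chevD4 = true := by decide +kernel
theorem slE6 : chkSL chevE6 = true := by decide +kernel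
theorem negSimpCoD4 : chkNegSimpCo chevD4 = true := by decide +kernel
theorem negSimpCoE6 : chkNegSimpCo chevE6 = true := by decide +kernel

theorem graph_aut_roots_all {F : Type*} [Field F] (D : ChevalleyDatum)
    (hD : D ∈ [chevD4, chevE6])
    (π : Equiv.Perm (Fin D.rank)) (hπ : D.IsDiagramSymmetry π)
    (φ : ↥(D.group F) ≃* ↥(D.group F))
    (hφ : ∀ (g : ↥(D.group F)) (i : Fin D.rank) (t : F),
      (((g : GL D.Idx F) : Matrix D.Idx D.Idx F) = D.x F (D.simple i) t →
        ((φ g : GL D.Idx F) : Matrix D.Idx D.Idx F) = D.x F (D.simple (π i)) t) ∧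
      (((g : GL D.Idx F) : Matrix D.Idx D.Idx F) = D.x F (D.neg (D.simple i)) t →
        ((φ g : GL D.Idx F) : Matrix D.Idx D.Idx F) = D.x F (D.neg (D.simple (π i))) t))
    (r : ℕ) (hr : r < D.nroots) :
    ∃ ε : F, (ε = 1 ∨ ε = -1) ∧ ∀ (g : ↥(D.group F)) (t : F),
      ((g : GL D.Idx F) : Matrix D.Idx D.Idx F) = D.x F r t →
        ((φ g : GL D.Idx F) : Matrix D.Idx D.Idx F) = D.x F (D.permRoot π r) (ε * t) := by
  have hD7 : D ∈ [chevG2, chevB2, chevD4, chevF4, chevE6, chevE7, chevE8] := by
    simp only [List.mem_cons, List.not_mem_nil, or_false] at hD ⊢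
    rcases hD with h | h
    · exact Or.inr (Or.inr (Or.inl h))
    · exact Or.inr (Or.inr (Or.inr (Or.inr (Or.inl h))))
  have ok := chevOK_all D hD7
  have hE := chkEta_all D hD7
  have hC := chkSimpCo_all D hD7
  have hSi := chkSimple_all D hD7
  have main : ∃ r' < D.nroots,
      (∀ i : Fin D.rank,
        (D.coroot.getD r' #[]).getD (π i).val 0 = (D.coroot.getD r #[]).getD i.val 0) ∧
      ∃ ε : F, (ε = 1 ∨ ε = -1) ∧ ∀ t : F,
        ((φ ⟨xGL D ok.add r t, xGL_mem_group D ok.add r t⟩ : GL D.Idx F) :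
          Matrix D.Idx D.Idx F) = D.x F r' (ε * t) := by
    simp only [List.mem_cons, List.not_mem_nil, or_false] at hD
    rcases hD with h | h
    · subst h
      exact graph_aut_roots chevD4 ok hE hC hSi rfNegD4 w0RsD4 w0EsD4 w0RD4 fundD4 slD4
        negSimpCoD4 π hπ φ hφ _ r hr le_rfl
    · subst h
      exact graph_aut_roots chevE6 ok hE hC hSi rfNegE6 w0RsE6 w0EsE6 w0RE6 fundE6 slE6
        negSimpCoE6 π hπ φ hφ _ r hr le_rfl
  have hinj : chkCoInj D = true := by
    simp only [List.mem_cons, List.not_mem_nil, or_false] at hD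
    rcases hD with h | h
    · rw [h]; exact coInjD4
    · rw [h]; exact coInjE6
  obtain ⟨r', hr', hco, ε, hε, h⟩ := main
  refine ⟨ε, hε, fun g t hg => ?_⟩
  rw [permRoot_eq D hinj π r r' hr' hco]
  have e : g = ⟨xGL D ok.add r t, xGL_mem_group D ok.add r t⟩ := Subtype.ext (Units.ext hg)
  rw [e]
  exact h t

end Cfsg.Agent.Lib.Helper3
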