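import Mathlib
import Cfsg.Prelude.Def_ChevAutomorphisms

set_option autoImplicit false

namespace Cfsg.Agent.Lib.Helper3

open Cfsg.Lie

/-- table check: the coroot of the reflection `w_{p_i}(p_j)` of a fundamental root is
`h_{p_j} - A_{p_j, p_i} h_{p_i}` -/
def chkRefl (D : ChevalleyDatum) : Bool :=
  (List.range D.rank).all fun i => (List.range D.rank).all fun j =>
    decide (D.reflectRoot i (D.simple j) < D.nroots) &&
    (List.range D.nroots).all fun s =>
      decide (D.pairing (D.reflectRoot i (D.simple j)) s =
        D.cartan j s - D.cartan j (D.simple i) * D.cartan i s)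

theorem chkRefl_spec (D : ChevalleyDatum) (h : chkRefl D = true) (i j : ℕ) (hi : i < D.rank)
    (hj : j < D.rank) :
    D.reflectRoot i (D.simple j) < D.nroots ∧ ∀ s, s < D.nroots →
      D.pairing (D.reflectRoot i (D.simple j)) s =
        D.cartan j s - D.cartan j (D.simple i) * D.cartan i s := by
  unfold chkRefl at h
  rw [List.all_eq_true] at h
  have h1 := h i (List.mem_range.mpr hi)
  rw [List.all_eq_true] at h1
  have h2 := h1 j (List.mem_range.mpr hj)
  simp only [Bool.and_eq_true, decide_eq_true_eq, List.all_eq_true, List.mem_range] at h2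
  exact h2

end Cfsg.Agent.Lib.Helper3
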