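import Mathlib
import Cfsg.Prelude.Def_ChevG2
import Cfsg.Prelude.Def_ChevB2
import Cfsg.Prelude.Def_ChevD4
import Cfsg.Prelude.Def_ChevF4
import Cfsg.Prelude.Def_ChevE6
import Cfsg.Agent.Lib.Helper3.ChevRRf7

set_option autoImplicit false

namespace Cfsg.Agent.Lib.Helper3

open Cfsg.Lie

set_option maxHeartbeats 0 in
theorem chkRefl_G2 : chkRefl chevG2 = true := by
  decide +kernel

set_option maxHeartbeats 0 in
theorem chkRefl_B2 : chkRefl chevB2 = true := by
  decide +kernel

set_option maxHeartbeats 0 in
theorem chkRefl_D4 : chkRefl chevD4 = true := by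
  decide +kernel

set_option maxHeartbeats 0 in
theorem chkRefl_F4 : chkRefl chevF4 = true := by
  decide +kernel

set_option maxHeartbeats 0 in
theorem chkRefl_E6 : chkRefl chevE6 = true := by
  decide +kernel


end Cfsg.Agent.Lib.Helper3
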