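import Mathlib
import Cfsg.Prelude.Def_ChevG2
import Cfsg.Prelude.Def_ChevB2
import Cfsg.Prelude.Def_ChevD4
import Cfsg.Prelude.Def_ChevF4
import Cfsg.Prelude.Def_ChevE6
import Cfsg.Prelude.Def_ChevE7
import Cfsg.Prelude.Def_ChevE8
import Cfsg.Agent.Lib.Helper3.ChevRefC

set_option autoImplicit false

namespace Cfsg.Agent.Lib.Helper3

open Cfsg.Lie

set_option maxHeartbeats 0 in
theorem rfNegG2 : chkNegF chevG2 = true := by decide +kernel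
set_option maxHeartbeats 0 in
theorem rfNegB2 : chkNegF chevB2 = true := by decide +kernel
set_option maxHeartbeats 0 in
theorem rfNegD4 : chkNegF chevD4 = true := by decide +kernel
set_option maxHeartbeats 0 in
theorem rfNegF4 : chkNegF chevF4 = true := by decide +kernel
set_option maxHeartbeats 0 in
theorem rfNegE6 : chkNegF chevE6 = true := by decide +kernel
set_option maxHeartbeats 0 in
theorem rfNegE7 : chkNegF chevE7 = true := by decide +kernel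
set_option maxHeartbeats 0 in
theorem rfNegE8 : chkNegF chevE8 = true := by decide +kernel

def rfRG2_0 : ℕ := 3411626608196089407097472256
def rfEG2_0 : ℕ := 1686
set_option maxHeartbeats 0 in
theorem rfF1G2_0 : chkF1 chevG2 (dig256 rfRG2_0) (sgnBit rfEG2_0) = true := by decide +kernel
set_option maxHeartbeats 0 in
theorem rfH2G2_0 : chkH2 chevG2 (dig256 rfRG2_0) 0 = true := by decide +kernel
set_option maxHeartbeats 0 in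
theorem rfH1G2_0 : chkH1 chevG2 (dig256 rfRG2_0) 0 = true := by decide +kernel
set_option maxHeartbeats 0 in
theorem rfLkG2_0 : chkLinkF chevG2 (dig256 rfRG2_0) (sgnBit rfEG2_0) 0 = true := by decide +kernel
def rfPG2_0_0 : List (List ℕ) := [[3, 2, 1, 0], [0, 1, 2, 3], [0, 3, 1, 4, 2, 5], [0, 2, 4, 1, 3, 5], [2, 1, 0, 5, 4, 3], [0, 1, 2, 3], [0, 1, 2, 3], [2, 1, 0, 5, 4, 3], [0, 2, 4, 1, 3, 5], [0, 3, 1, 4, 2, 5], [0, 1, 2, 3], [3, 2, 1, 0]]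
theorem rfPlG2_0_0 : rfPG2_0_0.length = 12 := by decide +kernel
set_option maxHeartbeats 0 in
theorem rfRwG2_0_0 : rowsF chevG2 (dig256 rfRG2_0) (sgnBit rfEG2_0) 0 rfPG2_0_0 = true := by decide +kernel
theorem rfRowsG2_0 : ∀ r < chevG2.nroots, RowOK chevG2 (fnG chevG2.nroots (dig256 rfRG2_0) (sgnBit rfEG2_0)) r := by
  intro r hr
  have hr' : r < 12 := hr
  exact rowsF_spec _ _ _ _ 0 rfRwG2_0_0 r (by omega) (by rw [rfPlG2_0_0]; omega) hr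
theorem rfOKG2_0 : ReflOK chevG2 0 (dig256 rfRG2_0) (sgnBit rfEG2_0) :=
  ⟨rfF1G2_0, rfRowsG2_0, rfH2G2_0, rfH1G2_0, rfLkG2_0⟩

def rfRG2_1 : ℕ := 3108190913232640688152248321
def rfEG2_1 : ℕ := 2409
set_option maxHeartbeats 0 in
theorem rfF1G2_1 : chkF1 chevG2 (dig256 rfRG2_1) (sgnBit rfEG2_1) = true := by decide +kernel
set_option maxHeartbeats 0 in
theorem rfH2G2_1 : chkH2 chevG2 (dig256 rfRG2_1) 1 = true := by decide +kernel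
set_option maxHeartbeats 0 in
theorem rfH1G2_1 : chkH1 chevG2 (dig256 rfRG2_1) 1 = true := by decide +kernel
set_option maxHeartbeats 0 in
theorem rfLkG2_1 : chkLinkF chevG2 (dig256 rfRG2_1) (sgnBit rfEG2_1) 1 = true := by decide +kernel
def rfPG2_1_0 : List (List ℕ) := [[0, 1, 2, 3], [0, 1, 2, 3], [1, 0, 3, 2, 5, 4], [0, 1, 2, 3, 4, 5], [0, 1, 2, 3, 4, 5], [0, 1, 2, 3], [0, 1, 2, 3], [0, 1, 2, 3, 4, 5], [0, 1, 2, 3, 4, 5], [1, 0, 3, 2, 5, 4], [0, 1, 2, 3], [0, 1, 2, 3]]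
theorem rfPlG2_1_0 : rfPG2_1_0.length = 12 := by decide +kernel
set_option maxHeartbeats 0 in
theorem rfRwG2_1_0 : rowsF chevG2 (dig256 rfRG2_1) (sgnBit rfEG2_1) 0 rfPG2_1_0 = true := by decide +kernel
theorem rfRowsG2_1 : ∀ r < chevG2.nroots, RowOK chevG2 (fnG chevG2.nroots (dig256 rfRG2_1) (sgnBit rfEG2_1)) r := by
  intro r hr
  have hr' : r < 12 := hr
  exact rowsF_spec _ _ _ _ 0 rfRwG2_1_0 r (by omega) (by rw [rfPlG2_1_0]; omega) hr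
theorem rfOKG2_1 : ReflOK chevG2 1 (dig256 rfRG2_1) (sgnBit rfEG2_1) :=
  ⟨rfF1G2_1, rfRowsG2_1, rfH2G2_1, rfH1G2_1, rfLkG2_1⟩

theorem rfAllG2 : ∀ i < chevG2.rank, ∃ (ρf : ℕ → ℕ) (εf : ℕ → ℤ), ReflOK chevG2 i ρf εf := by
  intro i hi
  have hi' : i < 2 := hi
  interval_cases i
  · exact ⟨_, _, rfOKG2_0⟩
  · exact ⟨_, _, rfOKG2_1⟩

def rfRB2_0 : ℕ := 289921455100330243
def rfEB2_0 : ℕ := 255
set_option maxHeartbeats 0 in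
theorem rfF1B2_0 : chkF1 chevB2 (dig256 rfRB2_0) (sgnBit rfEB2_0) = true := by decide +kernel
set_option maxHeartbeats 0 in
theorem rfH2B2_0 : chkH2 chevB2 (dig256 rfRB2_0) 0 = true := by decide +kernel
set_option maxHeartbeats 0 in
theorem rfH1B2_0 : chkH1 chevB2 (dig256 rfRB2_0) 0 = true := by decide +kernel
set_option maxHeartbeats 0 in
theorem rfLkB2_0 : chkLinkF chevB2 (dig256 rfRB2_0) (sgnBit rfEB2_0) 0 = true := by decide +kernel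
def rfPB2_0_0 : List (List ℕ) := [[0, 1], [2, 3, 0, 1], [1, 0, 3, 2], [0, 1], [0, 1], [1, 0, 3, 2], [2, 3, 0, 1], [0, 1]]
theorem rfPlB2_0_0 : rfPB2_0_0.length = 8 := by decide +kernel
set_option maxHeartbeats 0 in
theorem rfRwB2_0_0 : rowsF chevB2 (dig256 rfRB2_0) (sgnBit rfEB2_0) 0 rfPB2_0_0 = true := by decide +kernel
theorem rfRowsB2_0 : ∀ r < chevB2.nroots, RowOK chevB2 (fnG chevB2.nroots (dig256 rfRB2_0) (sgnBit rfEB2_0)) r := by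
  intro r hr
  have hr' : r < 8 := hr
  exact rowsF_spec _ _ _ _ 0 rfRwB2_0_0 r (by omega) (by rw [rfPlB2_0_0]; omega) hr
theorem rfOKB2_0 : ReflOK chevB2 0 (dig256 rfRB2_0) (sgnBit rfEB2_0) :=
  ⟨rfF1B2_0, rfRowsB2_0, rfH2B2_0, rfH1B2_0, rfLkB2_0⟩

def rfRB2_1 : ℕ := 505817143170892288
def rfEB2_1 : ℕ := 90
set_option maxHeartbeats 0 in
theorem rfF1B2_1 : chkF1 chevB2 (dig256 rfRB2_1) (sgnBit rfEB2_1) = true := by decide +kernel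
set_option maxHeartbeats 0 in
theorem rfH2B2_1 : chkH2 chevB2 (dig256 rfRB2_1) 1 = true := by decide +kernel
set_option maxHeartbeats 0 in
theorem rfH1B2_1 : chkH1 chevB2 (dig256 rfRB2_1) 1 = true := by decide +kernel
set_option maxHeartbeats 0 in
theorem rfLkB2_1 : chkLinkF chevB2 (dig256 rfRB2_1) (sgnBit rfEB2_1) 1 = true := by decide +kernel
def rfPB2_1_0 : List (List ℕ) := [[1, 0], [0, 1, 2, 3], [0, 1, 2, 3], [0, 1], [0, 1], [0, 1, 2, 3], [0, 1, 2, 3], [1, 0]]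
theorem rfPlB2_1_0 : rfPB2_1_0.length = 8 := by decide +kernel
set_option maxHeartbeats 0 in
theorem rfRwB2_1_0 : rowsF chevB2 (dig256 rfRB2_1) (sgnBit rfEB2_1) 0 rfPB2_1_0 = true := by decide +kernel
theorem rfRowsB2_1 : ∀ r < chevB2.nroots, RowOK chevB2 (fnG chevB2.nroots (dig256 rfRB2_1) (sgnBit rfEB2_1)) r := by
  intro r hr
  have hr' : r < 8 := hr
  exact rowsF_spec _ _ _ _ 0 rfRwB2_1_0 r (by omega) (by rw [rfPlB2_1_0]; omega) hr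
theorem rfOKB2_1 : ReflOK chevB2 1 (dig256 rfRB2_1) (sgnBit rfEB2_1) :=
  ⟨rfF1B2_1, rfRowsB2_1, rfH2B2_1, rfH1B2_1, rfLkB2_1⟩

theorem rfAllB2 : ∀ i < chevB2.rank, ∃ (ρf : ℕ → ℕ) (εf : ℕ → ℤ), ReflOK chevB2 i ρf εf := by
  intro i hi
  have hi' : i < 2 := hi
  interval_cases i
  · exact ⟨_, _, rfOKB2_0⟩
  · exact ⟨_, _, rfOKB2_1⟩

def rfRD4_0 : ℕ := 565592643864087472290204273757603651193062799363369534976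
def rfED4_0 : ℕ := 508896
set_option maxHeartbeats 0 in
theorem rfF1D4_0 : chkF1 chevD4 (dig256 rfRD4_0) (sgnBit rfED4_0) = true := by decide +kernel
set_option maxHeartbeats 0 in
theorem rfH2D4_0 : chkH2 chevD4 (dig256 rfRD4_0) 0 = true := by decide +kernel
set_option maxHeartbeats 0 in
theorem rfH1D4_0 : chkH1 chevD4 (dig256 rfRD4_0) 0 = true := by decide +kernel
set_option maxHeartbeats 0 in
theorem rfLkD4_0 : chkLinkF chevD4 (dig256 rfRD4_0) (sgnBit rfED4_0) 0 = true := by decide +kernel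
def rfPD4_0_0 : List (List ℕ) := [[4, 5, 6, 7, 0, 1, 2, 3], [0, 2, 3, 6, 1, 4, 5, 7], [0, 2, 3, 6, 1, 4, 5, 7], [0, 2, 3, 6, 1, 4, 5, 7], [0, 2, 3, 6, 1, 4, 5, 7], [0, 1, 2, 3, 4, 5, 6, 7], [0, 4, 1, 2, 5, 6, 3, 7], [0, 4, 1, 2, 5, 6, 3, 7], [0, 4, 1, 2, 5, 6, 3, 7], [0, 4, 1, 2, 5, 6, 3, 7], [2, 3, 0, 1, 6, 7, 4, 5], [2, 3, 0, 1, 6, 7, 4, 5], [2, 3, 0, 1, 6, 7, 4, 5], [2, 3, 0, 1, 6, 7, 4, 5], [0, 4, 1, 2, 5, 6, 3, 7], [0, 4, 1, 2, 5, 6, 3, 7], [0, 4, 1, 2, 5, 6, 3, 7], [0, 4, 1, 2, 5, 6, 3, 7], [0, 1, 2, 3, 4, 5, 6, 7], [0, 2, 3, 6, 1, 4, 5, 7], [0, 2, 3, 6, 1, 4, 5, 7], [0, 2, 3, 6, 1, 4, 5, 7], [0, 2, 3, 6, 1, 4, 5, 7], [4, 5, 6, 7, 0, 1, 2, 3]]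
theorem rfPlD4_0_0 : rfPD4_0_0.length = 24 := by decide +kernel
set_option maxHeartbeats 0 in
theorem rfRwD4_0_0 : rowsF chevD4 (dig256 rfRD4_0) (sgnBit rfED4_0) 0 rfPD4_0_0 = true := by decide +kernel
theorem rfRowsD4_0 : ∀ r < chevD4.nroots, RowOK chevD4 (fnG chevD4.nroots (dig256 rfRD4_0) (sgnBit rfED4_0)) r := by
  intro r hr
  have hr' : r < 24 := hr
  exact rowsF_spec _ _ _ _ 0 rfRwD4_0_0 r (by omega) (by rw [rfPlD4_0_0]; omega) hr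
theorem rfOKD4_0 : ReflOK chevD4 0 (dig256 rfRD4_0) (sgnBit rfED4_0) :=
  ⟨rfF1D4_0, rfRowsD4_0, rfH2D4_0, rfH1D4_0, rfLkD4_0⟩

def rfRD4_1 : ℕ := 541649279090809664310305499994679834166397163664360734721
def rfED4_1 : ℕ := 8945169
set_option maxHeartbeats 0 in
theorem rfF1D4_1 : chkF1 chevD4 (dig256 rfRD4_1) (sgnBit rfED4_1) = true := by decide +kernel
set_option maxHeartbeats 0 in
theorem rfH2D4_1 : chkH2 chevD4 (dig256 rfRD4_1) 1 = true := by decide +kernel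
set_option maxHeartbeats 0 in
theorem rfH1D4_1 : chkH1 chevD4 (dig256 rfRD4_1) 1 = true := by decide +kernel
set_option maxHeartbeats 0 in
theorem rfLkD4_1 : chkLinkF chevD4 (dig256 rfRD4_1) (sgnBit rfED4_1) 1 = true := by decide +kernel
def rfPD4_1_0 : List (List ℕ) := [[0, 1, 2, 3, 4, 5, 6, 7], [0, 1, 2, 3, 4, 5, 6, 7], [1, 0, 3, 2, 5, 4, 7, 6], [1, 0, 3, 2, 5, 4, 7, 6], [0, 1, 2, 3, 4, 5, 6, 7], [0, 1, 2, 3, 4, 5, 6, 7], [1, 0, 4, 5, 2, 3, 7, 6], [0, 1, 2, 4, 3, 5, 6, 7], [0, 1, 2, 4, 3, 5, 6, 7], [0, 1, 2, 3, 4, 5, 6, 7], [0, 1, 2, 4, 3, 5, 6, 7], [0, 1, 2, 4, 3, 5, 6, 7], [0, 1, 2, 4, 3, 5, 6, 7], [0, 1, 2, 4, 3, 5, 6, 7], [0, 1, 2, 3, 4, 5, 6, 7], [0, 1, 2, 4, 3, 5, 6, 7], [0, 1, 2, 4, 3, 5, 6, 7], [1, 0, 4, 5, 2, 3, 7, 6], [0, 1, 2, 3, 4, 5, 6, 7], [0, 1, 2, 3, 4, 5, 6, 7], [1, 0,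 3, 2, 5, 4, 7, 6], [1, 0, 3, 2, 5, 4, 7, 6], [0, 1, 2, 3, 4, 5, 6, 7], [0, 1, 2, 3, 4, 5, 6, 7]]
theorem rfPlD4_1_0 : rfPD4_1_0.length = 24 := by decide +kernel
set_option maxHeartbeats 0 in
theorem rfRwD4_1_0 : rowsF chevD4 (dig256 rfRD4_1) (sgnBit rfED4_1) 0 rfPD4_1_0 = true := by decide +kernel
theorem rfRowsD4_1 : ∀ r < chevD4.nroots, RowOK chevD4 (fnG chevD4.nroots (dig256 rfRD4_1) (sgnBit rfED4_1)) r := by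
  intro r hr
  have hr' : r < 24 := hr
  exact rowsF_spec _ _ _ _ 0 rfRwD4_1_0 r (by omega) (by rw [rfPlD4_1_0]; omega) hr
theorem rfOKD4_1 : ReflOK chevD4 1 (dig256 rfRD4_1) (sgnBit rfED4_1) :=
  ⟨rfF1D4_1, rfRowsD4_1, rfH2D4_1, rfH1D4_1, rfLkD4_1⟩

def rfRD4_2 : ℕ := 565881119482020990812274433957960368099339668429056770816
def rfED4_2 : ℕ := 6497478
set_option maxHeartbeats 0 in
theorem rfF1D4_2 : chkF1 chevD4 (dig256 rfRD4_2) (sgnBit rfED4_2) = true := by decide +kernel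
set_option maxHeartbeats 0 in
theorem rfH2D4_2 : chkH2 chevD4 (dig256 rfRD4_2) 2 = true := by decide +kernel
set_option maxHeartbeats 0 in
theorem rfH1D4_2 : chkH1 chevD4 (dig256 rfRD4_2) 2 = true := by decide +kernel
set_option maxHeartbeats 0 in
theorem rfLkD4_2 : chkLinkF chevD4 (dig256 rfRD4_2) (sgnBit rfED4_2) 2 = true := by decide +kernel
def rfPD4_2_0 : List (List ℕ) := [[2, 3, 0, 1, 6, 7, 4, 5], [0, 2, 1, 3, 4, 6, 5, 7], [0, 2, 1, 3, 4, 6, 5, 7], [0, 2, 1, 3, 4, 6, 5, 7], [0, 2, 1, 3, 4, 6, 5, 7], [2, 3, 0, 1, 6, 7, 4, 5], [0, 1, 3, 2, 5, 4, 6, 7], [0, 1, 3, 2, 5, 4, 6, 7], [0, 1, 3, 2, 5, 4, 6, 7], [0, 1, 3, 2, 5, 4, 6, 7], [0, 1, 2, 3, 4, 5, 6, 7], [1, 0, 3, 2, 5, 4, 7, 6], [1, 0, 3, 2, 5, 4, 7, 6], [0, 1, 2, 3, 4, 5, 6, 7], [0, 1, 3, 2, 5, 4, 6, 7], [0, 1, 3, 2, 5, 4, 6, 7],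 [0, 1, 3, 2, 5, 4, 6, 7], [0, 1, 3, 2, 5, 4, 6, 7], [2, 3, 0, 1, 6, 7, 4, 5], [0, 2, 1, 3, 4, 6, 5, 7], [0, 2, 1, 3, 4, 6, 5, 7], [0, 2, 1, 3, 4, 6, 5, 7], [0, 2, 1, 3, 4, 6, 5, 7], [2, 3, 0, 1, 6, 7, 4, 5]]
theorem rfPlD4_2_0 : rfPD4_2_0.length = 24 := by decide +kernel
set_option maxHeartbeats 0 in
theorem rfRwD4_2_0 : rowsF chevD4 (dig256 rfRD4_2) (sgnBit rfED4_2) 0 rfPD4_2_0 = true := by decide +kernel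
theorem rfRowsD4_2 : ∀ r < chevD4.nroots, RowOK chevD4 (fnG chevD4.nroots (dig256 rfRD4_2) (sgnBit rfED4_2)) r := by
  intro r hr
  have hr' : r < 24 := hr
  exact rowsF_spec _ _ _ _ 0 rfRwD4_2_0 r (by omega) (by rw [rfPlD4_2_0]; omega) hr
theorem rfOKD4_2 : ReflOK chevD4 2 (dig256 rfRD4_2) (sgnBit rfED4_2) :=
  ⟨rfF1D4_2, rfRowsD4_2, rfH2D4_2, rfH1D4_2, rfLkD4_2⟩

def rfRD4_3 : ℕ := 565978018496368764364970633948976412520310965285293195776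
def rfED4_3 : ℕ := 5413194
set_option maxHeartbeats 0 in
theorem rfF1D4_3 : chkF1 chevD4 (dig256 rfRD4_3) (sgnBit rfED4_3) = true := by decide +kernel
set_option maxHeartbeats 0 in
theorem rfH2D4_3 : chkH2 chevD4 (dig256 rfRD4_3) 3 = true := by decide +kernel
set_option maxHeartbeats 0 in
theorem rfH1D4_3 : chkH1 chevD4 (dig256 rfRD4_3) 3 = true := by decide +kernel
set_option maxHeartbeats 0 in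
theorem rfLkD4_3 : chkLinkF chevD4 (dig256 rfRD4_3) (sgnBit rfED4_3) 3 = true := by decide +kernel
def rfPD4_3_0 : List (List ℕ) := [[1, 0, 3, 2, 5, 4, 7, 6], [0, 1, 2, 3, 4, 5, 6, 7], [0, 1, 2, 3, 4, 5, 6, 7], [0, 1, 2, 3, 4, 5, 6, 7], [0, 1, 2, 3, 4, 5, 6, 7], [1, 0, 3, 2, 5, 4, 7, 6], [0, 1, 2, 3, 4, 5, 6, 7], [0, 1, 2, 3, 4, 5, 6, 7], [0, 1, 2, 3, 4, 5, 6, 7], [0, 1, 2, 3, 4, 5, 6, 7], [1, 0, 3, 2, 5, 4, 7, 6], [0, 1, 2, 3, 4, 5, 6, 7], [0, 1, 2, 3, 4, 5, 6, 7], [1, 0, 3, 2, 5, 4, 7, 6], [0, 1, 2, 3, 4, 5, 6, 7], [0, 1, 2, 3, 4, 5, 6, 7], [0, 1, 2, 3, 4, 5, 6, 7], [0, 1, 2, 3, 4, 5, 6, 7], [1, 0, 3, 2, 5, 4, 7, 6], [0, 1, 2, 3, 4, 5, 6, 7], [0, 1, 2, 3, 4, 5, 6, 7], [0, 1, 2, 3, 4, 5, 6, 7], [0, 1, 2, 3, 4, 5, 6, 7], [1, 0, 3, 2, 5, 4, 7, 6]]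
theorem rfPlD4_3_0 : rfPD4_3_0.length = 24 := by decide +kernel
set_option maxHeartbeats 0 in
theorem rfRwD4_3_0 : rowsF chevD4 (dig256 rfRD4_3) (sgnBit rfED4_3) 0 rfPD4_3_0 = true := by decide +kernel
theorem rfRowsD4_3 : ∀ r < chevD4.nroots, RowOK chevD4 (fnG chevD4.nroots (dig256 rfRD4_3) (sgnBit rfED4_3)) r := by
  intro r hr
  have hr' : r < 24 := hr
  exact rowsF_spec _ _ _ _ 0 rfRwD4_3_0 r (by omega) (by rw [rfPlD4_3_0]; omega) hr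
theorem rfOKD4_3 : ReflOK chevD4 3 (dig256 rfRD4_3) (sgnBit rfED4_3) :=
  ⟨rfF1D4_3, rfRowsD4_3, rfH2D4_3, rfH1D4_3, rfLkD4_3⟩

theorem rfAllD4 : ∀ i < chevD4.rank, ∃ (ρf : ℕ → ℕ) (εf : ℕ → ℤ), ReflOK chevD4 i ρf εf := by
  intro i hi
  have hi' : i < 4 := hi
  interval_cases i
  · exact ⟨_, _, rfOKD4_0⟩
  · exact ⟨_, _, rfOKD4_1⟩
  · exact ⟨_, _, rfOKD4_2⟩
  · exact ⟨_, _, rfOKD4_3⟩

def rfRF4_0 : ℕ := 7261724565101152271001196648824430191705409898545041084742521782222439549395075633586971079114467536390968217567488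
def rfEF4_0 : ℕ := 33964469241720
set_option maxHeartbeats 0 in
theorem rfF1F4_0 : chkF1 chevF4 (dig256 rfRF4_0) (sgnBit rfEF4_0) = true := by decide +kernel
set_option maxHeartbeats 0 in
theorem rfH2F4_0 : chkH2 chevF4 (dig256 rfRF4_0) 0 = true := by decide +kernel
set_option maxHeartbeats 0 in
theorem rfH1F4_0 : chkH1 chevF4 (dig256 rfRF4_0) 0 = true := by decide +kernel
set_option maxHeartbeats 0 in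
theorem rfLkF4_0 : chkLinkF chevF4 (dig256 rfRF4_0) (sgnBit rfEF4_0) 0 = true := by decide +kernel
def rfPF4_0_0 : List (List ℕ) := [[0, 1, 5, 9, 10, 2, 6, 7, 11, 3, 4, 8, 12, 13], [0, 1, 5, 9, 10, 2, 6, 7, 11, 3, 4, 8, 12, 13], [0, 1, 5, 9, 10, 2, 6, 7, 11, 3, 4, 8, 12, 13], [0, 1, 2, 10, 11, 12, 3, 4, 5, 6, 13, 14, 15, 16, 7, 8, 9, 17, 18, 19], [0, 1, 2, 4, 5, 3, 6, 7, 10, 8, 9, 11, 12, 13], [0, 1, 2, 4, 5, 3, 6, 7, 10, 8, 9, 11, 12, 13], [0, 1, 2, 4, 5, 3, 6, 7, 10, 8, 9, 11, 12, 13], [0, 1, 2, 6, 7, 8, 9, 14, 15, 16, 3, 4, 5, 10, 11, 12, 13, 17, 18, 19], [0, 1, 4, 10, 2, 5, 6, 11, 12, 16, 3, 7, 8, 13, 14, 17, 9, 15, 18, 19], [0, 1, 4, 10, 2, 5, 6, 11, 12, 16, 3, 7, 8, 13, 14, 17, 9, 15, 18, 19], [0, 1, 4, 10, 2, 5, 6, 11, 12, 16, 3, 7, 8, 13, 14, 17, 9, 15, 18, 19], [0, 2, 6, 7, 1,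 3, 4, 8, 9, 14, 5, 10, 11, 15, 16, 18, 12, 13, 17, 19], [0, 2, 6, 7, 1, 3, 4, 8, 9, 14, 5, 10, 11, 15, 16, 18, 12, 13, 17, 19], [0, 2, 6, 7, 1, 3, 4, 8, 9, 14, 5, 10, 11, 15, 16, 18, 12, 13, 17, 19], [0, 4, 5, 6, 1, 2, 3, 7, 8, 9, 10, 11, 12, 16, 17, 18, 13, 14, 15, 19], [0, 1, 2, 5, 3, 4, 6, 7, 9, 10, 8, 11, 12, 13], [0, 1, 2, 5, 3, 4, 6, 7, 9, 10, 8, 11, 12, 13], [0, 1, 2, 5, 3, 4, 6, 7, 9, 10, 8, 11, 12, 13], [0, 4, 1, 5, 6, 10, 2, 3, 7, 8, 11, 12, 16, 17, 9, 13, 14, 18, 15, 19], [0, 4, 1, 5, 6, 10, 2, 3, 7, 8, 11, 12, 16, 17, 9, 13, 14, 18, 15, 19], [0, 4, 1, 5, 6, 10, 2, 3, 7, 8, 11, 12, 16, 17, 9, 13, 14, 18, 15, 19], [0, 4, 2, 5, 1, 3, 6, 7, 10, 12, 8, 11, 9, 13], [0, 4, 2, 5, 1, 3, 6, 7, 10, 12, 8, 11, 9, 13], [0, 4, 2, 5, 1, 3, 6, 7, 10, 12, 8, 11, 9, 13], [0, 4, 2, 5, 1, 3, 6,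 7, 10, 12, 8, 11, 9, 13], [0, 4, 2, 5, 1, 3, 6, 7, 10, 12, 8, 11, 9, 13], [0, 4, 2, 5, 1, 3, 6, 7, 10, 12, 8, 11, 9, 13], [0, 4, 1, 5, 6, 10, 2, 3, 7, 8, 11, 12, 16, 17, 9, 13, 14, 18, 15, 19], [0, 4, 1, 5, 6, 10, 2, 3, 7, 8, 11, 12, 16, 17, 9, 13, 14, 18, 15, 19], [0, 4, 1, 5, 6, 10, 2, 3, 7, 8, 11, 12, 16, 17, 9, 13, 14, 18, 15, 19], [0, 1, 2, 5, 3, 4, 6, 7, 9, 10, 8, 11, 12, 13], [0, 1, 2, 5, 3, 4, 6, 7, 9, 10, 8, 11, 12, 13], [0, 1, 2, 5, 3, 4, 6, 7, 9, 10, 8, 11, 12, 13], [0, 4, 5, 6, 1, 2, 3, 7, 8, 9, 10, 11, 12, 16, 17, 18, 13, 14, 15, 19], [0, 2, 6, 7, 1, 3, 4, 8, 9, 14, 5, 10, 11, 15, 16, 18, 12, 13, 17, 19], [0, 2, 6, 7, 1, 3, 4, 8, 9, 14, 5, 10, 11, 15, 16, 18, 12, 13, 17, 19], [0, 2, 6, 7, 1, 3, 4, 8, 9, 14, 5, 10, 11, 15, 16, 18, 12, 13, 17, 19], [0, 1, 4, 10, 2, 5, 6, 11,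 12, 16, 3, 7, 8, 13, 14, 17, 9, 15, 18, 19], [0, 1, 4, 10, 2, 5, 6, 11, 12, 16, 3, 7, 8, 13, 14, 17, 9, 15, 18, 19], [0, 1, 4, 10, 2, 5, 6, 11, 12, 16, 3, 7, 8, 13, 14, 17, 9, 15, 18, 19], [0, 1, 2, 6, 7, 8, 9, 14, 15, 16, 3, 4, 5, 10, 11, 12, 13, 17, 18, 19], [0, 1, 2, 4, 5, 3, 6, 7, 10, 8, 9, 11, 12, 13], [0, 1, 2, 4, 5, 3, 6, 7, 10, 8, 9, 11, 12, 13], [0, 1, 2, 4, 5, 3, 6, 7, 10, 8, 9, 11, 12, 13], [0, 1, 2, 10, 11, 12, 3, 4, 5, 6, 13, 14, 15, 16, 7, 8, 9, 17, 18, 19], [0, 1, 5, 9, 10, 2, 6, 7, 11, 3, 4, 8, 12, 13], [0, 1, 5, 9, 10, 2, 6, 7, 11, 3, 4, 8, 12, 13], [0, 1, 5, 9, 10, 2, 6, 7, 11, 3, 4, 8, 12, 13]]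
theorem rfPlF4_0_0 : rfPF4_0_0.length = 48 := by decide +kernel
set_option maxHeartbeats 0 in
theorem rfRwF4_0_0 : rowsF chevF4 (dig256 rfRF4_0) (sgnBit rfEF4_0) 0 rfPF4_0_0 = true := by decide +kernel
theorem rfRowsF4_0 : ∀ r < chevF4.nroots, RowOK chevF4 (fnG chevF4.nroots (dig256 rfRF4_0) (sgnBit rfEF4_0)) r := by
  intro r hr
  have hr' : r < 48 := hr
  exact rowsF_spec _ _ _ _ 0 rfRwF4_0_0 r (by omega) (by rw [rfPlF4_0_0]; omega) hr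
theorem rfOKF4_0 : ReflOK chevF4 0 (dig256 rfRF4_0) (sgnBit rfEF4_0) :=
  ⟨rfF1F4_0, rfRowsF4_0, rfH2F4_0, rfH1F4_0, rfLkF4_0⟩

def rfRF4_1 : ℕ := 7261719905179377314326951809577084366435515108925945206036271551105028264520922437528663364052125838431098365018368
def rfEF4_1 : ℕ := 19125464147592
set_option maxHeartbeats 0 in
theorem rfF1F4_1 : chkF1 chevF4 (dig256 rfRF4_1) (sgnBit rfEF4_1) = true := by decide +kernel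
set_option maxHeartbeats 0 in
theorem rfH2F4_1 : chkH2 chevF4 (dig256 rfRF4_1) 1 = true := by decide +kernel
set_option maxHeartbeats 0 in
theorem rfH1F4_1 : chkH1 chevF4 (dig256 rfRF4_1) 1 = true := by decide +kernel
set_option maxHeartbeats 0 in
theorem rfLkF4_1 : chkLinkF chevF4 (dig256 rfRF4_1) (sgnBit rfEF4_1) 1 = true := by decide +kernel
def rfPF4_1_0 : List (List ℕ) := [[0, 3, 2, 1, 4, 6, 5, 8, 7, 9, 12, 11, 10, 13], [0, 3, 2, 1, 4, 6, 5, 8, 7, 9, 12, 11, 10, 13], [0, 1, 2, 3, 4, 5, 6, 7, 8, 9, 10, 11, 12, 13], [0, 1, 3, 2, 4, 5, 7, 6, 10, 11, 8, 9, 13, 12, 14, 15, 17, 16, 18, 19], [0, 1, 2, 3, 4, 5, 6, 7, 8, 9, 10, 11, 12, 13], [0, 3, 2, 1, 4, 6, 5, 8, 7, 9, 12, 11, 10, 13], [0, 3, 2, 1, 4, 6, 5, 8, 7, 9, 12, 11, 10, 13], [0, 1, 3, 2, 4, 7, 8, 5, 6, 9, 10, 13, 14, 11, 12, 15, 17,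 16, 18, 19], [0, 1, 3, 2, 4, 7, 8, 5, 6, 9, 10, 13, 14, 11, 12, 15, 17, 16, 18, 19], [0, 2, 1, 3, 5, 4, 7, 6, 9, 8, 11, 10, 13, 12, 15, 14, 16, 18, 17, 19], [0, 2, 1, 3, 5, 4, 7, 6, 9, 8, 11, 10, 13, 12, 15, 14, 16, 18, 17, 19], [0, 2, 1, 3, 5, 4, 7, 6, 9, 8, 11, 10, 13, 12, 15, 14, 16, 18, 17, 19], [0, 2, 1, 3, 5, 4, 7, 6, 9, 8, 11, 10, 13, 12, 15, 14, 16, 18, 17, 19], [1, 0, 2, 3, 4, 7, 8, 5, 6, 9, 10, 13, 14, 11, 12, 15, 16, 17, 19, 18], [1, 0, 2, 3, 4, 7, 8, 5, 6, 9, 10, 13, 14, 11, 12, 15, 16, 17, 19, 18], [0, 1, 3, 2, 8, 9, 6, 7, 4, 5, 11, 10, 12, 13], [0, 1, 2, 3, 4, 6, 5, 8, 7, 9, 10, 11, 12, 13], [0, 1, 2, 3, 4, 6, 5, 8, 7, 9, 10, 11, 12, 13], [0, 1, 3, 2, 5, 4, 6, 10, 8, 12, 7, 11, 9, 13, 15, 14, 17, 16, 18, 19], [0, 1, 3, 2, 5, 4, 6, 10, 8, 12, 7, 11, 9, 13, 15, 14, 17, 16, 18,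 19], [1, 0, 2, 3, 4, 5, 8, 9, 6, 7, 12, 13, 10, 11, 14, 15, 16, 17, 19, 18], [0, 1, 2, 3, 4, 6, 5, 8, 7, 9, 10, 11, 12, 13], [0, 1, 2, 3, 4, 6, 5, 8, 7, 9, 10, 11, 12, 13], [0, 1, 3, 2, 6, 5, 4, 9, 8, 7, 11, 10, 12, 13], [0, 1, 3, 2, 6, 5, 4, 9, 8, 7, 11, 10, 12, 13], [0, 1, 2, 3, 4, 6, 5, 8, 7, 9, 10, 11, 12, 13], [0, 1, 2, 3, 4, 6, 5, 8, 7, 9, 10, 11, 12, 13], [1, 0, 2, 3, 4, 5, 8, 9, 6, 7, 12, 13, 10, 11, 14, 15, 16, 17, 19, 18], [0, 1, 3, 2, 5, 4, 6, 10, 8, 12, 7, 11, 9, 13, 15, 14, 17, 16, 18, 19], [0, 1, 3, 2, 5, 4, 6, 10, 8, 12, 7, 11, 9, 13, 15, 14, 17, 16, 18, 19], [0, 1, 2, 3, 4, 6, 5, 8, 7, 9, 10, 11, 12, 13], [0, 1, 2, 3, 4, 6, 5, 8, 7, 9, 10, 11, 12, 13], [0, 1, 3, 2, 8, 9, 6, 7, 4, 5, 11, 10, 12, 13], [1, 0, 2, 3, 4, 7, 8, 5, 6, 9, 10, 13, 14, 11, 12, 15, 16, 17, 19, 18],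 [1, 0, 2, 3, 4, 7, 8, 5, 6, 9, 10, 13, 14, 11, 12, 15, 16, 17, 19, 18], [0, 2, 1, 3, 5, 4, 7, 6, 9, 8, 11, 10, 13, 12, 15, 14, 16, 18, 17, 19], [0, 2, 1, 3, 5, 4, 7, 6, 9, 8, 11, 10, 13, 12, 15, 14, 16, 18, 17, 19], [0, 2, 1, 3, 5, 4, 7, 6, 9, 8, 11, 10, 13, 12, 15, 14, 16, 18, 17, 19], [0, 2, 1, 3, 5, 4, 7, 6, 9, 8, 11, 10, 13, 12, 15, 14, 16, 18, 17, 19], [0, 1, 3, 2, 4, 7, 8, 5, 6, 9, 10, 13, 14, 11, 12, 15, 17, 16, 18, 19], [0, 1, 3, 2, 4, 7, 8, 5, 6, 9, 10, 13, 14, 11, 12, 15, 17, 16, 18, 19], [0, 3, 2, 1, 4, 6, 5, 8, 7, 9, 12, 11, 10, 13], [0, 3, 2, 1, 4, 6, 5, 8, 7, 9, 12, 11, 10, 13], [0, 1, 2, 3, 4, 5, 6, 7, 8, 9, 10, 11, 12, 13], [0, 1, 3, 2, 4, 5, 7, 6, 10, 11, 8, 9, 13, 12, 14, 15, 17, 16, 18, 19], [0, 1, 2, 3, 4, 5, 6, 7, 8, 9, 10, 11, 12, 13], [0, 3, 2, 1, 4, 6, 5, 8, 7, 9,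 12, 11, 10, 13], [0, 3, 2, 1, 4, 6, 5, 8, 7, 9, 12, 11, 10, 13]]
theorem rfPlF4_1_0 : rfPF4_1_0.length = 48 := by decide +kernel
set_option maxHeartbeats 0 in
theorem rfRwF4_1_0 : rowsF chevF4 (dig256 rfRF4_1) (sgnBit rfEF4_1) 0 rfPF4_1_0 = true := by decide +kernel
theorem rfRowsF4_1 : ∀ r < chevF4.nroots, RowOK chevF4 (fnG chevF4.nroots (dig256 rfRF4_1) (sgnBit rfEF4_1)) r := by
  intro r hr
  have hr' : r < 48 := hr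
  exact rowsF_spec _ _ _ _ 0 rfRwF4_1_0 r (by omega) (by rw [rfPlF4_1_0]; omega) hr
theorem rfOKF4_1 : ReflOK chevF4 1 (dig256 rfRF4_1) (sgnBit rfEF4_1) :=
  ⟨rfF1F4_1, rfRowsF4_1, rfH2F4_1, rfH1F4_1, rfLkF4_1⟩

def rfRF4_2 : ℕ := 7261125723798567773061544950201179012210677350992756811983071709623601191490907863340615466535151168674041335710208
def rfEF4_2 : ℕ := 79753579630866
set_option maxHeartbeats 0 in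
theorem rfF1F4_2 : chkF1 chevF4 (dig256 rfRF4_2) (sgnBit rfEF4_2) = true := by decide +kernel
set_option maxHeartbeats 0 in
theorem rfH2F4_2 : chkH2 chevF4 (dig256 rfRF4_2) 2 = true := by decide +kernel
set_option maxHeartbeats 0 in
theorem rfH1F4_2 : chkH1 chevF4 (dig256 rfRF4_2) 2 = true := by decide +kernel
set_option maxHeartbeats 0 in
theorem rfLkF4_2 : chkLinkF chevF4 (dig256 rfRF4_2) (sgnBit rfEF4_2) 2 = true := by decide +kernel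
def rfPF4_2_0 : List (List ℕ) := [[1, 0, 2, 4, 3, 5, 7, 6, 8, 10, 9, 11, 13, 12], [0, 1, 2, 3, 4, 5, 6, 7, 8, 9, 10, 11, 12, 13], [0, 1, 2, 3, 4, 5, 6, 7, 8, 9, 10, 11, 12, 13], [0, 2, 1, 4, 3, 5, 6, 8, 7, 9, 10, 12, 11, 13, 14, 16, 15, 18, 17, 19], [0, 1, 2, 3, 4, 5, 6, 7, 8, 9, 10, 11, 12, 13], [0, 1, 2, 3, 4, 5, 6, 7, 8, 9, 10, 11, 12, 13], [1, 0, 2, 4, 3, 5, 7, 6, 8, 10, 9, 11, 13, 12], [0, 2, 1, 3, 5, 4, 6, 7, 9, 8, 11, 10, 12, 13, 15, 14, 16, 18, 17, 19], [0, 1, 2, 3, 4, 5, 6, 7, 8, 9, 10, 11, 12, 13, 14, 15, 16, 17, 18, 19], [0, 1, 2, 3, 4, 5, 6, 7, 8, 9, 10, 11, 12, 13, 14, 15, 16, 17, 18, 19], [1, 0, 2, 3, 4, 6, 5, 8, 7, 9, 10, 12, 11, 14, 13, 15, 16, 17, 19, 18], [0, 1, 3, 2, 4, 6, 5, 8, 7, 9, 10, 12, 11, 14, 13, 15, 17, 16, 18, 19], [0, 1, 2, 3, 4, 5, 6, 7, 8, 9, 10, 11, 12,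 13, 14, 15, 16, 17, 18, 19], [0, 1, 2, 3, 4, 5, 6, 7, 8, 9, 10, 11, 12, 13, 14, 15, 16, 17, 18, 19], [0, 2, 1, 3, 5, 4, 6, 7, 9, 8, 11, 10, 12, 13, 15, 14, 16, 18, 17, 19], [0, 1, 2, 3, 4, 5, 6, 7, 8, 9, 10, 11, 12, 13], [0, 1, 2, 3, 4, 5, 6, 7, 8, 9, 10, 11, 12, 13], [1, 0, 2, 3, 5, 4, 7, 6, 9, 8, 10, 11, 13, 12], [0, 1, 2, 4, 3, 5, 7, 6, 9, 8, 11, 10, 13, 12, 14, 16, 15, 17, 18, 19], [0, 1, 2, 3, 4, 5, 6, 7, 8, 9, 10, 11, 12, 13, 14, 15, 16, 17, 18, 19], [0, 1, 2, 3, 4, 5, 6, 7, 8, 9, 10, 11, 12, 13, 14, 15, 16, 17, 18, 19], [0, 1, 2, 3, 4, 5, 7, 6, 8, 9, 10, 11, 12, 13], [0, 1, 2, 3, 4, 5, 6, 7, 8, 9, 10, 11, 12, 13], [0, 1, 2, 3, 4, 5, 7, 6, 8, 9, 10, 11, 12, 13], [0, 1, 2, 3, 4, 5, 7, 6, 8, 9, 10, 11, 12, 13], [0, 1, 2, 3, 4, 5, 6, 7, 8, 9, 10, 11, 12, 13], [0, 1, 2, 3, 4, 5, 7, 6,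 8, 9, 10, 11, 12, 13], [0, 1, 2, 3, 4, 5, 6, 7, 8, 9, 10, 11, 12, 13, 14, 15, 16, 17, 18, 19], [0, 1, 2, 3, 4, 5, 6, 7, 8, 9, 10, 11, 12, 13, 14, 15, 16, 17, 18, 19], [0, 1, 2, 4, 3, 5, 7, 6, 9, 8, 11, 10, 13, 12, 14, 16, 15, 17, 18, 19], [1, 0, 2, 3, 5, 4, 7, 6, 9, 8, 10, 11, 13, 12], [0, 1, 2, 3, 4, 5, 6, 7, 8, 9, 10, 11, 12, 13], [0, 1, 2, 3, 4, 5, 6, 7, 8, 9, 10, 11, 12, 13], [0, 2, 1, 3, 5, 4, 6, 7, 9, 8, 11, 10, 12, 13, 15, 14, 16, 18, 17, 19], [0, 1, 2, 3, 4, 5, 6, 7, 8, 9, 10, 11, 12, 13, 14, 15, 16, 17, 18, 19], [0, 1, 2, 3, 4, 5, 6, 7, 8, 9, 10, 11, 12, 13, 14, 15, 16, 17, 18, 19], [0, 1, 3, 2, 4, 6, 5, 8, 7, 9, 10, 12, 11, 14, 13, 15, 17, 16, 18, 19], [1, 0, 2, 3, 4, 6, 5, 8, 7, 9, 10, 12, 11, 14, 13, 15, 16, 17, 19, 18], [0, 1, 2, 3, 4, 5, 6, 7, 8, 9, 10, 11, 12, 13, 14, 15,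 16, 17, 18, 19], [0, 1, 2, 3, 4, 5, 6, 7, 8, 9, 10, 11, 12, 13, 14, 15, 16, 17, 18, 19], [0, 2, 1, 3, 5, 4, 6, 7, 9, 8, 11, 10, 12, 13, 15, 14, 16, 18, 17, 19], [1, 0, 2, 4, 3, 5, 7, 6, 8, 10, 9, 11, 13, 12], [0, 1, 2, 3, 4, 5, 6, 7, 8, 9, 10, 11, 12, 13], [0, 1, 2, 3, 4, 5, 6, 7, 8, 9, 10, 11, 12, 13], [0, 2, 1, 4, 3, 5, 6, 8, 7, 9, 10, 12, 11, 13, 14, 16, 15, 18, 17, 19], [0, 1, 2, 3, 4, 5, 6, 7, 8, 9, 10, 11, 12, 13], [0, 1, 2, 3, 4, 5, 6, 7, 8, 9, 10, 11, 12, 13], [1, 0, 2, 4, 3, 5, 7, 6, 8, 10, 9, 11, 13, 12]]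
theorem rfPlF4_2_0 : rfPF4_2_0.length = 48 := by decide +kernel
set_option maxHeartbeats 0 in
theorem rfRwF4_2_0 : rowsF chevF4 (dig256 rfRF4_2) (sgnBit rfEF4_2) 0 rfPF4_2_0 = true := by decide +kernel
theorem rfRowsF4_2 : ∀ r < chevF4.nroots, RowOK chevF4 (fnG chevF4.nroots (dig256 rfRF4_2) (sgnBit rfEF4_2)) r := by
  intro r hr
  have hr' : r < 48 := hr
  exact rowsF_spec _ _ _ _ 0 rfRwF4_2_0 r (by omega) (by rw [rfPlF4_2_0]; omega) hr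
theorem rfOKF4_2 : ReflOK chevF4 2 (dig256 rfRF4_2) (sgnBit rfEF4_2) :=
  ⟨rfF1F4_2, rfRowsF4_2, rfH2F4_2, rfH1F4_2, rfLkF4_2⟩

def rfRF4_3 : ℕ := 7108411742389255762021063953019659246634323563397623500971045033854480450961950488139841120255260502304031118589953
def rfEF4_3 : ℕ := 145481911306785
set_option maxHeartbeats 0 in
theorem rfF1F4_3 : chkF1 chevF4 (dig256 rfRF4_3) (sgnBit rfEF4_3) = true := by decide +kernel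
set_option maxHeartbeats 0 in
theorem rfH2F4_3 : chkH2 chevF4 (dig256 rfRF4_3) 3 = true := by decide +kernel
set_option maxHeartbeats 0 in
theorem rfH1F4_3 : chkH1 chevF4 (dig256 rfRF4_3) 3 = true := by decide +kernel
set_option maxHeartbeats 0 in
theorem rfLkF4_3 : chkLinkF chevF4 (dig256 rfRF4_3) (sgnBit rfEF4_3) 3 = true := by decide +kernel
def rfPF4_3_0 : List (List ℕ) := [[0, 1, 2, 3, 4, 5, 6, 7, 8, 9, 10, 11, 12, 13], [0, 1, 2, 3, 4, 5, 6, 7, 8, 9, 10, 11, 12, 13], [1, 0, 2, 4, 3, 5, 7, 6, 8, 10, 9, 11, 13, 12], [1, 0, 2, 3, 5, 4, 6, 7, 9, 8, 11, 10, 12, 13, 15, 14, 16, 17, 19, 18], [1, 0, 2, 4, 3, 5, 7, 6, 8, 10, 9, 11, 13, 12], [0, 1, 2, 3, 4, 5, 6, 7, 8, 9, 10, 11, 12, 13], [0, 1, 2, 3, 4, 5, 6, 7, 8, 9, 10, 11, 12, 13], [1, 0, 2, 3, 4, 6, 5, 8, 7, 9, 10, 12, 11, 14, 13, 15, 16,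 17, 19, 18], [1, 0, 2, 3, 4, 6, 5, 8, 7, 9, 10, 12, 11, 14, 13, 15, 16, 17, 19, 18], [0, 1, 2, 3, 4, 5, 6, 7, 8, 9, 10, 11, 12, 13, 14, 15, 16, 17, 18, 19], [0, 1, 2, 3, 4, 5, 6, 7, 8, 9, 10, 11, 12, 13, 14, 15, 16, 17, 18, 19], [0, 1, 2, 3, 4, 5, 6, 7, 8, 9, 10, 11, 12, 13, 14, 15, 16, 17, 18, 19], [0, 1, 2, 3, 4, 5, 6, 7, 8, 9, 10, 11, 12, 13, 14, 15, 16, 17, 18, 19], [0, 1, 3, 2, 4, 6, 5, 8, 7, 9, 10, 12, 11, 14, 13, 15, 17, 16, 18, 19], [0, 1, 3, 2, 4, 6, 5, 8, 7, 9, 10, 12, 11, 14, 13, 15, 17, 16, 18, 19], [1, 0, 2, 3, 5, 4, 7, 6, 9, 8, 10, 11, 13, 12], [0, 1, 2, 3, 4, 5, 6, 7, 8, 9, 10, 11, 12, 13], [0, 1, 2, 3, 4, 5, 6, 7, 8, 9, 10, 11, 12, 13], [0, 1, 2, 3, 4, 5, 6, 7, 8, 9, 10, 11, 12, 13, 14, 15, 16, 17, 18, 19], [0, 1, 2, 3, 4, 5, 6, 7, 8, 9, 10, 11, 12, 13, 14, 15, 16, 17, 18,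 19], [0, 1, 2, 4, 3, 5, 7, 6, 9, 8, 11, 10, 13, 12, 14, 16, 15, 17, 18, 19], [0, 1, 2, 3, 4, 5, 6, 7, 8, 9, 10, 11, 12, 13], [0, 1, 2, 3, 4, 5, 6, 7, 8, 9, 10, 11, 12, 13], [0, 1, 2, 3, 4, 5, 6, 7, 8, 9, 10, 11, 12, 13], [0, 1, 2, 3, 4, 5, 6, 7, 8, 9, 10, 11, 12, 13], [0, 1, 2, 3, 4, 5, 6, 7, 8, 9, 10, 11, 12, 13], [0, 1, 2, 3, 4, 5, 6, 7, 8, 9, 10, 11, 12, 13], [0, 1, 2, 4, 3, 5, 7, 6, 9, 8, 11, 10, 13, 12, 14, 16, 15, 17, 18, 19], [0, 1, 2, 3, 4, 5, 6, 7, 8, 9, 10, 11, 12, 13, 14, 15, 16, 17, 18, 19], [0, 1, 2, 3, 4, 5, 6, 7, 8, 9, 10, 11, 12, 13, 14, 15, 16, 17, 18, 19], [0, 1, 2, 3, 4, 5, 6, 7, 8, 9, 10, 11, 12, 13], [0, 1, 2, 3, 4, 5, 6, 7, 8, 9, 10, 11, 12, 13], [1, 0, 2, 3, 5, 4, 7, 6, 9, 8, 10, 11, 13, 12], [0, 1, 3, 2, 4, 6, 5, 8, 7, 9, 10, 12, 11, 14, 13, 15, 17, 16, 18, 19],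 [0, 1, 3, 2, 4, 6, 5, 8, 7, 9, 10, 12, 11, 14, 13, 15, 17, 16, 18, 19], [0, 1, 2, 3, 4, 5, 6, 7, 8, 9, 10, 11, 12, 13, 14, 15, 16, 17, 18, 19], [0, 1, 2, 3, 4, 5, 6, 7, 8, 9, 10, 11, 12, 13, 14, 15, 16, 17, 18, 19], [0, 1, 2, 3, 4, 5, 6, 7, 8, 9, 10, 11, 12, 13, 14, 15, 16, 17, 18, 19], [0, 1, 2, 3, 4, 5, 6, 7, 8, 9, 10, 11, 12, 13, 14, 15, 16, 17, 18, 19], [1, 0, 2, 3, 4, 6, 5, 8, 7, 9, 10, 12, 11, 14, 13, 15, 16, 17, 19, 18], [1, 0, 2, 3, 4, 6, 5, 8, 7, 9, 10, 12, 11, 14, 13, 15, 16, 17, 19, 18], [0, 1, 2, 3, 4, 5, 6, 7, 8, 9, 10, 11, 12, 13], [0, 1, 2, 3, 4, 5, 6, 7, 8, 9, 10, 11, 12, 13], [1, 0, 2, 4, 3, 5, 7, 6, 8, 10, 9, 11, 13, 12], [1, 0, 2, 3, 5, 4, 6, 7, 9, 8, 11, 10, 12, 13, 15, 14, 16, 17, 19, 18], [1, 0, 2, 4, 3, 5, 7, 6, 8, 10, 9, 11, 13, 12], [0, 1, 2, 3, 4, 5, 6, 7, 8, 9,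 10, 11, 12, 13], [0, 1, 2, 3, 4, 5, 6, 7, 8, 9, 10, 11, 12, 13]]
theorem rfPlF4_3_0 : rfPF4_3_0.length = 48 := by decide +kernel
set_option maxHeartbeats 0 in
theorem rfRwF4_3_0 : rowsF chevF4 (dig256 rfRF4_3) (sgnBit rfEF4_3) 0 rfPF4_3_0 = true := by decide +kernel
theorem rfRowsF4_3 : ∀ r < chevF4.nroots, RowOK chevF4 (fnG chevF4.nroots (dig256 rfRF4_3) (sgnBit rfEF4_3)) r := by
  intro r hr
  have hr' : r < 48 := hr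
  exact rowsF_spec _ _ _ _ 0 rfRwF4_3_0 r (by omega) (by rw [rfPlF4_3_0]; omega) hr
theorem rfOKF4_3 : ReflOK chevF4 3 (dig256 rfRF4_3) (sgnBit rfEF4_3) :=
  ⟨rfF1F4_3, rfRowsF4_3, rfH2F4_3, rfH1F4_3, rfLkF4_3⟩

theorem rfAllF4 : ∀ i < chevF4.rank, ∃ (ρf : ℕ → ℕ) (εf : ℕ → ℤ), ReflOK chevF4 i ρf εf := by
  intro i hi
  have hi' : i < 4 := hi
  interval_cases i
  · exact ⟨_, _, rfOKF4_0⟩
  · exact ⟨_, _, rfOKF4_1⟩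
  · exact ⟨_, _, rfOKF4_2⟩
  · exact ⟨_, _, rfOKF4_3⟩

end Cfsg.Agent.Lib.Helper3
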