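import Mathlib
import Cfsg.Agent.Lib.Helper3.ChevOKAll
import Cfsg.Agent.Lib.Helper3.ChevReflChk

set_option autoImplicit false

namespace Cfsg.Agent.Lib.Helper3

open Cfsg.Lie

section refl

variable {F : Type*} [Field F] (D : ChevalleyDatum)

theorem hMat_one_all (hD : D ∈ [chevG2, chevB2, chevD4, chevF4, chevE6, chevE7, chevE8]) (r : ℕ)
    (hr : r < D.nroots) : D.hMat F r 1 = 1 := by
  rw [hMat_eq_diag_all D hD r hr 1 one_ne_zero, ← Matrix.diagonal_one]
  congr 1
  funext k
  rcases k with k | s <;> simp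

/-- `n_{p_i} h_{p_j}(t) = h_{w_{p_i}(p_j)}(t) n_{p_i}` for fundamental roots -/
theorem n_mul_h_simple_all (hD : D ∈ [chevG2, chevB2, chevD4, chevF4, chevE6, chevE7, chevE8])
    (i j : ℕ) (hi : i < D.rank) (hj : j < D.rank) (t : F) (ht : t ≠ 0) :
    D.nMat F (D.simple i) 1 * D.hMat F (D.simple j) t =
      D.hMat F (D.reflectRoot i (D.simple j)) t * D.nMat F (D.simple i) 1 := by
  have ok := chevOK_all D hD
  obtain ⟨hw, hpw⟩ := chkRefl_spec D (chkRefl_all D hD) i j hi hj
  obtain ⟨hp, hpp⟩ := chkSimple_spec D (chkSimple_all D hD) i hi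
  obtain ⟨hq, hpq⟩ := chkSimple_spec D (chkSimple_all D hD) j hj
  have hA : t ^ (D.cartan j (D.simple i)) ≠ 0 := zpow_ne_zero _ ht
  have h1 : D.hMat F (D.simple j) t * D.nMat F (D.simple i) 1 =
      D.nMat F (D.simple i) (t ^ (D.cartan j (D.simple i))) * D.hMat F (D.simple j) t := by
    rw [hMat_eq_charDiag D ok (D.simple j) hq t ht,
      charDiag_mul_nMat D ok _ (hChar_isRootCharacter D ok.ca ok.ng (D.simple j) t ht)
        (D.simple i) hp 1]
    have e : ((hChar D (D.simple j) t ht (D.simple i) : Fˣ) : F) * 1 =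
        t ^ (D.cartan j (D.simple i)) := by
      rw [mul_one]
      show t ^ D.pairing (D.simple j) (D.simple i) = t ^ (D.cartan j (D.simple i))
      rw [hpq (D.simple i) hp]
    rw [e]
  have h2 : D.nMat F (D.simple i) (t ^ (D.cartan j (D.simple i))) =
      D.hMat F (D.simple i) (t ^ (D.cartan j (D.simple i))) * D.nMat F (D.simple i) 1 :=
    nMat_eq_hMat_mul D ok.add (D.simple i) _
  have h3 : D.hMat F (D.reflectRoot i (D.simple j)) t =
      D.hMat F (D.simple i) ((t ^ (D.cartan j (D.simple i)))⁻¹) * D.hMat F (D.simple j) t := by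
    rw [hMat_eq_diag_all D hD _ hw t ht, hMat_simple_all D hD i hi _ (inv_ne_zero hA),
      hMat_simple_all D hD j hj t ht, Matrix.diagonal_mul_diagonal]
    congr 1
    funext k
    rcases k with k | s
    · simp
    · simp only [Sum.elim_inr]
      rw [hpw s.val s.isLt, zpow_sub₀ ht, zpow_mul, inv_zpow, div_eq_inv_mul]
  have h4 : D.hMat F (D.simple i) ((t ^ (D.cartan j (D.simple i)))⁻¹) *
      D.hMat F (D.simple i) (t ^ (D.cartan j (D.simple i))) = 1 := by
    rw [hMat_mul_all D hD (D.simple i) hp _ _ (inv_ne_zero hA) hA, inv_mul_cancel₀ hA,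
      hMat_one_all D hD (D.simple i) hp]
  calc D.nMat F (D.simple i) 1 * D.hMat F (D.simple j) t
      = (D.hMat F (D.simple i) ((t ^ (D.cartan j (D.simple i)))⁻¹) *
          D.hMat F (D.simple i) (t ^ (D.cartan j (D.simple i)))) *
          (D.nMat F (D.simple i) 1 * D.hMat F (D.simple j) t) := by rw [h4, one_mul]
    _ = D.hMat F (D.simple i) ((t ^ (D.cartan j (D.simple i)))⁻¹) *
          (D.hMat F (D.simple i) (t ^ (D.cartan j (D.simple i))) * D.nMat F (D.simple i) 1 *
            D.hMat F (D.simple j) t) := by simp only [mul_assoc]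
    _ = D.hMat F (D.simple i) ((t ^ (D.cartan j (D.simple i)))⁻¹) *
          (D.hMat F (D.simple j) t * D.nMat F (D.simple i) 1) := by rw [← h2, ← h1]
    _ = D.hMat F (D.reflectRoot i (D.simple j)) t * D.nMat F (D.simple i) 1 := by
        rw [h3, mul_assoc]

end refl

end Cfsg.Agent.Lib.Helper3
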