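import Mathlib
import Cfsg.Agent.Lib.Helper3.ChevOKAll

set_option autoImplicit false

namespace Cfsg.Agent.Lib.Helper3

open Cfsg.Lie

section simp

variable {F : Type*} [Field F] (D : ChevalleyDatum)

/-- the character of the root lattice taking the values `c i` on the fundamental coroots -/
def simpChar (c : ℕ → Fˣ) (L : List ℕ) : ℕ → Fˣ :=
  fun s => (L.map fun i => c i ^ D.cartan i s).prod

theorem simpChar_one (L : List ℕ) : simpChar D (fun _ => (1 : Fˣ)) L = fun _ => 1 := by
  funext s
  unfold simpChar
  induction L with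
  | nil => simp
  | cons i L ih => simp

theorem simpChar_mul (c d : ℕ → Fˣ) (L : List ℕ) :
    (fun s => simpChar D c L s * simpChar D d L s) = simpChar D (fun i => c i * d i) L := by
  funext s
  unfold simpChar
  induction L with
  | nil => simp
  | cons i L ih =>
    simp only [List.map_cons, List.prod_cons]
    rw [← ih, mul_zpow, mul_mul_mul_comm]

theorem simpChar_inv (c : ℕ → Fˣ) (L : List ℕ) :
    (fun s => (simpChar D c L s)⁻¹) = simpChar D (fun i => (c i)⁻¹) L := by
  funext s
  unfold simpChar
  induction L with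
  | nil => simp
  | cons i L ih =>
    simp only [List.map_cons, List.prod_cons]
    rw [← ih, mul_inv, inv_zpow]

theorem simpChar_zpow (u : Fˣ) (a : ℕ → ℤ) (L : List ℕ) (s : ℕ) :
    simpChar D (fun i => u ^ a i) L s = u ^ (L.map fun i => a i * D.cartan i s).sum := by
  unfold simpChar
  induction L with
  | nil => simp
  | cons i L ih =>
    simp only [List.map_cons, List.prod_cons, List.sum_cons]
    rw [ih, zpow_add, zpow_mul]

theorem wordMat_nil : D.wordMat F [] = 1 := by
  unfold ChevalleyDatum.wordMat
  simp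

/-- a product of `h_{p_i}(c_i)` over fundamental roots is the diagonal matrix of `simpChar` -/
theorem wordMat_simple (hD : D ∈ [chevG2, chevB2, chevD4, chevF4, chevE6, chevE7, chevE8])
    (c : ℕ → Fˣ) (L : List ℕ) (hL : ∀ i ∈ L, i < D.rank) :
    D.wordMat F (L.flatMap fun i => D.hWord (D.simple i) (c i : F)) =
      D.charDiag F (simpChar D c L) := by
  induction L with
  | nil =>
    rw [List.flatMap_nil, wordMat_nil]
    exact (charDiag_one D).symm
  | cons i L ih =>
    rw [List.flatMap_cons, wordMat_append, ih (fun j hj => hL j (List.mem_cons_of_mem _ hj))]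
    have h1 : D.wordMat F (D.hWord (D.simple i) (c i : F)) = D.hMat F (D.simple i) (c i : F) := rfl
    rw [h1, hMat_simple_all D hD i (hL i List.mem_cons_self) (c i : F) (Units.ne_zero _)]
    have h2 : Matrix.diagonal (Sum.elim (fun _ => (1 : F))
        (fun s : Fin D.nroots => (c i : F) ^ (D.cartan i s))) =
        D.charDiag F (fun s => c i ^ D.cartan i s) := by
      unfold ChevalleyDatum.charDiag
      congr 1
      funext j
      rcases j with k | s
      · rfl
      · simp only [Sum.elim_inr]
        rw [Units.val_zpow_eq_zpow_val]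
    rw [h2, charDiag_mul]
    rfl

/-- every element of `H` is the diagonal matrix of some `simpChar` -/
theorem diagonal_eq_simpChar (hD : D ∈ [chevG2, chevB2, chevD4, chevF4, chevE6, chevE7, chevE8])
    (g : GL D.Idx F) (hg : g ∈ D.diagonalSubgroup F) :
    ∃ c : ℕ → Fˣ, (g : Matrix D.Idx D.Idx F) = D.charDiag F (simpChar D c (List.range D.rank)) := by
  unfold ChevalleyDatum.diagonalSubgroup at hg
  induction hg using Subgroup.closure_induction with
  | mem x hx =>
    obtain ⟨r, t, hr, ht, hx⟩ := hx
    refine ⟨fun i => Units.mk0 t ht ^ ((D.coroot.getD r #[]).getD i 0), ?_⟩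
    rw [hx, hMat_eq_diag_all D hD r hr t ht]
    unfold ChevalleyDatum.charDiag
    congr 1
    funext j
    rcases j with k | s
    · rfl
    · simp only [Sum.elim_inr]
      rw [simpChar_zpow, Units.val_zpow_eq_zpow_val]
      rfl
  | one => exact ⟨fun _ => 1, by rw [Units.val_one, simpChar_one, charDiag_one]⟩
  | mul x y _ _ hx hy =>
    obtain ⟨c, hc⟩ := hx
    obtain ⟨d, hd⟩ := hy
    exact ⟨fun i => c i * d i, by rw [Units.val_mul, hc, hd, charDiag_mul, simpChar_mul]⟩
  | inv x _ hx =>
    obtain ⟨c, hc⟩ := hx
    exact ⟨fun i => (c i)⁻¹, by rw [coe_inv_of_charDiag D x _ hc, simpChar_inv]⟩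

/-- every element of `H` is a product of the `h_{p_i}(c_i)` over the fundamental roots -/
theorem diagonal_mem_simple_all (hD : D ∈ [chevG2, chevB2, chevD4, chevF4, chevE6, chevE7, chevE8])
    (g : GL D.Idx F) (hg : g ∈ D.diagonalSubgroup F) :
    ∃ c : ℕ → F, (∀ i < D.rank, c i ≠ 0) ∧
      (g : Matrix D.Idx D.Idx F) =
        D.wordMat F ((List.range D.rank).flatMap fun i => D.hWord (D.simple i) (c i)) := by
  obtain ⟨u, hu⟩ := diagonal_eq_simpChar D hD g hg
  refine ⟨fun i => (u i : F), fun i _ => Units.ne_zero _, ?_⟩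
  rw [hu, wordMat_simple D hD u (List.range D.rank) (fun i hi => List.mem_range.mp hi)]

end simp

end Cfsg.Agent.Lib.Helper3
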