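import Mathlib
import Cfsg.Agent.Lib.Helper3.ChevSimp

set_option autoImplicit false

namespace Cfsg.Agent.Lib.Helper3

open Cfsg.Lie

section powhom

variable {G : Type*} [CommGroup G] {n : ℕ}

/-- the endomorphism of `G^n` attached to an integer matrix -/
def powHom (M : Matrix (Fin n) (Fin n) ℤ) (c : Fin n → G) : Fin n → G :=
  fun j => ∏ i, c i ^ M i j

theorem zpow_fsum (g : G) (f : Fin n → ℤ) (s : Finset (Fin n)) :
    g ^ (∑ j ∈ s, f j) = ∏ j ∈ s, g ^ f j := by
  classical
  induction s using Finset.induction_on with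
  | empty => simp
  | insert a s ha ih => rw [Finset.sum_insert ha, Finset.prod_insert ha, zpow_add, ih]

theorem prod_zpow_sum (c : Fin n → G) (A : Fin n → Fin n → ℤ) (m : Fin n → ℤ) :
    ∏ i, c i ^ (∑ j, A i j * m j) = ∏ j, (∏ i, c i ^ A i j) ^ m j := by
  calc ∏ i, c i ^ (∑ j, A i j * m j) = ∏ i, ∏ j, (c i ^ A i j) ^ m j := by
        refine Finset.prod_congr rfl fun i _ => ?_
        rw [zpow_fsum]
        refine Finset.prod_congr rfl fun j _ => ?_
        rw [zpow_mul]
    _ = ∏ j, ∏ i, (c i ^ A i j) ^ m j := Finset.prod_comm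
    _ = ∏ j, (∏ i, c i ^ A i j) ^ m j := by
        refine Finset.prod_congr rfl fun j _ => ?_
        rw [Finset.prod_zpow]

theorem powHom_mul (M N : Matrix (Fin n) (Fin n) ℤ) (c : Fin n → G) :
    powHom (M * N) c = powHom N (powHom M c) := by
  funext k
  unfold powHom
  have h : ∀ i, (M * N) i k = ∑ j, M i j * N j k := fun i => Matrix.mul_apply
  simp only [h]
  exact prod_zpow_sum c M (fun j => N j k)

theorem powHom_one (c : Fin n → G) : powHom (1 : Matrix (Fin n) (Fin n) ℤ) c = c := by
  funext j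
  unfold powHom
  rw [Finset.prod_eq_single j]
  · rw [Matrix.one_apply_eq, zpow_one]
  · intro i _ hij
    rw [Matrix.one_apply_ne hij, zpow_zero]
  · intro h
    exact absurd (Finset.mem_univ j) h

theorem powHom_const_one (M : Matrix (Fin n) (Fin n) ℤ) :
    powHom M (1 : Fin n → G) = 1 := by
  funext j
  unfold powHom
  simp

theorem powHom_diag (d : Fin n → ℕ) (c : Fin n → G) :
    powHom (Matrix.diagonal fun j => (d j : ℤ)) c = fun j => c j ^ d j := by
  funext j
  unfold powHom
  rw [Finset.prod_eq_single j]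
  · rw [Matrix.diagonal_apply_eq, zpow_natCast]
  · intro i _ hij
    rw [Matrix.diagonal_apply_ne _ hij, zpow_zero]
  · intro h
    exact absurd (Finset.mem_univ j) h

/-- with Smith data `C = P' Δ Q'`, the kernel of `powHom C` is described by `Δ` -/
theorem powHom_eq_one_iff (C P' Q Q' : Matrix (Fin n) (Fin n) ℤ) (d : Fin n → ℕ)
    (hQ'Q : Q' * Q = 1) (hC : C = P' * Matrix.diagonal (fun j => (d j : ℤ)) * Q')
    (c : Fin n → G) :
    powHom C c = 1 ↔ ∀ j, (powHom P' c) j ^ d j = 1 := by
  rw [hC, powHom_mul, powHom_mul, powHom_diag]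
  constructor
  · intro h j
    have h2 := congrArg (powHom Q) h
    rw [← powHom_mul, hQ'Q, powHom_one, powHom_const_one] at h2
    exact congrFun h2 j
  · intro h
    have h2 : (fun j => powHom P' c j ^ d j) = 1 := funext h
    rw [h2, powHom_const_one]

theorem card_powHom_ker (C P P' Q Q' : Matrix (Fin n) (Fin n) ℤ) (d : Fin n → ℕ)
    (hPP' : P * P' = 1) (hP'P : P' * P = 1)
    (hQ'Q : Q' * Q = 1) (hC : C = P' * Matrix.diagonal (fun j => (d j : ℤ)) * Q') :
    Nat.card {c : Fin n → G // powHom C c = 1} = ∏ j, Nat.card {x : G // x ^ d j = 1} := by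
  let e : (Fin n → G) ≃ (Fin n → G) :=
    ⟨powHom P', powHom P, fun c => by rw [← powHom_mul, hP'P, powHom_one],
      fun c => by rw [← powHom_mul, hPP', powHom_one]⟩
  have e1 : {c : Fin n → G // powHom C c = 1} ≃ {c : Fin n → G // ∀ j, c j ^ d j = 1} :=
    Equiv.subtypeEquiv e (fun c => powHom_eq_one_iff C P' Q Q' d hQ'Q hC c)
  have e2 : {c : Fin n → G // ∀ j, c j ^ d j = 1} ≃ ∀ j, {x : G // x ^ d j = 1} :=
    Equiv.subtypePiEquivPi (β := fun _ => G) (p := fun j x => x ^ d j = 1)
  rw [Nat.card_congr (e1.trans e2), Nat.card_pi]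

/-- in the unimodular case the kernel is trivial -/
theorem powHom_eq_one_unimodular (C P P' Q Q' : Matrix (Fin n) (Fin n) ℤ) (d : Fin n → ℕ)
    (hP'P : P' * P = 1)
    (hQ'Q : Q' * Q = 1) (hC : C = P' * Matrix.diagonal (fun j => (d j : ℤ)) * Q')
    (hd : ∀ j, d j = 1) (c : Fin n → G) (hc : powHom C c = 1) : c = 1 := by
  have h := (powHom_eq_one_iff C P' Q Q' d hQ'Q hC c).mp hc
  have h2 : powHom P' c = (1 : Fin n → G) := by
    funext j
    have := h j
    rw [hd j, pow_one] at this
    exact this
  have h3 := congrArg (powHom P) h2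
  rw [← powHom_mul, hP'P, powHom_one, powHom_const_one] at h3
  exact h3

end powhom

section torus

variable {F : Type*} [Field F] (D : ChevalleyDatum)

/-- extension of a tuple of units by `1` -/
def extC {n : ℕ} (c : Fin n → Fˣ) : ℕ → Fˣ := fun i => if h : i < n then c ⟨i, h⟩ else 1

theorem extC_one {n : ℕ} : extC (1 : Fin n → Fˣ) = fun _ => 1 := by
  funext i
  unfold extC
  split_ifs <;> rfl

theorem extC_mul {n : ℕ} (c d : Fin n → Fˣ) : extC (c * d) = fun i => extC c i * extC d i := by
  funext i
  unfold extC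
  split_ifs
  · rfl
  · simp

theorem simpChar_congr (c c' : ℕ → Fˣ) (L : List ℕ) (h : ∀ i ∈ L, c i = c' i) :
    simpChar D c L = simpChar D c' L := by
  funext s
  unfold simpChar
  congr 1
  apply List.map_congr_left
  intro i hi
  rw [h i hi]

theorem simpChar_ext {n : ℕ} (c : Fin n → Fˣ) (s : ℕ) :
    simpChar D (extC c) (List.range n) s = ∏ i : Fin n, c i ^ D.cartan i s := by
  unfold simpChar
  rw [← List.prod_ofFn]
  congr 1
  apply List.ext_getElem
  · simp
  · intro i h1 h2
    have hi : i < n := by simpa using h2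
    simp [extC, hi]

/-- the parametrisation of the diagonal subgroup by `(Fˣ)^n` -/
noncomputable def torusHom (n : ℕ) : (Fin n → Fˣ) →* GL D.Idx F where
  toFun c := ⟨D.charDiag F (simpChar D (extC c) (List.range n)),
    D.charDiag F (fun s => (simpChar D (extC c) (List.range n) s)⁻¹),
    charDiag_mul_inv D _, charDiag_inv_mul D _⟩
  map_one' := by
    apply Units.ext
    show D.charDiag F (simpChar D (extC 1) (List.range n)) = 1
    rw [extC_one, simpChar_one, charDiag_one]
  map_mul' c d := by
    apply Units.ext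
    show D.charDiag F (simpChar D (extC (c * d)) (List.range n)) =
      D.charDiag F (simpChar D (extC c) (List.range n)) *
        D.charDiag F (simpChar D (extC d) (List.range n))
    rw [charDiag_mul, simpChar_mul, extC_mul]

theorem torusHom_val (n : ℕ) (c : Fin n → Fˣ) :
    ((torusHom D n c : GL D.Idx F) : Matrix D.Idx D.Idx F) =
      D.charDiag F (simpChar D (extC c) (List.range n)) := rfl

theorem torusHom_range (hD : D ∈ [chevG2, chevB2, chevD4, chevF4, chevE6, chevE7, chevE8])
    (n : ℕ) (hn : D.rank = n) :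
    (torusHom (F := F) D n).range = D.diagonalSubgroup F := by
  apply le_antisymm
  · rintro g ⟨c, rfl⟩
    have hall : ∀ c : Fin n → Fˣ, c ∈ (D.diagonalSubgroup F).comap (torusHom (F := F) D n) := by
      intro c
      rw [← Finset.univ_prod_mulSingle c]
      apply Subgroup.prod_mem
      intro i _
      rw [Subgroup.mem_comap]
      have hi : (i : ℕ) < D.rank := by rw [hn]; exact i.isLt
      obtain ⟨hlt, -⟩ := chkSimple_spec D (chkSimple_all D hD) i hi
      apply Subgroup.subset_closure
      refine ⟨D.simple i, ((c i : Fˣ) : F), hlt, Units.ne_zero _, ?_⟩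
      rw [torusHom_val, hMat_simple_all D hD i hi _ (Units.ne_zero _)]
      unfold ChevalleyDatum.charDiag
      congr 1
      funext j
      rcases j with k | s
      · rfl
      · simp only [Sum.elim_inr]
        rw [simpChar_ext, Finset.prod_eq_single i]
        · rw [Pi.mulSingle_eq_same, Units.val_zpow_eq_zpow_val]
        · intro i' _ hne
          rw [Pi.mulSingle_eq_of_ne hne, one_zpow]
        · intro h
          exact absurd (Finset.mem_univ i) h
    exact hall c
  · intro g hg
    obtain ⟨c', hc'⟩ := diagonal_eq_simpChar D hD g hg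
    refine ⟨fun i => c' i, ?_⟩
    apply Units.ext
    rw [torusHom_val, hc', hn]
    congr 1
    apply simpChar_congr
    intro i hi
    have hi' : i < n := List.mem_range.mp hi
    simp [extC, hi']

theorem torusHom_ker_iff (n : ℕ) (c : Fin n → Fˣ) :
    c ∈ (torusHom (F := F) D n).ker ↔ ∀ s : Fin D.nroots, ∏ i : Fin n, c i ^ D.cartan i s = 1 := by
  rw [MonoidHom.mem_ker]
  constructor
  · intro h s
    have h1 := congrArg (fun g : GL D.Idx F => (g : Matrix D.Idx D.Idx F)) h
    simp only [torusHom_val, Units.val_one] at h1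
    unfold ChevalleyDatum.charDiag at h1
    rw [Matrix.diagonal_eq_one] at h1
    have h2 := congrFun h1 (Sum.inr s)
    simp only [Sum.elim_inr, Pi.one_apply] at h2
    rw [simpChar_ext] at h2
    exact Units.ext h2
  · intro h
    apply Units.ext
    rw [torusHom_val, Units.val_one]
    unfold ChevalleyDatum.charDiag
    rw [Matrix.diagonal_eq_one]
    funext j
    rcases j with k | s
    · rfl
    · simp only [Sum.elim_inr, Pi.one_apply]
      rw [simpChar_ext, h s]
      rfl

/-- the kernel of the parametrisation is the kernel of the Cartan matrix -/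
theorem torusHom_ker_iff' (hD : D ∈ [chevG2, chevB2, chevD4, chevF4, chevE6, chevE7, chevE8])
    (n : ℕ) (hn : D.rank = n) (C P P' Q Q' : Matrix (Fin n) (Fin n) ℤ) (d : Fin n → ℕ)
    (hCart : ∀ i j : Fin n, D.cartan i (D.simple j) = C i j)
    (hP'P : P' * P = 1)
    (hQ'Q : Q' * Q = 1) (hC : C = P' * Matrix.diagonal (fun j => (d j : ℤ)) * Q')
    (hspan : (∀ j, d j = 1) ∨
      ∀ s < D.nroots, ∃ m : Fin n → ℤ, ∀ i : Fin n, D.cartan i s = ∑ j, C i j * m j)
    (c : Fin n → Fˣ) :
    c ∈ (torusHom (F := F) D n).ker ↔ powHom C c = 1 := by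
  constructor
  · intro h
    rw [torusHom_ker_iff] at h
    funext j
    have hj : (j : ℕ) < D.rank := by rw [hn]; exact j.isLt
    obtain ⟨hlt, -⟩ := chkSimple_spec D (chkSimple_all D hD) j hj
    have h1 := h ⟨D.simple j, hlt⟩
    unfold powHom
    rw [Pi.one_apply, ← h1]
    refine Finset.prod_congr rfl fun i _ => ?_
    rw [← hCart i j]
  · intro h
    rcases hspan with hd | hspan
    · rw [powHom_eq_one_unimodular C P P' Q Q' d hP'P hQ'Q hC hd c h]
      exact Subgroup.one_mem _
    · rw [torusHom_ker_iff]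
      intro s
      obtain ⟨m, hm⟩ := hspan s s.isLt
      have h1 : ∀ i : Fin n, c i ^ D.cartan i s = c i ^ (∑ j, C i j * m j) := by
        intro i
        rw [hm i]
      simp only [h1]
      rw [prod_zpow_sum c C m]
      apply Finset.prod_eq_one
      intro j _
      have h2 := congrFun h j
      unfold powHom at h2
      rw [h2, Pi.one_apply, one_zpow]

theorem card_pow_eq_one_units [Fintype F] {q : ℕ} (hq : Fintype.card F = q) (d : ℕ) :
    Nat.card {x : Fˣ // x ^ d = 1} = Nat.gcd (q - 1) d := by
  have h1 := IsCyclic.card_powMonoidHom_ker (G := Fˣ) d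
  rw [Nat.card_units, Nat.card_eq_fintype_card (α := F), hq] at h1
  rw [← h1]
  exact Nat.card_congr (Equiv.subtypeEquivRight fun x => by
    rw [MonoidHom.mem_ker, powMonoidHom_apply])

/-- the order of the diagonal subgroup from Smith data of the Cartan matrix -/
theorem card_diagonal_of_smith [Fintype F] {q : ℕ} (hq : Fintype.card F = q)
    (hD : D ∈ [chevG2, chevB2, chevD4, chevF4, chevE6, chevE7, chevE8])
    (n : ℕ) (hn : D.rank = n) (C P P' Q Q' : Matrix (Fin n) (Fin n) ℤ) (d : Fin n → ℕ)
    (hCart : ∀ i j : Fin n, D.cartan i (D.simple j) = C i j)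
    (hPP' : P * P' = 1) (hP'P : P' * P = 1)
    (hQ'Q : Q' * Q = 1) (hC : C = P' * Matrix.diagonal (fun j => (d j : ℤ)) * Q')
    (hspan : (∀ j, d j = 1) ∨
      ∀ s < D.nroots, ∃ m : Fin n → ℤ, ∀ i : Fin n, D.cartan i s = ∑ j, C i j * m j) :
    (∏ j, Nat.gcd (q - 1) (d j)) * Nat.card (D.diagonalSubgroup F) = (q - 1) ^ n := by
  have hker : Nat.card (torusHom (F := F) D n).ker = ∏ j, Nat.gcd (q - 1) (d j) := by
    have e : (torusHom (F := F) D n).ker ≃ {c : Fin n → Fˣ // powHom C c = 1} :=
      Equiv.subtypeEquivRight fun c =>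
        torusHom_ker_iff' D hD n hn C P P' Q Q' d hCart hP'P hQ'Q hC hspan c
    rw [Nat.card_congr e, card_powHom_ker C P P' Q Q' d hPP' hP'P hQ'Q hC]
    refine Finset.prod_congr rfl fun j _ => ?_
    exact card_pow_eq_one_units hq (d j)
  have h1 := Subgroup.card_mul_index (torusHom (F := F) D n).ker
  rw [Subgroup.index_ker, torusHom_range D hD n hn, hker] at h1
  rw [h1, Nat.card_fun, Nat.card_units, Nat.card_eq_fintype_card (α := F), hq,
    Nat.card_eq_fintype_card, Fintype.card_fin]

end torus

end Cfsg.Agent.Lib.Helper3
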