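import Mathlib
import Cfsg.Agent.Lib.Helper3.ChevTorusData

set_option autoImplicit false

namespace Cfsg.Agent.Lib.Helper3

open Cfsg.Lie

def smCE6 : Matrix (Fin 6) (Fin 6) ℤ := !![2, 0, -1, 0, 0, 0; 0, 2, 0, -1, 0, 0; -1, 0, 2, -1, 0, 0; 0, -1, -1, 2, -1, 0; 0, 0, 0, -1, 2, -1; 0, 0, 0, 0, -1, 2]
def smPE6 : Matrix (Fin 6) (Fin 6) ℤ := !![-1, 0, 0, 0, 0, 0; 0, -1, 0, 0, 0, 0; 1, -2, 0, -1, 0, 0; 2, -3, 0, -2, -1, 0; -2, 1, -1, 0, 0, 0; -5, 0, -4, -3, -2, -1]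
def smPiE6 : Matrix (Fin 6) (Fin 6) ℤ := !![-1, 0, 0, 0, 0, 0; 0, -1, 0, 0, 0, 0; 2, -1, 0, 0, -1, 0; -1, 2, -1, 0, 0, 0; 0, -1, 2, -1, 0, 0; 0, 0, -1, 2, 4, -1]
def smQE6 : Matrix (Fin 6) (Fin 6) ℤ := !![0, 0, 0, 0, 1, -2; 0, 0, 0, 0, 2, -3; 1, 0, 0, 0, 2, -4; 0, 1, 0, 0, 4, -6; 0, 0, 1, 0, 4, -5; 0, 0, 0, 1, 4, -4]
def smQiE6 : Matrix (Fin 6) (Fin 6) ℤ := !![-2, 0, 1, 0, 0, 0; 0, -2, 0, 1, 0, 0; 2, -3, 0, 0, 1, 0; 4, -4, 0, 0, 0, 1; -3, 2, 0, 0, 0, 0; -2, 1, 0, 0, 0, 0]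
def smDE6 : Fin 6 → ℕ := ![1, 1, 1, 1, 1, 3]

theorem smPPiE6 : smPE6 * smPiE6 = 1 := by decide +kernel
theorem smPiPE6 : smPiE6 * smPE6 = 1 := by decide +kernel
theorem smQiQE6 : smQiE6 * smQE6 = 1 := by decide +kernel
theorem smEqE6 : smCE6 = smPiE6 * Matrix.diagonal (fun j => (smDE6 j : ℤ)) * smQiE6 := by decide +kernel
theorem smCart0E6 : (Matrix.of fun i j : Fin 6 => chevE6.cartan i (chevE6.simple j)) = smCE6 := by decide +kernel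
theorem smCartE6 (i j : Fin 6) : chevE6.cartan i (chevE6.simple j) = smCE6 i j := congrFun (congrFun smCart0E6 i) j
set_option maxHeartbeats 0 in
theorem smSpan0E6 : ∀ s < chevE6.nroots, ∀ i : Fin 6, chevE6.cartan i s = ∑ j : Fin 6, smCE6 i j * ((chevE6.coroot.getD s #[]).getD j 0) := by decide +kernel
theorem smSpanE6 : (∀ j, smDE6 j = 1) ∨ ∀ s < chevE6.nroots, ∃ m : Fin 6 → ℤ, ∀ i : Fin 6, chevE6.cartan i s = ∑ j, smCE6 i j * m j :=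
  Or.inr fun s hs => ⟨_, smSpan0E6 s hs⟩

end Cfsg.Agent.Lib.Helper3
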