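import Mathlib
import Cfsg.Agent.Lib.Helper3.ChevTorusData6

set_option autoImplicit false

namespace Cfsg.Agent.Lib.Helper3

open Cfsg.Lie

def smCE7 : Matrix (Fin 7) (Fin 7) ℤ := !![2, 0, -1, 0, 0, 0, 0; 0, 2, 0, -1, 0, 0, 0; -1, 0, 2, -1, 0, 0, 0; 0, -1, -1, 2, -1, 0, 0; 0, 0, 0, -1, 2, -1, 0; 0, 0, 0, 0, -1, 2, -1; 0, 0, 0, 0, 0, -1, 2]
def smPE7 : Matrix (Fin 7) (Fin 7) ℤ := !![-1, 0, 0, 0, 0, 0, 0; 0, -1, 0, 0, 0, 0, 0; 1, -2, 0, -1, 0, 0, 0; 2, -3, 0, -2, -1, 0, 0; 3, -4, 0, -3, -2, -1, 0; -2, 1, -1, 0, 0, 0, 0; -4, -1, -4, -4, -3, -2, -1]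
def smPiE7 : Matrix (Fin 7) (Fin 7) ℤ := !![-1, 0, 0, 0, 0, 0, 0; 0, -1, 0, 0, 0, 0, 0; 2, -1, 0, 0, 0, -1, 0; -1, 2, -1, 0, 0, 0, 0; 0, -1, 2, -1, 0, 0, 0; 0, 0, -1, 2, -1, 0, 0; 0, 0, 0, -1, 2, 4, -1]
def smQE7 : Matrix (Fin 7) (Fin 7) ℤ := !![0, 0, 0, 0, 0, 1, -2; 0, 0, 0, 0, 0, 2, -3; 1, 0, 0, 0, 0, 2, -4; 0, 1, 0, 0, 0, 4, -6; 0, 0, 1, 0, 0, 4, -5; 0, 0, 0, 1, 0, 4, -4; 0, 0, 0, 0, 1, 4, -3]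
def smQiE7 : Matrix (Fin 7) (Fin 7) ℤ := !![-2, 0, 1, 0, 0, 0, 0; 0, -2, 0, 1, 0, 0, 0; 2, -3, 0, 0, 1, 0, 0; 4, -4, 0, 0, 0, 1, 0; 6, -5, 0, 0, 0, 0, 1; -3, 2, 0, 0, 0, 0, 0; -2, 1, 0, 0, 0, 0, 0]
def smDE7 : Fin 7 → ℕ := ![1, 1, 1, 1, 1, 1, 2]

theorem smPPiE7 : smPE7 * smPiE7 = 1 := by decide +kernel
theorem smPiPE7 : smPiE7 * smPE7 = 1 := by decide +kernel
theorem smQiQE7 : smQiE7 * smQE7 = 1 := by decide +kernel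
theorem smEqE7 : smCE7 = smPiE7 * Matrix.diagonal (fun j => (smDE7 j : ℤ)) * smQiE7 := by decide +kernel
theorem smCart0E7 : (Matrix.of fun i j : Fin 7 => chevE7.cartan i (chevE7.simple j)) = smCE7 := by decide +kernel
theorem smCartE7 (i j : Fin 7) : chevE7.cartan i (chevE7.simple j) = smCE7 i j := congrFun (congrFun smCart0E7 i) j
set_option maxHeartbeats 0 in
theorem smSpan0E7 : ∀ s < chevE7.nroots, ∀ i : Fin 7, chevE7.cartan i s = ∑ j : Fin 7, smCE7 i j * ((chevE7.coroot.getD s #[]).getD j 0) := by decide +kernel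
theorem smSpanE7 : (∀ j, smDE7 j = 1) ∨ ∀ s < chevE7.nroots, ∃ m : Fin 7 → ℤ, ∀ i : Fin 7, chevE7.cartan i s = ∑ j, smCE7 i j * m j :=
  Or.inr fun s hs => ⟨_, smSpan0E7 s hs⟩

end Cfsg.Agent.Lib.Helper3
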