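import Mathlib
import Cfsg.Prelude.Def_ChevStructure

set_option autoImplicit false

namespace Cfsg.Agent.Lib.Helper3

section grp

variable {W : Type*} [Group W]

theorem cg_comm_of (a b : W) (ha : a * a = 1) (hb : b * b = 1) (h : (a * b) ^ 2 = 1) :
    a * b = b * a := by
  have h1 : a * b = (a * b)⁻¹ := eq_inv_of_mul_eq_one_left (by rw [← pow_two]; exact h)
  rw [mul_inv_rev, inv_eq_of_mul_eq_one_left hb, inv_eq_of_mul_eq_one_left ha] at h1
  exact h1

theorem cg_braid_of (a b : W) (ha : a * a = 1) (hb : b * b = 1) (h : (a * b) ^ 3 = 1) :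
    a * b * a = b * a * b := by
  have e : (a * b * a) * (b * a * b) = 1 := by
    have e' : (a * b * a) * (b * a * b) = (a * b) ^ 3 := by
      simp only [pow_succ, pow_zero, one_mul, mul_assoc]
    rw [e', h]
  have h1 : a * b * a = (b * a * b)⁻¹ := eq_inv_of_mul_eq_one_left e
  rw [mul_inv_rev, mul_inv_rev, inv_eq_of_mul_eq_one_left hb, inv_eq_of_mul_eq_one_left ha,
    ← mul_assoc] at h1
  exact h1

theorem cg_peel (H : Subgroup W) (P x y : W) (hx : x * x = 1) (hy : y * y = 1)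
    (hbr : x * y * x = y * x * y) (hc : P * y = y * P) (hPx : P * x ∈ H) (hyH : y ∈ H) :
    x ∈ H ∧ P ∈ H := by
  have h0 : P⁻¹ * y * P = y := by
    rw [mul_assoc, ← hc, ← mul_assoc, inv_mul_cancel, one_mul]
  have h1 : (P * x)⁻¹ * y * (P * x) = y * x * y := by
    rw [mul_inv_rev, inv_eq_of_mul_eq_one_left hx]
    calc x * P⁻¹ * y * (P * x) = x * (P⁻¹ * y * P) * x := by group
      _ = x * y * x := by rw [h0]
      _ = y * x * y := hbr
  have h2 : y * ((P * x)⁻¹ * y * (P * x)) * y = x := by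
    rw [h1]
    calc y * (y * x * y) * y = (y * y) * x * (y * y) := by group
      _ = x := by rw [hy, one_mul, mul_one]
  have hxH : x ∈ H := by
    rw [← h2]
    exact H.mul_mem (H.mul_mem hyH (H.mul_mem (H.mul_mem (H.inv_mem hPx) hyH) hPx)) hyH
  refine ⟨hxH, ?_⟩
  have h3 : P * x * x = P := by rw [mul_assoc, hx, mul_one]
  rw [← h3]
  exact H.mul_mem hPx hxH

theorem cg_e_core (H : Subgroup W) (s0 s1 s2 s3 : W) (h0 : s0 * s0 = 1) (h1 : s1 * s1 = 1)
    (h2 : s2 * s2 = 1) (h3 : s3 * s3 = 1) (c01 : s0 * s1 = s1 * s0) (c12 : s1 * s2 = s2 * s1)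
    (c03 : s0 * s3 = s3 * s0) (p02 : (s0 * s2) ^ 3 = 1) (b23 : s2 * s3 * s2 = s3 * s2 * s3)
    (hs3 : s3 ∈ H) (hP : s0 * s1 * s2 ∈ H) : s0 ∈ H ∧ s1 ∈ H ∧ s2 ∈ H := by
  have hq : Commute s1 (s0 * s2) := by
    show s1 * (s0 * s2) = (s0 * s2) * s1
    rw [← mul_assoc, ← c01, mul_assoc, c12, ← mul_assoc]
  have e0 : s0 * s1 * s2 = s1 * (s0 * s2) := by rw [c01, mul_assoc]
  have e1 : (s0 * s1 * s2) ^ 3 = s1 := by
    rw [e0, hq.mul_pow, p02, mul_one, pow_succ, pow_two, h1, one_mul]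
  have hs1 : s1 ∈ H := by
    rw [← e1]
    exact H.pow_mem hP 3
  have e2 : s1 * (s0 * s1 * s2) = s0 * s2 := by
    rw [e0, ← mul_assoc, h1, one_mul]
  have hQ : s0 * s2 ∈ H := by
    rw [← e2]
    exact H.mul_mem hs1 hP
  obtain ⟨hs2, hs0⟩ := cg_peel H s0 s2 s3 h2 h3 b23 c03 hQ hs3
  exact ⟨hs0, hs1, hs2⟩

theorem cg_df_core (H : Subgroup W) (s0 s1 s2 : W) (h0 : s0 * s0 = 1) (h1 : s1 * s1 = 1)
    (h2 : s2 * s2 = 1) (b01 : s0 * s1 * s0 = s1 * s0 * s1) (c02 : s0 * s2 = s2 * s0)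
    (hs0 : s0 ∈ H) (hg : s1 * s2 ∈ H) : s1 ∈ H ∧ s2 ∈ H := by
  have i1 : (s1 * s2)⁻¹ = s2 * s1 := by
    rw [mul_inv_rev, inv_eq_of_mul_eq_one_left h2, inv_eq_of_mul_eq_one_left h1]
  have A : (s0 * s2) * s0 = s2 := by rw [c02, mul_assoc, h0, mul_one]
  have B : s0 * (s2 * s0) = s2 := by rw [← c02, ← mul_assoc, h0, one_mul]
  have key : s0 * ((s1 * s2)⁻¹ * s0 * (s1 * s2)) * s0 * (s1 * s2)⁻¹ = s2 := by
    rw [i1]
    calc s0 * (s2 * s1 * s0 * (s1 * s2)) * s0 * (s2 * s1)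
        = s0 * (s2 * (s1 * s0 * s1) * s2) * s0 * (s2 * s1) := by group
      _ = s0 * (s2 * (s0 * s1 * s0) * s2) * s0 * (s2 * s1) := by rw [b01]
      _ = ((s0 * s2) * s0) * s1 * (s0 * (s2 * s0)) * (s2 * s1) := by group
      _ = s2 * s1 * s2 * (s2 * s1) := by rw [A, B]
      _ = s2 * s1 * (s2 * s2) * s1 := by group
      _ = s2 := by rw [h2, mul_one, mul_assoc, h1, mul_one]
  have hs2 : s2 ∈ H := by
    rw [← key]
    exact H.mul_mem (H.mul_mem (H.mul_mem hs0 (H.mul_mem (H.mul_mem (H.inv_mem hg) hs0) hg)) hs0)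
      (H.inv_mem hg)
  refine ⟨?_, hs2⟩
  have e : s1 * s2 * s2 = s1 := by rw [mul_assoc, h2, mul_one]
  rw [← e]
  exact H.mul_mem hg hs2

end grp

section cox

variable {B : Type*} (M : CoxeterMatrix B)

theorem cg_inv (i : B) : M.simple i * M.simple i = 1 := by
  have h := M.toCoxeterSystem.simple_mul_simple_self i
  rwa [CoxeterMatrix.toCoxeterSystem_simple] at h

theorem cg_pow (i j : B) : (M.simple i * M.simple j) ^ M i j = 1 := by
  have h := M.toCoxeterSystem.simple_mul_simple_pow i j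
  rwa [CoxeterMatrix.toCoxeterSystem_simple] at h

theorem cg_comm (i j : B) (h : M i j = 2) : M.simple i * M.simple j = M.simple j * M.simple i :=
  cg_comm_of _ _ (cg_inv M i) (cg_inv M j) (by rw [← h]; exact cg_pow M i j)

theorem cg_braid (i j : B) (h : M i j = 3) :
    M.simple i * M.simple j * M.simple i = M.simple j * M.simple i * M.simple j :=
  cg_braid_of _ _ (cg_inv M i) (cg_inv M j) (by rw [← h]; exact cg_pow M i j)

theorem cg_top (H : Subgroup M.Group) (h : ∀ i, M.simple i ∈ H) : H = ⊤ := by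
  rw [eq_top_iff, ← M.toCoxeterSystem.subgroup_closure_range_simple, Subgroup.closure_le,
    CoxeterMatrix.toCoxeterSystem_simple]
  rintro _ ⟨i, rfl⟩
  exact h i

theorem cg_conj (i : B) : ∃ (g : M.Group) (j : B), M.simple i = g * M.simple j * g⁻¹ :=
  ⟨1, i, by rw [one_mul, inv_one, mul_one]⟩

end cox

theorem cg_gen_B2 : ∃ T : Finset (CoxeterMatrix.B 2).Group, T.card = 1 ∧
    (∀ t ∈ T, ∃ (g : (CoxeterMatrix.B 2).Group) (i : Fin 2), t = g * (CoxeterMatrix.B 2).simple i * g⁻¹) ∧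
    Subgroup.closure (({((List.finRange 2).map (CoxeterMatrix.B 2).simple).prod} : Set (CoxeterMatrix.B 2).Group) ∪ ↑T) = ⊤ := by
  classical
  obtain ⟨s, hs⟩ : ∃ s, s = (CoxeterMatrix.B 2).simple := ⟨_, rfl⟩
  rw [← hs]
  have hfr : List.finRange 2 = [0, 1] := by decide
  have hprod : ((List.finRange 2).map s).prod = s 0 * s 1 := by
    rw [hfr]
    simp only [List.map_cons, List.map_nil, List.prod_cons, List.prod_nil, mul_one]
  rw [hprod]
  refine ⟨{s 0}, Finset.card_singleton _, ?_, ?_⟩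
  · intro t ht
    rw [Finset.mem_singleton] at ht
    rw [ht, hs]
    exact cg_conj _ 0
  · have hc : s 0 * s 1 ∈ Subgroup.closure (({s 0 * s 1} : Set (CoxeterMatrix.B 2).Group) ∪ ↑({s 0} : Finset (CoxeterMatrix.B 2).Group)) :=
      Subgroup.subset_closure (Or.inl rfl)
    have h0 : s 0 ∈ Subgroup.closure (({s 0 * s 1} : Set (CoxeterMatrix.B 2).Group) ∪ ↑({s 0} : Finset (CoxeterMatrix.B 2).Group)) :=
      Subgroup.subset_closure (Or.inr (by simp))
    have i0 : s 0 * s 0 = 1 := by rw [hs]; exact cg_inv _ 0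
    have h1 : s 1 ∈ Subgroup.closure (({s 0 * s 1} : Set (CoxeterMatrix.B 2).Group) ∪ ↑({s 0} : Finset (CoxeterMatrix.B 2).Group)) := by
      have e : s 0 * (s 0 * s 1) = s 1 := by rw [← mul_assoc, i0, one_mul]
      have hm := Subgroup.mul_mem _ h0 hc
      rwa [e] at hm
    have hall : ∀ i, (CoxeterMatrix.B 2).simple i ∈ Subgroup.closure (({s 0 * s 1} : Set (CoxeterMatrix.B 2).Group) ∪ ↑({s 0} : Finset (CoxeterMatrix.B 2).Group)) := by
      rw [← hs]
      intro i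
      fin_cases i
      · exact h0
      · exact h1
    exact cg_top _ _ hall

theorem cg_gen_G2 : ∃ T : Finset (CoxeterMatrix.G₂).Group, T.card = 1 ∧
    (∀ t ∈ T, ∃ (g : (CoxeterMatrix.G₂).Group) (i : Fin 2), t = g * (CoxeterMatrix.G₂).simple i * g⁻¹) ∧
    Subgroup.closure (({((List.finRange 2).map (CoxeterMatrix.G₂).simple).prod} : Set (CoxeterMatrix.G₂).Group) ∪ ↑T) = ⊤ := by
  classical
  obtain ⟨s, hs⟩ : ∃ s, s = (CoxeterMatrix.G₂).simple := ⟨_, rfl⟩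
  rw [← hs]
  have hfr : List.finRange 2 = [0, 1] := by decide
  have hprod : ((List.finRange 2).map s).prod = s 0 * s 1 := by
    rw [hfr]
    simp only [List.map_cons, List.map_nil, List.prod_cons, List.prod_nil, mul_one]
  rw [hprod]
  refine ⟨{s 0}, Finset.card_singleton _, ?_, ?_⟩
  · intro t ht
    rw [Finset.mem_singleton] at ht
    rw [ht, hs]
    exact cg_conj _ 0
  · have hc : s 0 * s 1 ∈ Subgroup.closure (({s 0 * s 1} : Set (CoxeterMatrix.G₂).Group) ∪ ↑({s 0} : Finset (CoxeterMatrix.G₂).Group)) :=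
      Subgroup.subset_closure (Or.inl rfl)
    have h0 : s 0 ∈ Subgroup.closure (({s 0 * s 1} : Set (CoxeterMatrix.G₂).Group) ∪ ↑({s 0} : Finset (CoxeterMatrix.G₂).Group)) :=
      Subgroup.subset_closure (Or.inr (by simp))
    have i0 : s 0 * s 0 = 1 := by rw [hs]; exact cg_inv _ 0
    have h1 : s 1 ∈ Subgroup.closure (({s 0 * s 1} : Set (CoxeterMatrix.G₂).Group) ∪ ↑({s 0} : Finset (CoxeterMatrix.G₂).Group)) := by
      have e : s 0 * (s 0 * s 1) = s 1 := by rw [← mul_assoc, i0, one_mul]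
      have hm := Subgroup.mul_mem _ h0 hc
      rwa [e] at hm
    have hall : ∀ i, (CoxeterMatrix.G₂).simple i ∈ Subgroup.closure (({s 0 * s 1} : Set (CoxeterMatrix.G₂).Group) ∪ ↑({s 0} : Finset (CoxeterMatrix.G₂).Group)) := by
      rw [← hs]
      intro i
      fin_cases i
      · exact h0
      · exact h1
    exact cg_top _ _ hall

theorem cg_ne_D4 : (Cfsg.Lie.coxeterD4).simple 0 ≠ (Cfsg.Lie.coxeterD4).simple 3 := by
  have hf : CoxeterMatrix.IsLiftable (Cfsg.Lie.coxeterD4) (![Equiv.swap 0 1, Equiv.swap 1 2, Equiv.swap 2 3, Equiv.swap 2 3] : Fin 4 → Equiv.Perm (Fin 4)) := by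
    unfold CoxeterMatrix.IsLiftable
    decide
  intro h
  have h0 := (Cfsg.Lie.coxeterD4).toCoxeterSystem.lift_apply_simple hf 0
  have h3 := (Cfsg.Lie.coxeterD4).toCoxeterSystem.lift_apply_simple hf 3
  rw [CoxeterMatrix.toCoxeterSystem_simple] at h0 h3
  rw [h, h3] at h0
  revert h0
  decide

theorem cg_gen_D4 : ∃ T : Finset (Cfsg.Lie.coxeterD4).Group, T.card = 2 ∧
    (∀ t ∈ T, ∃ (g : (Cfsg.Lie.coxeterD4).Group) (i : Fin 4), t = g * (Cfsg.Lie.coxeterD4).simple i * g⁻¹) ∧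
    Subgroup.closure (({((List.finRange 4).map (Cfsg.Lie.coxeterD4).simple).prod} : Set (Cfsg.Lie.coxeterD4).Group) ∪ ↑T) = ⊤ := by
  classical
  have hne := cg_ne_D4
  obtain ⟨s, hs⟩ : ∃ s, s = (Cfsg.Lie.coxeterD4).simple := ⟨_, rfl⟩
  rw [← hs] at hne ⊢
  have hfr : List.finRange 4 = [0, 1, 2, 3] := by decide
  have hprod : ((List.finRange 4).map s).prod = s 0 * s 1 * s 2 * s 3 := by
    rw [hfr]
    simp only [List.map_cons, List.map_nil, List.prod_cons, List.prod_nil, mul_one, mul_assoc]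
  rw [hprod]
  refine ⟨{s 0, s 3}, Finset.card_pair hne, ?_, ?_⟩
  · intro t ht
    rw [Finset.mem_insert, Finset.mem_singleton] at ht
    rcases ht with ht | ht
    · rw [ht, hs]
      exact cg_conj _ 0
    · rw [ht, hs]
      exact cg_conj _ 3
  · have hc : s 0 * s 1 * s 2 * s 3 ∈ Subgroup.closure (({s 0 * s 1 * s 2 * s 3} : Set (Cfsg.Lie.coxeterD4).Group) ∪ ↑({s 0, s 3} : Finset (Cfsg.Lie.coxeterD4).Group)) :=
      Subgroup.subset_closure (Or.inl rfl)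
    have h0 : s 0 ∈ Subgroup.closure (({s 0 * s 1 * s 2 * s 3} : Set (Cfsg.Lie.coxeterD4).Group) ∪ ↑({s 0, s 3} : Finset (Cfsg.Lie.coxeterD4).Group)) :=
      Subgroup.subset_closure (Or.inr (by simp))
    have h3 : s 3 ∈ Subgroup.closure (({s 0 * s 1 * s 2 * s 3} : Set (Cfsg.Lie.coxeterD4).Group) ∪ ↑({s 0, s 3} : Finset (Cfsg.Lie.coxeterD4).Group)) :=
      Subgroup.subset_closure (Or.inr (by simp))
    have i0 : s 0 * s 0 = 1 := by rw [hs]; exact cg_inv _ 0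
    have i1 : s 1 * s 1 = 1 := by rw [hs]; exact cg_inv _ 1
    have i2 : s 2 * s 2 = 1 := by rw [hs]; exact cg_inv _ 2
    have i3 : s 3 * s 3 = 1 := by rw [hs]; exact cg_inv _ 3
    have b01 : s 0 * s 1 * s 0 = s 1 * s 0 * s 1 := by rw [hs]; exact cg_braid _ 0 1 (by decide)
    have c02 : s 0 * s 2 = s 2 * s 0 := by rw [hs]; exact cg_comm _ 0 2 (by decide)
    have hg : s 1 * s 2 ∈ Subgroup.closure (({s 0 * s 1 * s 2 * s 3} : Set (Cfsg.Lie.coxeterD4).Group) ∪ ↑({s 0, s 3} : Finset (Cfsg.Lie.coxeterD4).Group)) := by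
      have e : s 0 * (s 0 * s 1 * s 2 * s 3) * s 3 = s 1 * s 2 := by
        simp only [mul_assoc]
        rw [i3, mul_one, ← mul_assoc, i0, one_mul]
      have hm := Subgroup.mul_mem _ (Subgroup.mul_mem _ h0 hc) h3
      rwa [e] at hm
    obtain ⟨h1, h2⟩ := cg_df_core _ (s 0) (s 1) (s 2) i0 i1 i2 b01 c02 h0 hg
    have hall : ∀ i, (Cfsg.Lie.coxeterD4).simple i ∈ Subgroup.closure (({s 0 * s 1 * s 2 * s 3} : Set (Cfsg.Lie.coxeterD4).Group) ∪ ↑({s 0, s 3} : Finset (Cfsg.Lie.coxeterD4).Group)) := by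
      rw [← hs]
      intro i
      fin_cases i
      · exact h0
      · exact h1
      · exact h2
      · exact h3
    exact cg_top _ _ hall

theorem cg_ne_F4 : (CoxeterMatrix.F₄).simple 0 ≠ (CoxeterMatrix.F₄).simple 3 := by
  have hf : CoxeterMatrix.IsLiftable (CoxeterMatrix.F₄) (![1, 1, Equiv.swap 0 1, Equiv.swap 0 1] : Fin 4 → Equiv.Perm (Fin 2)) := by
    unfold CoxeterMatrix.IsLiftable
    decide
  intro h
  have h0 := (CoxeterMatrix.F₄).toCoxeterSystem.lift_apply_simple hf 0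
  have h3 := (CoxeterMatrix.F₄).toCoxeterSystem.lift_apply_simple hf 3
  rw [CoxeterMatrix.toCoxeterSystem_simple] at h0 h3
  rw [h, h3] at h0
  revert h0
  decide

theorem cg_gen_F4 : ∃ T : Finset (CoxeterMatrix.F₄).Group, T.card = 2 ∧
    (∀ t ∈ T, ∃ (g : (CoxeterMatrix.F₄).Group) (i : Fin 4), t = g * (CoxeterMatrix.F₄).simple i * g⁻¹) ∧
    Subgroup.closure (({((List.finRange 4).map (CoxeterMatrix.F₄).simple).prod} : Set (CoxeterMatrix.F₄).Group) ∪ ↑T) = ⊤ := by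
  classical
  have hne := cg_ne_F4
  obtain ⟨s, hs⟩ : ∃ s, s = (CoxeterMatrix.F₄).simple := ⟨_, rfl⟩
  rw [← hs] at hne ⊢
  have hfr : List.finRange 4 = [0, 1, 2, 3] := by decide
  have hprod : ((List.finRange 4).map s).prod = s 0 * s 1 * s 2 * s 3 := by
    rw [hfr]
    simp only [List.map_cons, List.map_nil, List.prod_cons, List.prod_nil, mul_one, mul_assoc]
  rw [hprod]
  refine ⟨{s 0, s 3}, Finset.card_pair hne, ?_, ?_⟩
  · intro t ht
    rw [Finset.mem_insert, Finset.mem_singleton] at ht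
    rcases ht with ht | ht
    · rw [ht, hs]
      exact cg_conj _ 0
    · rw [ht, hs]
      exact cg_conj _ 3
  · have hc : s 0 * s 1 * s 2 * s 3 ∈ Subgroup.closure (({s 0 * s 1 * s 2 * s 3} : Set (CoxeterMatrix.F₄).Group) ∪ ↑({s 0, s 3} : Finset (CoxeterMatrix.F₄).Group)) :=
      Subgroup.subset_closure (Or.inl rfl)
    have h0 : s 0 ∈ Subgroup.closure (({s 0 * s 1 * s 2 * s 3} : Set (CoxeterMatrix.F₄).Group) ∪ ↑({s 0, s 3} : Finset (CoxeterMatrix.F₄).Group)) :=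
      Subgroup.subset_closure (Or.inr (by simp))
    have h3 : s 3 ∈ Subgroup.closure (({s 0 * s 1 * s 2 * s 3} : Set (CoxeterMatrix.F₄).Group) ∪ ↑({s 0, s 3} : Finset (CoxeterMatrix.F₄).Group)) :=
      Subgroup.subset_closure (Or.inr (by simp))
    have i0 : s 0 * s 0 = 1 := by rw [hs]; exact cg_inv _ 0
    have i1 : s 1 * s 1 = 1 := by rw [hs]; exact cg_inv _ 1
    have i2 : s 2 * s 2 = 1 := by rw [hs]; exact cg_inv _ 2
    have i3 : s 3 * s 3 = 1 := by rw [hs]; exact cg_inv _ 3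
    have b01 : s 0 * s 1 * s 0 = s 1 * s 0 * s 1 := by rw [hs]; exact cg_braid _ 0 1 (by decide)
    have c02 : s 0 * s 2 = s 2 * s 0 := by rw [hs]; exact cg_comm _ 0 2 (by decide)
    have hg : s 1 * s 2 ∈ Subgroup.closure (({s 0 * s 1 * s 2 * s 3} : Set (CoxeterMatrix.F₄).Group) ∪ ↑({s 0, s 3} : Finset (CoxeterMatrix.F₄).Group)) := by
      have e : s 0 * (s 0 * s 1 * s 2 * s 3) * s 3 = s 1 * s 2 := by
        simp only [mul_assoc]
        rw [i3, mul_one, ← mul_assoc, i0, one_mul]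
      have hm := Subgroup.mul_mem _ (Subgroup.mul_mem _ h0 hc) h3
      rwa [e] at hm
    obtain ⟨h1, h2⟩ := cg_df_core _ (s 0) (s 1) (s 2) i0 i1 i2 b01 c02 h0 hg
    have hall : ∀ i, (CoxeterMatrix.F₄).simple i ∈ Subgroup.closure (({s 0 * s 1 * s 2 * s 3} : Set (CoxeterMatrix.F₄).Group) ∪ ↑({s 0, s 3} : Finset (CoxeterMatrix.F₄).Group)) := by
      rw [← hs]
      intro i
      fin_cases i
      · exact h0
      · exact h1
      · exact h2
      · exact h3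
    exact cg_top _ _ hall

theorem cg_gen_E6 : ∃ T : Finset (CoxeterMatrix.E₆).Group, T.card = 1 ∧
    (∀ t ∈ T, ∃ (g : (CoxeterMatrix.E₆).Group) (i : Fin 6), t = g * (CoxeterMatrix.E₆).simple i * g⁻¹) ∧
    Subgroup.closure (({((List.finRange 6).map (CoxeterMatrix.E₆).simple).prod} : Set (CoxeterMatrix.E₆).Group) ∪ ↑T) = ⊤ := by
  classical
  obtain ⟨s, hs⟩ : ∃ s, s = (CoxeterMatrix.E₆).simple := ⟨_, rfl⟩
  rw [← hs]
  have hfr : List.finRange 6 = [0, 1, 2, 3, 4, 5] := by decide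
  have hprod : ((List.finRange 6).map s).prod = s 0 * s 1 * s 2 * s 3 * s 4 * s 5 := by
    rw [hfr]
    simp only [List.map_cons, List.map_nil, List.prod_cons, List.prod_nil, mul_one, mul_assoc]
  rw [hprod]
  refine ⟨{s 5}, Finset.card_singleton _, ?_, ?_⟩
  · intro t ht
    rw [Finset.mem_singleton] at ht
    rw [ht, hs]
    exact cg_conj _ 5
  · have hc : s 0 * s 1 * s 2 * s 3 * s 4 * s 5 ∈ Subgroup.closure (({s 0 * s 1 * s 2 * s 3 * s 4 * s 5} : Set (CoxeterMatrix.E₆).Group) ∪ ↑({s 5} : Finset (CoxeterMatrix.E₆).Group)) :=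
      Subgroup.subset_closure (Or.inl rfl)
    have h5 : s 5 ∈ Subgroup.closure (({s 0 * s 1 * s 2 * s 3 * s 4 * s 5} : Set (CoxeterMatrix.E₆).Group) ∪ ↑({s 5} : Finset (CoxeterMatrix.E₆).Group)) :=
      Subgroup.subset_closure (Or.inr (by simp))
    have i0 : s 0 * s 0 = 1 := by rw [hs]; exact cg_inv _ 0
    have i1 : s 1 * s 1 = 1 := by rw [hs]; exact cg_inv _ 1
    have i2 : s 2 * s 2 = 1 := by rw [hs]; exact cg_inv _ 2
    have i3 : s 3 * s 3 = 1 := by rw [hs]; exact cg_inv _ 3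
    have i4 : s 4 * s 4 = 1 := by rw [hs]; exact cg_inv _ 4
    have i5 : s 5 * s 5 = 1 := by rw [hs]; exact cg_inv _ 5
    have c0_5 : Commute (s 0) (s 5) := by rw [hs]; exact cg_comm _ 0 5 (by decide)
    have c1_5 : Commute (s 1) (s 5) := by rw [hs]; exact cg_comm _ 1 5 (by decide)
    have c2_5 : Commute (s 2) (s 5) := by rw [hs]; exact cg_comm _ 2 5 (by decide)
    have c3_5 : Commute (s 3) (s 5) := by rw [hs]; exact cg_comm _ 3 5 (by decide)
    have b4_5 : s 4 * s 5 * s 4 = s 5 * s 4 * s 5 := by rw [hs]; exact cg_braid _ 4 5 (by decide)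
    have c0_4 : Commute (s 0) (s 4) := by rw [hs]; exact cg_comm _ 0 4 (by decide)
    have c1_4 : Commute (s 1) (s 4) := by rw [hs]; exact cg_comm _ 1 4 (by decide)
    have c2_4 : Commute (s 2) (s 4) := by rw [hs]; exact cg_comm _ 2 4 (by decide)
    have b3_4 : s 3 * s 4 * s 3 = s 4 * s 3 * s 4 := by rw [hs]; exact cg_braid _ 3 4 (by decide)
    have c01 : s 0 * s 1 = s 1 * s 0 := by rw [hs]; exact cg_comm _ 0 1 (by decide)
    have c12 : s 1 * s 2 = s 2 * s 1 := by rw [hs]; exact cg_comm _ 1 2 (by decide)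
    have c03 : s 0 * s 3 = s 3 * s 0 := by rw [hs]; exact cg_comm _ 0 3 (by decide)
    have p02 : (s 0 * s 2) ^ 3 = 1 := by rw [hs]; exact cg_pow _ 0 2
    have b23 : s 2 * s 3 * s 2 = s 3 * s 2 * s 3 := by rw [hs]; exact cg_braid _ 2 3 (by decide)
    have hP5 : s 0 * s 1 * s 2 * s 3 * s 4 ∈ Subgroup.closure (({s 0 * s 1 * s 2 * s 3 * s 4 * s 5} : Set (CoxeterMatrix.E₆).Group) ∪ ↑({s 5} : Finset (CoxeterMatrix.E₆).Group)) := by
      have e : s 0 * s 1 * s 2 * s 3 * s 4 * s 5 * s 5 = s 0 * s 1 * s 2 * s 3 * s 4 := by rw [mul_assoc, i5, mul_one]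
      have hm := Subgroup.mul_mem _ hc h5
      rwa [e] at hm
    obtain ⟨h4, hP4⟩ := cg_peel _ (s 0 * s 1 * s 2 * s 3) (s 4) (s 5) i4 i5 b4_5 (((c0_5.mul_left c1_5).mul_left c2_5).mul_left c3_5).eq hP5 h5
    obtain ⟨h3, hP3⟩ := cg_peel _ (s 0 * s 1 * s 2) (s 3) (s 4) i3 i4 b3_4 ((c0_4.mul_left c1_4).mul_left c2_4).eq hP4 h4
    obtain ⟨h0, h1, h2⟩ := cg_e_core _ (s 0) (s 1) (s 2) (s 3) i0 i1 i2 i3 c01 c12 c03 p02 b23 h3 hP3
    have hall : ∀ i, (CoxeterMatrix.E₆).simple i ∈ Subgroup.closure (({s 0 * s 1 * s 2 * s 3 * s 4 * s 5} : Set (CoxeterMatrix.E₆).Group) ∪ ↑({s 5} : Finset (CoxeterMatrix.E₆).Group)) := by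
      rw [← hs]
      intro i
      fin_cases i
      · exact h0
      · exact h1
      · exact h2
      · exact h3
      · exact h4
      · exact h5
    exact cg_top _ _ hall

theorem cg_gen_E7 : ∃ T : Finset (CoxeterMatrix.E₇).Group, T.card = 1 ∧
    (∀ t ∈ T, ∃ (g : (CoxeterMatrix.E₇).Group) (i : Fin 7), t = g * (CoxeterMatrix.E₇).simple i * g⁻¹) ∧
    Subgroup.closure (({((List.finRange 7).map (CoxeterMatrix.E₇).simple).prod} : Set (CoxeterMatrix.E₇).Group) ∪ ↑T) = ⊤ := by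
  classical
  obtain ⟨s, hs⟩ : ∃ s, s = (CoxeterMatrix.E₇).simple := ⟨_, rfl⟩
  rw [← hs]
  have hfr : List.finRange 7 = [0, 1, 2, 3, 4, 5, 6] := by decide
  have hprod : ((List.finRange 7).map s).prod = s 0 * s 1 * s 2 * s 3 * s 4 * s 5 * s 6 := by
    rw [hfr]
    simp only [List.map_cons, List.map_nil, List.prod_cons, List.prod_nil, mul_one, mul_assoc]
  rw [hprod]
  refine ⟨{s 6}, Finset.card_singleton _, ?_, ?_⟩
  · intro t ht
    rw [Finset.mem_singleton] at ht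
    rw [ht, hs]
    exact cg_conj _ 6
  · have hc : s 0 * s 1 * s 2 * s 3 * s 4 * s 5 * s 6 ∈ Subgroup.closure (({s 0 * s 1 * s 2 * s 3 * s 4 * s 5 * s 6} : Set (CoxeterMatrix.E₇).Group) ∪ ↑({s 6} : Finset (CoxeterMatrix.E₇).Group)) :=
      Subgroup.subset_closure (Or.inl rfl)
    have h6 : s 6 ∈ Subgroup.closure (({s 0 * s 1 * s 2 * s 3 * s 4 * s 5 * s 6} : Set (CoxeterMatrix.E₇).Group) ∪ ↑({s 6} : Finset (CoxeterMatrix.E₇).Group)) :=
      Subgroup.subset_closure (Or.inr (by simp))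
    have i0 : s 0 * s 0 = 1 := by rw [hs]; exact cg_inv _ 0
    have i1 : s 1 * s 1 = 1 := by rw [hs]; exact cg_inv _ 1
    have i2 : s 2 * s 2 = 1 := by rw [hs]; exact cg_inv _ 2
    have i3 : s 3 * s 3 = 1 := by rw [hs]; exact cg_inv _ 3
    have i4 : s 4 * s 4 = 1 := by rw [hs]; exact cg_inv _ 4
    have i5 : s 5 * s 5 = 1 := by rw [hs]; exact cg_inv _ 5
    have i6 : s 6 * s 6 = 1 := by rw [hs]; exact cg_inv _ 6
    have c0_6 : Commute (s 0) (s 6) := by rw [hs]; exact cg_comm _ 0 6 (by decide)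
    have c1_6 : Commute (s 1) (s 6) := by rw [hs]; exact cg_comm _ 1 6 (by decide)
    have c2_6 : Commute (s 2) (s 6) := by rw [hs]; exact cg_comm _ 2 6 (by decide)
    have c3_6 : Commute (s 3) (s 6) := by rw [hs]; exact cg_comm _ 3 6 (by decide)
    have c4_6 : Commute (s 4) (s 6) := by rw [hs]; exact cg_comm _ 4 6 (by decide)
    have b5_6 : s 5 * s 6 * s 5 = s 6 * s 5 * s 6 := by rw [hs]; exact cg_braid _ 5 6 (by decide)
    have c0_5 : Commute (s 0) (s 5) := by rw [hs]; exact cg_comm _ 0 5 (by decide)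
    have c1_5 : Commute (s 1) (s 5) := by rw [hs]; exact cg_comm _ 1 5 (by decide)
    have c2_5 : Commute (s 2) (s 5) := by rw [hs]; exact cg_comm _ 2 5 (by decide)
    have c3_5 : Commute (s 3) (s 5) := by rw [hs]; exact cg_comm _ 3 5 (by decide)
    have b4_5 : s 4 * s 5 * s 4 = s 5 * s 4 * s 5 := by rw [hs]; exact cg_braid _ 4 5 (by decide)
    have c0_4 : Commute (s 0) (s 4) := by rw [hs]; exact cg_comm _ 0 4 (by decide)
    have c1_4 : Commute (s 1) (s 4) := by rw [hs]; exact cg_comm _ 1 4 (by decide)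
    have c2_4 : Commute (s 2) (s 4) := by rw [hs]; exact cg_comm _ 2 4 (by decide)
    have b3_4 : s 3 * s 4 * s 3 = s 4 * s 3 * s 4 := by rw [hs]; exact cg_braid _ 3 4 (by decide)
    have c01 : s 0 * s 1 = s 1 * s 0 := by rw [hs]; exact cg_comm _ 0 1 (by decide)
    have c12 : s 1 * s 2 = s 2 * s 1 := by rw [hs]; exact cg_comm _ 1 2 (by decide)
    have c03 : s 0 * s 3 = s 3 * s 0 := by rw [hs]; exact cg_comm _ 0 3 (by decide)
    have p02 : (s 0 * s 2) ^ 3 = 1 := by rw [hs]; exact cg_pow _ 0 2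
    have b23 : s 2 * s 3 * s 2 = s 3 * s 2 * s 3 := by rw [hs]; exact cg_braid _ 2 3 (by decide)
    have hP6 : s 0 * s 1 * s 2 * s 3 * s 4 * s 5 ∈ Subgroup.closure (({s 0 * s 1 * s 2 * s 3 * s 4 * s 5 * s 6} : Set (CoxeterMatrix.E₇).Group) ∪ ↑({s 6} : Finset (CoxeterMatrix.E₇).Group)) := by
      have e : s 0 * s 1 * s 2 * s 3 * s 4 * s 5 * s 6 * s 6 = s 0 * s 1 * s 2 * s 3 * s 4 * s 5 := by rw [mul_assoc, i6, mul_one]
      have hm := Subgroup.mul_mem _ hc h6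
      rwa [e] at hm
    obtain ⟨h5, hP5⟩ := cg_peel _ (s 0 * s 1 * s 2 * s 3 * s 4) (s 5) (s 6) i5 i6 b5_6 ((((c0_6.mul_left c1_6).mul_left c2_6).mul_left c3_6).mul_left c4_6).eq hP6 h6
    obtain ⟨h4, hP4⟩ := cg_peel _ (s 0 * s 1 * s 2 * s 3) (s 4) (s 5) i4 i5 b4_5 (((c0_5.mul_left c1_5).mul_left c2_5).mul_left c3_5).eq hP5 h5
    obtain ⟨h3, hP3⟩ := cg_peel _ (s 0 * s 1 * s 2) (s 3) (s 4) i3 i4 b3_4 ((c0_4.mul_left c1_4).mul_left c2_4).eq hP4 h4
    obtain ⟨h0, h1, h2⟩ := cg_e_core _ (s 0) (s 1) (s 2) (s 3) i0 i1 i2 i3 c01 c12 c03 p02 b23 h3 hP3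
    have hall : ∀ i, (CoxeterMatrix.E₇).simple i ∈ Subgroup.closure (({s 0 * s 1 * s 2 * s 3 * s 4 * s 5 * s 6} : Set (CoxeterMatrix.E₇).Group) ∪ ↑({s 6} : Finset (CoxeterMatrix.E₇).Group)) := by
      rw [← hs]
      intro i
      fin_cases i
      · exact h0
      · exact h1
      · exact h2
      · exact h3
      · exact h4
      · exact h5
      · exact h6
    exact cg_top _ _ hall

theorem cg_gen_E8 : ∃ T : Finset (CoxeterMatrix.E₈).Group, T.card = 1 ∧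
    (∀ t ∈ T, ∃ (g : (CoxeterMatrix.E₈).Group) (i : Fin 8), t = g * (CoxeterMatrix.E₈).simple i * g⁻¹) ∧
    Subgroup.closure (({((List.finRange 8).map (CoxeterMatrix.E₈).simple).prod} : Set (CoxeterMatrix.E₈).Group) ∪ ↑T) = ⊤ := by
  classical
  obtain ⟨s, hs⟩ : ∃ s, s = (CoxeterMatrix.E₈).simple := ⟨_, rfl⟩
  rw [← hs]
  have hfr : List.finRange 8 = [0, 1, 2, 3, 4, 5, 6, 7] := by decide
  have hprod : ((List.finRange 8).map s).prod = s 0 * s 1 * s 2 * s 3 * s 4 * s 5 * s 6 * s 7 := by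
    rw [hfr]
    simp only [List.map_cons, List.map_nil, List.prod_cons, List.prod_nil, mul_one, mul_assoc]
  rw [hprod]
  refine ⟨{s 7}, Finset.card_singleton _, ?_, ?_⟩
  · intro t ht
    rw [Finset.mem_singleton] at ht
    rw [ht, hs]
    exact cg_conj _ 7
  · have hc : s 0 * s 1 * s 2 * s 3 * s 4 * s 5 * s 6 * s 7 ∈ Subgroup.closure (({s 0 * s 1 * s 2 * s 3 * s 4 * s 5 * s 6 * s 7} : Set (CoxeterMatrix.E₈).Group) ∪ ↑({s 7} : Finset (CoxeterMatrix.E₈).Group)) :=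
      Subgroup.subset_closure (Or.inl rfl)
    have h7 : s 7 ∈ Subgroup.closure (({s 0 * s 1 * s 2 * s 3 * s 4 * s 5 * s 6 * s 7} : Set (CoxeterMatrix.E₈).Group) ∪ ↑({s 7} : Finset (CoxeterMatrix.E₈).Group)) :=
      Subgroup.subset_closure (Or.inr (by simp))
    have i0 : s 0 * s 0 = 1 := by rw [hs]; exact cg_inv _ 0
    have i1 : s 1 * s 1 = 1 := by rw [hs]; exact cg_inv _ 1
    have i2 : s 2 * s 2 = 1 := by rw [hs]; exact cg_inv _ 2
    have i3 : s 3 * s 3 = 1 := by rw [hs]; exact cg_inv _ 3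
    have i4 : s 4 * s 4 = 1 := by rw [hs]; exact cg_inv _ 4
    have i5 : s 5 * s 5 = 1 := by rw [hs]; exact cg_inv _ 5
    have i6 : s 6 * s 6 = 1 := by rw [hs]; exact cg_inv _ 6
    have i7 : s 7 * s 7 = 1 := by rw [hs]; exact cg_inv _ 7
    have c0_7 : Commute (s 0) (s 7) := by rw [hs]; exact cg_comm _ 0 7 (by decide)
    have c1_7 : Commute (s 1) (s 7) := by rw [hs]; exact cg_comm _ 1 7 (by decide)
    have c2_7 : Commute (s 2) (s 7) := by rw [hs]; exact cg_comm _ 2 7 (by decide)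
    have c3_7 : Commute (s 3) (s 7) := by rw [hs]; exact cg_comm _ 3 7 (by decide)
    have c4_7 : Commute (s 4) (s 7) := by rw [hs]; exact cg_comm _ 4 7 (by decide)
    have c5_7 : Commute (s 5) (s 7) := by rw [hs]; exact cg_comm _ 5 7 (by decide)
    have b6_7 : s 6 * s 7 * s 6 = s 7 * s 6 * s 7 := by rw [hs]; exact cg_braid _ 6 7 (by decide)
    have c0_6 : Commute (s 0) (s 6) := by rw [hs]; exact cg_comm _ 0 6 (by decide)
    have c1_6 : Commute (s 1) (s 6) := by rw [hs]; exact cg_comm _ 1 6 (by decide)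
    have c2_6 : Commute (s 2) (s 6) := by rw [hs]; exact cg_comm _ 2 6 (by decide)
    have c3_6 : Commute (s 3) (s 6) := by rw [hs]; exact cg_comm _ 3 6 (by decide)
    have c4_6 : Commute (s 4) (s 6) := by rw [hs]; exact cg_comm _ 4 6 (by decide)
    have b5_6 : s 5 * s 6 * s 5 = s 6 * s 5 * s 6 := by rw [hs]; exact cg_braid _ 5 6 (by decide)
    have c0_5 : Commute (s 0) (s 5) := by rw [hs]; exact cg_comm _ 0 5 (by decide)
    have c1_5 : Commute (s 1) (s 5) := by rw [hs]; exact cg_comm _ 1 5 (by decide)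
    have c2_5 : Commute (s 2) (s 5) := by rw [hs]; exact cg_comm _ 2 5 (by decide)
    have c3_5 : Commute (s 3) (s 5) := by rw [hs]; exact cg_comm _ 3 5 (by decide)
    have b4_5 : s 4 * s 5 * s 4 = s 5 * s 4 * s 5 := by rw [hs]; exact cg_braid _ 4 5 (by decide)
    have c0_4 : Commute (s 0) (s 4) := by rw [hs]; exact cg_comm _ 0 4 (by decide)
    have c1_4 : Commute (s 1) (s 4) := by rw [hs]; exact cg_comm _ 1 4 (by decide)
    have c2_4 : Commute (s 2) (s 4) := by rw [hs]; exact cg_comm _ 2 4 (by decide)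
    have b3_4 : s 3 * s 4 * s 3 = s 4 * s 3 * s 4 := by rw [hs]; exact cg_braid _ 3 4 (by decide)
    have c01 : s 0 * s 1 = s 1 * s 0 := by rw [hs]; exact cg_comm _ 0 1 (by decide)
    have c12 : s 1 * s 2 = s 2 * s 1 := by rw [hs]; exact cg_comm _ 1 2 (by decide)
    have c03 : s 0 * s 3 = s 3 * s 0 := by rw [hs]; exact cg_comm _ 0 3 (by decide)
    have p02 : (s 0 * s 2) ^ 3 = 1 := by rw [hs]; exact cg_pow _ 0 2
    have b23 : s 2 * s 3 * s 2 = s 3 * s 2 * s 3 := by rw [hs]; exact cg_braid _ 2 3 (by decide)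
    have hP7 : s 0 * s 1 * s 2 * s 3 * s 4 * s 5 * s 6 ∈ Subgroup.closure (({s 0 * s 1 * s 2 * s 3 * s 4 * s 5 * s 6 * s 7} : Set (CoxeterMatrix.E₈).Group) ∪ ↑({s 7} : Finset (CoxeterMatrix.E₈).Group)) := by
      have e : s 0 * s 1 * s 2 * s 3 * s 4 * s 5 * s 6 * s 7 * s 7 = s 0 * s 1 * s 2 * s 3 * s 4 * s 5 * s 6 := by rw [mul_assoc, i7, mul_one]
      have hm := Subgroup.mul_mem _ hc h7
      rwa [e] at hm
    obtain ⟨h6, hP6⟩ := cg_peel _ (s 0 * s 1 * s 2 * s 3 * s 4 * s 5) (s 6) (s 7) i6 i7 b6_7 (((((c0_7.mul_left c1_7).mul_left c2_7).mul_left c3_7).mul_left c4_7).mul_left c5_7).eq hP7 h7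
    obtain ⟨h5, hP5⟩ := cg_peel _ (s 0 * s 1 * s 2 * s 3 * s 4) (s 5) (s 6) i5 i6 b5_6 ((((c0_6.mul_left c1_6).mul_left c2_6).mul_left c3_6).mul_left c4_6).eq hP6 h6
    obtain ⟨h4, hP4⟩ := cg_peel _ (s 0 * s 1 * s 2 * s 3) (s 4) (s 5) i4 i5 b4_5 (((c0_5.mul_left c1_5).mul_left c2_5).mul_left c3_5).eq hP5 h5
    obtain ⟨h3, hP3⟩ := cg_peel _ (s 0 * s 1 * s 2) (s 3) (s 4) i3 i4 b3_4 ((c0_4.mul_left c1_4).mul_left c2_4).eq hP4 h4
    obtain ⟨h0, h1, h2⟩ := cg_e_core _ (s 0) (s 1) (s 2) (s 3) i0 i1 i2 i3 c01 c12 c03 p02 b23 h3 hP3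
    have hall : ∀ i, (CoxeterMatrix.E₈).simple i ∈ Subgroup.closure (({s 0 * s 1 * s 2 * s 3 * s 4 * s 5 * s 6 * s 7} : Set (CoxeterMatrix.E₈).Group) ∪ ↑({s 7} : Finset (CoxeterMatrix.E₈).Group)) := by
      rw [← hs]
      intro i
      fin_cases i
      · exact h0
      · exact h1
      · exact h2
      · exact h3
      · exact h4
      · exact h5
      · exact h6
      · exact h7
    exact cg_top _ _ hall

end Cfsg.Agent.Lib.Helper3
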