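import Mathlib
import Cfsg.Prelude.Def_Transfer
import Cfsg.Agent.Lib.Lead.Coprime

set_option autoImplicit false

namespace Cfsg.Agent.Lib.Helper3

/-- An involution `v` normalizing an elementary abelian 2-group `D`: `|D| ≤ |C_D(v)|²`. -/
theorem card_le_sq_card_fixed {X : Type*} [Group X] [Finite X] (D : Subgroup X)
    (hDc : ∀ x ∈ D, ∀ y ∈ D, x * y = y * x) (hD2 : ∀ x ∈ D, x * x = 1)
    (v : X) (hv : v * v = 1) (hvD : ∀ d ∈ D, v * d * v⁻¹ ∈ D) :
    Nat.card D ≤ Nat.card ↥(D ⊓ Subgroup.centralizer {v}) ^ 2 := by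
  have hvinv : v⁻¹ = v := inv_eq_of_mul_eq_one_left hv
  obtain ⟨f, hf⟩ : ∃ f : ↥D →* ↥D, ∀ d : ↥D, ((f d : ↥D) : X) = (d : X) * (v * d * v⁻¹) := by
    refine ⟨{ toFun := fun d => ⟨(d : X) * (v * d * v⁻¹), mul_mem d.2 (hvD d d.2)⟩
              map_one' := ?_, map_mul' := ?_ }, fun d => rfl⟩
    · apply Subtype.ext
      show ((1 : ↥D) : X) * (v * ((1 : ↥D) : X) * v⁻¹) = ((1 : ↥D) : X)
      rw [Subgroup.coe_one]; group
    · intro a b
      apply Subtype.ext
      show ((a * b : ↥D) : X) * (v * ((a * b : ↥D) : X) * v⁻¹) =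
        ((a : X) * (v * a * v⁻¹)) * ((b : X) * (v * b * v⁻¹))
      rw [Subgroup.coe_mul]
      have h1 := hDc _ (hvD a a.2) b b.2
      calc (a : X) * b * (v * ((a : X) * b) * v⁻¹)
          = a * (b * (v * a * v⁻¹)) * (v * b * v⁻¹) := by group
        _ = a * ((v * a * v⁻¹) * b) * (v * b * v⁻¹) := by rw [h1]
        _ = ((a : X) * (v * a * v⁻¹)) * ((b : X) * (v * b * v⁻¹)) := by group
  have hker : f.ker = (D ⊓ Subgroup.centralizer {v}).subgroupOf D := by
    ext d
    rw [MonoidHom.mem_ker, Subgroup.mem_subgroupOf, Subgroup.mem_inf, Subgroup.mem_centralizer_iff]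
    constructor
    · intro h
      have h1 : (d : X) * (v * d * v⁻¹) = 1 := by
        rw [← hf, h, Subgroup.coe_one]
      refine ⟨d.2, fun y hy => ?_⟩
      rw [Set.mem_singleton_iff] at hy; rw [hy]
      have h2 : v * d * v⁻¹ = (d : X) := by
        calc v * d * v⁻¹ = (d : X)⁻¹ * (d * (v * d * v⁻¹)) := by group
          _ = (d : X)⁻¹ := by rw [h1, mul_one]
          _ = d := inv_eq_of_mul_eq_one_left (hD2 d d.2)
      calc v * (d : X) = v * d * v⁻¹ * v := by group
        _ = d * v := by rw [h2]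
    · rintro ⟨-, h⟩
      apply Subtype.ext
      rw [hf, Subgroup.coe_one]
      have h2 := h v rfl
      rw [h2]
      calc (d : X) * (d * v * v⁻¹) = d * d := by group
        _ = 1 := hD2 d d.2
  have hrange : f.range ≤ (D ⊓ Subgroup.centralizer {v}).subgroupOf D := by
    rintro _ ⟨d, rfl⟩
    rw [Subgroup.mem_subgroupOf, Subgroup.mem_inf, Subgroup.mem_centralizer_iff]
    refine ⟨(f d).2, fun y hy => ?_⟩
    rw [Set.mem_singleton_iff] at hy; rw [hy, hf]
    have h1 := hDc _ (hvD d d.2) d d.2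
    calc v * ((d : X) * (v * d * v⁻¹)) = (v * d * v⁻¹) * (v * v) * d * v⁻¹ := by group
      _ = (v * d * v⁻¹) * d * v⁻¹ := by rw [hv, mul_one]
      _ = d * (v * d * v⁻¹) * v⁻¹ := by rw [h1]
      _ = d * (v * d * v⁻¹) * v := by rw [hvinv]
  have hcardC : Nat.card ↥((D ⊓ Subgroup.centralizer {v}).subgroupOf D) =
      Nat.card ↥(D ⊓ Subgroup.centralizer {v}) :=
    Nat.card_congr (Subgroup.subgroupOfEquivOfLe inf_le_left).toEquiv
  have h1 := Subgroup.card_mul_index f.ker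
  rw [Subgroup.index_ker, hker, hcardC] at h1
  have h2 : Nat.card ↥f.range ≤ Nat.card ↥(D ⊓ Subgroup.centralizer {v}) := by
    rw [← hcardC]; exact Subgroup.card_le_of_le hrange
  rw [← h1, pow_two]
  exact Nat.mul_le_mul_left _ h2

theorem zpowers_invol {X : Type*} [Group X] (b : X) (hb : b * b = 1) :
    ∀ x ∈ Subgroup.zpowers b, x = 1 ∨ x = b := by
  intro x hx
  obtain ⟨k, rfl⟩ := Subgroup.mem_zpowers_iff.mp hx
  have hb2 : b ^ (2 : ℤ) = 1 := by rw [zpow_ofNat, pow_two]; exact hb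
  have e : b ^ k = b ^ (k % 2) := by
    conv_lhs => rw [← Int.emod_add_mul_ediv k 2]
    rw [zpow_add, zpow_mul, hb2, one_zpow, mul_one]
  rw [e]
  rcases Int.emod_two_eq_zero_or_one k with h | h
  · left; rw [h, zpow_zero]
  · right; rw [h, zpow_one]

theorem card_sup_zpowers_invol {X : Type*} [Group X] [Finite X] (H : Subgroup X) (b : X)
    (hb : b * b = 1) (hbH : b ∉ H) (hcomm : ∀ h ∈ H, b * h = h * b) :
    Nat.card ↥(H ⊔ Subgroup.zpowers b) = 2 * Nat.card H := by
  have comm : ∀ (h : ↥H) (z : ↥(Subgroup.zpowers b)),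
      Commute (H.subtype h) ((Subgroup.zpowers b).subtype z) := by
    intro h z
    show (h : X) * (z : X) = (z : X) * (h : X)
    rcases zpowers_invol b hb z z.2 with hz | hz
    · rw [hz]; group
    · rw [hz]; exact (hcomm h h.2).symm
  have hinj : Function.Injective (MonoidHom.noncommCoprod H.subtype
      (Subgroup.zpowers b).subtype comm) := by
    rw [MonoidHom.noncommCoprod_injective]
    refine ⟨Subgroup.subtype_injective _, Subgroup.subtype_injective _, ?_⟩
    rw [Subgroup.range_subtype, Subgroup.range_subtype, Subgroup.disjoint_def]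
    intro x hxH hxb
    rcases zpowers_invol b hb x hxb with h | h
    · exact h
    · exact absurd (h ▸ hxH) hbH
  have hrange := MonoidHom.noncommCoprod_range H.subtype (Subgroup.zpowers b).subtype comm
  rw [Subgroup.range_subtype, Subgroup.range_subtype] at hrange
  have hb1 : b ≠ 1 := fun h => hbH (h ▸ one_mem H)
  have hord : orderOf b = 2 := orderOf_eq_prime (by rw [pow_two]; exact hb) hb1
  rw [← hrange, ← Nat.card_congr (MonoidHom.ofInjective hinj).toEquiv, Nat.card_prod,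
    Nat.card_zpowers, hord, mul_comm]

theorem elemAb_sup_zpowers {X : Type*} [Group X] (H : Subgroup X)
    (hH : Cfsg.IsElementaryAbelian 2 H) (b : X)
    (hb : b * b = 1) (hcomm : ∀ h ∈ H, b * h = h * b) :
    Cfsg.IsElementaryAbelian 2 (H ⊔ Subgroup.zpowers b) := by
  have hHc : ∀ x ∈ H, ∀ y ∈ H, x * y = y * x := fun x hx y hy =>
    congrArg Subtype.val (hH.1.is_comm.comm ⟨x, hx⟩ ⟨y, hy⟩)
  have hle : Subgroup.zpowers b ≤ Subgroup.normalizer (H : Set X) := by
    rw [Subgroup.zpowers_le, Subgroup.mem_normalizer_iff]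
    intro h
    have e : ∀ h ∈ H, b * h * b⁻¹ = h := fun h hh => by rw [hcomm h hh]; group
    constructor
    · intro hh; rw [e h hh]; exact hh
    · intro hh
      have h1 : b⁻¹ * (b * h * b⁻¹) * b = h := by group
      have h2 : b * (b * h * b⁻¹) = (b * h * b⁻¹) * b := hcomm _ hh
      have h3 : h = b * h * b⁻¹ := by
        calc h = b⁻¹ * (b * h * b⁻¹) * b := h1.symm
          _ = b⁻¹ * ((b * h * b⁻¹) * b) := by group
          _ = b⁻¹ * (b * (b * h * b⁻¹)) := by rw [h2]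
          _ = b * h * b⁻¹ := by group
      rw [h3]; exact hh
  have hdecomp : ∀ g ∈ H ⊔ Subgroup.zpowers b, ∃ h ∈ H, g = h ∨ g = h * b := by
    intro g hg
    obtain ⟨h, hh, z, hz, rfl⟩ := Cfsg.Agent.Lib.Lead.mem_sup_of_le_normalizer hle hg
    rcases zpowers_invol b hb z hz with h1 | h1
    · exact ⟨h, hh, Or.inl (by rw [h1, mul_one])⟩
    · exact ⟨h, hh, Or.inr (by rw [h1])⟩
  refine ⟨⟨⟨fun x y => ?_⟩⟩, fun a ha => ?_⟩
  · apply Subtype.ext
    show (x : X) * (y : X) = (y : X) * (x : X)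
    obtain ⟨h₁, hh₁, e₁⟩ := hdecomp x x.2
    obtain ⟨h₂, hh₂, e₂⟩ := hdecomp y y.2
    have c12 := hHc h₁ hh₁ h₂ hh₂
    have c1 := hcomm h₁ hh₁
    have c2 := hcomm h₂ hh₂
    rcases e₁ with e₁ | e₁ <;> rcases e₂ with e₂ | e₂ <;> rw [e₁, e₂]
    · exact c12
    · calc h₁ * (h₂ * b) = (h₁ * h₂) * b := by group
        _ = (h₂ * h₁) * b := by rw [c12]
        _ = h₂ * (h₁ * b) := by group
        _ = h₂ * (b * h₁) := by rw [c1]
        _ = h₂ * b * h₁ := by group
    · calc h₁ * b * h₂ = h₁ * (b * h₂) := by group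
        _ = h₁ * (h₂ * b) := by rw [c2]
        _ = (h₁ * h₂) * b := by group
        _ = (h₂ * h₁) * b := by rw [c12]
        _ = h₂ * (h₁ * b) := by group
    · calc h₁ * b * (h₂ * b) = h₁ * (b * h₂) * b := by group
        _ = h₁ * (h₂ * b) * b := by rw [c2]
        _ = (h₁ * h₂) * b * b := by group
        _ = (h₂ * h₁) * b * b := by rw [c12]
        _ = h₂ * (h₁ * b) * b := by group
        _ = h₂ * (b * h₁) * b := by rw [c1]
        _ = h₂ * b * (h₁ * b) := by group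
  · obtain ⟨h, hh, e⟩ := hdecomp a ha
    have h2 : h * h = 1 := by rw [← pow_two]; exact hH.2 h hh
    rcases e with e | e
    · rw [e]; exact hH.2 h hh
    · rw [e, pow_two]
      calc h * b * (h * b) = h * (b * h) * b := by group
        _ = h * (h * b) * b := by rw [hcomm h hh]
        _ = (h * h) * (b * b) := by group
        _ = 1 := by rw [h2, hb, mul_one]

theorem mem_centralizer_sup_zpowers {X : Type*} [Group X] (H : Subgroup X) (b x : X) :
    x ∈ Subgroup.centralizer ((H ⊔ Subgroup.zpowers b : Subgroup X) : Set X) ↔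
      x ∈ Subgroup.centralizer (H : Set X) ∧ x ∈ Subgroup.centralizer ({b} : Set X) := by
  constructor
  · intro hx
    rw [Subgroup.mem_centralizer_iff] at hx
    refine ⟨?_, ?_⟩
    · rw [Subgroup.mem_centralizer_iff]
      intro h hh
      exact hx h (Subgroup.mem_sup_left hh)
    · rw [Subgroup.mem_centralizer_iff]
      intro y hy
      rw [Set.mem_singleton_iff] at hy; rw [hy]
      exact hx b (Subgroup.mem_sup_right (Subgroup.mem_zpowers b))
  · rintro ⟨h1, h2⟩
    have hle : H ⊔ Subgroup.zpowers b ≤ Subgroup.centralizer ({x} : Set X) := by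
      apply sup_le
      · intro h hh
        rw [Subgroup.mem_centralizer_iff]
        intro y hy
        rw [Set.mem_singleton_iff] at hy; rw [hy]
        exact ((Subgroup.mem_centralizer_iff.mp h1) h hh).symm
      · rw [Subgroup.zpowers_le, Subgroup.mem_centralizer_iff]
        intro y hy
        rw [Set.mem_singleton_iff] at hy; rw [hy]
        exact ((Subgroup.mem_centralizer_iff.mp h2) b rfl).symm
    rw [Subgroup.mem_centralizer_iff]
    intro g hg
    exact ((Subgroup.mem_centralizer_iff.mp (hle hg)) x rfl).symm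

/-- Fixed points of an elementary abelian 2-subgroup `A` on a normal elementary abelian `E`,
compared along a chain of subgroups of `A`. -/
theorem card_cent_le_pow {X : Type*} [Group X] [Finite X] (E : Subgroup X) [hEn : E.Normal]
    (hE : Cfsg.IsElementaryAbelian 2 E) (A : Subgroup X) (hA : Cfsg.IsElementaryAbelian 2 A) :
    ∀ (k : ℕ) (H : Subgroup X), H ≤ A → Nat.card H * 2 ^ k = Nat.card A →
      Nat.card ↥(E ⊓ Subgroup.centralizer (H : Set X)) ≤
        Nat.card ↥(E ⊓ Subgroup.centralizer (A : Set X)) ^ (2 ^ k) := by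
  have hEc : ∀ x ∈ E, ∀ y ∈ E, x * y = y * x := fun x hx y hy =>
    congrArg Subtype.val (hE.1.is_comm.comm ⟨x, hx⟩ ⟨y, hy⟩)
  have hAc : ∀ x ∈ A, ∀ y ∈ A, x * y = y * x := fun x hx y hy =>
    congrArg Subtype.val (hA.1.is_comm.comm ⟨x, hx⟩ ⟨y, hy⟩)
  intro k
  induction k with
  | zero =>
    intro H hHA hcard
    rw [pow_zero, mul_one] at hcard
    have : H = A := Subgroup.eq_of_le_of_card_ge hHA hcard.ge
    rw [this, pow_zero, pow_one]
  | succ k ih =>
    intro H hHA hcard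
    have hHpos : 0 < Nat.card H := Nat.card_pos
    have hne : ¬ A ≤ H := by
      intro hAH
      have : H = A := le_antisymm hHA hAH
      rw [this] at hcard
      have h2 : 2 ≤ 2 ^ (k + 1) := by
        calc 2 = 2 ^ 1 := by norm_num
          _ ≤ 2 ^ (k + 1) := Nat.pow_le_pow_right (by norm_num) (by omega)
      have hApos : 0 < Nat.card A := Nat.card_pos
      nlinarith
    obtain ⟨b, hbA, hbH⟩ := SetLike.not_le_iff_exists.mp hne
    have hbb : b * b = 1 := by rw [← pow_two]; exact hA.2 b hbA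
    have hbcomm : ∀ h ∈ H, b * h = h * b := fun h hh => hAc b hbA h (hHA hh)
    have hcard' : Nat.card ↥(H ⊔ Subgroup.zpowers b) * 2 ^ k = Nat.card A := by
      rw [card_sup_zpowers_invol H b hbb hbH hbcomm, ← hcard, pow_succ]; ring
    have hle' : H ⊔ Subgroup.zpowers b ≤ A := sup_le hHA (Subgroup.zpowers_le.mpr hbA)
    have h1 := ih (H ⊔ Subgroup.zpowers b) hle' hcard'
    have hD := card_le_sq_card_fixed (E ⊓ Subgroup.centralizer (H : Set X))
      (fun x hx y hy => hEc x (Subgroup.mem_inf.mp hx).1 y (Subgroup.mem_inf.mp hy).1)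
      (fun x hx => by rw [← pow_two]; exact hE.2 x (Subgroup.mem_inf.mp hx).1) b hbb
      (by
        intro d hd
        have hd' := Subgroup.mem_inf.mp hd
        refine Subgroup.mem_inf.mpr ⟨hEn.conj_mem d hd'.1 b, ?_⟩
        rw [Subgroup.mem_centralizer_iff]
        intro h hh
        have c1 := (Subgroup.mem_centralizer_iff.mp hd'.2) h hh
        have c2 := hbcomm h hh
        calc h * (b * d * b⁻¹) = b * (b⁻¹ * (h * b)) * d * b⁻¹ := by group
          _ = b * (b⁻¹ * (b * h)) * d * b⁻¹ := by rw [c2]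
          _ = b * (h * d) * b⁻¹ := by group
          _ = b * (d * h) * b⁻¹ := by rw [c1]
          _ = b * d * (b⁻¹ * (b * h) * b⁻¹) := by group
          _ = b * d * (b⁻¹ * (h * b) * b⁻¹) := by rw [c2]
          _ = b * d * b⁻¹ * h := by group)
    have heq : E ⊓ Subgroup.centralizer (H : Set X) ⊓ Subgroup.centralizer ({b} : Set X) =
        E ⊓ Subgroup.centralizer ((H ⊔ Subgroup.zpowers b : Subgroup X) : Set X) := by
      ext x
      rw [Subgroup.mem_inf, Subgroup.mem_inf, Subgroup.mem_inf, mem_centralizer_sup_zpowers,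
        and_assoc]
    rw [heq] at hD
    calc Nat.card ↥(E ⊓ Subgroup.centralizer (H : Set X))
        ≤ Nat.card ↥(E ⊓ Subgroup.centralizer
            ((H ⊔ Subgroup.zpowers b : Subgroup X) : Set X)) ^ 2 := hD
      _ ≤ (Nat.card ↥(E ⊓ Subgroup.centralizer (A : Set X)) ^ (2 ^ k)) ^ 2 :=
          Nat.pow_le_pow_left h1 2
      _ = Nat.card ↥(E ⊓ Subgroup.centralizer (A : Set X)) ^ (2 ^ (k + 1)) := by
          rw [← pow_mul, pow_succ]

/-- An elementary abelian subgroup of order 4 or 8 is centralized by an element of `E` outside it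
(`E` normal elementary abelian of order at least 32 in a 2-group). -/
theorem exists_cent_not_mem {X : Type*} [Group X] [Finite X] (E : Subgroup X) [hEn : E.Normal]
    (hE : Cfsg.IsElementaryAbelian 2 E) (hE32 : 32 ≤ Nat.card ↥E) (A : Subgroup X)
    (hA : Cfsg.IsElementaryAbelian 2 A) (hcard : Nat.card A = 4 ∨ Nat.card A = 8) :
    ∃ e ∈ E, e ∈ Subgroup.centralizer (A : Set X) ∧ e ∉ A := by
  have hEc : ∀ x ∈ E, ∀ y ∈ E, x * y = y * x := fun x hx y hy =>
    congrArg Subtype.val (hE.1.is_comm.comm ⟨x, hx⟩ ⟨y, hy⟩)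
  have hdvd : Nat.card ↥(A ⊓ E) ∣ Nat.card A := Subgroup.card_dvd_of_le inf_le_left
  have hBpos : 0 < Nat.card ↥(A ⊓ E) := Nat.card_pos
  obtain ⟨k, hk⟩ : ∃ k, Nat.card ↥(A ⊓ E) * 2 ^ k = Nat.card A := by
    obtain ⟨j, hj⟩ : ∃ j, Nat.card A = 2 ^ j := by
      rcases hcard with h | h
      · exact ⟨2, by rw [h]; norm_num⟩
      · exact ⟨3, by rw [h]; norm_num⟩
    rw [hj] at hdvd
    obtain ⟨i, hi, hBi⟩ := (Nat.dvd_prime_pow Nat.prime_two).mp hdvd
    refine ⟨j - i, ?_⟩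
    rw [hBi, hj, ← pow_add]
    congr 1; omega
  have hmain := card_cent_le_pow E hE A hA k (A ⊓ E) inf_le_left hk
  have hEB : E ⊓ Subgroup.centralizer ((A ⊓ E : Subgroup X) : Set X) = E := by
    apply inf_eq_left.mpr
    intro x hx
    rw [Subgroup.mem_centralizer_iff]
    intro y hy
    exact hEc y (Subgroup.mem_inf.mp hy).2 x hx
  rw [hEB] at hmain
  have hlt : Nat.card ↥(A ⊓ E) < Nat.card ↥(E ⊓ Subgroup.centralizer (A : Set X)) := by
    by_contra hcon
    have hcon' : Nat.card ↥(E ⊓ Subgroup.centralizer (A : Set X)) ≤ Nat.card ↥(A ⊓ E) := by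
      omega
    have h3 := Nat.pow_le_pow_left hcon' (2 ^ k)
    have h32 : 32 ≤ Nat.card ↥(A ⊓ E) ^ (2 ^ k) := le_trans hE32 (le_trans hmain h3)
    have hk3 : k ≤ 3 := by
      by_contra hk4
      have : 2 ^ 4 ≤ 2 ^ k := Nat.pow_le_pow_right (by norm_num) (by omega)
      have h16 : 16 ≤ Nat.card ↥(A ⊓ E) * 2 ^ k := by nlinarith
      rcases hcard with h | h <;> omega
    obtain ⟨B, hB⟩ : ∃ B : ℕ, B = Nat.card ↥(A ⊓ E) := ⟨_, rfl⟩
    rw [← hB] at hk h32
    interval_cases k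
    · have hB' : B ≤ 8 := by rcases hcard with h | h <;> omega
      have : B ^ 2 ^ 0 ≤ 8 := by simpa using hB'
      omega
    · have hB' : B ≤ 4 := by rcases hcard with h | h <;> omega
      have := Nat.pow_le_pow_left hB' (2 ^ 1)
      norm_num at this h32
      omega
    · have hB' : B ≤ 2 := by rcases hcard with h | h <;> omega
      have := Nat.pow_le_pow_left hB' (2 ^ 2)
      norm_num at this h32
      omega
    · have hB' : B = 1 := by rcases hcard with h | h <;> omega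
      rw [hB'] at h32
      norm_num at h32
  have hnle : ¬ E ⊓ Subgroup.centralizer (A : Set X) ≤ A ⊓ E := fun h =>
    absurd (Subgroup.card_le_of_le h) (by omega)
  obtain ⟨e, he, heB⟩ := SetLike.not_le_iff_exists.mp hnle
  have he' := Subgroup.mem_inf.mp he
  exact ⟨e, he'.1, he'.2, fun heA => heB (Subgroup.mem_inf.mpr ⟨heA, he'.1⟩)⟩

/-- (b): every four-group lies in an elementary abelian subgroup of order 8. -/
theorem e32_four_le_eight {X : Type*} [Group X] [Finite X] (E : Subgroup X) [hEn : E.Normal]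
    (hE : Cfsg.IsElementaryAbelian 2 E) (hE32 : 32 ≤ Nat.card ↥E) (V : Subgroup X)
    (hV : Cfsg.IsElementaryAbelian 2 V) (hV4 : Nat.card ↥V = 4) :
    ∃ A : Subgroup X, V ≤ A ∧ Cfsg.IsElementaryAbelian 2 A ∧ Nat.card ↥A = 8 := by
  obtain ⟨e, heE, heC, heV⟩ := exists_cent_not_mem E hE hE32 V hV (Or.inl hV4)
  have hee : e * e = 1 := by rw [← pow_two]; exact hE.2 e heE
  have hcomm : ∀ h ∈ V, e * h = h * e := fun h hh =>
    ((Subgroup.mem_centralizer_iff.mp heC) h hh).symm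
  refine ⟨V ⊔ Subgroup.zpowers e, le_sup_left, elemAb_sup_zpowers V hV e hee hcomm, ?_⟩
  rw [card_sup_zpowers_invol V e hee heV hcomm, hV4]

/-- One step towards `E`. -/
theorem e32_step {X : Type*} [Group X] [Finite X] (E : Subgroup X) [hEn : E.Normal]
    (hE : Cfsg.IsElementaryAbelian 2 E) (hE32 : 32 ≤ Nat.card ↥E) (A : Subgroup X)
    (hA : Cfsg.IsElementaryAbelian 2 A) (hA8 : Nat.card ↥A = 8) (hAE : ¬ A ≤ E) :
    ∃ A' : Subgroup X, Cfsg.IsElementaryAbelian 2 A' ∧ Nat.card ↥A' = 8 ∧ ⁅A, A'⁆ = ⊥ ∧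
      Nat.card ↥(A ⊓ E) < Nat.card ↥(A' ⊓ E) := by
  classical
  haveI : Fact (Nat.Prime 2) := ⟨Nat.prime_two⟩
  have hAc : ∀ x ∈ A, ∀ y ∈ A, x * y = y * x := fun x hx y hy =>
    congrArg Subtype.val (hA.1.is_comm.comm ⟨x, hx⟩ ⟨y, hy⟩)
  obtain ⟨e, heE, heC, heA⟩ := exists_cent_not_mem E hE hE32 A hA (Or.inr hA8)
  have hee : e * e = 1 := by rw [← pow_two]; exact hE.2 e heE
  -- a subgroup `U` of order 4 with `A ⊓ E ≤ U ≤ A`
  have hBne : A ⊓ E ≠ A := fun h => hAE (h ▸ inf_le_right)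
  have hBdvd : Nat.card ↥(A ⊓ E) ∣ 2 ^ 3 := by
    have := Subgroup.card_dvd_of_le (inf_le_left : A ⊓ E ≤ A)
    rw [hA8] at this; exact this
  obtain ⟨i, hi, hBi⟩ := (Nat.dvd_prime_pow Nat.prime_two).mp hBdvd
  have hi2 : i ≤ 2 := by
    by_contra hcon
    have hi3 : i = 3 := by omega
    apply hBne
    apply Subgroup.eq_of_le_of_card_ge inf_le_left
    rw [hBi, hi3, hA8]; norm_num
  have hcardsub : Nat.card ↥((A ⊓ E).subgroupOf A) = 2 ^ i := by
    rw [Nat.card_congr (Subgroup.subgroupOfEquivOfLe (inf_le_left : A ⊓ E ≤ A)).toEquiv, hBi]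
  have hdvdA : 2 ^ 2 ∣ Nat.card ↥A := by rw [hA8]; norm_num
  obtain ⟨K, hK4, hBK⟩ := Sylow.exists_subgroup_card_pow_prime_le 2 hdvdA
    ((A ⊓ E).subgroupOf A) hcardsub hi2
  obtain ⟨U, hU⟩ : ∃ U : Subgroup X, U = K.map A.subtype := ⟨_, rfl⟩
  have hUA : U ≤ A := by rw [hU]; exact Subgroup.map_subtype_le _
  have hU4 : Nat.card ↥U = 4 := by
    rw [hU, Subgroup.card_map_of_injective (Subgroup.subtype_injective A), hK4]; norm_num
  have hBU : A ⊓ E ≤ U := by
    intro x hx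
    rw [hU]
    exact ⟨⟨x, (Subgroup.mem_inf.mp hx).1⟩, hBK (Subgroup.mem_subgroupOf.mpr hx), rfl⟩
  have hUel : Cfsg.IsElementaryAbelian 2 U :=
    ⟨⟨⟨fun x y => Subtype.ext (hAc x.1 (hUA x.2) y.1 (hUA y.2))⟩⟩, fun a ha => hA.2 a (hUA ha)⟩
  have hcommU : ∀ h ∈ U, e * h = h * e := fun h hh =>
    ((Subgroup.mem_centralizer_iff.mp heC) h (hUA hh)).symm
  have heU : e ∉ U := fun h => heA (hUA h)
  refine ⟨U ⊔ Subgroup.zpowers e, elemAb_sup_zpowers U hUel e hee hcommU, ?_, ?_, ?_⟩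
  · rw [card_sup_zpowers_invol U e hee heU hcommU, hU4]
  · rw [Subgroup.commutator_eq_bot_iff_le_centralizer, Subgroup.le_centralizer_iff]
    apply sup_le
    · intro u hu
      rw [Subgroup.mem_centralizer_iff]
      intro a ha
      exact hAc a ha u (hUA hu)
    · rw [Subgroup.zpowers_le]; exact heC
  · have hlt : A ⊓ E < (U ⊔ Subgroup.zpowers e) ⊓ E := by
      refine lt_of_le_of_ne (le_inf (hBU.trans le_sup_left) inf_le_right) ?_
      intro heq
      have he1 : e ∈ (U ⊔ Subgroup.zpowers e) ⊓ E :=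
        Subgroup.mem_inf.mpr ⟨Subgroup.mem_sup_right (Subgroup.mem_zpowers e), heE⟩
      rw [← heq] at he1
      exact heA (Subgroup.mem_inf.mp he1).1
    by_contra hcon
    push Not at hcon
    exact (ne_of_lt hlt) (Subgroup.eq_of_le_of_card_ge hlt.le hcon)

/-- Every elementary abelian subgroup of order 8 is connected to one inside `E`. -/
theorem e32_connect_to_E {X : Type*} [Group X] [Finite X] (E : Subgroup X) [hEn : E.Normal]
    (hE : Cfsg.IsElementaryAbelian 2 E) (hE32 : 32 ≤ Nat.card ↥E) :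
    ∀ (d : ℕ) (A : Subgroup X), Cfsg.IsElementaryAbelian 2 A → Nat.card ↥A = 8 →
      8 - Nat.card ↥(A ⊓ E) = d →
      ∃ A₀ : Subgroup X, Cfsg.IsElementaryAbelian 2 A₀ ∧ Nat.card ↥A₀ = 8 ∧ A₀ ≤ E ∧
        Relation.ReflTransGen
          (fun C D : Subgroup X => Cfsg.IsElementaryAbelian 2 C ∧ Nat.card ↥C = 8 ∧
            Cfsg.IsElementaryAbelian 2 D ∧ Nat.card ↥D = 8 ∧ ⁅C, D⁆ = ⊥) A A₀ := by
  intro d
  induction d using Nat.strong_induction_on with
  | _ d ih =>
    intro A hA hA8 hd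
    by_cases hAE : A ≤ E
    · exact ⟨A, hA, hA8, hAE, Relation.ReflTransGen.refl⟩
    · obtain ⟨A', hA', hA'8, hcomm, hlt⟩ := e32_step E hE hE32 A hA hA8 hAE
      have hle8 : Nat.card ↥(A' ⊓ E) ≤ 8 := by
        rw [← hA'8]; exact Subgroup.card_le_of_le inf_le_left
      obtain ⟨A₀, h1, h2, h3, h4⟩ := ih (8 - Nat.card ↥(A' ⊓ E)) (by omega) A' hA' hA'8 rfl
      exact ⟨A₀, h1, h2, h3, Relation.ReflTransGen.head ⟨hA, hA8, hA', hA'8, hcomm⟩ h4⟩

/-- (a): the commuting graph on elementary abelian subgroups of order 8 is connected. -/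
theorem e32_connected {X : Type*} [Group X] [Finite X] (E : Subgroup X) [hEn : E.Normal]
    (hE : Cfsg.IsElementaryAbelian 2 E) (hE32 : 32 ≤ Nat.card ↥E) (A B : Subgroup X)
    (hA : Cfsg.IsElementaryAbelian 2 A) (hA8 : Nat.card ↥A = 8)
    (hB : Cfsg.IsElementaryAbelian 2 B) (hB8 : Nat.card ↥B = 8) :
    Relation.ReflTransGen
      (fun C D : Subgroup X => Cfsg.IsElementaryAbelian 2 C ∧ Nat.card ↥C = 8 ∧
        Cfsg.IsElementaryAbelian 2 D ∧ Nat.card ↥D = 8 ∧ ⁅C, D⁆ = ⊥) A B := by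
  have hEc : ∀ x ∈ E, ∀ y ∈ E, x * y = y * x := fun x hx y hy =>
    congrArg Subtype.val (hE.1.is_comm.comm ⟨x, hx⟩ ⟨y, hy⟩)
  obtain ⟨A₀, a1, a2, a3, a4⟩ := e32_connect_to_E E hE hE32 _ A hA hA8 rfl
  obtain ⟨B₀, b1, b2, b3, b4⟩ := e32_connect_to_E E hE hE32 _ B hB hB8 rfl
  have hsymm : ∀ C D : Subgroup X, (Cfsg.IsElementaryAbelian 2 C ∧
      Nat.card ↥C = 8 ∧ Cfsg.IsElementaryAbelian 2 D ∧ Nat.card ↥D = 8 ∧ ⁅C, D⁆ = ⊥) →
      (Cfsg.IsElementaryAbelian 2 D ∧
      Nat.card ↥D = 8 ∧ Cfsg.IsElementaryAbelian 2 C ∧ Nat.card ↥C = 8 ∧ ⁅D, C⁆ = ⊥) := by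
    rintro C D ⟨h1, h2, h3, h4, h5⟩
    exact ⟨h3, h4, h1, h2, by rw [Subgroup.commutator_comm]; exact h5⟩
  have hrev : ∀ C D : Subgroup X, Relation.ReflTransGen
      (fun C D : Subgroup X => Cfsg.IsElementaryAbelian 2 C ∧ Nat.card ↥C = 8 ∧
        Cfsg.IsElementaryAbelian 2 D ∧ Nat.card ↥D = 8 ∧ ⁅C, D⁆ = ⊥) C D →
      Relation.ReflTransGen
      (fun C D : Subgroup X => Cfsg.IsElementaryAbelian 2 C ∧ Nat.card ↥C = 8 ∧
        Cfsg.IsElementaryAbelian 2 D ∧ Nat.card ↥D = 8 ∧ ⁅C, D⁆ = ⊥) D C := by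
    intro C D h
    induction h with
    | refl => exact Relation.ReflTransGen.refl
    | tail _ hbc ih => exact Relation.ReflTransGen.head (hsymm _ _ hbc) ih
  have hmid : ⁅A₀, B₀⁆ = ⊥ := by
    rw [Subgroup.commutator_eq_bot_iff_le_centralizer]
    intro x hx
    rw [Subgroup.mem_centralizer_iff]
    intro y hy
    exact hEc y (b3 hy) x (a3 hx)
  exact (a4.trans (Relation.ReflTransGen.single ⟨a1, a2, b1, b2, hmid⟩)).trans
    (hrev _ _ b4)

end Cfsg.Agent.Lib.Helper3
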