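import Mathlib
import Cfsg.Prelude.Def_Transfer

set_option autoImplicit false

namespace Cfsg.Agent.Lib.Helper3

open scoped commutatorElement

/-- An involutory endomorphism of an extraspecial 2-group whose fixed points have index at most 2
is an inner automorphism. -/
theorem extraspecial_inner {X : Type*} [Group X] [Finite X] (hE : Cfsg.IsExtraspecial 2 X)
    (τ : X →* X) (hτ : ∀ x, τ (τ x) = x) (M : Subgroup X) (hM : ∀ x, x ∈ M ↔ τ x = x)
    (hi : M.index ≤ 2) :
    ∃ q : X, ∀ x : X, q * τ x * q⁻¹ = x := by
  classical
  letI : Fintype X := Fintype.ofFinite X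
  obtain ⟨⟨-, -, hcomm⟩, hcard⟩ := hE
  obtain ⟨z, hz1, hzc, hzall⟩ : ∃ z : X, z ≠ 1 ∧ z ∈ Subgroup.center X ∧
      ∀ c ∈ Subgroup.center X, c = 1 ∨ c = z := by
    obtain ⟨⟨z, hzc⟩, hz1, huniq⟩ := (Nat.card_eq_two_iff' (1 : Subgroup.center X)).mp hcard
    refine ⟨z, fun h => hz1 (Subtype.ext h), hzc, fun c hc => ?_⟩
    by_cases hc1 : c = 1
    · exact Or.inl hc1
    · right
      have := huniq ⟨c, hc⟩ (fun h => hc1 (congrArg Subtype.val h))
      exact congrArg Subtype.val this
  have hE2 : ∀ a b : X, a * b * a⁻¹ * b⁻¹ ∈ Subgroup.center X := by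
    intro a b
    rw [← hcomm, commutator_def, ← commutatorElement_def]
    exact Subgroup.commutator_mem_commutator (Subgroup.mem_top a) (Subgroup.mem_top b)
  have hzz : z * z = 1 := by
    rcases hzall _ (mul_mem hzc hzc) with h | h
    · exact h
    · exfalso; apply hz1
      calc z = z * z * z⁻¹ := by group
        _ = 1 := by rw [h]; group
  have hzcomm : ∀ g : X, g * z = z * g := Subgroup.mem_center_iff.mp hzc
  have hconj : ∀ g x : X, g * x * g⁻¹ = x ∨ g * x * g⁻¹ = x * z := by
    intro g x
    rcases hzall _ (hE2 x⁻¹ g) with h | h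
    · left
      calc g * x * g⁻¹ = x * (x⁻¹ * g * x⁻¹⁻¹ * g⁻¹) := by group
        _ = x := by rw [h, mul_one]
    · right
      calc g * x * g⁻¹ = x * (x⁻¹ * g * x⁻¹⁻¹ * g⁻¹) := by group
        _ = x * z := by rw [h]
  -- Step 1
  have hw : ∀ x, x⁻¹ * τ x ∈ Subgroup.center X := by
    intro x
    rw [Subgroup.mem_center_iff]
    by_cases htop : M = ⊤
    · have hx : τ x = x := (hM x).mp (htop ▸ Subgroup.mem_top x)
      intro g; rw [hx]; group
    · have hidx : M.index = 2 := by
        have h0 : M.index ≠ 0 := Subgroup.index_ne_zero_of_finite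
        have h1 : M.index ≠ 1 := fun h => htop (Subgroup.index_eq_one.mp h)
        omega
      have hMn : M.Normal := Subgroup.normal_of_index_eq_two hidx
      obtain ⟨w, hwdef⟩ : ∃ w, w = x⁻¹ * τ x := ⟨_, rfl⟩
      rw [← hwdef]
      have hτx : τ x = x * w := by rw [hwdef]; group
      have h2 : ∀ m ∈ M, w * m = m * w := by
        intro m hm
        have h3 : τ (x * m * x⁻¹) = x * m * x⁻¹ := (hM _).mp (hMn.conj_mem m hm x)
        rw [map_mul, map_mul, map_inv, (hM m).mp hm, hτx] at h3
        have h4 : w * m * w⁻¹ = m := by
          calc w * m * w⁻¹ = x⁻¹ * (x * w * m * (x * w)⁻¹) * x := by group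
            _ = x⁻¹ * (x * m * x⁻¹) * x := by rw [h3]
            _ = m := by group
        calc w * m = w * m * w⁻¹ * w := by group
          _ = m * w := by rw [h4]
      have h3 : w * x * w = x := by
        have h4 : τ (x * x) = x * x := (hM _).mp (Subgroup.mul_self_mem_of_index_two hidx x)
        rw [map_mul, hτx] at h4
        calc w * x * w = x⁻¹ * (x * w * (x * w)) := by group
          _ = x⁻¹ * (x * x) := by rw [h4]
          _ = x := by group
      have h4 : w * τ w = 1 := by
        have h5 := hτ x
        rw [hτx, map_mul, hτx] at h5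
        calc w * τ w = x⁻¹ * (x * w * τ w) := by group
          _ = x⁻¹ * x := by rw [h5]
          _ = 1 := by group
      by_cases hwM : w ∈ M
      · have hww : w * w = 1 := by rw [(hM w).mp hwM] at h4; exact h4
        have hwx : w * x = x * w := by
          calc w * x = w * x * (w * w) := by rw [hww, mul_one]
            _ = (w * x * w) * w := by group
            _ = x * w := by rw [h3]
        by_cases hxM : x ∈ M
        · have hw1 : w = 1 := by rw [hwdef, (hM x).mp hxM]; group
          intro g; rw [hw1]; group
        · intro g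
          by_cases hg : g ∈ M
          · exact (h2 g hg).symm
          · have hg' : x⁻¹ * g ∈ M := by
              rw [Subgroup.mul_mem_iff_of_index_two hidx]
              constructor
              · intro h; exact absurd (inv_mem_iff.mp h) hxM
              · intro h; exact absurd h hg
            calc g * w = x * ((x⁻¹ * g) * w) := by group
              _ = x * (w * (x⁻¹ * g)) := by rw [h2 _ hg']
              _ = (x * w) * (x⁻¹ * g) := by group
              _ = (w * x) * (x⁻¹ * g) := by rw [hwx]
              _ = w * g := by group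
      · intro g
        by_cases hg : g ∈ M
        · exact (h2 g hg).symm
        · have hg' : w⁻¹ * g ∈ M := by
            rw [Subgroup.mul_mem_iff_of_index_two hidx]
            constructor
            · intro h; exact absurd (inv_mem_iff.mp h) hwM
            · intro h; exact absurd h hg
          calc g * w = w * ((w⁻¹ * g) * w) := by group
            _ = w * (w * (w⁻¹ * g)) := by rw [h2 _ hg']
            _ = w * g := by group
  -- Step 2
  have hτz : τ z = z := by
    rcases hzall _ (hw z) with h | h
    · calc τ z = z * (z⁻¹ * τ z) := by group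
        _ = z := by rw [h, mul_one]
    · exfalso
      have h1 : τ z = 1 := by
        calc τ z = z * (z⁻¹ * τ z) := by group
          _ = 1 := by rw [h, hzz]
      apply hz1
      have h2 := hτ z
      rw [h1, map_one] at h2
      exact h2.symm
  have hτx : ∀ x, τ x = x ∨ τ x = x * z := by
    intro x
    rcases hzall _ (hw x) with h | h
    · left
      calc τ x = x * (x⁻¹ * τ x) := by group
        _ = x := by rw [h, mul_one]
    · right
      calc τ x = x * (x⁻¹ * τ x) := by group
        _ = x * z := by rw [h]
  -- lower bound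
  have hL : ∀ x : X, Fintype.card X ≤
      2 * (Finset.univ.filter (fun q : X => q * τ x * q⁻¹ = x)).card := by
    intro x
    by_cases hxc : x ∈ Subgroup.center X
    · have hτx' : τ x = x := by
        rcases hzall x hxc with h | h
        · rw [h, map_one]
        · rw [h]; exact hτz
      have hall : Finset.univ.filter (fun q : X => q * τ x * q⁻¹ = x) = Finset.univ := by
        apply Finset.filter_true_of_mem
        intro q _
        rw [hτx', (Subgroup.mem_center_iff.mp hxc) q]; group
      rw [hall, Finset.card_univ]; omega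
    · have hex : ∃ a : X, a * x * a⁻¹ = x * z := by
        by_contra hcon
        apply hxc
        rw [Subgroup.mem_center_iff]
        intro g
        rcases hconj g x with h | h
        · calc g * x = g * x * g⁻¹ * g := by group
            _ = x * g := by rw [h]
        · exact absurd ⟨g, h⟩ hcon
      obtain ⟨a, ha⟩ := hex
      have hinj : (Finset.univ.filter (fun q : X => ¬ q * τ x * q⁻¹ = x)).card ≤
          (Finset.univ.filter (fun q : X => q * τ x * q⁻¹ = x)).card := by
        apply Finset.card_le_card_of_injOn (fun q => a⁻¹ * q)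
        · intro q hq
          rw [Finset.mem_coe, Finset.mem_filter] at hq ⊢
          refine ⟨Finset.mem_univ _, ?_⟩
          have key : q * τ x * q⁻¹ = x * z := by
            rcases hτx x with h1 | h1
            · rcases hconj q (τ x) with h2 | h2
              · exfalso; apply hq.2; rw [h2, h1]
              · rw [h2, h1]
            · rcases hconj q (τ x) with h2 | h2
              · rw [h2, h1]
              · exfalso; apply hq.2; rw [h2, h1, mul_assoc, hzz, mul_one]
          calc a⁻¹ * q * τ x * (a⁻¹ * q)⁻¹ = a⁻¹ * (q * τ x * q⁻¹) * a := by group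
            _ = a⁻¹ * (a * x * a⁻¹) * a := by rw [key, ha]
            _ = x := by group
        · intro q₁ _ q₂ _ h
          exact mul_left_cancel h
      have hsplit := Finset.card_filter_add_card_filter_not (s := (Finset.univ : Finset X))
        (fun q : X => q * τ x * q⁻¹ = x)
      rw [Finset.card_univ] at hsplit
      omega
  -- upper bound
  have hU : ∀ q : X, (∃ x, q * τ x * q⁻¹ ≠ x) →
      2 * (Finset.univ.filter (fun x : X => q * τ x * q⁻¹ = x)).card ≤ Fintype.card X := by
    rintro q ⟨x₀, hx₀⟩
    obtain ⟨F, hF⟩ : ∃ F : Subgroup X, ∀ x, x ∈ F ↔ q * τ x * q⁻¹ = x := by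
      refine ⟨{ carrier := {x | q * τ x * q⁻¹ = x}, mul_mem' := ?_, one_mem' := ?_,
                inv_mem' := ?_ }, fun x => Iff.rfl⟩
      · intro a b ha hb
        have ha' : q * τ a * q⁻¹ = a := ha
        have hb' : q * τ b * q⁻¹ = b := hb
        show q * τ (a * b) * q⁻¹ = a * b
        calc q * τ (a * b) * q⁻¹ = (q * τ a * q⁻¹) * (q * τ b * q⁻¹) := by rw [map_mul]; group
          _ = a * b := by rw [ha', hb']
      · show q * τ 1 * q⁻¹ = 1
        rw [map_one]; group
      · intro a ha
        have ha' : q * τ a * q⁻¹ = a := ha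
        show q * τ a⁻¹ * q⁻¹ = a⁻¹
        calc q * τ a⁻¹ * q⁻¹ = (q * τ a * q⁻¹)⁻¹ := by rw [map_inv]; group
          _ = a⁻¹ := by rw [ha']
    have hcardF : Nat.card ↥F = (Finset.univ.filter (fun x : X => q * τ x * q⁻¹ = x)).card := by
      apply Nat.subtype_card
      intro x
      rw [Finset.mem_filter]
      simp only [Finset.mem_univ, true_and]
      exact (hF x).symm
    have hne : F ≠ ⊤ := by
      intro h
      apply hx₀
      exact (hF x₀).mp (h ▸ Subgroup.mem_top x₀)
    have hidx1 : F.index ≠ 1 := fun h => hne (Subgroup.index_eq_one.mp h)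
    have hidx0 : F.index ≠ 0 := Subgroup.index_ne_zero_of_finite
    have hmul := Subgroup.card_mul_index F
    rw [Nat.card_eq_fintype_card (α := X)] at hmul
    rw [← hcardF, ← hmul]
    have h2 : 2 ≤ F.index := by omega
    calc 2 * Nat.card ↥F = Nat.card ↥F * 2 := by ring
      _ ≤ Nat.card ↥F * F.index := Nat.mul_le_mul_left _ h2
  -- counting
  by_contra hcon
  have hcon' : ∀ q : X, ∃ x, q * τ x * q⁻¹ ≠ x := by
    intro q
    by_contra h
    apply hcon
    exact ⟨q, fun x => by
      by_contra hx
      exact h ⟨x, hx⟩⟩
  have hsum1 : ∑ q : X, 2 * (Finset.univ.filter (fun x : X => q * τ x * q⁻¹ = x)).card ≤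
      ∑ _q : X, Fintype.card X := Finset.sum_le_sum (fun q _ => hU q (hcon' q))
  have hsum2 : ∑ x : X, (Fintype.card X + if x = 1 then Fintype.card X else 0) ≤
      ∑ x : X, 2 * (Finset.univ.filter (fun q : X => q * τ x * q⁻¹ = x)).card := by
    apply Finset.sum_le_sum
    intro x _
    by_cases hx1 : x = 1
    · rw [if_pos hx1, hx1]
      have hall : Finset.univ.filter (fun q : X => q * τ 1 * q⁻¹ = 1) = Finset.univ := by
        apply Finset.filter_true_of_mem
        intro q _
        rw [map_one]; group
      rw [hall, Finset.card_univ]; omega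
    · rw [if_neg hx1]
      have := hL x
      omega
  have hswap : ∑ q : X, 2 * (Finset.univ.filter (fun x : X => q * τ x * q⁻¹ = x)).card =
      ∑ x : X, 2 * (Finset.univ.filter (fun q : X => q * τ x * q⁻¹ = x)).card := by
    simp only [Finset.card_filter, Finset.mul_sum]
    exact Finset.sum_comm
  rw [Finset.sum_add_distrib, Finset.sum_ite_eq' Finset.univ (1 : X) (fun _ => Fintype.card X),
    if_pos (Finset.mem_univ _), Finset.sum_const, Finset.card_univ, smul_eq_mul] at hsum2
  rw [Finset.sum_const, Finset.card_univ, smul_eq_mul, hswap] at hsum1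
  have hpos : 0 < Fintype.card X := Fintype.card_pos
  omega

end Cfsg.Agent.Lib.Helper3
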