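import Mathlib
import Cfsg.Prelude.Def_SporadicCombinatorics
set_option autoImplicit false
namespace Cfsg.Agent.Lib.Helper3.Hex

/-- A computable field with four elements. -/
inductive F4 : Type
  | z | o | w | v
  deriving DecidableEq

instance : Fintype F4 := ⟨⟨↑[F4.z, F4.o, F4.w, F4.v], by decide⟩, by intro x; cases x <;> decide⟩

namespace F4

def add : F4 → F4 → F4
  | z, x => x
  | x, z => x
  | o, o => z
  | o, w => v
  | o, v => w
  | w, o => v
  | w, w => z
  | w, v => o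
  | v, o => w
  | v, w => o
  | v, v => z

def mul : F4 → F4 → F4
  | z, _ => z
  | _, z => z
  | o, x => x
  | x, o => x
  | w, w => v
  | w, v => o
  | v, w => o
  | v, v => w

def inv : F4 → F4
  | z => z
  | o => o
  | w => v
  | v => w

instance : Add F4 := ⟨add⟩
instance : Mul F4 := ⟨mul⟩
instance : Zero F4 := ⟨z⟩
instance : One F4 := ⟨o⟩
instance : Neg F4 := ⟨id⟩
instance : Inv F4 := ⟨inv⟩

instance : Field F4 where
  add_assoc := by decide
  zero_add := by decide
  add_zero := by decide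
  neg_add_cancel := by decide
  add_comm := by decide
  mul_assoc := by decide
  one_mul := by decide
  mul_one := by decide
  left_distrib := by decide
  right_distrib := by decide
  mul_comm := by decide
  zero_mul := by decide
  mul_zero := by decide
  exists_pair_ne := ⟨z, o, by decide⟩
  mul_inv_cancel := by decide
  inv_zero := rfl
  nsmul := nsmulRec
  zsmul := zsmulRec
  nnqsmul := _
  qsmul := _

theorem card : Fintype.card F4 = 4 := rfl

end F4

/-- The hexacode parametrization over any field. -/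
def hphi {K : Type*} [Field K] (ω : K) (a : Fin 3 → K) : Fin 6 → K :=
  a 0 • ![ω, ω ^ 2, ω ^ 2, ω, ω ^ 2, ω] + a 1 • ![ω ^ 2, ω, ω, ω ^ 2, ω ^ 2, ω]
    + a 2 • ![ω ^ 2, ω, ω ^ 2, ω, ω, ω ^ 2]

def wt {K : Type*} [Field K] [DecidableEq K] (x : Fin 6 → K) : ℕ :=
  (Finset.univ.filter fun i => x i ≠ 0).card

set_option maxRecDepth 100000 in
theorem hex_inj : ∀ ω₀ : F4, ω₀ ^ 2 + ω₀ + 1 = 0 → ∀ a b : Fin 3 → F4,
    hphi ω₀ a = hphi ω₀ b → a = b := by decide +kernel

set_option maxRecDepth 100000 in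
theorem hex_wt : ∀ ω₀ : F4, ω₀ ^ 2 + ω₀ + 1 = 0 → ∀ a : Fin 3 → F4,
    hphi ω₀ a ≠ 0 → wt (hphi ω₀ a) = 4 ∨ wt (hphi ω₀ a) = 6 := by decide +kernel

set_option maxRecDepth 100000 in
theorem hex_c4 : ∀ ω₀ : F4, ω₀ ^ 2 + ω₀ + 1 = 0 →
    (Finset.univ.filter (fun a : Fin 3 → F4 => wt (hphi ω₀ a) = 4)).card = 45 := by decide +kernel

set_option maxRecDepth 100000 in
theorem hex_c6 : ∀ ω₀ : F4, ω₀ ^ 2 + ω₀ + 1 = 0 →
    (Finset.univ.filter (fun a : Fin 3 → F4 => wt (hphi ω₀ a) = 6)).card = 18 := by decide +kernel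


theorem hphi_map {K L : Type*} [Field K] [Field L] (e : K →+* L) (ω : K) (a : Fin 3 → K) :
    hphi (e ω) (fun i => e (a i)) = fun j => e (hphi ω a j) := by
  funext j
  fin_cases j <;> simp [hphi, map_add, map_mul, map_pow]

theorem wt_map {K L : Type*} [Field K] [Field L] [DecidableEq K] [DecidableEq L] (e : K →+* L)
    (x : Fin 6 → K) : wt (fun j => e (x j)) = wt x := by
  unfold wt
  congr 1
  ext i
  simp

theorem mem_hex {K : Type*} [Field K] (ω : K) (x : Fin 6 → K) :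
    x ∈ Cfsg.hexacode K ω ↔ ∃ a : Fin 3 → K, hphi ω a = x := by
  unfold Cfsg.hexacode
  rw [Submodule.mem_span_triple]
  constructor
  · rintro ⟨a, b, c, h⟩
    exact ⟨![a, b, c], h⟩
  · rintro ⟨a, h⟩
    exact ⟨a 0, a 1, a 2, h⟩

theorem main (F : Type*) [Field F] [Fintype F] [DecidableEq F] (hF : Fintype.card F = 4) (ω : F)
    (hω : ω ^ 2 + ω + 1 = 0) :
    Nat.card ↥(Cfsg.hexacode F ω) = 64 ∧
    (∀ x ∈ Cfsg.hexacode F ω, x ≠ 0 → (Finset.univ.filter fun i => x i ≠ 0).card = 4 ∨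
      (Finset.univ.filter fun i => x i ≠ 0).card = 6) ∧
    {x : Fin 6 → F | x ∈ Cfsg.hexacode F ω ∧ (Finset.univ.filter fun i => x i ≠ 0).card = 4}.ncard
      = 45 ∧
    {x : Fin 6 → F | x ∈ Cfsg.hexacode F ω ∧ (Finset.univ.filter fun i => x i ≠ 0).card = 6}.ncard
      = 18 := by
  have e : F4 ≃+* F := FiniteField.ringEquivOfCardEq (by rw [F4.card, hF])
  obtain ⟨ω₀, heω⟩ : ∃ ω₀ : F4, e ω₀ = ω := ⟨e.symm ω, e.apply_symm_apply ω⟩
  have hω₀ : ω₀ ^ 2 + ω₀ + 1 = 0 := by
    apply e.injective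
    rw [map_add, map_add, map_pow, map_one, map_zero, heω, hω]
  have key : ∀ a' : Fin 3 → F4,
      hphi ω (fun i => e (a' i)) = fun j => e (hphi ω₀ a' j) := by
    intro a'
    rw [← heω]
    exact hphi_map (e : F4 →+* F) ω₀ a'
  have wtkey : ∀ a' : Fin 3 → F4, wt (hphi ω (fun i => e (a' i))) = wt (hphi ω₀ a') := by
    intro a'
    rw [key]
    exact wt_map (e : F4 →+* F) _
  have surjE : ∀ a : Fin 3 → F, ∃ a' : Fin 3 → F4, (fun i => e (a' i)) = a :=
    fun a => ⟨fun i => e.symm (a i), by funext i; simp⟩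
  have injE : Function.Injective (fun (a' : Fin 3 → F4) (i : Fin 3) => e (a' i)) := by
    intro a b h
    funext i
    exact e.injective (congrFun h i)
  have injF : Function.Injective (hphi ω) := by
    intro a b h
    obtain ⟨a', rfl⟩ := surjE a
    obtain ⟨b', rfl⟩ := surjE b
    rw [key, key] at h
    have h2 : hphi ω₀ a' = hphi ω₀ b' := by
      funext j
      exact e.injective (congrFun h j)
    rw [hex_inj ω₀ hω₀ a' b' h2]
  have hwt : ∀ x : Fin 6 → F, (Finset.univ.filter fun i => x i ≠ 0).card = wt x := fun x => rfl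
  have hcnt : ∀ k : ℕ, {x : Fin 6 → F | x ∈ Cfsg.hexacode F ω ∧
      (Finset.univ.filter fun i => x i ≠ 0).card = k}.ncard
      = (Finset.univ.filter (fun a : Fin 3 → F4 => wt (hphi ω₀ a) = k)).card := by
    intro k
    have h1 : {x : Fin 6 → F | x ∈ Cfsg.hexacode F ω ∧
        (Finset.univ.filter fun i => x i ≠ 0).card = k}
        = (fun a' : Fin 3 → F4 => hphi ω (fun i => e (a' i))) ''
          (↑(Finset.univ.filter (fun a : Fin 3 → F4 => wt (hphi ω₀ a) = k)) :
            Set (Fin 3 → F4)) := by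
      ext x
      constructor
      · rintro ⟨hx, hk⟩
        obtain ⟨a, rfl⟩ := (mem_hex ω x).mp hx
        obtain ⟨a', rfl⟩ := surjE a
        refine ⟨a', ?_, rfl⟩
        rw [hwt, wtkey] at hk
        simpa using hk
      · rintro ⟨a', ha', rfl⟩
        refine ⟨(mem_hex ω _).mpr ⟨_, rfl⟩, ?_⟩
        rw [hwt, wtkey]
        simpa using ha'
    have hinj : Function.Injective (fun a' : Fin 3 → F4 => hphi ω (fun i => e (a' i))) :=
      injF.comp injE
    rw [h1, Set.ncard_image_of_injective _ hinj, Set.ncard_coe_finset]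
  refine ⟨?_, ?_, ?_, ?_⟩
  · have eqv : (Fin 3 → F) ≃ ↥(Cfsg.hexacode F ω) :=
      Equiv.ofBijective (fun a => ⟨hphi ω a, (mem_hex ω _).mpr ⟨a, rfl⟩⟩)
        ⟨fun a b h => injF (congrArg Subtype.val h),
         fun x => by
          obtain ⟨a, ha⟩ := (mem_hex ω x.1).mp x.2
          exact ⟨a, Subtype.ext ha⟩⟩
    rw [← Nat.card_congr eqv, Nat.card_eq_fintype_card, Fintype.card_fun, hF]
    simp
  · intro x hx hx0
    obtain ⟨a, rfl⟩ := (mem_hex ω x).mp hx
    obtain ⟨a', rfl⟩ := surjE a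
    rw [hwt, wtkey]
    apply hex_wt ω₀ hω₀ a'
    intro h0
    apply hx0
    rw [key, h0]
    funext j
    simp
  · rw [hcnt]; exact hex_c4 ω₀ hω₀
  · rw [hcnt]; exact hex_c6 ω₀ hω₀

end Cfsg.Agent.Lib.Helper3.Hex
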