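import Mathlib
import Cfsg.Prelude.Def_Classical
set_option autoImplicit false
namespace Cfsg.Agent.Lib.Helper3.O4m

open Matrix

abbrev I4 := (Fin 1 ⊕ Fin 1) ⊕ Fin 2

/-- Supports of the four basis vectors inside the even-weight vectors of length five. -/
def memS : I4 → Fin 5 → Bool
  | Sum.inl (Sum.inl _), k => decide (k.val ≤ 3)
  | Sum.inl (Sum.inr _), k => decide (k.val ≠ 3)
  | Sum.inr z, k => if z = 0 then decide (k.val ≤ 1) else (decide (k.val = 1) || decide (k.val = 2))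

def vv (σ : Equiv.Perm (Fin 5)) (j : I4) (k : Fin 5) : ZMod 2 := if memS j (σ.symm k) then 1 else 0

/-- The matrix of a permutation of five points on the even-weight vectors. -/
def A (σ : Equiv.Perm (Fin 5)) : Matrix I4 I4 (ZMod 2) := Matrix.of fun i j =>
  match i with
  | Sum.inl (Sum.inl _) => vv σ j 3
  | Sum.inl (Sum.inr _) => vv σ j 4
  | Sum.inr z => if z = 0 then vv σ j 0 + vv σ j 3 + vv σ j 4 else vv σ j 2 + vv σ j 3 + vv σ j 4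

abbrev Q2 : (I4 → ZMod 2) → ZMod 2 := Cfsg.quadFormMinus 1 (ZMod 2) 1 1

def vec4 (a b c d : ZMod 2) : I4 → ZMod 2 :=
  Sum.elim (Sum.elim (fun _ => a) (fun _ => b)) (fun z => if z = 0 then c else d)

def mat4 (a0 b0 c0 d0 a1 b1 c1 d1 a2 b2 c2 d2 a3 b3 c3 d3 : ZMod 2) : Matrix I4 I4 (ZMod 2) :=
  Matrix.of fun i j =>
    (Sum.elim (Sum.elim (fun _ => vec4 a0 b0 c0 d0) (fun _ => vec4 a1 b1 c1 d1))
      (fun z => if z = 0 then vec4 a2 b2 c2 d2 else vec4 a3 b3 c3 d3) j) i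

set_option maxRecDepth 100000 in
theorem A_mul_gen : ∀ σ : Equiv.Perm (Fin 5), ∀ k : Fin 4,
    A (σ * Equiv.swap k.castSucc k.succ) = A σ * A (Equiv.swap k.castSucc k.succ) := by
  decide +kernel

set_option maxRecDepth 100000 in
theorem A_one : A 1 = 1 := by decide +kernel

set_option maxRecDepth 100000 in
theorem A_ker : ∀ σ : Equiv.Perm (Fin 5), A σ = 1 → σ = 1 := by decide +kernel

set_option maxRecDepth 100000 in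
theorem A_iso : ∀ σ : Equiv.Perm (Fin 5), ∀ a b c d : ZMod 2,
    Q2 (A σ *ᵥ vec4 a b c d) = Q2 (vec4 a b c d) := by decide +kernel


set_option maxRecDepth 100000 in
set_option synthInstance.maxHeartbeats 2000000 in
set_option synthInstance.maxSize 20000 in
theorem surj4_0000 : Q2 (vec4 0 0 0 0) = 0 →
    ∀ a1 b1 c1 d1 : ZMod 2, Q2 (vec4 a1 b1 c1 d1) = 0 →
    ∀ a2 b2 c2 d2 : ZMod 2, Q2 (vec4 a2 b2 c2 d2) = 1 →
    ∀ a3 b3 c3 d3 : ZMod 2, Q2 (vec4 a3 b3 c3 d3) = 1 →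
    (∀ x y z w : ZMod 2, Q2 (mat4 0 0 0 0 a1 b1 c1 d1 a2 b2 c2 d2 a3 b3 c3 d3 *ᵥ vec4 x y z w)
      = Q2 (vec4 x y z w)) →
    ∃ σ : Equiv.Perm (Fin 5), A σ = mat4 0 0 0 0 a1 b1 c1 d1 a2 b2 c2 d2 a3 b3 c3 d3 := by
  decide +kernel

set_option maxRecDepth 100000 in
set_option synthInstance.maxHeartbeats 2000000 in
set_option synthInstance.maxSize 20000 in
theorem surj4_0001 : Q2 (vec4 0 0 0 1) = 0 →
    ∀ a1 b1 c1 d1 : ZMod 2, Q2 (vec4 a1 b1 c1 d1) = 0 →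
    ∀ a2 b2 c2 d2 : ZMod 2, Q2 (vec4 a2 b2 c2 d2) = 1 →
    ∀ a3 b3 c3 d3 : ZMod 2, Q2 (vec4 a3 b3 c3 d3) = 1 →
    (∀ x y z w : ZMod 2, Q2 (mat4 0 0 0 1 a1 b1 c1 d1 a2 b2 c2 d2 a3 b3 c3 d3 *ᵥ vec4 x y z w)
      = Q2 (vec4 x y z w)) →
    ∃ σ : Equiv.Perm (Fin 5), A σ = mat4 0 0 0 1 a1 b1 c1 d1 a2 b2 c2 d2 a3 b3 c3 d3 := by
  decide +kernel

set_option maxRecDepth 100000 in
set_option synthInstance.maxHeartbeats 2000000 in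
set_option synthInstance.maxSize 20000 in
theorem surj4_0010 : Q2 (vec4 0 0 1 0) = 0 →
    ∀ a1 b1 c1 d1 : ZMod 2, Q2 (vec4 a1 b1 c1 d1) = 0 →
    ∀ a2 b2 c2 d2 : ZMod 2, Q2 (vec4 a2 b2 c2 d2) = 1 →
    ∀ a3 b3 c3 d3 : ZMod 2, Q2 (vec4 a3 b3 c3 d3) = 1 →
    (∀ x y z w : ZMod 2, Q2 (mat4 0 0 1 0 a1 b1 c1 d1 a2 b2 c2 d2 a3 b3 c3 d3 *ᵥ vec4 x y z w)
      = Q2 (vec4 x y z w)) →
    ∃ σ : Equiv.Perm (Fin 5), A σ = mat4 0 0 1 0 a1 b1 c1 d1 a2 b2 c2 d2 a3 b3 c3 d3 := by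
  decide +kernel

set_option maxRecDepth 100000 in
set_option synthInstance.maxHeartbeats 2000000 in
set_option synthInstance.maxSize 20000 in
theorem surj4_0011 : Q2 (vec4 0 0 1 1) = 0 →
    ∀ a1 b1 c1 d1 : ZMod 2, Q2 (vec4 a1 b1 c1 d1) = 0 →
    ∀ a2 b2 c2 d2 : ZMod 2, Q2 (vec4 a2 b2 c2 d2) = 1 →
    ∀ a3 b3 c3 d3 : ZMod 2, Q2 (vec4 a3 b3 c3 d3) = 1 →
    (∀ x y z w : ZMod 2, Q2 (mat4 0 0 1 1 a1 b1 c1 d1 a2 b2 c2 d2 a3 b3 c3 d3 *ᵥ vec4 x y z w)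
      = Q2 (vec4 x y z w)) →
    ∃ σ : Equiv.Perm (Fin 5), A σ = mat4 0 0 1 1 a1 b1 c1 d1 a2 b2 c2 d2 a3 b3 c3 d3 := by
  decide +kernel

set_option maxRecDepth 100000 in
set_option synthInstance.maxHeartbeats 2000000 in
set_option synthInstance.maxSize 20000 in
theorem surj4_0100 : Q2 (vec4 0 1 0 0) = 0 →
    ∀ a1 b1 c1 d1 : ZMod 2, Q2 (vec4 a1 b1 c1 d1) = 0 →
    ∀ a2 b2 c2 d2 : ZMod 2, Q2 (vec4 a2 b2 c2 d2) = 1 →
    ∀ a3 b3 c3 d3 : ZMod 2, Q2 (vec4 a3 b3 c3 d3) = 1 →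
    (∀ x y z w : ZMod 2, Q2 (mat4 0 1 0 0 a1 b1 c1 d1 a2 b2 c2 d2 a3 b3 c3 d3 *ᵥ vec4 x y z w)
      = Q2 (vec4 x y z w)) →
    ∃ σ : Equiv.Perm (Fin 5), A σ = mat4 0 1 0 0 a1 b1 c1 d1 a2 b2 c2 d2 a3 b3 c3 d3 := by
  decide +kernel

set_option maxRecDepth 100000 in
set_option synthInstance.maxHeartbeats 2000000 in
set_option synthInstance.maxSize 20000 in
theorem surj4_0101 : Q2 (vec4 0 1 0 1) = 0 →
    ∀ a1 b1 c1 d1 : ZMod 2, Q2 (vec4 a1 b1 c1 d1) = 0 →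
    ∀ a2 b2 c2 d2 : ZMod 2, Q2 (vec4 a2 b2 c2 d2) = 1 →
    ∀ a3 b3 c3 d3 : ZMod 2, Q2 (vec4 a3 b3 c3 d3) = 1 →
    (∀ x y z w : ZMod 2, Q2 (mat4 0 1 0 1 a1 b1 c1 d1 a2 b2 c2 d2 a3 b3 c3 d3 *ᵥ vec4 x y z w)
      = Q2 (vec4 x y z w)) →
    ∃ σ : Equiv.Perm (Fin 5), A σ = mat4 0 1 0 1 a1 b1 c1 d1 a2 b2 c2 d2 a3 b3 c3 d3 := by
  decide +kernel

set_option maxRecDepth 100000 in
set_option synthInstance.maxHeartbeats 2000000 in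
set_option synthInstance.maxSize 20000 in
theorem surj4_0110 : Q2 (vec4 0 1 1 0) = 0 →
    ∀ a1 b1 c1 d1 : ZMod 2, Q2 (vec4 a1 b1 c1 d1) = 0 →
    ∀ a2 b2 c2 d2 : ZMod 2, Q2 (vec4 a2 b2 c2 d2) = 1 →
    ∀ a3 b3 c3 d3 : ZMod 2, Q2 (vec4 a3 b3 c3 d3) = 1 →
    (∀ x y z w : ZMod 2, Q2 (mat4 0 1 1 0 a1 b1 c1 d1 a2 b2 c2 d2 a3 b3 c3 d3 *ᵥ vec4 x y z w)
      = Q2 (vec4 x y z w)) →
    ∃ σ : Equiv.Perm (Fin 5), A σ = mat4 0 1 1 0 a1 b1 c1 d1 a2 b2 c2 d2 a3 b3 c3 d3 := by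
  decide +kernel

set_option maxRecDepth 100000 in
set_option synthInstance.maxHeartbeats 2000000 in
set_option synthInstance.maxSize 20000 in
theorem surj4_0111 : Q2 (vec4 0 1 1 1) = 0 →
    ∀ a1 b1 c1 d1 : ZMod 2, Q2 (vec4 a1 b1 c1 d1) = 0 →
    ∀ a2 b2 c2 d2 : ZMod 2, Q2 (vec4 a2 b2 c2 d2) = 1 →
    ∀ a3 b3 c3 d3 : ZMod 2, Q2 (vec4 a3 b3 c3 d3) = 1 →
    (∀ x y z w : ZMod 2, Q2 (mat4 0 1 1 1 a1 b1 c1 d1 a2 b2 c2 d2 a3 b3 c3 d3 *ᵥ vec4 x y z w)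
      = Q2 (vec4 x y z w)) →
    ∃ σ : Equiv.Perm (Fin 5), A σ = mat4 0 1 1 1 a1 b1 c1 d1 a2 b2 c2 d2 a3 b3 c3 d3 := by
  decide +kernel

set_option maxRecDepth 100000 in
set_option synthInstance.maxHeartbeats 2000000 in
set_option synthInstance.maxSize 20000 in
theorem surj4_1000 : Q2 (vec4 1 0 0 0) = 0 →
    ∀ a1 b1 c1 d1 : ZMod 2, Q2 (vec4 a1 b1 c1 d1) = 0 →
    ∀ a2 b2 c2 d2 : ZMod 2, Q2 (vec4 a2 b2 c2 d2) = 1 →
    ∀ a3 b3 c3 d3 : ZMod 2, Q2 (vec4 a3 b3 c3 d3) = 1 →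
    (∀ x y z w : ZMod 2, Q2 (mat4 1 0 0 0 a1 b1 c1 d1 a2 b2 c2 d2 a3 b3 c3 d3 *ᵥ vec4 x y z w)
      = Q2 (vec4 x y z w)) →
    ∃ σ : Equiv.Perm (Fin 5), A σ = mat4 1 0 0 0 a1 b1 c1 d1 a2 b2 c2 d2 a3 b3 c3 d3 := by
  decide +kernel

set_option maxRecDepth 100000 in
set_option synthInstance.maxHeartbeats 2000000 in
set_option synthInstance.maxSize 20000 in
theorem surj4_1001 : Q2 (vec4 1 0 0 1) = 0 →
    ∀ a1 b1 c1 d1 : ZMod 2, Q2 (vec4 a1 b1 c1 d1) = 0 →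
    ∀ a2 b2 c2 d2 : ZMod 2, Q2 (vec4 a2 b2 c2 d2) = 1 →
    ∀ a3 b3 c3 d3 : ZMod 2, Q2 (vec4 a3 b3 c3 d3) = 1 →
    (∀ x y z w : ZMod 2, Q2 (mat4 1 0 0 1 a1 b1 c1 d1 a2 b2 c2 d2 a3 b3 c3 d3 *ᵥ vec4 x y z w)
      = Q2 (vec4 x y z w)) →
    ∃ σ : Equiv.Perm (Fin 5), A σ = mat4 1 0 0 1 a1 b1 c1 d1 a2 b2 c2 d2 a3 b3 c3 d3 := by
  decide +kernel

set_option maxRecDepth 100000 in
set_option synthInstance.maxHeartbeats 2000000 in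
set_option synthInstance.maxSize 20000 in
theorem surj4_1010 : Q2 (vec4 1 0 1 0) = 0 →
    ∀ a1 b1 c1 d1 : ZMod 2, Q2 (vec4 a1 b1 c1 d1) = 0 →
    ∀ a2 b2 c2 d2 : ZMod 2, Q2 (vec4 a2 b2 c2 d2) = 1 →
    ∀ a3 b3 c3 d3 : ZMod 2, Q2 (vec4 a3 b3 c3 d3) = 1 →
    (∀ x y z w : ZMod 2, Q2 (mat4 1 0 1 0 a1 b1 c1 d1 a2 b2 c2 d2 a3 b3 c3 d3 *ᵥ vec4 x y z w)
      = Q2 (vec4 x y z w)) →
    ∃ σ : Equiv.Perm (Fin 5), A σ = mat4 1 0 1 0 a1 b1 c1 d1 a2 b2 c2 d2 a3 b3 c3 d3 := by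
  decide +kernel

set_option maxRecDepth 100000 in
set_option synthInstance.maxHeartbeats 2000000 in
set_option synthInstance.maxSize 20000 in
theorem surj4_1011 : Q2 (vec4 1 0 1 1) = 0 →
    ∀ a1 b1 c1 d1 : ZMod 2, Q2 (vec4 a1 b1 c1 d1) = 0 →
    ∀ a2 b2 c2 d2 : ZMod 2, Q2 (vec4 a2 b2 c2 d2) = 1 →
    ∀ a3 b3 c3 d3 : ZMod 2, Q2 (vec4 a3 b3 c3 d3) = 1 →
    (∀ x y z w : ZMod 2, Q2 (mat4 1 0 1 1 a1 b1 c1 d1 a2 b2 c2 d2 a3 b3 c3 d3 *ᵥ vec4 x y z w)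
      = Q2 (vec4 x y z w)) →
    ∃ σ : Equiv.Perm (Fin 5), A σ = mat4 1 0 1 1 a1 b1 c1 d1 a2 b2 c2 d2 a3 b3 c3 d3 := by
  decide +kernel

set_option maxRecDepth 100000 in
set_option synthInstance.maxHeartbeats 2000000 in
set_option synthInstance.maxSize 20000 in
theorem surj4_1100 : Q2 (vec4 1 1 0 0) = 0 →
    ∀ a1 b1 c1 d1 : ZMod 2, Q2 (vec4 a1 b1 c1 d1) = 0 →
    ∀ a2 b2 c2 d2 : ZMod 2, Q2 (vec4 a2 b2 c2 d2) = 1 →
    ∀ a3 b3 c3 d3 : ZMod 2, Q2 (vec4 a3 b3 c3 d3) = 1 →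
    (∀ x y z w : ZMod 2, Q2 (mat4 1 1 0 0 a1 b1 c1 d1 a2 b2 c2 d2 a3 b3 c3 d3 *ᵥ vec4 x y z w)
      = Q2 (vec4 x y z w)) →
    ∃ σ : Equiv.Perm (Fin 5), A σ = mat4 1 1 0 0 a1 b1 c1 d1 a2 b2 c2 d2 a3 b3 c3 d3 := by
  decide +kernel

set_option maxRecDepth 100000 in
set_option synthInstance.maxHeartbeats 2000000 in
set_option synthInstance.maxSize 20000 in
theorem surj4_1101 : Q2 (vec4 1 1 0 1) = 0 →
    ∀ a1 b1 c1 d1 : ZMod 2, Q2 (vec4 a1 b1 c1 d1) = 0 →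
    ∀ a2 b2 c2 d2 : ZMod 2, Q2 (vec4 a2 b2 c2 d2) = 1 →
    ∀ a3 b3 c3 d3 : ZMod 2, Q2 (vec4 a3 b3 c3 d3) = 1 →
    (∀ x y z w : ZMod 2, Q2 (mat4 1 1 0 1 a1 b1 c1 d1 a2 b2 c2 d2 a3 b3 c3 d3 *ᵥ vec4 x y z w)
      = Q2 (vec4 x y z w)) →
    ∃ σ : Equiv.Perm (Fin 5), A σ = mat4 1 1 0 1 a1 b1 c1 d1 a2 b2 c2 d2 a3 b3 c3 d3 := by
  decide +kernel

set_option maxRecDepth 100000 in
set_option synthInstance.maxHeartbeats 2000000 in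
set_option synthInstance.maxSize 20000 in
theorem surj4_1110 : Q2 (vec4 1 1 1 0) = 0 →
    ∀ a1 b1 c1 d1 : ZMod 2, Q2 (vec4 a1 b1 c1 d1) = 0 →
    ∀ a2 b2 c2 d2 : ZMod 2, Q2 (vec4 a2 b2 c2 d2) = 1 →
    ∀ a3 b3 c3 d3 : ZMod 2, Q2 (vec4 a3 b3 c3 d3) = 1 →
    (∀ x y z w : ZMod 2, Q2 (mat4 1 1 1 0 a1 b1 c1 d1 a2 b2 c2 d2 a3 b3 c3 d3 *ᵥ vec4 x y z w)
      = Q2 (vec4 x y z w)) →
    ∃ σ : Equiv.Perm (Fin 5), A σ = mat4 1 1 1 0 a1 b1 c1 d1 a2 b2 c2 d2 a3 b3 c3 d3 := by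
  decide +kernel

set_option maxRecDepth 100000 in
set_option synthInstance.maxHeartbeats 2000000 in
set_option synthInstance.maxSize 20000 in
theorem surj4_1111 : Q2 (vec4 1 1 1 1) = 0 →
    ∀ a1 b1 c1 d1 : ZMod 2, Q2 (vec4 a1 b1 c1 d1) = 0 →
    ∀ a2 b2 c2 d2 : ZMod 2, Q2 (vec4 a2 b2 c2 d2) = 1 →
    ∀ a3 b3 c3 d3 : ZMod 2, Q2 (vec4 a3 b3 c3 d3) = 1 →
    (∀ x y z w : ZMod 2, Q2 (mat4 1 1 1 1 a1 b1 c1 d1 a2 b2 c2 d2 a3 b3 c3 d3 *ᵥ vec4 x y z w)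
      = Q2 (vec4 x y z w)) →
    ∃ σ : Equiv.Perm (Fin 5), A σ = mat4 1 1 1 1 a1 b1 c1 d1 a2 b2 c2 d2 a3 b3 c3 d3 := by
  decide +kernel

theorem surj4 : ∀ a0 b0 c0 d0 : ZMod 2, Q2 (vec4 a0 b0 c0 d0) = 0 →
    ∀ a1 b1 c1 d1 : ZMod 2, Q2 (vec4 a1 b1 c1 d1) = 0 →
    ∀ a2 b2 c2 d2 : ZMod 2, Q2 (vec4 a2 b2 c2 d2) = 1 →
    ∀ a3 b3 c3 d3 : ZMod 2, Q2 (vec4 a3 b3 c3 d3) = 1 →
    (∀ x y z w : ZMod 2, Q2 (mat4 a0 b0 c0 d0 a1 b1 c1 d1 a2 b2 c2 d2 a3 b3 c3 d3 *ᵥ vec4 x y z w)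
      = Q2 (vec4 x y z w)) →
    ∃ σ : Equiv.Perm (Fin 5), A σ = mat4 a0 b0 c0 d0 a1 b1 c1 d1 a2 b2 c2 d2 a3 b3 c3 d3 := by
  intro a0 b0 c0 d0
  have h2 : ∀ x : ZMod 2, x = 0 ∨ x = 1 := by decide
  rcases h2 a0 with rfl | rfl <;> rcases h2 b0 with rfl | rfl <;> rcases h2 c0 with rfl | rfl <;>
    rcases h2 d0 with rfl | rfl
  exacts [surj4_0000, surj4_0001, surj4_0010, surj4_0011, surj4_0100, surj4_0101, surj4_0110, surj4_0111, surj4_1000, surj4_1001, surj4_1010, surj4_1011, surj4_1100, surj4_1101, surj4_1110, surj4_1111]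

theorem A_mul (σ τ : Equiv.Perm (Fin 5)) : A (σ * τ) = A σ * A τ := by
  have hτ : τ ∈ Submonoid.closure (Set.range fun i : Fin 4 => Equiv.swap i.castSucc i.succ) := by
    rw [Equiv.Perm.mclosure_swap_castSucc_succ]; trivial
  induction hτ using Submonoid.closure_induction generalizing σ with
  | mem x hx =>
    obtain ⟨k, rfl⟩ := hx
    exact A_mul_gen σ k
  | one => rw [mul_one, A_one, mul_one]
  | mul x y _ _ hx hy => rw [← mul_assoc, hy (σ * x), hx σ, hy x, mul_assoc]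

theorem A_inj : Function.Injective A := by
  intro σ τ h
  have h1 : A (σ⁻¹ * τ) = 1 := by
    have h2 : A (σ⁻¹ * σ) = 1 := by rw [inv_mul_cancel, A_one]
    rw [A_mul] at h2 ⊢
    rw [← h, h2]
  have := A_ker _ h1
  exact (inv_mul_eq_one.mp this)

theorem fin2_cases (z : Fin 2) : z = 0 ∨ z = 1 := by
  fin_cases z
  · exact Or.inl rfl
  · exact Or.inr rfl

theorem vec_eta (w : I4 → ZMod 2) :
    w = vec4 (w (Sum.inl (Sum.inl 0))) (w (Sum.inl (Sum.inr 0))) (w (Sum.inr 0)) (w (Sum.inr 1)) := by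
  funext i
  rcases i with (j | j) | z
  · rw [Subsingleton.elim j 0]; rfl
  · rw [Subsingleton.elim j 0]; rfl
  · rcases fin2_cases z with rfl | rfl
    · rfl
    · rfl

theorem mat_eta (M : Matrix I4 I4 (ZMod 2)) :
    M = mat4 (M (Sum.inl (Sum.inl 0)) (Sum.inl (Sum.inl 0))) (M (Sum.inl (Sum.inr 0)) (Sum.inl (Sum.inl 0)))
          (M (Sum.inr 0) (Sum.inl (Sum.inl 0))) (M (Sum.inr 1) (Sum.inl (Sum.inl 0)))
          (M (Sum.inl (Sum.inl 0)) (Sum.inl (Sum.inr 0))) (M (Sum.inl (Sum.inr 0)) (Sum.inl (Sum.inr 0)))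
          (M (Sum.inr 0) (Sum.inl (Sum.inr 0))) (M (Sum.inr 1) (Sum.inl (Sum.inr 0)))
          (M (Sum.inl (Sum.inl 0)) (Sum.inr 0)) (M (Sum.inl (Sum.inr 0)) (Sum.inr 0))
          (M (Sum.inr 0) (Sum.inr 0)) (M (Sum.inr 1) (Sum.inr 0))
          (M (Sum.inl (Sum.inl 0)) (Sum.inr 1)) (M (Sum.inl (Sum.inr 0)) (Sum.inr 1))
          (M (Sum.inr 0) (Sum.inr 1)) (M (Sum.inr 1) (Sum.inr 1)) := by
  ext i j
  rcases j with (j | j) | z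
  · rw [Subsingleton.elim j 0]
    exact congrFun (vec_eta (fun i => M i (Sum.inl (Sum.inl 0)))) i
  · rw [Subsingleton.elim j 0]
    exact congrFun (vec_eta (fun i => M i (Sum.inl (Sum.inr 0)))) i
  · rcases fin2_cases z with rfl | rfl
    · exact congrFun (vec_eta (fun i => M i (Sum.inr 0))) i
    · exact congrFun (vec_eta (fun i => M i (Sum.inr 1))) i

theorem col_eq (M : Matrix I4 I4 (ZMod 2)) (j : I4) :
    vec4 (M (Sum.inl (Sum.inl 0)) j) (M (Sum.inl (Sum.inr 0)) j) (M (Sum.inr 0) j) (M (Sum.inr 1) j)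
      = M *ᵥ Pi.single j 1 := by
  rw [Matrix.mulVec_single_one]
  exact (vec_eta (fun i => M i j)).symm

set_option maxRecDepth 100000 in
theorem Q2_basis : Q2 (Pi.single (Sum.inl (Sum.inl 0)) 1) = 0 ∧ Q2 (Pi.single (Sum.inl (Sum.inr 0)) 1) = 0 ∧
    Q2 (Pi.single (Sum.inr 0) 1) = 1 ∧ Q2 (Pi.single (Sum.inr 1) 1) = 1 := by decide +kernel

/-- Every isometry over `ZMod 2` comes from a permutation. -/
theorem surj4' (M : Matrix I4 I4 (ZMod 2)) (hiso : ∀ w : I4 → ZMod 2, Q2 (M *ᵥ w) = Q2 w) :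
    ∃ σ : Equiv.Perm (Fin 5), A σ = M := by
  obtain ⟨q0, q1, q2, q3⟩ := Q2_basis
  have h := surj4 (M (Sum.inl (Sum.inl 0)) (Sum.inl (Sum.inl 0))) (M (Sum.inl (Sum.inr 0)) (Sum.inl (Sum.inl 0)))
          (M (Sum.inr 0) (Sum.inl (Sum.inl 0))) (M (Sum.inr 1) (Sum.inl (Sum.inl 0)))
          (by rw [col_eq, hiso, q0])
          (M (Sum.inl (Sum.inl 0)) (Sum.inl (Sum.inr 0))) (M (Sum.inl (Sum.inr 0)) (Sum.inl (Sum.inr 0)))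
          (M (Sum.inr 0) (Sum.inl (Sum.inr 0))) (M (Sum.inr 1) (Sum.inl (Sum.inr 0)))
          (by rw [col_eq, hiso, q1])
          (M (Sum.inl (Sum.inl 0)) (Sum.inr 0)) (M (Sum.inl (Sum.inr 0)) (Sum.inr 0))
          (M (Sum.inr 0) (Sum.inr 0)) (M (Sum.inr 1) (Sum.inr 0))
          (by rw [col_eq, hiso, q2])
          (M (Sum.inl (Sum.inl 0)) (Sum.inr 1)) (M (Sum.inl (Sum.inr 0)) (Sum.inr 1))
          (M (Sum.inr 0) (Sum.inr 1)) (M (Sum.inr 1) (Sum.inr 1))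
          (by rw [col_eq, hiso, q3])
  rw [← mat_eta M] at h
  exact h (fun x y z w => hiso _)

section field

variable {F : Type*} [Field F]

theorem hQ (e : ZMod 2 →+* F) (w : I4 → ZMod 2) :
    Cfsg.quadFormMinus 1 F 1 1 (fun i => e (w i)) = e (Q2 w) := by
  simp only [Q2, Cfsg.quadFormMinus, map_add, map_sum, map_mul, map_pow, map_one]

theorem iso_map (e : ZMod 2 ≃+* F) (M : Matrix I4 I4 (ZMod 2))
    (hiso : ∀ w : I4 → ZMod 2, Q2 (M *ᵥ w) = Q2 w) (u : I4 → F) :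
    Cfsg.quadFormMinus 1 F 1 1 ((M.map (e : ZMod 2 →+* F)) *ᵥ u) = Cfsg.quadFormMinus 1 F 1 1 u := by
  have hu : u = fun i => (e : ZMod 2 →+* F) (e.symm (u i)) := by
    funext i; simp
  rw [hu]
  have h1 : (M.map (e : ZMod 2 →+* F)) *ᵥ (fun i => (e : ZMod 2 →+* F) (e.symm (u i)))
      = fun i => (e : ZMod 2 →+* F) ((M *ᵥ (fun i => e.symm (u i))) i) := by
    funext i
    exact (RingHom.map_mulVec (e : ZMod 2 →+* F) M _ i).symm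
  rw [h1, hQ, hQ, hiso]

theorem iso_unmap (e : ZMod 2 ≃+* F) (M : Matrix I4 I4 F)
    (hiso : ∀ u : I4 → F, Cfsg.quadFormMinus 1 F 1 1 (M *ᵥ u) = Cfsg.quadFormMinus 1 F 1 1 u)
    (w : I4 → ZMod 2) :
    Q2 ((M.map (e.symm : F →+* ZMod 2)) *ᵥ w) = Q2 w := by
  apply e.injective
  have h0 : ∀ v : I4 → ZMod 2,
      e (Q2 v) = Cfsg.quadFormMinus 1 F 1 1 (fun i => (e : ZMod 2 →+* F) (v i)) :=
    fun v => (hQ (e : ZMod 2 →+* F) v).symm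
  rw [h0, h0]
  have h1 : (fun i => (e : ZMod 2 →+* F) (((M.map (e.symm : F →+* ZMod 2)) *ᵥ w) i))
      = M *ᵥ (fun i => (e : ZMod 2 →+* F) (w i)) := by
    funext i
    rw [RingHom.map_mulVec]
    have hM : (M.map (e.symm : F →+* ZMod 2)).map (e : ZMod 2 →+* F) = M := by
      ext a b; simp
    rw [hM]
    rfl
  rw [h1, hiso]

/-- The permutation matrices over `F`. -/
noncomputable def psiF (e : ZMod 2 ≃+* F) : Equiv.Perm (Fin 5) →* Matrix I4 I4 F where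
  toFun σ := (A σ).map (e : ZMod 2 →+* F)
  map_one' := by
    rw [A_one]
    ext i j
    simp [Matrix.map_apply, Matrix.one_apply]
  map_mul' σ τ := by
    rw [A_mul, Matrix.map_mul]

theorem psiF_apply (e : ZMod 2 ≃+* F) (σ : Equiv.Perm (Fin 5)) :
    psiF e σ = (A σ).map (e : ZMod 2 →+* F) := rfl

theorem psiU_mem (e : ZMod 2 ≃+* F) (σ : Equiv.Perm (Fin 5)) :
    (psiF e).toHomUnits σ ∈ Cfsg.isometryGroup F (Cfsg.quadFormMinus 1 F 1 1) := by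
  intro u v
  show Cfsg.quadFormMinus 1 F 1 1
    ((((psiF e).toHomUnits σ : (Matrix I4 I4 F)ˣ) : Matrix I4 I4 F) *ᵥ u)
    = Cfsg.quadFormMinus 1 F 1 1 u
  rw [MonoidHom.coe_toHomUnits, psiF_apply]
  exact iso_map e (A σ) (fun w => by rw [vec_eta w]; exact A_iso σ _ _ _ _) u

noncomputable def theta (e : ZMod 2 ≃+* F) :
    Equiv.Perm (Fin 5) →* ↥(Cfsg.isometryGroup F (Cfsg.quadFormMinus 1 F 1 1)) :=
  ((psiF e).toHomUnits).codRestrict (Cfsg.isometryGroup F (Cfsg.quadFormMinus 1 F 1 1))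
    (psiU_mem e)

theorem theta_val (e : ZMod 2 ≃+* F) (σ : Equiv.Perm (Fin 5)) :
    ((theta e σ : ↥(Cfsg.isometryGroup F (Cfsg.quadFormMinus 1 F 1 1))) :
      Matrix.GeneralLinearGroup I4 F).val
      = (A σ).map (e : ZMod 2 →+* F) := rfl

theorem theta_bij (e : ZMod 2 ≃+* F) : Function.Bijective (theta e) := by
  constructor
  · intro σ τ h
    apply A_inj
    have h1 := theta_val e σ
    rw [h, theta_val] at h1
    have hinj : Function.Injective (e : ZMod 2 →+* F) := e.injective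
    exact Matrix.map_injective hinj h1.symm
  · intro s
    have hiso : ∀ u : I4 → F, Cfsg.quadFormMinus 1 F 1 1
        (((s.1 : Matrix.GeneralLinearGroup I4 F) : Matrix I4 I4 F) *ᵥ u)
        = Cfsg.quadFormMinus 1 F 1 1 u := fun u => s.2 u u
    obtain ⟨σ, hσ⟩ := surj4' _ (iso_unmap e _ hiso)
    refine ⟨σ, ?_⟩
    apply Subtype.ext
    apply Units.ext
    rw [theta_val, hσ]
    ext a b
    simp

theorem main {F : Type*} [Field F] [Fintype F] (hF : Fintype.card F = 2) :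
    Nonempty (↥(Cfsg.isometryGroup F (Cfsg.quadFormMinus 1 F 1 1)) ≃* Equiv.Perm (Fin 5)) := by
  have e : ZMod 2 ≃+* F := ZMod.ringEquivOfPrime F Nat.prime_two hF
  exact ⟨(MulEquiv.ofBijective (theta e) (theta_bij e)).symm⟩

end field

end Cfsg.Agent.Lib.Helper3.O4m
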