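import Mathlib
import Cfsg.Prelude.Def_Classical
set_option autoImplicit false
namespace Cfsg.Agent.Lib.Helper3.O4p

open Matrix

abbrev I := Fin 2 ⊕ Fin 2

def idx : I → Fin 4 := Sum.elim (fun z => if z = 0 then 0 else 1) (fun z => if z = 0 then 2 else 3)

def lift4 (m : Matrix (Fin 4) (Fin 4) (ZMod 2)) : Matrix I I (ZMod 2) :=
  Matrix.of fun i j => m (idx i) (idx j)

def ta (σ : Equiv.Perm (Fin 3)) : Matrix I I (ZMod 2) :=
  lift4 (match (σ 0).val, (σ 1).val with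
  | 0, 1 => !![1, 0, 0, 0; 0, 1, 0, 0; 0, 0, 1, 0; 0, 0, 0, 1]
  | 0, 2 => !![1, 0, 0, 1; 0, 1, 1, 0; 0, 0, 1, 0; 0, 0, 0, 1]
  | 1, 0 => !![0, 0, 0, 1; 0, 0, 1, 0; 0, 1, 0, 0; 1, 0, 0, 0]
  | 1, 2 => !![0, 0, 0, 1; 0, 0, 1, 0; 0, 1, 1, 0; 1, 0, 0, 1]
  | 2, 0 => !![1, 0, 0, 1; 0, 1, 1, 0; 0, 1, 0, 0; 1, 0, 0, 0]
  | 2, 1 => !![1, 0, 0, 0; 0, 1, 0, 0; 0, 1, 1, 0; 1, 0, 0, 1]
  | _, _ => 1)

def tb (σ : Equiv.Perm (Fin 3)) : Matrix I I (ZMod 2) :=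
  lift4 (match (σ 0).val, (σ 1).val with
  | 0, 1 => !![1, 0, 0, 0; 0, 1, 0, 0; 0, 0, 1, 0; 0, 0, 0, 1]
  | 0, 2 => !![1, 1, 0, 0; 0, 1, 0, 0; 0, 0, 1, 0; 0, 0, 1, 1]
  | 1, 0 => !![0, 1, 0, 0; 1, 0, 0, 0; 0, 0, 0, 1; 0, 0, 1, 0]
  | 1, 2 => !![0, 1, 0, 0; 1, 1, 0, 0; 0, 0, 1, 1; 0, 0, 1, 0]
  | 2, 0 => !![1, 1, 0, 0; 1, 0, 0, 0; 0, 0, 0, 1; 0, 0, 1, 1]
  | 2, 1 => !![1, 0, 0, 0; 1, 1, 0, 0; 0, 0, 1, 1; 0, 0, 0, 1]
  | _, _ => 1)

def g0m : Matrix I I (ZMod 2) := lift4 !![1, 0, 0, 0; 0, 0, 0, 1; 0, 0, 1, 0; 0, 1, 0, 0]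

abbrev Qp : (I → ZMod 2) → ZMod 2 := Cfsg.quadFormPlus 2 (ZMod 2)

def vec4 (a b c d : ZMod 2) : I → ZMod 2 :=
  Sum.elim (fun z => if z = 0 then a else b) (fun z => if z = 0 then c else d)

def mat4 (a0 b0 c0 d0 a1 b1 c1 d1 a2 b2 c2 d2 a3 b3 c3 d3 : ZMod 2) : Matrix I I (ZMod 2) :=
  Matrix.of fun i j =>
    (Sum.elim (fun z => if z = 0 then vec4 a0 b0 c0 d0 else vec4 a1 b1 c1 d1)
      (fun z => if z = 0 then vec4 a2 b2 c2 d2 else vec4 a3 b3 c3 d3) j) i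

set_option maxRecDepth 100000 in
theorem ta_mul : ∀ σ τ : Equiv.Perm (Fin 3), ta (σ * τ) = ta σ * ta τ := by decide +kernel

set_option maxRecDepth 100000 in
theorem tb_mul : ∀ σ τ : Equiv.Perm (Fin 3), tb (σ * τ) = tb σ * tb τ := by decide +kernel

set_option maxRecDepth 100000 in
theorem ta_one : ta 1 = 1 := by decide +kernel

set_option maxRecDepth 100000 in
theorem tb_one : tb 1 = 1 := by decide +kernel

set_option maxRecDepth 100000 in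
theorem tcomm : ∀ σ τ : Equiv.Perm (Fin 3), ta σ * tb τ = tb τ * ta σ := by decide +kernel

set_option maxRecDepth 100000 in
theorem g0_sq : g0m * g0m = 1 := by decide +kernel

set_option maxRecDepth 100000 in
theorem tconj : ∀ σ : Equiv.Perm (Fin 3), g0m * ta σ * g0m = tb σ := by decide +kernel

set_option maxRecDepth 100000 in
theorem ta_iso : ∀ σ : Equiv.Perm (Fin 3), ∀ x y z w : ZMod 2,
    Qp (ta σ *ᵥ vec4 x y z w) = Qp (vec4 x y z w) := by decide +kernel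

set_option maxRecDepth 100000 in
theorem tb_iso : ∀ σ : Equiv.Perm (Fin 3), ∀ x y z w : ZMod 2,
    Qp (tb σ *ᵥ vec4 x y z w) = Qp (vec4 x y z w) := by decide +kernel

set_option maxRecDepth 100000 in
theorem g0_iso : ∀ x y z w : ZMod 2, Qp (g0m *ᵥ vec4 x y z w) = Qp (vec4 x y z w) := by
  decide +kernel

set_option maxRecDepth 100000 in
theorem tker : ∀ σ τ : Equiv.Perm (Fin 3), ta σ * tb τ = 1 → σ = 1 ∧ τ = 1 := by decide +kernel

set_option maxRecDepth 100000 in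
theorem tnotg : ∀ σ τ : Equiv.Perm (Fin 3), ta σ * tb τ ≠ g0m := by decide +kernel

set_option maxRecDepth 100000 in
set_option synthInstance.maxHeartbeats 4000000 in
set_option synthInstance.maxSize 40000 in
theorem surj : ∀ a0 b0 c0 d0 : ZMod 2, Qp (vec4 a0 b0 c0 d0) = 0 →
    ∀ a1 b1 c1 d1 : ZMod 2, Qp (vec4 a1 b1 c1 d1) = 0 →
      Qp (vec4 a0 b0 c0 d0 + vec4 a1 b1 c1 d1) = 0 →
    ∀ a2 b2 c2 d2 : ZMod 2, Qp (vec4 a2 b2 c2 d2) = 0 →
      Qp (vec4 a0 b0 c0 d0 + vec4 a2 b2 c2 d2) = 1 →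
      Qp (vec4 a1 b1 c1 d1 + vec4 a2 b2 c2 d2) = 0 →
    ∀ a3 b3 c3 d3 : ZMod 2, Qp (vec4 a3 b3 c3 d3) = 0 →
      Qp (vec4 a0 b0 c0 d0 + vec4 a3 b3 c3 d3) = 0 →
      Qp (vec4 a1 b1 c1 d1 + vec4 a3 b3 c3 d3) = 1 →
      Qp (vec4 a2 b2 c2 d2 + vec4 a3 b3 c3 d3) = 0 →
    ∃ σ τ : Equiv.Perm (Fin 3),
      mat4 a0 b0 c0 d0 a1 b1 c1 d1 a2 b2 c2 d2 a3 b3 c3 d3 = ta σ * tb τ ∨
      mat4 a0 b0 c0 d0 a1 b1 c1 d1 a2 b2 c2 d2 a3 b3 c3 d3 = ta σ * tb τ * g0m := by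
  decide +kernel

set_option maxRecDepth 100000 in
theorem Q_basis : Qp (Pi.single (Sum.inl 0) 1) = 0 ∧ Qp (Pi.single (Sum.inl 1) 1) = 0 ∧
    Qp (Pi.single (Sum.inr 0) 1) = 0 ∧ Qp (Pi.single (Sum.inr 1) 1) = 0 ∧
    Qp (Pi.single (Sum.inl 0) 1 + Pi.single (Sum.inl 1) 1) = 0 ∧
    Qp (Pi.single (Sum.inl 0) 1 + Pi.single (Sum.inr 0) 1) = 1 ∧
    Qp (Pi.single (Sum.inl 1) 1 + Pi.single (Sum.inr 0) 1) = 0 ∧
    Qp (Pi.single (Sum.inl 0) 1 + Pi.single (Sum.inr 1) 1) = 0 ∧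
    Qp (Pi.single (Sum.inl 1) 1 + Pi.single (Sum.inr 1) 1) = 1 ∧
    Qp (Pi.single (Sum.inr 0) 1 + Pi.single (Sum.inr 1) 1) = 0 := by decide +kernel

theorem fin2_cases (z : Fin 2) : z = 0 ∨ z = 1 := by
  fin_cases z
  · exact Or.inl rfl
  · exact Or.inr rfl

theorem vec_eta (w : I → ZMod 2) :
    w = vec4 (w (Sum.inl 0)) (w (Sum.inl 1)) (w (Sum.inr 0)) (w (Sum.inr 1)) := by
  funext i
  rcases i with z | z
  · rcases fin2_cases z with rfl | rfl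
    · rfl
    · rfl
  · rcases fin2_cases z with rfl | rfl
    · rfl
    · rfl

theorem mat_eta (M : Matrix I I (ZMod 2)) :
    M = mat4 (M (Sum.inl 0) (Sum.inl 0)) (M (Sum.inl 1) (Sum.inl 0)) (M (Sum.inr 0) (Sum.inl 0))
          (M (Sum.inr 1) (Sum.inl 0))
          (M (Sum.inl 0) (Sum.inl 1)) (M (Sum.inl 1) (Sum.inl 1)) (M (Sum.inr 0) (Sum.inl 1))
          (M (Sum.inr 1) (Sum.inl 1))
          (M (Sum.inl 0) (Sum.inr 0)) (M (Sum.inl 1) (Sum.inr 0)) (M (Sum.inr 0) (Sum.inr 0))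
          (M (Sum.inr 1) (Sum.inr 0))
          (M (Sum.inl 0) (Sum.inr 1)) (M (Sum.inl 1) (Sum.inr 1)) (M (Sum.inr 0) (Sum.inr 1))
          (M (Sum.inr 1) (Sum.inr 1)) := by
  ext i j
  rcases j with z | z
  · rcases fin2_cases z with rfl | rfl
    · exact congrFun (vec_eta (fun i => M i (Sum.inl 0))) i
    · exact congrFun (vec_eta (fun i => M i (Sum.inl 1))) i
  · rcases fin2_cases z with rfl | rfl
    · exact congrFun (vec_eta (fun i => M i (Sum.inr 0))) i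
    · exact congrFun (vec_eta (fun i => M i (Sum.inr 1))) i

theorem col_eq (M : Matrix I I (ZMod 2)) (j : I) :
    vec4 (M (Sum.inl 0) j) (M (Sum.inl 1) j) (M (Sum.inr 0) j) (M (Sum.inr 1) j)
      = M *ᵥ Pi.single j 1 := by
  rw [Matrix.mulVec_single_one]
  exact (vec_eta (fun i => M i j)).symm

/-- Every isometry is a product of the two factors, possibly times the swap. -/
theorem surj' (M : Matrix I I (ZMod 2)) (hiso : ∀ w : I → ZMod 2, Qp (M *ᵥ w) = Qp w) :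
    ∃ σ τ : Equiv.Perm (Fin 3), M = ta σ * tb τ ∨ M = ta σ * tb τ * g0m := by
  obtain ⟨q0, q1, q2, q3, q01, q02, q12, q03, q13, q23⟩ := Q_basis
  have h1 : ∀ j, Qp (vec4 (M (Sum.inl 0) j) (M (Sum.inl 1) j) (M (Sum.inr 0) j) (M (Sum.inr 1) j))
      = Qp (Pi.single j 1) := fun j => by rw [col_eq, hiso]
  have h2 : ∀ i j, Qp (vec4 (M (Sum.inl 0) i) (M (Sum.inl 1) i) (M (Sum.inr 0) i) (M (Sum.inr 1) i)
      + vec4 (M (Sum.inl 0) j) (M (Sum.inl 1) j) (M (Sum.inr 0) j) (M (Sum.inr 1) j))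
      = Qp (Pi.single i 1 + Pi.single j 1) := fun i j => by
    rw [col_eq, col_eq, ← Matrix.mulVec_add, hiso]
  have h := surj _ _ _ _ ((h1 _).trans q0) _ _ _ _ ((h1 _).trans q1) ((h2 _ _).trans q01)
    _ _ _ _ ((h1 _).trans q2) ((h2 _ _).trans q02) ((h2 _ _).trans q12)
    _ _ _ _ ((h1 _).trans q3) ((h2 _ _).trans q03) ((h2 _ _).trans q13) ((h2 _ _).trans q23)
  rw [← mat_eta M] at h
  exact h


abbrev G := ↥(Cfsg.isometryGroup (ZMod 2) (Cfsg.quadFormPlus 2 (ZMod 2)))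

def mt (x : G) : Matrix I I (ZMod 2) :=
  ((x : Matrix.GeneralLinearGroup I (ZMod 2)) : Matrix I I (ZMod 2))

theorem mt_mul (x y : G) : mt (x * y) = mt x * mt y := rfl
theorem mt_one : mt (1 : G) = 1 := rfl
theorem mt_inj {x y : G} (h : mt x = mt y) : x = y := Subtype.ext (Units.ext h)
theorem mt_iso (x : G) (w : I → ZMod 2) : Qp (mt x *ᵥ w) = Qp w := x.2 w w

theorem iso_of (M : Matrix I I (ZMod 2))
    (h : ∀ x y z w : ZMod 2, Qp (M *ᵥ vec4 x y z w) = Qp (vec4 x y z w)) (w : I → ZMod 2) :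
    Qp (M *ᵥ w) = Qp w := by
  rw [vec_eta w]; exact h _ _ _ _

def psiA : Equiv.Perm (Fin 3) →* Matrix I I (ZMod 2) where
  toFun := ta
  map_one' := ta_one
  map_mul' := ta_mul

def psiB : Equiv.Perm (Fin 3) →* Matrix I I (ZMod 2) where
  toFun := tb
  map_one' := tb_one
  map_mul' := tb_mul

def alphaG : Equiv.Perm (Fin 3) →* G :=
  (psiA.toHomUnits).codRestrict _ (fun σ => by
    intro u v
    show Qp ((((psiA.toHomUnits σ : (Matrix I I (ZMod 2))ˣ)) : Matrix I I (ZMod 2)) *ᵥ u) = Qp u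
    rw [MonoidHom.coe_toHomUnits]
    exact iso_of (ta σ) (ta_iso σ) u)

def betaG : Equiv.Perm (Fin 3) →* G :=
  (psiB.toHomUnits).codRestrict _ (fun σ => by
    intro u v
    show Qp ((((psiB.toHomUnits σ : (Matrix I I (ZMod 2))ˣ)) : Matrix I I (ZMod 2)) *ᵥ u) = Qp u
    rw [MonoidHom.coe_toHomUnits]
    exact iso_of (tb σ) (tb_iso σ) u)

theorem mt_alpha (σ : Equiv.Perm (Fin 3)) : mt (alphaG σ) = ta σ := rfl
theorem mt_beta (σ : Equiv.Perm (Fin 3)) : mt (betaG σ) = tb σ := rfl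

def g0G : G := ⟨⟨g0m, g0m, g0_sq, g0_sq⟩, fun u v => by
    show Qp (g0m *ᵥ u) = Qp u
    exact iso_of g0m g0_iso u⟩

theorem mt_g0 : mt g0G = g0m := rfl

theorem comm (σ τ : Equiv.Perm (Fin 3)) : Commute (alphaG σ) (betaG τ) := by
  show alphaG σ * betaG τ = betaG τ * alphaG σ
  exact mt_inj (tcomm σ τ)

theorem g0_mul : g0G * g0G = 1 := mt_inj g0_sq

theorem g0_inv : g0G⁻¹ = g0G := inv_eq_of_mul_eq_one_right g0_mul

theorem conjG (σ : Equiv.Perm (Fin 3)) : g0G * alphaG σ * g0G⁻¹ = betaG σ := by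
  rw [g0_inv]; exact mt_inj (tconj σ)

def gammaG : Equiv.Perm (Fin 3) × Equiv.Perm (Fin 3) →* G :=
  MonoidHom.noncommCoprod alphaG betaG comm

theorem gamma_apply (σ τ : Equiv.Perm (Fin 3)) : gammaG (σ, τ) = alphaG σ * betaG τ :=
  MonoidHom.noncommCoprod_apply _ _ _ _

theorem gamma_inj : Function.Injective gammaG := by
  rw [injective_iff_map_eq_one]
  rintro ⟨σ, τ⟩ h
  rw [gamma_apply] at h
  have h' : ta σ * tb τ = 1 := congrArg mt h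
  obtain ⟨h1, h2⟩ := tker σ τ h'
  rw [h1, h2]; rfl

theorem g0_not_mem : g0G ∉ gammaG.range := by
  rintro ⟨⟨σ, τ⟩, h⟩
  rw [gamma_apply] at h
  exact tnotg σ τ (congrArg mt h)

theorem cover (b : G) : b ∈ gammaG.range ∨ b * g0G ∈ gammaG.range := by
  obtain ⟨σ, τ, h | h⟩ := surj' (mt b) (mt_iso b)
  · left
    exact ⟨(σ, τ), by rw [gamma_apply]; exact mt_inj h.symm⟩
  · right
    refine ⟨(σ, τ), ?_⟩
    rw [gamma_apply]
    apply mt_inj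
    show ta σ * tb τ = mt b * g0m
    rw [h, Matrix.mul_assoc (ta σ * tb τ), g0_sq, Matrix.mul_one]

theorem main :
    Nat.card G = 72 ∧
    ∃ (A B : Subgroup G),
      Nonempty (↥A ≃* Equiv.Perm (Fin 3)) ∧ Nonempty (↥B ≃* Equiv.Perm (Fin 3)) ∧ A ⊓ B = ⊥ ∧
      (∀ a ∈ A, ∀ b ∈ B, a * b = b * a) ∧
      (A ⊔ B).index = 2 ∧ ∃ g : G, A.map (MulAut.conj g).toMonoidHom = B := by
  have hrange : gammaG.range = alphaG.range ⊔ betaG.range := MonoidHom.noncommCoprod_range _ _ _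
  have hidx : (gammaG.range).index = 2 := by
    rw [Subgroup.index_eq_two_iff]
    refine ⟨g0G, fun b => ?_⟩
    rcases cover b with h | h
    · right
      refine ⟨h, fun h2 => g0_not_mem ?_⟩
      have := gammaG.range.mul_mem (gammaG.range.inv_mem h) h2
      rwa [inv_mul_cancel_left] at this
    · left
      refine ⟨h, fun h2 => g0_not_mem ?_⟩
      have := gammaG.range.mul_mem (gammaG.range.inv_mem h2) h
      rwa [inv_mul_cancel_left] at this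
  have hcardN : Nat.card gammaG.range = 36 := by
    rw [← Nat.card_congr (MonoidHom.ofInjective gamma_inj).toEquiv, Nat.card_prod, Nat.card_perm]
    simp [Nat.factorial]
  have hαinj : Function.Injective alphaG := by
    intro σ τ h
    have : gammaG (σ, 1) = gammaG (τ, 1) := by rw [gamma_apply, gamma_apply, h]
    exact (Prod.mk.inj (gamma_inj this)).1
  have hβinj : Function.Injective betaG := by
    intro σ τ h
    have : gammaG (1, σ) = gammaG (1, τ) := by rw [gamma_apply, gamma_apply, h]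
    exact (Prod.mk.inj (gamma_inj this)).2
  refine ⟨?_, alphaG.range, betaG.range, ⟨(MonoidHom.ofInjective hαinj).symm⟩,
    ⟨(MonoidHom.ofInjective hβinj).symm⟩, ?_, ?_, ?_, g0G, ?_⟩
  · rw [← Subgroup.index_mul_card gammaG.range, hidx, hcardN]
  · rw [eq_bot_iff]
    intro x hx
    obtain ⟨⟨σ, hσ⟩, ⟨τ, hτ⟩⟩ := Subgroup.mem_inf.mp hx
    have h1 : gammaG (σ, τ⁻¹) = 1 := by
      rw [gamma_apply, hσ, ← hτ, ← map_mul, mul_inv_cancel, map_one]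
    have h2 := gamma_inj (h1.trans (map_one gammaG).symm)
    have h3 : σ = 1 := (Prod.mk.inj h2).1
    rw [Subgroup.mem_bot, ← hσ, h3, map_one]
  · rintro a ⟨σ, rfl⟩ b ⟨τ, rfl⟩
    exact comm σ τ
  · rw [← hrange]; exact hidx
  · rw [MonoidHom.map_range]
    congr 1
    ext σ : 1
    exact conjG σ

end Cfsg.Agent.Lib.Helper3.O4p
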