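import Mathlib
import Cfsg.Prelude.Def_PLocal
set_option autoImplicit false
namespace Cfsg.Agent.Lib.Helper3.Qd2

abbrev S3 := Matrix.SpecialLinearGroup (Fin 3) (ZMod 2)

/-- A table of the affine maps of the plane over the field of two elements. -/
def tab (σ : Equiv.Perm (Fin 4)) : Matrix (Fin 3) (Fin 3) (ZMod 2) :=
  match (σ 0).val, (σ 1).val, (σ 2).val with
  | 0, 1, 2 => !![1, 0, 0; 0, 1, 0; 0, 0, 1]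
  | 0, 1, 3 => !![1, 1, 0; 0, 1, 0; 0, 0, 1]
  | 0, 2, 1 => !![0, 1, 0; 1, 0, 0; 0, 0, 1]
  | 0, 2, 3 => !![0, 1, 0; 1, 1, 0; 0, 0, 1]
  | 0, 3, 1 => !![1, 1, 0; 1, 0, 0; 0, 0, 1]
  | 0, 3, 2 => !![1, 0, 0; 1, 1, 0; 0, 0, 1]
  | 1, 0, 2 => !![1, 1, 1; 0, 1, 0; 0, 0, 1]
  | 1, 0, 3 => !![1, 0, 1; 0, 1, 0; 0, 0, 1]
  | 1, 2, 0 => !![1, 1, 1; 1, 0, 0; 0, 0, 1]
  | 1, 2, 3 => !![1, 0, 1; 1, 1, 0; 0, 0, 1]
  | 1, 3, 0 => !![0, 1, 1; 1, 0, 0; 0, 0, 1]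
  | 1, 3, 2 => !![0, 1, 1; 1, 1, 0; 0, 0, 1]
  | 2, 0, 1 => !![0, 1, 0; 1, 1, 1; 0, 0, 1]
  | 2, 0, 3 => !![0, 1, 0; 1, 0, 1; 0, 0, 1]
  | 2, 1, 0 => !![1, 0, 0; 1, 1, 1; 0, 0, 1]
  | 2, 1, 3 => !![1, 1, 0; 1, 0, 1; 0, 0, 1]
  | 2, 3, 0 => !![1, 0, 0; 0, 1, 1; 0, 0, 1]
  | 2, 3, 1 => !![1, 1, 0; 0, 1, 1; 0, 0, 1]
  | 3, 0, 1 => !![1, 0, 1; 1, 1, 1; 0, 0, 1]
  | 3, 0, 2 => !![1, 1, 1; 1, 0, 1; 0, 0, 1]
  | 3, 1, 0 => !![0, 1, 1; 1, 1, 1; 0, 0, 1]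
  | 3, 1, 2 => !![0, 1, 1; 1, 0, 1; 0, 0, 1]
  | 3, 2, 0 => !![1, 1, 1; 0, 1, 1; 0, 0, 1]
  | 3, 2, 1 => !![1, 0, 1; 0, 1, 1; 0, 0, 1]
  | _, _, _ => 1

set_option maxRecDepth 100000 in
theorem tab_det : ∀ σ : Equiv.Perm (Fin 4), (tab σ).det = 1 := by decide +kernel

def psiSL (σ : Equiv.Perm (Fin 4)) : S3 := ⟨tab σ, tab_det σ⟩

set_option maxRecDepth 100000 in
theorem psiSL_mul : ∀ σ τ : Equiv.Perm (Fin 4), psiSL (σ * τ) = psiSL σ * psiSL τ := by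
  decide +kernel

set_option maxRecDepth 100000 in
theorem psiSL_inj : ∀ σ τ : Equiv.Perm (Fin 4), psiSL σ = psiSL τ → σ = τ := by decide +kernel

set_option maxRecDepth 100000 in
theorem psiSL_mem : ∀ σ : Equiv.Perm (Fin 4),
    (psiSL σ : Matrix (Fin 3) (Fin 3) (ZMod 2)) 2 0 = 0 ∧
    (psiSL σ : Matrix (Fin 3) (Fin 3) (ZMod 2)) 2 1 = 0 ∧
    (psiSL σ : Matrix (Fin 3) (Fin 3) (ZMod 2)) 2 2 = 1 := by decide +kernel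

set_option maxRecDepth 100000 in
set_option synthInstance.maxHeartbeats 400000 in
set_option synthInstance.maxSize 4000 in
theorem psiSL_surj : ∀ M : S3,
    (M : Matrix (Fin 3) (Fin 3) (ZMod 2)) 2 0 = 0 →
    (M : Matrix (Fin 3) (Fin 3) (ZMod 2)) 2 1 = 0 →
    (M : Matrix (Fin 3) (Fin 3) (ZMod 2)) 2 2 = 1 →
    ∃ σ : Equiv.Perm (Fin 4), psiSL σ = M := by decide +kernel

def psi : Equiv.Perm (Fin 4) →* S3 := MonoidHom.mk' psiSL psiSL_mul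

theorem psi_apply (σ : Equiv.Perm (Fin 4)) : psi σ = psiSL σ := rfl

theorem psi_injective : Function.Injective psi := fun σ τ h => psiSL_inj σ τ h

theorem range_eq : psi.range = Cfsg.qd 2 := by
  apply le_antisymm
  · rintro _ ⟨σ, rfl⟩
    exact Subgroup.subset_closure (psiSL_mem σ)
  · unfold Cfsg.qd
    rw [Subgroup.closure_le]
    rintro M ⟨h1, h2, h3⟩
    obtain ⟨σ, hσ⟩ := psiSL_surj M h1 h2 h3
    exact ⟨σ, hσ⟩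

theorem qd_iso : Nonempty (↥(Cfsg.qd 2) ≃* Equiv.Perm (Fin 4)) :=
  ⟨((MonoidHom.ofInjective psi_injective).trans (MulEquiv.subgroupCongr range_eq)).symm⟩

end Cfsg.Agent.Lib.Helper3.Qd2
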