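import Mathlib
set_option autoImplicit false
namespace Cfsg.Agent.Lib.Helper3.SL23

abbrev G3 := Matrix.SpecialLinearGroup (Fin 2) (ZMod 3)

def Amat : G3 := ⟨!![0, -1; 1, 0], by decide⟩
def Xmat : G3 := ⟨!![1, 1; 1, -1], by decide⟩

def qf : QuaternionGroup 2 → G3
  | QuaternionGroup.a i => Amat ^ i.val
  | QuaternionGroup.xa i => Xmat * Amat ^ i.val

set_option maxRecDepth 100000 in
theorem qf_mul : ∀ x y : QuaternionGroup 2, qf (x * y) = qf x * qf y := by decide +kernel

set_option maxRecDepth 100000 in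
theorem qf_inj : ∀ x y : QuaternionGroup 2, qf x = qf y → x = y := by decide +kernel

set_option maxRecDepth 100000 in
theorem qf_mem : ∀ x : QuaternionGroup 2, (qf x) ^ 4 = 1 := by decide +kernel

set_option maxRecDepth 100000 in
theorem t_card : Fintype.card G3 = 24 := by decide +kernel

set_option maxRecDepth 100000 in
theorem t_mul : ∀ a b : G3, a ^ 4 = 1 → b ^ 4 = 1 → (a * b) ^ 4 = 1 := by decide +kernel

set_option maxRecDepth 100000 in
theorem t_inv : ∀ a : G3, a ^ 4 = 1 → (a⁻¹) ^ 4 = 1 := by decide +kernel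

set_option maxRecDepth 100000 in
theorem t_comm : ∀ a b : G3, (a * b * a⁻¹ * b⁻¹) ^ 4 = 1 := by decide +kernel

set_option maxRecDepth 100000 in
theorem t_card8 : (Finset.univ.filter (fun g : G3 => g ^ 4 = 1)).card = 8 := by decide +kernel

set_option maxRecDepth 100000 in
theorem t_card2 : (Finset.univ.filter (fun g : G3 => g ^ 2 = 1)).card = 2 := by decide +kernel

set_option maxRecDepth 100000 in
theorem t_6 : ∀ a : G3, a ^ 4 ≠ 1 → (a ^ 2) ^ 3 = 1 ∧ a ^ 2 ≠ 1 := by decide +kernel

set_option maxRecDepth 100000 in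
set_option synthInstance.maxHeartbeats 400000 in
set_option synthInstance.maxSize 4000 in
theorem t_conj : ∀ x y : G3, x ^ 4 = 1 → x ^ 2 ≠ 1 → y ^ 4 = 1 → y ^ 2 ≠ 1 →
    ∃ g : G3, g * x = y * g := by decide +kernel

set_option maxRecDepth 100000 in
theorem t_sq : ∀ x y : G3, x ^ 4 = 1 → x ^ 2 ≠ 1 → y ^ 2 = 1 → y = 1 ∨ y = x ^ 2 := by
  decide +kernel

set_option maxRecDepth 100000 in
theorem t_u : ∀ u : G3, u ^ 4 ≠ 1 → ∃ g : G3, (g * u * g⁻¹ * u⁻¹) ^ 2 ≠ 1 := by decide +kernel

set_option maxRecDepth 100000 in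
theorem t_center : ∀ g : G3, g ^ 2 = 1 ↔ ∀ h : G3, h * g = g * h := by decide +kernel

set_option maxRecDepth 100000 in
theorem t_two : ∀ g h : G3, g ^ 2 = 1 → g ≠ 1 → h ^ 2 = 1 → h = 1 ∨ h = g := by
  decide +kernel

set_option maxRecDepth 100000 in
theorem t_ex : ∃ a b : G3, (a * b * a⁻¹ * b⁻¹) ^ 2 ≠ 1 := by decide +kernel


/-- The subgroup of elements of order dividing four. -/
def Q8 : Subgroup G3 where
  carrier := {g | g ^ 4 = 1}
  mul_mem' := fun {a b} ha hb => t_mul a b ha hb
  one_mem' := by simp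
  inv_mem' := fun {a} ha => t_inv a ha

theorem mem_Q8 (g : G3) : g ∈ Q8 ↔ g ^ 4 = 1 := Iff.rfl

theorem card_of_iff (H : Subgroup G3) (p : G3 → Prop) [DecidablePred p]
    (h : ∀ g, g ∈ H ↔ p g) : Nat.card H = (Finset.univ.filter p).card := by
  rw [← Fintype.card_subtype, ← Nat.card_eq_fintype_card]
  exact Nat.card_congr (Equiv.subtypeEquivRight h)

theorem card_Q8 : Nat.card Q8 = 8 := by
  rw [card_of_iff Q8 (fun g => g ^ 4 = 1) (fun g => mem_Q8 g)]; exact t_card8

theorem mem_center_iff' (g : G3) : g ∈ Subgroup.center G3 ↔ g ^ 2 = 1 := by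
  rw [Subgroup.mem_center_iff, t_center]

theorem card_center : Nat.card (Subgroup.center G3) = 2 := by
  rw [card_of_iff (Subgroup.center G3) (fun g => g ^ 2 = 1) (fun g => mem_center_iff' g)]
  exact t_card2

theorem card_G3 : Nat.card G3 = 24 := by
  rw [Nat.card_eq_fintype_card]; exact t_card

/-- A normal subgroup containing an element of order four contains `Q8`. -/
theorem Q8_le (N : Subgroup G3) [N.Normal] (x : G3) (hx : x ∈ N) (h4 : x ^ 4 = 1)
    (h2 : x ^ 2 ≠ 1) : Q8 ≤ N := by
  intro y hy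
  rw [mem_Q8] at hy
  by_cases hy2 : y ^ 2 = 1
  · rcases t_sq x y h4 h2 hy2 with h | h
    · rw [h]; exact N.one_mem
    · rw [h]; exact N.pow_mem hx 2
  · obtain ⟨g, hg⟩ := t_conj x y h4 h2 hy hy2
    have : y = g * x * g⁻¹ := by rw [hg]; group
    rw [this]
    exact Subgroup.Normal.conj_mem inferInstance x hx g

/-- A normal subgroup containing an element outside `Q8` is everything. -/
theorem eq_top_of (N : Subgroup G3) [N.Normal] (u : G3) (hu : u ∈ N) (h4 : u ^ 4 ≠ 1) :
    N = ⊤ := by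
  obtain ⟨g, hg⟩ := t_u u h4
  have hx : g * u * g⁻¹ * u⁻¹ ∈ N :=
    N.mul_mem (Subgroup.Normal.conj_mem inferInstance u hu g) (N.inv_mem hu)
  have hQ : Q8 ≤ N := Q8_le N _ hx (t_comm g u) hg
  have h8 : 8 ∣ Nat.card N := by
    rw [← card_Q8]; exact Subgroup.card_dvd_of_le hQ
  obtain ⟨h63, h61⟩ := t_6 u h4
  have h3 : 3 ∣ Nat.card N := by
    have ho : orderOf (u ^ 2) = 3 := by
      have : Fact (Nat.Prime 3) := ⟨by norm_num⟩
      exact orderOf_eq_prime h63 h61
    have hmem : u ^ 2 ∈ N := N.pow_mem hu 2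
    have := Subgroup.orderOf_dvd_natCard N hmem
    rwa [ho] at this
  have h24 : 24 ∣ Nat.card N := by
    have : Nat.Coprime 8 3 := by norm_num
    exact this.mul_dvd_of_dvd_of_dvd h8 h3
  have hN : Nat.card N ∣ 24 := by
    rw [← card_G3]; exact Subgroup.card_subgroup_dvd_card N
  have : Nat.card N = Nat.card G3 := by
    rw [card_G3]; exact Nat.dvd_antisymm hN h24
  exact Subgroup.eq_top_of_card_eq N this

theorem normal_cases (N : Subgroup G3) [N.Normal] :
    N = ⊥ ∨ N = ⊤ ∨ N = Subgroup.center G3 ∨ N = Q8 := by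
  by_cases h1 : ∃ u ∈ N, u ^ 4 ≠ 1
  · obtain ⟨u, hu, h4⟩ := h1
    exact Or.inr (Or.inl (eq_top_of N u hu h4))
  · push Not at h1
    by_cases h2 : ∃ x ∈ N, x ^ 2 ≠ 1
    · obtain ⟨x, hx, hx2⟩ := h2
      refine Or.inr (Or.inr (Or.inr (le_antisymm (fun y hy => h1 y hy) ?_)))
      exact Q8_le N x hx (h1 x hx) hx2
    · push Not at h2
      by_cases h3 : N = ⊥
      · exact Or.inl h3
      · refine Or.inr (Or.inr (Or.inl ?_))
        obtain ⟨g, hg1⟩ := (Subgroup.ne_bot_iff_exists_ne_one).mp h3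
        have hg1' : (g : G3) ≠ 1 := fun h => hg1 (Subtype.ext h)
        apply le_antisymm
        · intro y hy
          rw [mem_center_iff']
          exact h2 y hy
        · intro y hy
          rw [mem_center_iff'] at hy
          rcases t_two g y (h2 g g.2) hg1' hy with h | h
          · rw [h]; exact N.one_mem
          · rw [h]; exact g.2

theorem commutator_eq : commutator G3 = Q8 := by
  apply le_antisymm
  · rw [commutator_def, Subgroup.commutator_le]
    intro a _ b _
    rw [mem_Q8, commutatorElement_def]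
    exact t_comm a b
  · obtain ⟨a, b, hab⟩ := t_ex
    have hmem : a * b * a⁻¹ * b⁻¹ ∈ commutator G3 := by
      rw [commutator_def, ← commutatorElement_def]
      exact Subgroup.commutator_mem_commutator (Subgroup.mem_top a) (Subgroup.mem_top b)
    exact Q8_le (commutator G3) _ hmem (t_comm a b) hab

/-- The quaternion group as `Q8`. -/
noncomputable def qHom : QuaternionGroup 2 →* Q8 :=
  (MonoidHom.mk' qf qf_mul).codRestrict Q8 (fun x => qf_mem x)

theorem qHom_bij : Function.Bijective qHom := by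
  have hinj : Function.Injective qHom := by
    intro x y hxy
    have : qf x = qf y := congrArg Subtype.val hxy
    exact qf_inj x y this
  refine (Nat.bijective_iff_injective_and_card qHom).mpr ⟨hinj, ?_⟩
  rw [card_Q8, Nat.card_eq_fintype_card, QuaternionGroup.card]

theorem Q8_iso : Nonempty (Q8 ≃* QuaternionGroup 2) :=
  ⟨(MulEquiv.ofBijective qHom qHom_bij).symm⟩

theorem sylow_compl (P : Sylow 3 G3) : Subgroup.IsComplement' Q8 (P : Subgroup G3) := by
  have : Fact (Nat.Prime 3) := ⟨by norm_num⟩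
  have hP : Nat.card (P : Subgroup G3) = 3 := by
    have h1 := P.card_eq_multiplicity
    rw [card_G3] at h1
    rw [h1]
    have : (24 : ℕ).factorization 3 = 1 := by
      have h24 : (24 : ℕ) = 3 ^ 1 * 8 := by norm_num
      rw [h24, Nat.factorization_mul (by norm_num) (by norm_num)]
      simp [Nat.Prime.factorization_self (by norm_num : Nat.Prime 3),
        Nat.factorization_eq_zero_of_not_dvd (by norm_num : ¬ 3 ∣ 8)]
    rw [this]; norm_num
  apply Subgroup.isComplement'_of_coprime
  · rw [card_Q8, hP, card_G3]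
  · rw [card_Q8, hP]; norm_num

end Cfsg.Agent.Lib.Helper3.SL23
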