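import Mathlib
import Cfsg.Prelude.Def_Solvable
import Cfsg.Prelude.Def_Local
import Cfsg.Agent.Lib.Helper3.SL23
import Cfsg.Agent.Lib.Helper3.Cores
import Cfsg.Agent.Lib.Helper3.PPrimeP

set_option autoImplicit false
namespace Cfsg.Agent.Lib.Helper3.SL23

def Umat : G3 := ⟨!![1, 1; 0, 1], by decide⟩

set_option maxRecDepth 100000 in
theorem Umat_pow : Umat ^ 3 = 1 := by decide +kernel

set_option maxRecDepth 100000 in
theorem Umat_ne : Umat ≠ 1 := by decide +kernel

set_option maxRecDepth 100000 in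
theorem t_cent : ∀ g : G3, (∀ h : G3, h ^ 4 = 1 → h * g = g * h) → g ^ 4 = 1 := by
  decide +kernel

theorem card_top_G3 : Nat.card (⊤ : Subgroup G3) = 24 := by
  rw [Subgroup.card_top]; exact card_G3

theorem pPrimeCore_eq_bot : Cfsg.pPrimeCore 2 G3 = ⊥ := by
  unfold Cfsg.pPrimeCore
  rw [sSup_eq_bot]
  rintro N ⟨hN, hco⟩
  have := hN
  rcases normal_cases N with h | h | h | h
  · exact h
  · rw [h, card_top_G3] at hco; exact absurd hco (by decide)
  · rw [h, card_center] at hco; exact absurd hco (by decide)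
  · rw [h, card_Q8] at hco; exact absurd hco (by decide)

theorem Q8_isPGroup : IsPGroup 2 Q8 := by
  have : Fact (Nat.Prime 2) := ⟨Nat.prime_two⟩
  exact IsPGroup.of_card (n := 3) (by rw [card_Q8]; norm_num)

theorem Q8_normal : Q8.Normal := by
  rw [← commutator_eq]; infer_instance

theorem pPrimePCore_eq : Cfsg.pPrimePCore 2 G3 = Q8 := by
  have hfact : Fact (Nat.Prime 2) := ⟨Nat.prime_two⟩
  have hMn : (Cfsg.pPrimePCore 2 G3).Normal := pPrimePCore_normal' 2 G3
  have := Q8_normal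
  have hle : Q8 ≤ Cfsg.pPrimePCore 2 G3 := by
    intro x hx
    unfold Cfsg.pPrimePCore
    rw [Subgroup.mem_comap]
    have hn : (Q8.map (QuotientGroup.mk' (Cfsg.pPrimeCore 2 G3))).Normal :=
      Subgroup.Normal.map inferInstance _ (QuotientGroup.mk'_surjective _)
    have hp : IsPGroup 2 (Q8.map (QuotientGroup.mk' (Cfsg.pPrimeCore 2 G3))) :=
      Q8_isPGroup.map _
    exact (le_pCore _ hp) (Subgroup.mem_map_of_mem _ hx)
  have hne : Cfsg.pPrimePCore 2 G3 ≠ ⊤ := by
    intro htop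
    have hu : Umat ∈ Cfsg.pPrimePCore 2 G3 := by rw [htop]; exact Subgroup.mem_top _
    unfold Cfsg.pPrimePCore at hu
    rw [Subgroup.mem_comap] at hu
    have hpg := pCore_isPGroup 2 (G3 ⧸ Cfsg.pPrimeCore 2 G3)
    obtain ⟨k, hk⟩ := hpg ⟨_, hu⟩
    have hk' : (QuotientGroup.mk' (Cfsg.pPrimeCore 2 G3) Umat) ^ 2 ^ k = 1 := by
      have := congrArg Subtype.val hk
      simpa using this
    have h3 : (QuotientGroup.mk' (Cfsg.pPrimeCore 2 G3) Umat) ^ 3 = 1 := by
      rw [← map_pow, Umat_pow, map_one]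
    have h1 : QuotientGroup.mk' (Cfsg.pPrimeCore 2 G3) Umat = 1 := by
      have d1 := orderOf_dvd_of_pow_eq_one hk'
      have d2 := orderOf_dvd_of_pow_eq_one h3
      have hcop : Nat.Coprime (2 ^ k) 3 := Nat.Coprime.pow_left k (by norm_num)
      have := Nat.eq_one_of_dvd_coprimes hcop d1 d2
      exact orderOf_eq_one_iff.mp this
    have hmem : Umat ∈ Cfsg.pPrimeCore 2 G3 := (QuotientGroup.eq_one_iff Umat).mp h1
    rw [pPrimeCore_eq_bot, Subgroup.mem_bot] at hmem
    exact Umat_ne hmem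
  rcases normal_cases (Cfsg.pPrimePCore 2 G3) with h | h | h | h
  · exfalso
    have := Subgroup.card_dvd_of_le hle
    rw [h, card_Q8, Subgroup.card_bot] at this
    exact absurd this (by decide)
  · exact absurd h hne
  · exfalso
    have := Subgroup.card_dvd_of_le hle
    rw [h, card_Q8, card_center] at this
    exact absurd this (by decide)
  · exact h

theorem constrained_of (M : Subgroup G3) (hM : M = Q8) (P : Sylow 2 ↥M) :
    Subgroup.centralizer (((P : Subgroup ↥M).map M.subtype : Subgroup G3) : Set G3) ≤ M := by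
  subst hM
  have hfact : Fact (Nat.Prime 2) := ⟨Nat.prime_two⟩
  have hPtop : (P : Subgroup ↥Q8) = ⊤ := by
    have hT : IsPGroup 2 (⊤ : Subgroup ↥Q8) := by
      intro ⟨g, _⟩
      obtain ⟨k, hk⟩ := Q8_isPGroup g
      exact ⟨k, Subtype.ext (by simpa using hk)⟩
    exact (P.is_maximal' hT le_top).symm
  intro g hg
  rw [Subgroup.mem_centralizer_iff] at hg
  rw [mem_Q8]
  apply t_cent
  intro h hh
  apply hg
  refine ⟨⟨h, hh⟩, ?_, rfl⟩
  rw [SetLike.mem_coe, hPtop]
  exact Subgroup.mem_top _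

theorem isPConstrained : Cfsg.IsPConstrained 2 G3 := by
  intro P
  exact constrained_of _ pPrimePCore_eq P

end Cfsg.Agent.Lib.Helper3.SL23
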