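import Mathlib
import Cfsg.Prelude.Def_Solvable
set_option autoImplicit false
namespace Cfsg.Agent.Lib.Helper3.SL25

open Matrix

abbrev G5 := Matrix.SpecialLinearGroup (Fin 2) (ZMod 5)

/-- A table embedding `SL(2,5)` into the `2 × 2` matrices over `ZMod 11`. -/
def tab (M : G5) : Matrix (Fin 2) (Fin 2) (ZMod 11) :=
  match (M.1 0 0).val, (M.1 0 1).val, (M.1 1 0).val, (M.1 1 1).val with
  | 0, 1, 4, 0 => !![0, 10; 1, 0]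
  | 0, 1, 4, 1 => !![4, 10; 2, 8]
  | 0, 1, 4, 2 => !![1, 9; 5, 2]
  | 0, 1, 4, 3 => !![10, 6; 2, 9]
  | 0, 1, 4, 4 => !![7, 9; 1, 3]
  | 0, 2, 2, 0 => !![8, 10; 10, 3]
  | 0, 2, 2, 1 => !![8, 3; 3, 4]
  | 0, 2, 2, 2 => !![4, 0; 0, 3]
  | 0, 2, 2, 3 => !![9, 8; 8, 6]
  | 0, 2, 2, 4 => !![4, 1; 1, 6]
  | 0, 3, 3, 0 => !![3, 1; 1, 8]
  | 0, 3, 3, 1 => !![7, 10; 10, 5]
  | 0, 3, 3, 2 => !![2, 3; 3, 5]
  | 0, 3, 3, 3 => !![7, 0; 0, 8]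
  | 0, 3, 3, 4 => !![3, 8; 8, 7]
  | 0, 4, 1, 0 => !![0, 1; 10, 0]
  | 0, 4, 1, 1 => !![4, 2; 10, 8]
  | 0, 4, 1, 2 => !![1, 5; 9, 2]
  | 0, 4, 1, 3 => !![10, 2; 6, 9]
  | 0, 4, 1, 4 => !![7, 1; 9, 3]
  | 1, 0, 0, 1 => !![1, 0; 0, 1]
  | 1, 0, 1, 1 => !![1, 4; 3, 2]
  | 1, 0, 2, 1 => !![2, 1; 9, 5]
  | 1, 0, 3, 1 => !![5, 10; 2, 2]
  | 1, 0, 4, 1 => !![2, 7; 8, 1]
  | 1, 1, 0, 1 => !![1, 3; 4, 2]
  | 1, 1, 1, 2 => !![6, 0; 0, 2]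
  | 1, 1, 2, 3 => !![6, 8; 7, 4]
  | 1, 1, 3, 4 => !![1, 2; 10, 10]
  | 1, 1, 4, 0 => !![8, 9; 1, 4]
  | 1, 2, 0, 1 => !![2, 9; 1, 5]
  | 1, 2, 1, 3 => !![6, 7; 8, 4]
  | 1, 2, 2, 0 => !![5, 1; 1, 7]
  | 1, 2, 3, 2 => !![9, 7; 6, 6]
  | 1, 2, 4, 4 => !![0, 9; 6, 0]
  | 1, 3, 0, 1 => !![5, 2; 10, 2]
  | 1, 3, 1, 4 => !![1, 10; 2, 10]
  | 1, 3, 2, 2 => !![9, 6; 7, 6]
  | 1, 3, 3, 0 => !![4, 8; 8, 8]
  | 1, 3, 4, 3 => !![3, 7; 6, 7]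
  | 1, 4, 0, 1 => !![2, 8; 7, 1]
  | 1, 4, 1, 0 => !![8, 1; 9, 4]
  | 1, 4, 2, 4 => !![0, 6; 9, 0]
  | 1, 4, 3, 3 => !![3, 6; 7, 7]
  | 1, 4, 4, 2 => !![9, 1; 1, 10]
  | 2, 0, 0, 3 => !![1, 8; 8, 10]
  | 2, 0, 1, 3 => !![8, 8; 7, 3]
  | 2, 0, 2, 3 => !![0, 4; 8, 0]
  | 2, 0, 3, 3 => !![3, 9; 5, 8]
  | 2, 0, 4, 3 => !![10, 4; 5, 1]
  | 2, 1, 0, 3 => !![8, 7; 8, 3]
  | 2, 1, 1, 1 => !![10, 10; 10, 9]
  | 2, 1, 2, 4 => !![7, 8; 7, 5]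
  | 2, 1, 3, 2 => !![6, 2; 6, 4]
  | 2, 1, 4, 0 => !![2, 6; 2, 1]
  | 2, 2, 0, 3 => !![0, 8; 4, 0]
  | 2, 2, 1, 4 => !![7, 7; 8, 5]
  | 2, 2, 2, 0 => !![5, 8; 8, 2]
  | 2, 2, 3, 1 => !![6, 5; 4, 9]
  | 2, 2, 4, 2 => !![4, 5; 9, 6]
  | 2, 3, 0, 3 => !![3, 5; 9, 8]
  | 2, 3, 1, 2 => !![6, 6; 2, 4]
  | 2, 3, 2, 1 => !![6, 4; 5, 9]
  | 2, 3, 3, 0 => !![3, 0; 0, 4]
  | 2, 3, 4, 4 => !![4, 7; 6, 8]
  | 2, 4, 0, 3 => !![10, 5; 4, 1]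
  | 2, 4, 1, 0 => !![2, 2; 6, 1]
  | 2, 4, 2, 2 => !![4, 9; 5, 6]
  | 2, 4, 3, 4 => !![4, 6; 7, 8]
  | 2, 4, 4, 1 => !![2, 0; 0, 6]
  | 3, 0, 0, 2 => !![10, 3; 3, 1]
  | 3, 0, 1, 2 => !![1, 7; 6, 10]
  | 3, 0, 2, 2 => !![8, 2; 6, 3]
  | 3, 0, 3, 2 => !![0, 7; 3, 0]
  | 3, 0, 4, 2 => !![3, 3; 4, 8]
  | 3, 1, 0, 2 => !![1, 6; 7, 10]
  | 3, 1, 1, 4 => !![9, 0; 0, 5]
  | 3, 1, 2, 1 => !![7, 5; 4, 3]
  | 3, 1, 3, 3 => !![7, 2; 6, 5]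
  | 3, 1, 4, 0 => !![9, 9; 5, 10]
  | 3, 2, 0, 2 => !![8, 6; 2, 3]
  | 3, 2, 1, 1 => !![7, 4; 5, 3]
  | 3, 2, 2, 0 => !![8, 0; 0, 7]
  | 3, 2, 3, 4 => !![5, 7; 6, 2]
  | 3, 2, 4, 3 => !![5, 5; 9, 7]
  | 3, 3, 0, 2 => !![0, 3; 7, 0]
  | 3, 3, 1, 3 => !![7, 6; 2, 5]
  | 3, 3, 2, 4 => !![5, 6; 7, 2]
  | 3, 3, 3, 0 => !![6, 3; 3, 9]
  | 3, 3, 4, 1 => !![4, 4; 3, 6]
  | 3, 4, 0, 2 => !![3, 4; 3, 8]
  | 3, 4, 1, 0 => !![9, 5; 9, 10]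
  | 3, 4, 2, 3 => !![5, 9; 5, 7]
  | 3, 4, 3, 1 => !![4, 3; 4, 6]
  | 3, 4, 4, 4 => !![1, 1; 1, 2]
  | 4, 0, 0, 4 => !![10, 0; 0, 10]
  | 4, 0, 1, 4 => !![9, 4; 3, 10]
  | 4, 0, 2, 4 => !![6, 1; 9, 9]
  | 4, 0, 3, 4 => !![9, 10; 2, 6]
  | 4, 0, 4, 4 => !![10, 7; 8, 9]
  | 4, 1, 0, 4 => !![9, 3; 4, 10]
  | 4, 1, 1, 3 => !![2, 10; 10, 1]
  | 4, 1, 2, 2 => !![8, 5; 4, 4]
  | 4, 1, 3, 1 => !![0, 5; 2, 0]
  | 4, 1, 4, 0 => !![3, 10; 2, 7]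
  | 4, 2, 0, 4 => !![6, 9; 1, 9]
  | 4, 2, 1, 2 => !![8, 4; 5, 4]
  | 4, 2, 2, 0 => !![7, 3; 3, 3]
  | 4, 2, 3, 3 => !![2, 5; 4, 5]
  | 4, 2, 4, 1 => !![10, 1; 9, 1]
  | 4, 3, 0, 4 => !![9, 2; 10, 6]
  | 4, 3, 1, 1 => !![0, 2; 5, 0]
  | 4, 3, 2, 3 => !![2, 4; 5, 5]
  | 4, 3, 3, 0 => !![6, 10; 10, 4]
  | 4, 3, 4, 2 => !![5, 4; 3, 7]
  | 4, 4, 0, 4 => !![10, 8; 7, 9]
  | 4, 4, 1, 0 => !![3, 2; 10, 7]
  | 4, 4, 2, 1 => !![10, 9; 1, 1]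
  | 4, 4, 3, 2 => !![5, 3; 4, 7]
  | 4, 4, 4, 3 => !![5, 0; 0, 9]
  | _, _, _, _ => 1

set_option maxRecDepth 100000 in
theorem tab_mul_00 : ∀ y : G5, y.1 0 0 = 0 → y.1 0 1 = 0 → ∀ x : G5, tab (x * y) = tab x * tab y := by
  decide +kernel

set_option maxRecDepth 100000 in
theorem tab_mul_01 : ∀ y : G5, y.1 0 0 = 0 → y.1 0 1 = 1 → ∀ x : G5, tab (x * y) = tab x * tab y := by
  decide +kernel

set_option maxRecDepth 100000 in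
theorem tab_mul_02 : ∀ y : G5, y.1 0 0 = 0 → y.1 0 1 = 2 → ∀ x : G5, tab (x * y) = tab x * tab y := by
  decide +kernel

set_option maxRecDepth 100000 in
theorem tab_mul_03 : ∀ y : G5, y.1 0 0 = 0 → y.1 0 1 = 3 → ∀ x : G5, tab (x * y) = tab x * tab y := by
  decide +kernel

set_option maxRecDepth 100000 in
theorem tab_mul_04 : ∀ y : G5, y.1 0 0 = 0 → y.1 0 1 = 4 → ∀ x : G5, tab (x * y) = tab x * tab y := by
  decide +kernel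

set_option maxRecDepth 100000 in
theorem tab_mul_10 : ∀ y : G5, y.1 0 0 = 1 → y.1 0 1 = 0 → ∀ x : G5, tab (x * y) = tab x * tab y := by
  decide +kernel

set_option maxRecDepth 100000 in
theorem tab_mul_11 : ∀ y : G5, y.1 0 0 = 1 → y.1 0 1 = 1 → ∀ x : G5, tab (x * y) = tab x * tab y := by
  decide +kernel

set_option maxRecDepth 100000 in
theorem tab_mul_12 : ∀ y : G5, y.1 0 0 = 1 → y.1 0 1 = 2 → ∀ x : G5, tab (x * y) = tab x * tab y := by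
  decide +kernel

set_option maxRecDepth 100000 in
theorem tab_mul_13 : ∀ y : G5, y.1 0 0 = 1 → y.1 0 1 = 3 → ∀ x : G5, tab (x * y) = tab x * tab y := by
  decide +kernel

set_option maxRecDepth 100000 in
theorem tab_mul_14 : ∀ y : G5, y.1 0 0 = 1 → y.1 0 1 = 4 → ∀ x : G5, tab (x * y) = tab x * tab y := by
  decide +kernel

set_option maxRecDepth 100000 in
theorem tab_mul_20 : ∀ y : G5, y.1 0 0 = 2 → y.1 0 1 = 0 → ∀ x : G5, tab (x * y) = tab x * tab y := by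
  decide +kernel

set_option maxRecDepth 100000 in
theorem tab_mul_21 : ∀ y : G5, y.1 0 0 = 2 → y.1 0 1 = 1 → ∀ x : G5, tab (x * y) = tab x * tab y := by
  decide +kernel

set_option maxRecDepth 100000 in
theorem tab_mul_22 : ∀ y : G5, y.1 0 0 = 2 → y.1 0 1 = 2 → ∀ x : G5, tab (x * y) = tab x * tab y := by
  decide +kernel

set_option maxRecDepth 100000 in
theorem tab_mul_23 : ∀ y : G5, y.1 0 0 = 2 → y.1 0 1 = 3 → ∀ x : G5, tab (x * y) = tab x * tab y := by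
  decide +kernel

set_option maxRecDepth 100000 in
theorem tab_mul_24 : ∀ y : G5, y.1 0 0 = 2 → y.1 0 1 = 4 → ∀ x : G5, tab (x * y) = tab x * tab y := by
  decide +kernel

set_option maxRecDepth 100000 in
theorem tab_mul_30 : ∀ y : G5, y.1 0 0 = 3 → y.1 0 1 = 0 → ∀ x : G5, tab (x * y) = tab x * tab y := by
  decide +kernel

set_option maxRecDepth 100000 in
theorem tab_mul_31 : ∀ y : G5, y.1 0 0 = 3 → y.1 0 1 = 1 → ∀ x : G5, tab (x * y) = tab x * tab y := by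
  decide +kernel

set_option maxRecDepth 100000 in
theorem tab_mul_32 : ∀ y : G5, y.1 0 0 = 3 → y.1 0 1 = 2 → ∀ x : G5, tab (x * y) = tab x * tab y := by
  decide +kernel

set_option maxRecDepth 100000 in
theorem tab_mul_33 : ∀ y : G5, y.1 0 0 = 3 → y.1 0 1 = 3 → ∀ x : G5, tab (x * y) = tab x * tab y := by
  decide +kernel

set_option maxRecDepth 100000 in
theorem tab_mul_34 : ∀ y : G5, y.1 0 0 = 3 → y.1 0 1 = 4 → ∀ x : G5, tab (x * y) = tab x * tab y := by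
  decide +kernel

set_option maxRecDepth 100000 in
theorem tab_mul_40 : ∀ y : G5, y.1 0 0 = 4 → y.1 0 1 = 0 → ∀ x : G5, tab (x * y) = tab x * tab y := by
  decide +kernel

set_option maxRecDepth 100000 in
theorem tab_mul_41 : ∀ y : G5, y.1 0 0 = 4 → y.1 0 1 = 1 → ∀ x : G5, tab (x * y) = tab x * tab y := by
  decide +kernel

set_option maxRecDepth 100000 in
theorem tab_mul_42 : ∀ y : G5, y.1 0 0 = 4 → y.1 0 1 = 2 → ∀ x : G5, tab (x * y) = tab x * tab y := by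
  decide +kernel

set_option maxRecDepth 100000 in
theorem tab_mul_43 : ∀ y : G5, y.1 0 0 = 4 → y.1 0 1 = 3 → ∀ x : G5, tab (x * y) = tab x * tab y := by
  decide +kernel

set_option maxRecDepth 100000 in
theorem tab_mul_44 : ∀ y : G5, y.1 0 0 = 4 → y.1 0 1 = 4 → ∀ x : G5, tab (x * y) = tab x * tab y := by
  decide +kernel

theorem tab_mul_split : ∀ a b : ZMod 5, ∀ y : G5, y.1 0 0 = a → y.1 0 1 = b →
    ∀ x : G5, tab (x * y) = tab x * tab y := by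
  intro a b
  have h5 : ∀ c : ZMod 5, c = 0 ∨ c = 1 ∨ c = 2 ∨ c = 3 ∨ c = 4 := by decide
  rcases h5 a with rfl | rfl | rfl | rfl | rfl <;> rcases h5 b with rfl | rfl | rfl | rfl | rfl
  exacts [tab_mul_00, tab_mul_01, tab_mul_02, tab_mul_03, tab_mul_04, tab_mul_10, tab_mul_11, tab_mul_12, tab_mul_13, tab_mul_14, tab_mul_20, tab_mul_21, tab_mul_22, tab_mul_23, tab_mul_24, tab_mul_30, tab_mul_31, tab_mul_32, tab_mul_33, tab_mul_34, tab_mul_40, tab_mul_41, tab_mul_42, tab_mul_43, tab_mul_44]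

theorem tab_mul (x y : G5) : tab (x * y) = tab x * tab y :=
  tab_mul_split _ _ y rfl rfl x

set_option maxRecDepth 100000 in
theorem tab_one : tab 1 = 1 := by decide +kernel

set_option maxRecDepth 100000 in
theorem tab_free : ∀ x : G5, x ≠ 1 → (tab x - 1).det ≠ 0 := by decide +kernel

set_option maxRecDepth 100000 in
theorem ex_ne : ∃ x : G5, x ≠ 1 := by decide +kernel

/-- The affine group `(ZMod 11)² ⋊ SL(2,5)`. -/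
structure Aff where
  v : Fin 2 → ZMod 11
  h : G5

theorem Aff.ext' {a b : Aff} (hv : a.v = b.v) (hh : a.h = b.h) : a = b := by
  cases a; cases b; cases hv; cases hh; rfl

noncomputable instance : Group Aff where
  mul a b := ⟨a.v + tab a.h *ᵥ b.v, a.h * b.h⟩
  one := ⟨0, 1⟩
  inv a := ⟨-(tab a.h⁻¹ *ᵥ a.v), a.h⁻¹⟩
  mul_assoc a b c := by
    apply Aff.ext'
    · show (a.v + tab a.h *ᵥ b.v) + tab (a.h * b.h) *ᵥ c.v
        = a.v + tab a.h *ᵥ (b.v + tab b.h *ᵥ c.v)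
      rw [tab_mul, Matrix.mulVec_add, Matrix.mulVec_mulVec, add_assoc]
    · exact mul_assoc a.h b.h c.h
  one_mul a := by
    apply Aff.ext'
    · show (0 : Fin 2 → ZMod 11) + tab 1 *ᵥ a.v = a.v
      rw [tab_one, Matrix.one_mulVec, zero_add]
    · exact one_mul a.h
  mul_one a := by
    apply Aff.ext'
    · show a.v + tab a.h *ᵥ (0 : Fin 2 → ZMod 11) = a.v
      rw [Matrix.mulVec_zero, add_zero]
    · exact mul_one a.h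
  inv_mul_cancel a := by
    apply Aff.ext'
    · show -(tab a.h⁻¹ *ᵥ a.v) + tab a.h⁻¹ *ᵥ a.v = 0
      rw [neg_add_cancel]
    · exact inv_mul_cancel a.h

theorem mul_v (a b : Aff) : (a * b).v = a.v + tab a.h *ᵥ b.v := rfl
theorem mul_h (a b : Aff) : (a * b).h = a.h * b.h := rfl
theorem one_v : (1 : Aff).v = 0 := rfl
theorem one_h : (1 : Aff).h = 1 := rfl
theorem inv_v (a : Aff) : (a⁻¹).v = -(tab a.h⁻¹ *ᵥ a.v) := rfl
theorem inv_h (a : Aff) : (a⁻¹).h = a.h⁻¹ := rfl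

instance : Finite Aff :=
  Finite.of_injective (fun a : Aff => (a.v, a.h)) (fun a b hab => by
    have h1 := congrArg Prod.fst hab
    have h2 := congrArg Prod.snd hab
    exact Aff.ext' h1 h2)

/-- The complement. -/
def Hc : Subgroup Aff where
  carrier := {a | a.v = 0}
  mul_mem' := fun {a b} ha hb => by
    show (a * b).v = 0
    rw [mul_v, (show a.v = 0 from ha), (show b.v = 0 from hb), Matrix.mulVec_zero, add_zero]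
  one_mem' := rfl
  inv_mem' := fun {a} ha => by
    show (a⁻¹).v = 0
    rw [inv_v, (show a.v = 0 from ha), Matrix.mulVec_zero, neg_zero]

theorem mem_Hc (a : Aff) : a ∈ Hc ↔ a.v = 0 := Iff.rfl

def HcEquiv : Hc ≃* G5 where
  toFun a := a.1.h
  invFun g := ⟨⟨0, g⟩, rfl⟩
  left_inv a := Subtype.ext (Aff.ext' a.2.symm rfl)
  right_inv g := rfl
  map_mul' a b := rfl

theorem free (x : G5) (w : Fin 2 → ZMod 11) (hw : w ≠ 0) (h : tab x *ᵥ w = w) : x = 1 := by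
  haveI : Fact (Nat.Prime 11) := ⟨by norm_num⟩
  by_contra hx
  have hdet := tab_free x hx
  have h0 : (tab x - 1) *ᵥ w = 0 := by
    rw [Matrix.sub_mulVec, Matrix.one_mulVec, h, sub_self]
  exact hw (Matrix.eq_zero_of_mulVec_eq_zero hdet h0)

theorem frob : Cfsg.IsFrobeniusComplement Hc := by
  refine ⟨?_, ?_, ?_⟩
  · obtain ⟨x, hx⟩ := ex_ne
    intro hbot
    have hmem : (⟨0, x⟩ : Aff) ∈ Hc := rfl
    rw [hbot, Subgroup.mem_bot] at hmem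
    exact hx (congrArg Aff.h hmem)
  · intro htop
    have hmem : (⟨fun _ => 1, 1⟩ : Aff) ∈ Hc := by rw [htop]; exact Subgroup.mem_top _
    have h0 : (fun _ : Fin 2 => (1 : ZMod 11)) = 0 := hmem
    have := congrFun h0 0
    exact absurd this (by decide)
  · intro g hg
    rw [eq_bot_iff]
    intro x hx
    rw [Subgroup.mem_inf] at hx
    obtain ⟨hx1, hx2⟩ := hx
    rw [Subgroup.mem_pointwise_smul_iff_inv_smul_mem] at hx2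
    have hy : (g⁻¹ * x * g).v = 0 := by
      have : (MulAut.conj g)⁻¹ • x = g⁻¹ * x * g := by
        rw [MulAut.smul_def, MulAut.conj_inv_apply]
      rw [this] at hx2
      exact hx2
    have hxv : x.v = 0 := hx1
    have hgv : g.v ≠ 0 := hg
    have hcomm : x * g = g * (g⁻¹ * x * g) := by group
    have hv := congrArg Aff.v hcomm
    rw [mul_v, mul_v, hxv, hy, Matrix.mulVec_zero, zero_add, add_zero] at hv
    have hx1' : x.h = 1 := free x.h g.v hgv hv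
    rw [Subgroup.mem_bot]
    exact Aff.ext' hxv hx1'

theorem main : ∃ (L : Type) (_ : Group L) (_ : Finite L) (H : Subgroup L),
    Cfsg.IsFrobeniusComplement H ∧ Nonempty (H ≃* Matrix.SpecialLinearGroup (Fin 2) (ZMod 5)) :=
  ⟨Aff, inferInstance, inferInstance, Hc, frob, ⟨HcEquiv⟩⟩

end Cfsg.Agent.Lib.Helper3.SL25
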