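import Mathlib

set_option autoImplicit false

namespace Cfsg.Agent.Lib.Helper3

open Matrix

section slgen

variable {K : Type*} [Field K] {ι : Type*} [Fintype ι] [DecidableEq ι]

theorem slg_comm_mat (a b d : ι) (hbd : b ≠ d) (had : a ≠ d) (c : K) :
    (1 + single a b (1 : K)) * (1 + single b d c) =
      (1 + single a d c) * ((1 + single b d c) * (1 + single a b 1)) := by
  have e1 : single a b (1 : K) * single b d c = single a d c := by
    rw [Matrix.single_mul_single_same, one_mul]
  have e2 : single b d c * single a b (1 : K) = 0 :=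
    Matrix.single_mul_single_of_ne c b d a (Ne.symm had) 1
  have e3 : single a d c * single b d c = 0 :=
    Matrix.single_mul_single_of_ne c a d b (Ne.symm hbd) c
  have e4 : single a d c * single a b (1 : K) = 0 :=
    Matrix.single_mul_single_of_ne c a d a (Ne.symm had) 1
  simp only [mul_add, add_mul, mul_one, one_mul, e1, e2, e3, e4, add_zero]
  abel

theorem slg_comm (H : Subgroup (Matrix.SpecialLinearGroup ι K)) (a b d : ι) (hab : a ≠ b)
    (hbd : b ≠ d) (had : a ≠ d) (c : K)
    (h1 : Matrix.SpecialLinearGroup.transvection hab (1 : K) ∈ H)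
    (h2 : Matrix.SpecialLinearGroup.transvection hbd c ∈ H) :
    Matrix.SpecialLinearGroup.transvection had c ∈ H := by
  have e : Matrix.SpecialLinearGroup.transvection hab (1 : K) *
      Matrix.SpecialLinearGroup.transvection hbd c =
      Matrix.SpecialLinearGroup.transvection had c *
        (Matrix.SpecialLinearGroup.transvection hbd c *
          Matrix.SpecialLinearGroup.transvection hab 1) := by
    apply Subtype.ext
    exact slg_comm_mat a b d hbd had c
  have e' : Matrix.SpecialLinearGroup.transvection had c =
      Matrix.SpecialLinearGroup.transvection hab (1 : K) *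
        Matrix.SpecialLinearGroup.transvection hbd c *
        (Matrix.SpecialLinearGroup.transvection hbd c *
          Matrix.SpecialLinearGroup.transvection hab 1)⁻¹ := by
    rw [e, mul_inv_cancel_right]
  rw [e']
  exact H.mul_mem (H.mul_mem h1 h2) (H.inv_mem (H.mul_mem h2 h1))

theorem slg_cast {a b a' b' : ι} (ha : a = a') (hb : b = b') (h : a ≠ b) (h' : a' ≠ b') (c : K) :
    Matrix.SpecialLinearGroup.transvection h c = Matrix.SpecialLinearGroup.transvection h' c := by
  subst ha
  subst hb
  rfl

theorem slg_all_of_one (hK3 : ∀ c : K, c = 0 ∨ c = 1 ∨ c = -1)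
    (H : Subgroup (Matrix.SpecialLinearGroup ι K)) {a b : ι} (hab : a ≠ b)
    (h1 : Matrix.SpecialLinearGroup.transvection hab (1 : K) ∈ H) (c : K) :
    Matrix.SpecialLinearGroup.transvection hab c ∈ H := by
  rcases hK3 c with rfl | rfl | rfl
  · rw [Matrix.SpecialLinearGroup.transvection_coeff_zero]
    exact H.one_mem
  · exact h1
  · rw [← Matrix.SpecialLinearGroup.transvection_inv]
    exact H.inv_mem h1

theorem slg_diag_mat (i j : ι) (hij : i ≠ j) :
    Matrix.diagonal (fun k => if k = i then (-1 : K) else if k = j then (-1 : K)⁻¹ else 1) =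
      ((1 + single i j (1 : K)) * (1 + single j i (-1 : K)) * (1 + single i j (1 : K))) *
      ((1 + single i j (1 : K)) * (1 + single j i (-1 : K)) * (1 + single i j (1 : K))) := by
  have hji : j ≠ i := Ne.symm hij
  obtain ⟨e, he⟩ : ∃ e : Matrix ι ι K, e = single i j 1 := ⟨_, rfl⟩
  obtain ⟨f, hf⟩ : ∃ f : Matrix ι ι K, f = single j i 1 := ⟨_, rfl⟩
  obtain ⟨p, hp⟩ : ∃ p : Matrix ι ι K, p = single i i 1 := ⟨_, rfl⟩
  obtain ⟨q, hq⟩ : ∃ q : Matrix ι ι K, q = single j j 1 := ⟨_, rfl⟩
  have hfneg : single j i (-1 : K) = -f := by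
    rw [hf, ← neg_one_smul K (single j i (1 : K)), Matrix.smul_single, smul_eq_mul, mul_one]
  have ee : e * e = 0 := by rw [he]; exact Matrix.single_mul_single_of_ne 1 i j i hji 1
  have ff : f * f = 0 := by rw [hf]; exact Matrix.single_mul_single_of_ne 1 j i j hij 1
  have ef : e * f = p := by rw [he, hf, hp, Matrix.single_mul_single_same, one_mul]
  have fe : f * e = q := by rw [he, hf, hq, Matrix.single_mul_single_same, one_mul]
  have pe : p * e = e := by rw [he, hp, Matrix.single_mul_single_same, one_mul]
  have eq' : e * q = e := by rw [he, hq, Matrix.single_mul_single_same, one_mul]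
  have qf : q * f = f := by rw [hf, hq, Matrix.single_mul_single_same, one_mul]
  have fp : f * p = f := by rw [hf, hp, Matrix.single_mul_single_same, one_mul]
  have ep : e * p = 0 := by rw [he, hp]; exact Matrix.single_mul_single_of_ne 1 i j i hji 1
  have qe : q * e = 0 := by rw [he, hq]; exact Matrix.single_mul_single_of_ne 1 j j i hji 1
  have pf : p * f = 0 := by rw [hf, hp]; exact Matrix.single_mul_single_of_ne 1 i i j hij 1
  have fq : f * q = 0 := by rw [hf, hq]; exact Matrix.single_mul_single_of_ne 1 j i j hij 1
  have pp : p * p = p := by rw [hp, Matrix.single_mul_single_same, one_mul]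
  have qq : q * q = q := by rw [hq, Matrix.single_mul_single_same, one_mul]
  have pq : p * q = 0 := by rw [hp, hq]; exact Matrix.single_mul_single_of_ne 1 i i j hij 1
  have qp : q * p = 0 := by rw [hp, hq]; exact Matrix.single_mul_single_of_ne 1 j j i hji 1
  have hD : Matrix.diagonal (fun k => if k = i then (-1 : K) else if k = j then (-1 : K)⁻¹ else 1)
      = 1 - p - p - q - q := by
    rw [hp, hq]
    ext a b
    simp only [Matrix.diagonal_apply, Matrix.sub_apply, Matrix.one_apply, Matrix.single_apply]
    by_cases hab : a = b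
    · subst hab
      by_cases hai : a = i
      · subst hai
        simp [hji]
      · by_cases haj : a = j
        · subst haj
          have h1 : ¬ (i = a) := fun h => hai h.symm
          simp [h1]
        · have h1 : ¬ (i = a) := fun h => hai h.symm
          have h2 : ¬ (j = a) := fun h => haj h.symm
          simp [hai, haj, h1, h2]
    · have h1 : ¬ (i = a ∧ i = b) := fun h => hab (h.1.symm.trans h.2)
      have h2 : ¬ (j = a ∧ j = b) := fun h => hab (h.1.symm.trans h.2)
      simp [hab, h1, h2]
  have hM : (1 + e) * (1 + -f) * (1 + e) = 1 + (e - f) - (p + q) := by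
    have h1 : (1 + e) * (1 + -f) * (1 + e) =
        1 + e - f - e * f + e + e * e - f * e - e * f * e := by noncomm_ring
    rw [h1, ef, ee, fe, pe]
    abel
  have hYX : (p + q) * (e - f) = e - f := by
    rw [add_mul, mul_sub, mul_sub, pe, pf, qe, qf]
    abel
  have hXY : (e - f) * (p + q) = e - f := by
    rw [sub_mul, mul_add, mul_add, ep, eq', fp, fq]
    abel
  have hYY : (p + q) * (p + q) = p + q := by
    rw [add_mul, mul_add, mul_add, pp, pq, qp, qq]
    abel
  have hXX : (e - f) * (e - f) = -(p + q) := by
    rw [sub_mul, mul_sub, mul_sub, ee, ef, fe, ff]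
    abel
  rw [hD, hfneg, ← he, hM]
  have h2 : (1 + (e - f) - (p + q)) * (1 + (e - f) - (p + q)) =
      1 + (e - f) - (p + q) + (e - f) + (e - f) * (e - f) - (e - f) * (p + q) - (p + q)
        - (p + q) * (e - f) + (p + q) * (p + q) := by noncomm_ring
  rw [h2, hXX, hXY, hYX, hYY]
  abel

theorem slg_diag (hK3 : ∀ c : K, c = 0 ∨ c = 1 ∨ c = -1)
    (H : Subgroup (Matrix.SpecialLinearGroup ι K))
    (hT : ∀ (i j : ι) (hij : i ≠ j) (c : K), Matrix.SpecialLinearGroup.transvection hij c ∈ H)
    (i j : ι) (hij : i ≠ j) (c : K) (hc : c ≠ 0) :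
    Matrix.SpecialLinearGroup.diag2n hij c hc ∈ H := by
  rcases hK3 c with rfl | rfl | rfl
  · exact absurd rfl hc
  · have e : Matrix.SpecialLinearGroup.diag2n hij (1 : K) hc = 1 := by
      apply Subtype.ext
      rw [Matrix.SpecialLinearGroup.diag2n_coe]
      have h1 : (fun k : ι => if k = i then (1 : K) else if k = j then (1 : K)⁻¹ else 1) =
          fun _ => 1 := by
        funext k
        split_ifs <;> simp
      rw [h1, Matrix.diagonal_one]
      rfl
    rw [e]
    exact H.one_mem
  · have hji : j ≠ i := Ne.symm hij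
    have e : Matrix.SpecialLinearGroup.diag2n hij (-1 : K) hc =
        (Matrix.SpecialLinearGroup.transvection hij (1 : K) *
          Matrix.SpecialLinearGroup.transvection hji (-1 : K) *
          Matrix.SpecialLinearGroup.transvection hij (1 : K)) *
        (Matrix.SpecialLinearGroup.transvection hij (1 : K) *
          Matrix.SpecialLinearGroup.transvection hji (-1 : K) *
          Matrix.SpecialLinearGroup.transvection hij (1 : K)) := by
      apply Subtype.ext
      rw [Matrix.SpecialLinearGroup.diag2n_coe]
      exact slg_diag_mat i j hij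
    rw [e]
    have hm := H.mul_mem (H.mul_mem (hT i j hij 1) (hT j i hji (-1))) (hT i j hij 1)
    exact H.mul_mem hm hm

theorem slg_top [Nontrivial ι] (hK3 : ∀ c : K, c = 0 ∨ c = 1 ∨ c = -1)
    (H : Subgroup (Matrix.SpecialLinearGroup ι K))
    (hT : ∀ (i j : ι) (hij : i ≠ j) (c : K), Matrix.SpecialLinearGroup.transvection hij c ∈ H) :
    H = ⊤ := by
  rw [eq_top_iff]
  intro M _
  exact Matrix.SpecialLinearGroup.diagonal_transvection_induction' (fun M => M ∈ H) M
    (fun i j hij c hc => slg_diag hK3 H hT i j hij c hc) hT (fun A B hA hB => H.mul_mem hA hB)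

theorem slg_K3 [Fintype K] (hK : Fintype.card K ≤ 3) (c : K) : c = 0 ∨ c = 1 ∨ c = -1 := by
  by_cases hc : c = 0
  · exact Or.inl hc
  · right
    have h1 := FiniteField.pow_card_sub_one_eq_one c hc
    have h2 : 1 < Fintype.card K := Fintype.one_lt_card
    have h3 : Fintype.card K - 1 = 1 ∨ Fintype.card K - 1 = 2 := by omega
    rcases h3 with h3 | h3
    · rw [h3, pow_one] at h1
      exact Or.inl h1
    · rw [h3] at h1
      have h4 : (c - 1) * (c + 1) = 0 := by
        have : (c - 1) * (c + 1) = c ^ 2 - 1 := by ring
        rw [this, h1, sub_self]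
      rcases mul_eq_zero.mp h4 with h5 | h5
      · exact Or.inl (sub_eq_zero.mp h5)
      · exact Or.inr (eq_neg_of_add_eq_zero_left h5)

end slgen

section cyc

variable {K : Type*} [Field K]

theorem slg_w_apply (n : ℕ) (p q : Fin (n + 1)) :
    (if q.val = p.val + 1 then (1 : K) else if p.val = n ∧ q.val = 0 then (-1) ^ n else 0) =
      if q = p + 1 then (if p.val = n then (-1 : K) ^ n else 1) else 0 := by
  have hq := q.isLt
  have hp := p.isLt
  by_cases hpn : p.val = n
  · have hp1 : p + 1 = 0 := by
      have h1 : p = Fin.last n := Fin.ext hpn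
      rw [h1, Fin.last_add_one]
    rw [hp1]
    have h1 : ¬ (q.val = p.val + 1) := by omega
    rw [if_neg h1]
    by_cases hq0 : q = 0
    · subst hq0
      simp [hpn]
    · have h2 : ¬ (q.val = 0) := fun h => hq0 (Fin.ext h)
      simp [hq0, h2]
  · have hlt : p < Fin.last n := by
      rw [Fin.lt_def, Fin.val_last]
      omega
    have hp1 : (p + 1).val = p.val + 1 := Fin.val_add_one_of_lt hlt
    by_cases hq1 : q.val = p.val + 1
    · have h1 : q = p + 1 := Fin.ext (by rw [hp1]; exact hq1)
      rw [if_pos hq1, if_pos h1, if_neg hpn]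
    · have h1 : ¬ (q = p + 1) := fun h => hq1 (by rw [h, hp1])
      have h2 : ¬ (p.val = n ∧ q.val = 0) := fun h => hpn h.1
      rw [if_neg hq1, if_neg h2, if_neg h1]

theorem slg_shift_mat (n : ℕ) (W : Matrix (Fin (n + 1)) (Fin (n + 1)) K) (s : Fin (n + 1) → K)
    (hW : ∀ p q, W p q = if q = p + 1 then s p else 0) (i j : Fin (n + 1)) (c : K) :
    W * (1 + single (i + 1) (j + 1) (c * s j)) = (1 + single i j (c * s i)) * W := by
  rw [mul_add, add_mul, mul_one, one_mul]
  congr 1
  ext p q
  have hL : (W * single (i + 1) (j + 1) (c * s j)) p q =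
      if p = i ∧ q = j + 1 then s i * (c * s j) else 0 := by
    rw [Matrix.mul_apply, Finset.sum_eq_single (i + 1)]
    · rw [hW, Matrix.single_apply]
      by_cases hp : p = i
      · subst hp
        by_cases hq : q = j + 1
        · subst hq
          simp
        · have h1 : ¬ (j + 1 = q) := fun h => hq h.symm
          simp [hq, h1]
      · have h1 : ¬ (i + 1 = p + 1) := fun h => hp (add_right_cancel h).symm
        simp [hp, h1]
    · intro k _ hk
      rw [Matrix.single_apply]
      have h1 : ¬ (i + 1 = k ∧ j + 1 = q) := fun h => hk h.1.symm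
      rw [if_neg h1, mul_zero]
    · intro h
      exact absurd (Finset.mem_univ _) h
  have hR : (single i j (c * s i) * W) p q =
      if p = i ∧ q = j + 1 then (c * s i) * s j else 0 := by
    rw [Matrix.mul_apply, Finset.sum_eq_single j]
    · rw [hW, Matrix.single_apply]
      by_cases hp : p = i
      · subst hp
        by_cases hq : q = j + 1
        · subst hq
          simp
        · simp [hq]
      · have h0 : ¬ (i = p) := fun h => hp h.symm
        simp [hp, h0]
    · intro k _ hk
      rw [Matrix.single_apply]
      have h1 : ¬ (i = p ∧ j = k) := fun h => hk h.2.symm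
      rw [if_neg h1, zero_mul]
    · intro h
      exact absurd (Finset.mem_univ _) h
  rw [hL, hR]
  split_ifs
  · ring
  · rfl

end cyc

end Cfsg.Agent.Lib.Helper3
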