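import Mathlib
import Cfsg.Agent.Lib.Helper3.SLGen

set_option autoImplicit false

namespace Cfsg.Agent.Lib.Helper3

open Matrix

section slgen2

variable {K : Type*} [Field K] {ι : Type*} [Fintype ι] [DecidableEq ι]

theorem slg_diag_mat_gen (i j : ι) (hij : i ≠ j) (c : K) (hc : c ≠ 0) :
    Matrix.diagonal (fun k => if k = i then c else if k = j then c⁻¹ else 1) =
      ((1 + single i j c) * (1 + single j i (-c⁻¹)) * (1 + single i j c)) *
      ((1 + single i j (-1 : K)) * (1 + single j i (1 : K)) * (1 + single i j (-1 : K))) := by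
  have hji : j ≠ i := Ne.symm hij
  obtain ⟨a, ha⟩ : ∃ a : Matrix ι ι K, a = single i j c := ⟨_, rfl⟩
  obtain ⟨b, hb⟩ : ∃ b : Matrix ι ι K, b = single j i c⁻¹ := ⟨_, rfl⟩
  obtain ⟨e, he⟩ : ∃ e : Matrix ι ι K, e = single i j 1 := ⟨_, rfl⟩
  obtain ⟨f, hf⟩ : ∃ f : Matrix ι ι K, f = single j i 1 := ⟨_, rfl⟩
  obtain ⟨p, hp⟩ : ∃ p : Matrix ι ι K, p = single i i 1 := ⟨_, rfl⟩
  obtain ⟨q, hq⟩ : ∃ q : Matrix ι ι K, q = single j j 1 := ⟨_, rfl⟩
  obtain ⟨pc, hpc⟩ : ∃ pc : Matrix ι ι K, pc = single i i c := ⟨_, rfl⟩
  obtain ⟨qc, hqc⟩ : ∃ qc : Matrix ι ι K, qc = single j j c⁻¹ := ⟨_, rfl⟩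
  have hbneg : single j i (-c⁻¹) = -b := by
    rw [hb, ← neg_one_smul K (single j i c⁻¹), Matrix.smul_single, smul_eq_mul, neg_one_mul]
  have heneg : single i j (-1 : K) = -e := by
    rw [he, ← neg_one_smul K (single i j (1 : K)), Matrix.smul_single, smul_eq_mul, mul_one]
  have ab : a * b = p := by
    rw [ha, hb, hp, Matrix.single_mul_single_same, mul_inv_cancel₀ hc]
  have ba : b * a = q := by
    rw [ha, hb, hq, Matrix.single_mul_single_same, inv_mul_cancel₀ hc]
  have aa : a * a = 0 := by rw [ha]; exact Matrix.single_mul_single_of_ne c i j i hji c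
  have pa : p * a = a := by rw [ha, hp, Matrix.single_mul_single_same, one_mul]
  have ef : e * f = p := by rw [he, hf, hp, Matrix.single_mul_single_same, one_mul]
  have fe : f * e = q := by rw [he, hf, hq, Matrix.single_mul_single_same, one_mul]
  have ee : e * e = 0 := by rw [he]; exact Matrix.single_mul_single_of_ne 1 i j i hji 1
  have pe : p * e = e := by rw [he, hp, Matrix.single_mul_single_same, one_mul]
  have ap : a * p = 0 := by rw [ha, hp]; exact Matrix.single_mul_single_of_ne c i j i hji 1
  have aq : a * q = a := by rw [ha, hq, Matrix.single_mul_single_same, mul_one]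
  have bp : b * p = b := by rw [hb, hp, Matrix.single_mul_single_same, mul_one]
  have bq : b * q = 0 := by rw [hb, hq]; exact Matrix.single_mul_single_of_ne c⁻¹ j i j hij 1
  have qe : q * e = 0 := by rw [he, hq]; exact Matrix.single_mul_single_of_ne 1 j j i hji 1
  have pf : p * f = 0 := by rw [hf, hp]; exact Matrix.single_mul_single_of_ne 1 i i j hij 1
  have qf : q * f = f := by rw [hf, hq, Matrix.single_mul_single_same, one_mul]
  have pp : p * p = p := by rw [hp, Matrix.single_mul_single_same, one_mul]
  have qq : q * q = q := by rw [hq, Matrix.single_mul_single_same, one_mul]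
  have pq : p * q = 0 := by rw [hp, hq]; exact Matrix.single_mul_single_of_ne 1 i i j hij 1
  have qp : q * p = 0 := by rw [hp, hq]; exact Matrix.single_mul_single_of_ne 1 j j i hji 1
  have ae : a * e = 0 := by rw [ha, he]; exact Matrix.single_mul_single_of_ne c i j i hji 1
  have af : a * f = pc := by rw [ha, hf, hpc, Matrix.single_mul_single_same, mul_one]
  have be : b * e = qc := by rw [hb, he, hqc, Matrix.single_mul_single_same, mul_one]
  have bf : b * f = 0 := by rw [hb, hf]; exact Matrix.single_mul_single_of_ne c⁻¹ j i j hij 1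
  have hD : Matrix.diagonal (fun k => if k = i then c else if k = j then c⁻¹ else 1)
      = 1 - p - q + pc + qc := by
    rw [hp, hq, hpc, hqc]
    ext x y
    simp only [Matrix.diagonal_apply, Matrix.add_apply, Matrix.sub_apply, Matrix.one_apply,
      Matrix.single_apply]
    by_cases hxy : x = y
    · subst hxy
      by_cases hxi : x = i
      · subst hxi
        simp [hji]
      · by_cases hxj : x = j
        · subst hxj
          have h1 : ¬ (i = x) := fun h => hxi h.symm
          simp [h1, hxi]
        · have h1 : ¬ (i = x) := fun h => hxi h.symm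
          have h2 : ¬ (j = x) := fun h => hxj h.symm
          simp [hxi, hxj, h1, h2]
    · have h1 : ¬ (i = x ∧ i = y) := fun h => hxy (h.1.symm.trans h.2)
      have h2 : ¬ (j = x ∧ j = y) := fun h => hxy (h.1.symm.trans h.2)
      simp [hxy, h1, h2]
  have hM1 : (1 + a) * (1 + -b) * (1 + a) = 1 + (a - b) - (p + q) := by
    have h1 : (1 + a) * (1 + -b) * (1 + a) =
        1 + a - b - a * b + a + a * a - b * a - a * b * a := by noncomm_ring
    rw [h1, ab, aa, ba, pa]
    abel
  have hM2 : (1 + -e) * (1 + f) * (1 + -e) = 1 - (e - f) - (p + q) := by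
    have h1 : (1 + -e) * (1 + f) * (1 + -e) =
        1 - e + f - e * f - e + e * e - f * e + e * f * e := by noncomm_ring
    rw [h1, ef, ee, fe, pe]
    abel
  have hXY : (a - b) * (p + q) = a - b := by
    rw [sub_mul, mul_add, mul_add, ap, aq, bp, bq]
    abel
  have hYX : (p + q) * (e - f) = e - f := by
    rw [add_mul, mul_sub, mul_sub, pe, pf, qe, qf]
    abel
  have hYY : (p + q) * (p + q) = p + q := by
    rw [add_mul, mul_add, mul_add, pp, pq, qp, qq]
    abel
  have hXX : (a - b) * (e - f) = -(pc + qc) := by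
    rw [sub_mul, mul_sub, mul_sub, ae, af, be, bf]
    abel
  rw [hD, hbneg, heneg, ← ha, ← hf, hM1, hM2]
  have h2 : (1 + (a - b) - (p + q)) * (1 - (e - f) - (p + q)) =
      1 - (e - f) - (p + q) + (a - b) - (a - b) * (e - f) - (a - b) * (p + q) - (p + q)
        + (p + q) * (e - f) + (p + q) * (p + q) := by noncomm_ring
  rw [h2, hXX, hXY, hYX, hYY]
  abel

theorem slg_diag_gen (H : Subgroup (Matrix.SpecialLinearGroup ι K))
    (hT : ∀ (i j : ι) (hij : i ≠ j) (c : K), Matrix.SpecialLinearGroup.transvection hij c ∈ H)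
    (i j : ι) (hij : i ≠ j) (c : K) (hc : c ≠ 0) :
    Matrix.SpecialLinearGroup.diag2n hij c hc ∈ H := by
  have hji : j ≠ i := Ne.symm hij
  have e : Matrix.SpecialLinearGroup.diag2n hij c hc =
      (Matrix.SpecialLinearGroup.transvection hij c *
        Matrix.SpecialLinearGroup.transvection hji (-c⁻¹) *
        Matrix.SpecialLinearGroup.transvection hij c) *
      (Matrix.SpecialLinearGroup.transvection hij (-1 : K) *
        Matrix.SpecialLinearGroup.transvection hji (1 : K) *
        Matrix.SpecialLinearGroup.transvection hij (-1 : K)) := by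
    apply Subtype.ext
    rw [Matrix.SpecialLinearGroup.diag2n_coe]
    exact slg_diag_mat_gen i j hij c hc
  rw [e]
  exact H.mul_mem (H.mul_mem (H.mul_mem (hT i j hij c) (hT j i hji (-c⁻¹))) (hT i j hij c))
    (H.mul_mem (H.mul_mem (hT i j hij (-1)) (hT j i hji 1)) (hT i j hij (-1)))

theorem slg_top_gen [Nontrivial ι] (H : Subgroup (Matrix.SpecialLinearGroup ι K))
    (hT : ∀ (i j : ι) (hij : i ≠ j) (c : K), Matrix.SpecialLinearGroup.transvection hij c ∈ H) :
    H = ⊤ := by
  rw [eq_top_iff]
  intro M _
  exact Matrix.SpecialLinearGroup.diagonal_transvection_induction' (fun M => M ∈ H) M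
    (fun i j hij c hc => slg_diag_gen H hT i j hij c hc) hT (fun A B hA hB => H.mul_mem hA hB)

theorem slg_diag_trans (dv : ι → K) (a b : ι) (c c' : K) (h : dv a * c = c' * dv b) :
    Matrix.diagonal dv * (1 + single a b c) = (1 + single a b c') * Matrix.diagonal dv := by
  rw [mul_add, add_mul, mul_one, one_mul]
  congr 1
  ext p q
  rw [Matrix.diagonal_mul, Matrix.mul_diagonal, Matrix.single_apply, Matrix.single_apply]
  by_cases hpq : a = p ∧ b = q
  · obtain ⟨rfl, rfl⟩ := hpq
    simp [h]
  · simp [hpq]

theorem slg_diag_trans_sl (δ : Matrix.SpecialLinearGroup ι K) (dv : ι → K)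
    (hδ : (δ : Matrix ι ι K) = Matrix.diagonal dv) {a b : ι} (hab : a ≠ b) (c c' : K)
    (h : dv a * c = c' * dv b) :
    δ * Matrix.SpecialLinearGroup.transvection hab c =
      Matrix.SpecialLinearGroup.transvection hab c' * δ := by
  apply Subtype.ext
  show (δ : Matrix ι ι K) * (1 + single a b c) = (1 + single a b c') * (δ : Matrix ι ι K)
  rw [hδ]
  exact slg_diag_trans dv a b c c' h

theorem slg_sum_sq {K : Type*} [Field K] [Fintype K] (x : K) : ∃ a b : K, a * a + b * b = x := by
  classical
  rcases Nat.even_or_odd (Fintype.card K) with he | ho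
  · have h2 : ringChar K = 2 := FiniteField.even_card_iff_char_two.mpr (Nat.even_iff.mp he)
    obtain ⟨r, hr⟩ := FiniteField.isSquare_of_char_two h2 x
    exact ⟨r, 0, by rw [mul_zero, add_zero, hr]⟩
  · obtain ⟨a, b, hab⟩ := @FiniteField.exists_root_sum_quadratic K _ _ _ (Polynomial.X ^ 2)
      (Polynomial.X ^ 2 - Polynomial.C x) (Polynomial.degree_X_pow 2)
      (Polynomial.degree_X_pow_sub_C (by decide) _) (Nat.odd_iff.mp ho)
    refine ⟨a, b, ?_⟩
    simp only [Polynomial.eval_C, Polynomial.eval_X, Polynomial.eval_pow,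
      Polynomial.eval_sub] at hab
    linear_combination hab

end slgen2

section cyc2

variable {K : Type*} [Field K]

theorem slg_w_diag (n : ℕ) (W : Matrix (Fin (n + 1)) (Fin (n + 1)) K) (s : Fin (n + 1) → K)
    (hW : ∀ p q, W p q = if q = p + 1 then s p else 0) (hv : Fin (n + 1) → K) :
    W * Matrix.diagonal hv = Matrix.diagonal (fun p => hv (p + 1)) * W := by
  ext p q
  rw [Matrix.mul_diagonal, Matrix.diagonal_mul, hW]
  by_cases hq : q = p + 1
  · subst hq
    simp [mul_comm]
  · simp [hq]

theorem slg_all_trans (n : ℕ) (hn : 1 ≤ n)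
    (H : Subgroup (Matrix.SpecialLinearGroup (Fin (n + 1)) K))
    (w : Matrix.SpecialLinearGroup (Fin (n + 1)) K) (hwH : w ∈ H)
    (s : Fin (n + 1) → K) (hs0 : ∀ p, s p ≠ 0)
    (hW : ∀ p q, (w : Matrix (Fin (n + 1)) (Fin (n + 1)) K) p q = if q = p + 1 then s p else 0)
    (P01 : ∀ (h : (0 : Fin (n + 1)) ≠ 1) (c : K),
      Matrix.SpecialLinearGroup.transvection h c ∈ H) :
    ∀ (i j : Fin (n + 1)) (hij : i ≠ j) (c : K),
      Matrix.SpecialLinearGroup.transvection hij c ∈ H := by
  have h01 : (0 : Fin (n + 1)) ≠ 1 := by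
    intro h
    have h1 := congrArg Fin.val h
    rw [Fin.val_zero, Fin.val_one', Nat.mod_eq_of_lt (by omega)] at h1
    exact absurd h1 (by norm_num)
  have shift : ∀ i j : Fin (n + 1),
      (∀ (h : i + 1 ≠ j + 1) (c : K), Matrix.SpecialLinearGroup.transvection h c ∈ H) →
      ∀ (h : i ≠ j) (c : K), Matrix.SpecialLinearGroup.transvection h c ∈ H := by
    intro i j hP h c
    have h' : i + 1 ≠ j + 1 := fun e => h (add_right_cancel e)
    have e : w * Matrix.SpecialLinearGroup.transvection h' (c * (s i)⁻¹ * s j) =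
        Matrix.SpecialLinearGroup.transvection h c * w := by
      apply Subtype.ext
      have h5 := slg_shift_mat n
        (w : Matrix (Fin (n + 1)) (Fin (n + 1)) K) s hW i j (c * (s i)⁻¹)
      rw [inv_mul_cancel_right₀ (hs0 i)] at h5
      exact h5
    have e' : Matrix.SpecialLinearGroup.transvection h c =
        w * Matrix.SpecialLinearGroup.transvection h' (c * (s i)⁻¹ * s j) * w⁻¹ := by
      rw [e, mul_inv_cancel_right]
    rw [e']
    exact H.mul_mem (H.mul_mem hwH (hP h' _)) (H.inv_mem hwH)
  have shiftd : ∀ d : Fin (n + 1), ∀ i j : Fin (n + 1),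
      (∀ (h : i + d ≠ j + d) (c : K), Matrix.SpecialLinearGroup.transvection h c ∈ H) →
      ∀ (h : i ≠ j) (c : K), Matrix.SpecialLinearGroup.transvection h c ∈ H := by
    intro d
    induction d using Fin.induction with
    | zero =>
      intro i j hP h c
      have h' : i + 0 ≠ j + 0 := by rwa [add_zero, add_zero]
      rw [← slg_cast (add_zero i) (add_zero j) h' h c]
      exact hP h' c
    | succ d ih =>
      intro i j hP h c
      apply ih i j ?_ h c
      intro h1 c1
      apply shift (i + d.castSucc) (j + d.castSucc) ?_ h1 c1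
      intro h2 c2
      have ei : i + d.castSucc + 1 = i + d.succ := by rw [add_assoc, Fin.coeSucc_eq_succ]
      have ej : j + d.castSucc + 1 = j + d.succ := by rw [add_assoc, Fin.coeSucc_eq_succ]
      have h3 : i + d.succ ≠ j + d.succ := by rw [← ei, ← ej]; exact h2
      rw [slg_cast ei ej h2 h3 c2]
      exact hP h3 c2
  have hstep : ∀ i : Fin (n + 1), ∀ (h : i ≠ i + 1) (c : K),
      Matrix.SpecialLinearGroup.transvection h c ∈ H := by
    intro i
    apply shiftd (-i) i (i + 1)
    intro h c
    have e0 : i + -i = 0 := add_neg_cancel i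
    have e1 : i + 1 + -i = 1 := by rw [add_right_comm, add_neg_cancel, zero_add]
    rw [slg_cast e0 e1 h h01 c]
    exact P01 h01 c
  have hall : ∀ e : Fin (n + 1), ∀ i : Fin (n + 1), ∀ (h : i ≠ i + e) (c : K),
      Matrix.SpecialLinearGroup.transvection h c ∈ H := by
    intro e
    induction e using Fin.induction with
    | zero =>
      intro i h c
      exact absurd (add_zero i).symm h
    | succ e ih =>
      intro i h c
      by_cases he : e.castSucc = 0
      · have e1 : i + e.succ = i + 1 := by rw [← Fin.coeSucc_eq_succ, he, zero_add]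
        have h' : i ≠ i + 1 := by rw [← e1]; exact h
        rw [slg_cast rfl e1 h h' c]
        exact hstep i h' c
      · have hab : i ≠ i + e.castSucc := fun h0 => he (by
          have h4 : i + e.castSucc = i + 0 := by rw [add_zero]; exact h0.symm
          exact add_left_cancel h4)
        have hbd : i + e.castSucc ≠ i + e.castSucc + 1 := fun h0 => h01 (by
          have h4 : i + e.castSucc + 0 = i + e.castSucc + 1 := by rw [add_zero]; exact h0
          exact add_left_cancel h4)
        have ed : i + e.castSucc + 1 = i + e.succ := by rw [add_assoc, Fin.coeSucc_eq_succ]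
        have had : i ≠ i + e.castSucc + 1 := by rw [ed]; exact h
        have h1 := ih i hab 1
        have h2 := hstep (i + e.castSucc) hbd c
        have h3 := slg_comm H i (i + e.castSucc) (i + e.castSucc + 1) hab hbd had c h1 h2
        rw [slg_cast rfl ed.symm h had c]
        exact h3
  intro i j hij c
  have ej : i + (j - i) = j := add_sub_cancel i j
  have h' : i ≠ i + (j - i) := by rw [ej]; exact hij
  rw [slg_cast rfl ej.symm hij h' c]
  exact hall (j - i) i h' c

end cyc2

end Cfsg.Agent.Lib.Helper3
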