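import Mathlib
import Cfsg.Prelude.Def_Classical
import Cfsg.Prelude.Def_ClassicalGeometry
set_option autoImplicit false
namespace Cfsg.Agent.Lib.Helper3.SO33

open Matrix

abbrev I3 := Unit ⊕ (Fin 1 ⊕ Fin 1)

def idx : I3 → Fin 3 := Sum.elim (fun _ => 0) (Sum.elim (fun _ => 1) (fun _ => 2))

def vec (a b c : ZMod 3) : I3 → ZMod 3 :=
  Sum.elim (fun _ => a) (Sum.elim (fun _ => b) (fun _ => c))

def mat (a0 b0 c0 a1 b1 c1 a2 b2 c2 : ZMod 3) : Matrix I3 I3 (ZMod 3) :=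
  Matrix.of fun i j =>
    (Sum.elim (fun _ => vec a0 b0 c0) (Sum.elim (fun _ => vec a1 b1 c1) (fun _ => vec a2 b2 c2)) j) i

def tab3 (σ : Equiv.Perm (Fin 4)) : Matrix (Fin 3) (Fin 3) (ZMod 3) :=
  match (σ 0).val, (σ 1).val, (σ 2).val with
  | 0, 1, 2 => !![1, 0, 0; 0, 1, 0; 0, 0, 1]
  | 0, 1, 3 => !![2, 0, 0; 0, 0, 1; 0, 1, 0]
  | 0, 2, 1 => !![1, 2, 0; 0, 2, 0; 1, 1, 2]
  | 0, 2, 3 => !![2, 0, 2; 0, 0, 2; 2, 2, 1]
  | 0, 3, 1 => !![2, 1, 0; 1, 1, 2; 0, 2, 0]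
  | 0, 3, 2 => !![1, 0, 1; 2, 2, 1; 0, 0, 2]
  | 1, 0, 2 => !![1, 0, 0; 0, 2, 0; 0, 0, 2]
  | 1, 0, 3 => !![2, 0, 0; 0, 0, 2; 0, 2, 0]
  | 1, 2, 0 => !![1, 2, 0; 0, 1, 0; 2, 2, 1]
  | 1, 2, 3 => !![2, 0, 2; 0, 0, 1; 1, 1, 2]
  | 1, 3, 0 => !![2, 1, 0; 2, 2, 1; 0, 1, 0]
  | 1, 3, 2 => !![1, 0, 1; 1, 1, 2; 0, 0, 1]
  | 2, 0, 1 => !![1, 1, 0; 0, 1, 0; 1, 2, 1]
  | 2, 0, 3 => !![2, 0, 1; 0, 0, 1; 2, 1, 2]
  | 2, 1, 0 => !![1, 1, 0; 0, 2, 0; 2, 1, 2]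
  | 2, 1, 3 => !![2, 0, 1; 0, 0, 2; 1, 2, 1]
  | 2, 3, 0 => !![0, 2, 2; 1, 1, 2; 1, 2, 1]
  | 2, 3, 1 => !![0, 2, 2; 2, 2, 1; 2, 1, 2]
  | 3, 0, 1 => !![2, 2, 0; 1, 2, 1; 0, 1, 0]
  | 3, 0, 2 => !![1, 0, 2; 2, 1, 2; 0, 0, 1]
  | 3, 1, 0 => !![2, 2, 0; 2, 1, 2; 0, 2, 0]
  | 3, 1, 2 => !![1, 0, 2; 1, 2, 1; 0, 0, 2]
  | 3, 2, 0 => !![0, 1, 1; 1, 2, 1; 1, 1, 2]
  | 3, 2, 1 => !![0, 1, 1; 2, 1, 2; 2, 2, 1]
  | _, _, _ => 1

def tab (σ : Equiv.Perm (Fin 4)) : Matrix I3 I3 (ZMod 3) :=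
  Matrix.of fun i j => tab3 σ (idx i) (idx j)

abbrev Q3 : (I3 → ZMod 3) → ZMod 3 := Cfsg.quadFormOdd 1 (ZMod 3)

set_option maxRecDepth 100000 in
theorem tab_mul : ∀ σ τ : Equiv.Perm (Fin 4), tab (σ * τ) = tab σ * tab τ := by decide +kernel

set_option maxRecDepth 100000 in
theorem tab_one : tab 1 = 1 := by decide +kernel

set_option maxRecDepth 100000 in
theorem tab_inj : ∀ σ τ : Equiv.Perm (Fin 4), tab σ = tab τ → σ = τ := by decide +kernel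

set_option maxRecDepth 100000 in
theorem tab_iso : ∀ σ : Equiv.Perm (Fin 4), ∀ x y z : ZMod 3,
    Q3 (tab σ *ᵥ vec x y z) = Q3 (vec x y z) := by decide +kernel

set_option maxRecDepth 100000 in
theorem tab_det : ∀ σ : Equiv.Perm (Fin 4), (tab σ).det = 1 := by decide +kernel

set_option maxRecDepth 100000 in
set_option synthInstance.maxHeartbeats 1000000 in
set_option synthInstance.maxSize 10000 in
theorem surj3 : ∀ a0 b0 c0 : ZMod 3, Q3 (vec a0 b0 c0) = 1 →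
    ∀ a1 b1 c1 : ZMod 3, Q3 (vec a1 b1 c1) = 0 →
    ∀ a2 b2 c2 : ZMod 3, Q3 (vec a2 b2 c2) = 0 →
    (∀ x y z : ZMod 3, Q3 (mat a0 b0 c0 a1 b1 c1 a2 b2 c2 *ᵥ vec x y z) = Q3 (vec x y z)) →
    (mat a0 b0 c0 a1 b1 c1 a2 b2 c2).det = 1 →
    ∃ σ : Equiv.Perm (Fin 4), tab σ = mat a0 b0 c0 a1 b1 c1 a2 b2 c2 := by decide +kernel


theorem vec_eta (w : I3 → ZMod 3) :
    w = vec (w (Sum.inl ())) (w (Sum.inr (Sum.inl 0))) (w (Sum.inr (Sum.inr 0))) := by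
  funext i
  rcases i with u | j | j
  · rfl
  · rw [Subsingleton.elim j 0]; rfl
  · rw [Subsingleton.elim j 0]; rfl

theorem mat_eta (M : Matrix I3 I3 (ZMod 3)) :
    M = mat (M (Sum.inl ()) (Sum.inl ())) (M (Sum.inr (Sum.inl 0)) (Sum.inl ()))
          (M (Sum.inr (Sum.inr 0)) (Sum.inl ()))
          (M (Sum.inl ()) (Sum.inr (Sum.inl 0))) (M (Sum.inr (Sum.inl 0)) (Sum.inr (Sum.inl 0)))
          (M (Sum.inr (Sum.inr 0)) (Sum.inr (Sum.inl 0)))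
          (M (Sum.inl ()) (Sum.inr (Sum.inr 0))) (M (Sum.inr (Sum.inl 0)) (Sum.inr (Sum.inr 0)))
          (M (Sum.inr (Sum.inr 0)) (Sum.inr (Sum.inr 0))) := by
  ext i j
  rcases j with u | j | j
  · rcases i with u' | i | i
    · rfl
    · rw [Subsingleton.elim i 0]; rfl
    · rw [Subsingleton.elim i 0]; rfl
  · rw [Subsingleton.elim j 0]
    rcases i with u' | i | i
    · rfl
    · rw [Subsingleton.elim i 0]; rfl
    · rw [Subsingleton.elim i 0]; rfl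
  · rw [Subsingleton.elim j 0]
    rcases i with u' | i | i
    · rfl
    · rw [Subsingleton.elim i 0]; rfl
    · rw [Subsingleton.elim i 0]; rfl

theorem col_eq (M : Matrix I3 I3 (ZMod 3)) (j : I3) :
    vec (M (Sum.inl ()) j) (M (Sum.inr (Sum.inl 0)) j) (M (Sum.inr (Sum.inr 0)) j)
      = M *ᵥ Pi.single j 1 := by
  rw [Matrix.mulVec_single_one]
  exact (vec_eta (fun i => M i j)).symm

set_option maxRecDepth 100000 in
theorem Q3_basis : Q3 (Pi.single (Sum.inl ()) 1) = 1 ∧ Q3 (Pi.single (Sum.inr (Sum.inl 0)) 1) = 0 ∧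
    Q3 (Pi.single (Sum.inr (Sum.inr 0)) 1) = 0 := by decide +kernel

/-- Every special isometry over `ZMod 3` is in the table. -/
theorem surj3' (M : Matrix I3 I3 (ZMod 3)) (hiso : ∀ w : I3 → ZMod 3, Q3 (M *ᵥ w) = Q3 w)
    (hdet : M.det = 1) : ∃ σ : Equiv.Perm (Fin 4), tab σ = M := by
  obtain ⟨q0, q1, q2⟩ := Q3_basis
  have h := surj3 (M (Sum.inl ()) (Sum.inl ())) (M (Sum.inr (Sum.inl 0)) (Sum.inl ()))
          (M (Sum.inr (Sum.inr 0)) (Sum.inl ())) (by rw [col_eq, hiso, q0])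
          (M (Sum.inl ()) (Sum.inr (Sum.inl 0))) (M (Sum.inr (Sum.inl 0)) (Sum.inr (Sum.inl 0)))
          (M (Sum.inr (Sum.inr 0)) (Sum.inr (Sum.inl 0))) (by rw [col_eq, hiso, q1])
          (M (Sum.inl ()) (Sum.inr (Sum.inr 0))) (M (Sum.inr (Sum.inl 0)) (Sum.inr (Sum.inr 0)))
          (M (Sum.inr (Sum.inr 0)) (Sum.inr (Sum.inr 0))) (by rw [col_eq, hiso, q2])
  rw [← mat_eta M] at h
  exact h (fun x y z => hiso _) hdet

section field

variable {F : Type*} [Field F]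

theorem hQ (e : ZMod 3 →+* F) (w : I3 → ZMod 3) :
    Cfsg.quadFormOdd 1 F (fun i => e (w i)) = e (Q3 w) := by
  simp [Cfsg.quadFormOdd, map_add, map_pow, map_mul]

theorem iso_map (e : ZMod 3 ≃+* F) (M : Matrix I3 I3 (ZMod 3))
    (hiso : ∀ w : I3 → ZMod 3, Q3 (M *ᵥ w) = Q3 w) (u : I3 → F) :
    Cfsg.quadFormOdd 1 F ((M.map (e : ZMod 3 →+* F)) *ᵥ u) = Cfsg.quadFormOdd 1 F u := by
  have hu : u = fun i => (e : ZMod 3 →+* F) (e.symm (u i)) := by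
    funext i; simp
  rw [hu]
  have h1 : (M.map (e : ZMod 3 →+* F)) *ᵥ (fun i => (e : ZMod 3 →+* F) (e.symm (u i)))
      = fun i => (e : ZMod 3 →+* F) ((M *ᵥ (fun i => e.symm (u i))) i) := by
    funext i
    exact (RingHom.map_mulVec (e : ZMod 3 →+* F) M _ i).symm
  rw [h1, hQ, hQ, hiso]

theorem iso_unmap (e : ZMod 3 ≃+* F) (M : Matrix I3 I3 F)
    (hiso : ∀ u : I3 → F, Cfsg.quadFormOdd 1 F (M *ᵥ u) = Cfsg.quadFormOdd 1 F u)
    (w : I3 → ZMod 3) :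
    Q3 ((M.map (e.symm : F →+* ZMod 3)) *ᵥ w) = Q3 w := by
  apply e.injective
  have h0 : ∀ v : I3 → ZMod 3, e (Q3 v) = Cfsg.quadFormOdd 1 F (fun i => (e : ZMod 3 →+* F) (v i)) :=
    fun v => (hQ (e : ZMod 3 →+* F) v).symm
  rw [h0, h0]
  have h1 : (fun i => (e : ZMod 3 →+* F) (((M.map (e.symm : F →+* ZMod 3)) *ᵥ w) i))
      = M *ᵥ (fun i => (e : ZMod 3 →+* F) (w i)) := by
    funext i
    rw [RingHom.map_mulVec]
    have hM : (M.map (e.symm : F →+* ZMod 3)).map (e : ZMod 3 →+* F) = M := by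
      ext a b; simp
    rw [hM]
    rfl
  rw [h1, hiso]

/-- The table over `F`. -/
noncomputable def psiF (e : ZMod 3 ≃+* F) : Equiv.Perm (Fin 4) →* Matrix I3 I3 F where
  toFun σ := (tab σ).map (e : ZMod 3 →+* F)
  map_one' := by
    rw [tab_one]
    ext i j
    simp [Matrix.map_apply, Matrix.one_apply]
  map_mul' σ τ := by
    rw [tab_mul, Matrix.map_mul]

theorem psiF_apply (e : ZMod 3 ≃+* F) (σ : Equiv.Perm (Fin 4)) :
    psiF e σ = (tab σ).map (e : ZMod 3 →+* F) := rfl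

theorem psiU_mem (e : ZMod 3 ≃+* F) (σ : Equiv.Perm (Fin 4)) :
    (psiF e).toHomUnits σ ∈ Cfsg.isometryGroup F (Cfsg.quadFormOdd 1 F) := by
  intro u v
  show Cfsg.quadFormOdd 1 F ((((psiF e).toHomUnits σ : (Matrix I3 I3 F)ˣ) : Matrix I3 I3 F) *ᵥ u)
    = Cfsg.quadFormOdd 1 F u
  rw [MonoidHom.coe_toHomUnits, psiF_apply]
  exact iso_map e (tab σ) (fun w => by rw [vec_eta w]; exact tab_iso σ _ _ _) u

theorem psiU_det (e : ZMod 3 ≃+* F) (σ : Equiv.Perm (Fin 4)) :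
    Matrix.GeneralLinearGroup.det ((psiF e).toHomUnits σ) = 1 := by
  apply Units.ext
  rw [Matrix.GeneralLinearGroup.val_det_apply, MonoidHom.coe_toHomUnits, psiF_apply]
  have := RingHom.map_det (e : ZMod 3 →+* F) (tab σ)
  rw [RingHom.mapMatrix_apply] at this
  rw [← this, tab_det, map_one]
  rfl

noncomputable def theta (e : ZMod 3 ≃+* F) :
    Equiv.Perm (Fin 4) →* ↥(Cfsg.specialIsometryGroup F (Cfsg.quadFormOdd 1 F)) :=
  (((psiF e).toHomUnits).codRestrict (Cfsg.isometryGroup F (Cfsg.quadFormOdd 1 F))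
    (psiU_mem e)).codRestrict (Cfsg.specialIsometryGroup F (Cfsg.quadFormOdd 1 F))
    (fun σ => by
      unfold Cfsg.specialIsometryGroup
      rw [MonoidHom.mem_ker]
      exact psiU_det e σ)

theorem theta_val (e : ZMod 3 ≃+* F) (σ : Equiv.Perm (Fin 4)) :
    (((theta e σ : ↥(Cfsg.specialIsometryGroup F (Cfsg.quadFormOdd 1 F))) :
      ↥(Cfsg.isometryGroup F (Cfsg.quadFormOdd 1 F))) : Matrix.GeneralLinearGroup I3 F).val
      = (tab σ).map (e : ZMod 3 →+* F) := rfl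

theorem theta_bij (e : ZMod 3 ≃+* F) : Function.Bijective (theta e) := by
  constructor
  · intro σ τ h
    apply tab_inj
    have h1 := theta_val e σ
    rw [h, theta_val] at h1
    have hinj : Function.Injective (e : ZMod 3 →+* F) := e.injective
    exact Matrix.map_injective hinj h1.symm
  · intro s
    have hiso : ∀ u : I3 → F, Cfsg.quadFormOdd 1 F
        (((s.1.1 : Matrix.GeneralLinearGroup I3 F) : Matrix I3 I3 F) *ᵥ u)
        = Cfsg.quadFormOdd 1 F u := fun u => s.1.2 u u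
    have hdet : ((s.1.1 : Matrix.GeneralLinearGroup I3 F) : Matrix I3 I3 F).det = 1 := by
      have h2 := s.2
      unfold Cfsg.specialIsometryGroup at h2
      rw [MonoidHom.mem_ker] at h2
      have h3 := congrArg Units.val h2
      rw [MonoidHom.comp_apply, Matrix.GeneralLinearGroup.val_det_apply] at h3
      exact h3
    have hdet0 : (((s.1.1 : Matrix.GeneralLinearGroup I3 F) : Matrix I3 I3 F).map
        (e.symm : F →+* ZMod 3)).det = 1 := by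
      have := RingHom.map_det (e.symm : F →+* ZMod 3)
        ((s.1.1 : Matrix.GeneralLinearGroup I3 F) : Matrix I3 I3 F)
      rw [RingHom.mapMatrix_apply] at this
      rw [← this, hdet, map_one]
    obtain ⟨σ, hσ⟩ := surj3' _ (iso_unmap e _ hiso) hdet0
    refine ⟨σ, ?_⟩
    apply Subtype.ext
    apply Subtype.ext
    apply Units.ext
    rw [theta_val, hσ]
    ext a b
    simp

theorem main {F : Type*} [Field F] [Fintype F] (hF : Fintype.card F = 3) :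
    Nonempty (↥(Cfsg.specialIsometryGroup F (Cfsg.quadFormOdd 1 F)) ≃* Equiv.Perm (Fin 4)) := by
  have e : ZMod 3 ≃+* F := ZMod.ringEquivOfPrime F (by norm_num) hF
  exact ⟨(MulEquiv.ofBijective (theta e) (theta_bij e)).symm⟩

end field

end Cfsg.Agent.Lib.Helper3.SO33
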