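import Mathlib
set_option autoImplicit false
namespace Cfsg.Agent.Lib.Helper3.Sp42
open Matrix

abbrev I := Fin 2 ⊕ Fin 2

/-- Coordinates of `e_a + e_b` modulo the all-ones vector. -/
def colA (a b : Fin 6) (i : I) : ZMod 2 :=
  let v : ℕ → Bool := fun k => decide (k = a.val) || decide (k = b.val)
  let flip : Bool := xor (xor (v 0) (v 1)) (v 2)
  let p : ℕ := match i with
    | Sum.inl z => if z = 0 then 0 else 3
    | Sum.inr z => if z = 0 then 2 else 5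
  if xor (v p) flip then 1 else 0

def sp (j : I) : Fin 6 × Fin 6 := match j with
  | Sum.inl z => if z = 0 then (0, 1) else (3, 4)
  | Sum.inr z => if z = 0 then (1, 2) else (4, 5)

def A' (s : Fin 6 → Fin 6) : Matrix I I (ZMod 2) :=
  Matrix.of fun i j => colA (s (sp j).1) (s (sp j).2) i

def A (σ : Equiv.Perm (Fin 6)) : Matrix I I (ZMod 2) := A' σ

abbrev J2 : Matrix I I (ZMod 2) := Matrix.J (Fin 2) (ZMod 2)

def vec4 (a b c d : ZMod 2) : I → ZMod 2 :=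
  Sum.elim (fun z => if z = 0 then a else b) (fun z => if z = 0 then c else d)

def bf (a0 b0 c0 d0 a1 b1 c1 d1 : ZMod 2) : ZMod 2 := a0 * c1 + b0 * d1 + c0 * a1 + d0 * b1

def matR (a0 b0 c0 d0 a1 b1 c1 d1 a2 b2 c2 d2 a3 b3 c3 d3 : ZMod 2) : Matrix I I (ZMod 2) :=
  Matrix.of (Sum.elim (fun z => if z = 0 then vec4 a0 b0 c0 d0 else vec4 a1 b1 c1 d1)
      (fun z => if z = 0 then vec4 a2 b2 c2 d2 else vec4 a3 b3 c3 d3))

set_option maxRecDepth 100000 in
theorem A_one : A 1 = 1 := by decide +kernel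

set_option maxRecDepth 100000 in
theorem A_ker : ∀ σ : Equiv.Perm (Fin 6), A σ = 1 → σ = 1 := by decide +kernel

set_option maxRecDepth 100000 in
theorem A_symp_gen : ∀ k : Fin 5, A (Equiv.swap k.castSucc k.succ) * J2 * (A (Equiv.swap k.castSucc k.succ))ᵀ = J2 := by
  decide +kernel

set_option maxRecDepth 100000 in
theorem bf_eq : ∀ a0 b0 c0 d0 a1 b1 c1 d1 : ZMod 2,
    vec4 a0 b0 c0 d0 ⬝ᵥ (J2 *ᵥ vec4 a1 b1 c1 d1) = bf a0 b0 c0 d0 a1 b1 c1 d1 := by decide +kernel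

theorem entry_eq (M N : Matrix I I (ZMod 2)) (i j : I) :
    (M * N * Mᵀ) i j = (M i) ⬝ᵥ (N *ᵥ (M j)) := by
  rw [Matrix.mul_assoc, Matrix.mul_apply']
  rfl


set_option maxRecDepth 100000 in
set_option synthInstance.maxHeartbeats 4000000 in
set_option synthInstance.maxSize 40000 in
theorem surj : ∀ a0 b0 c0 d0 a1 b1 c1 d1 : ZMod 2, bf a0 b0 c0 d0 a1 b1 c1 d1 = 0 →
    ∀ a2 b2 c2 d2 : ZMod 2, bf a0 b0 c0 d0 a2 b2 c2 d2 = 1 → bf a1 b1 c1 d1 a2 b2 c2 d2 = 0 →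
    ∀ a3 b3 c3 d3 : ZMod 2, bf a0 b0 c0 d0 a3 b3 c3 d3 = 0 → bf a1 b1 c1 d1 a3 b3 c3 d3 = 1 →
      bf a2 b2 c2 d2 a3 b3 c3 d3 = 0 →
    ∃ s0 s1 : Fin 6, (∀ i, colA s0 s1 i =
        matR a0 b0 c0 d0 a1 b1 c1 d1 a2 b2 c2 d2 a3 b3 c3 d3 i (Sum.inl 0)) ∧
      ∃ s2 : Fin 6, (∀ i, colA s1 s2 i =
        matR a0 b0 c0 d0 a1 b1 c1 d1 a2 b2 c2 d2 a3 b3 c3 d3 i (Sum.inr 0)) ∧
      ∃ s3 s4 : Fin 6, (∀ i, colA s3 s4 i =
        matR a0 b0 c0 d0 a1 b1 c1 d1 a2 b2 c2 d2 a3 b3 c3 d3 i (Sum.inl 1)) ∧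
      ∃ s5 : Fin 6, (∀ i, colA s4 s5 i =
        matR a0 b0 c0 d0 a1 b1 c1 d1 a2 b2 c2 d2 a3 b3 c3 d3 i (Sum.inr 1)) ∧
      Function.Injective ![s0, s1, s2, s3, s4, s5] := by
  decide +kernel


set_option maxRecDepth 100000 in
theorem A_mul_gen0 : ∀ σ : Equiv.Perm (Fin 6),
    A (σ * Equiv.swap ((0 : Fin 5)).castSucc ((0 : Fin 5)).succ)
      = A σ * A (Equiv.swap ((0 : Fin 5)).castSucc ((0 : Fin 5)).succ) := by
  decide +kernel

set_option maxRecDepth 100000 in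
theorem A_mul_gen1 : ∀ σ : Equiv.Perm (Fin 6),
    A (σ * Equiv.swap ((1 : Fin 5)).castSucc ((1 : Fin 5)).succ)
      = A σ * A (Equiv.swap ((1 : Fin 5)).castSucc ((1 : Fin 5)).succ) := by
  decide +kernel

set_option maxRecDepth 100000 in
theorem A_mul_gen2 : ∀ σ : Equiv.Perm (Fin 6),
    A (σ * Equiv.swap ((2 : Fin 5)).castSucc ((2 : Fin 5)).succ)
      = A σ * A (Equiv.swap ((2 : Fin 5)).castSucc ((2 : Fin 5)).succ) := by
  decide +kernel

set_option maxRecDepth 100000 in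
theorem A_mul_gen3 : ∀ σ : Equiv.Perm (Fin 6),
    A (σ * Equiv.swap ((3 : Fin 5)).castSucc ((3 : Fin 5)).succ)
      = A σ * A (Equiv.swap ((3 : Fin 5)).castSucc ((3 : Fin 5)).succ) := by
  decide +kernel

set_option maxRecDepth 100000 in
theorem A_mul_gen4 : ∀ σ : Equiv.Perm (Fin 6),
    A (σ * Equiv.swap ((4 : Fin 5)).castSucc ((4 : Fin 5)).succ)
      = A σ * A (Equiv.swap ((4 : Fin 5)).castSucc ((4 : Fin 5)).succ) := by
  decide +kernel

theorem A_mul_gen : ∀ σ : Equiv.Perm (Fin 6), ∀ k : Fin 5,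
    A (σ * Equiv.swap k.castSucc k.succ) = A σ * A (Equiv.swap k.castSucc k.succ) := by
  intro σ k
  fin_cases k
  · exact A_mul_gen0 σ
  · exact A_mul_gen1 σ
  · exact A_mul_gen2 σ
  · exact A_mul_gen3 σ
  · exact A_mul_gen4 σ

theorem A_mul (σ τ : Equiv.Perm (Fin 6)) : A (σ * τ) = A σ * A τ := by
  have hτ : τ ∈ Submonoid.closure (Set.range fun i : Fin 5 => Equiv.swap i.castSucc i.succ) := by
    rw [Equiv.Perm.mclosure_swap_castSucc_succ]; trivial
  induction hτ using Submonoid.closure_induction generalizing σ with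
  | mem x hx =>
    obtain ⟨k, rfl⟩ := hx
    exact A_mul_gen σ k
  | one => rw [mul_one, A_one, mul_one]
  | mul x y _ _ hx hy => rw [← mul_assoc, hy (σ * x), hx σ, hy x, mul_assoc]

theorem A_inj : Function.Injective A := by
  intro σ τ h
  have h1 : A (σ⁻¹ * τ) = 1 := by
    have h2 : A (σ⁻¹ * σ) = 1 := by rw [inv_mul_cancel, A_one]
    rw [A_mul] at h2 ⊢
    rw [← h, h2]
  have := A_ker _ h1
  exact (inv_mul_eq_one.mp this)

theorem A_symp (σ : Equiv.Perm (Fin 6)) : A σ ∈ Matrix.symplecticGroup (Fin 2) (ZMod 2) := by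
  have hσ : σ ∈ Submonoid.closure (Set.range fun i : Fin 5 => Equiv.swap i.castSucc i.succ) := by
    rw [Equiv.Perm.mclosure_swap_castSucc_succ]; trivial
  induction hσ using Submonoid.closure_induction with
  | mem x hx =>
    obtain ⟨k, rfl⟩ := hx
    exact A_symp_gen k
  | one => rw [A_one]; exact Submonoid.one_mem _
  | mul x y _ _ hx hy => rw [A_mul]; exact Submonoid.mul_mem _ hx hy

theorem fin2_cases (z : Fin 2) : z = 0 ∨ z = 1 := by
  fin_cases z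
  · exact Or.inl rfl
  · exact Or.inr rfl

theorem vec_eta (w : I → ZMod 2) :
    w = vec4 (w (Sum.inl 0)) (w (Sum.inl 1)) (w (Sum.inr 0)) (w (Sum.inr 1)) := by
  funext i
  rcases i with z | z
  · rcases fin2_cases z with rfl | rfl
    · rfl
    · rfl
  · rcases fin2_cases z with rfl | rfl
    · rfl
    · rfl

theorem mat_eta (M : Matrix I I (ZMod 2)) :
    M = matR (M (Sum.inl 0) (Sum.inl 0)) (M (Sum.inl 0) (Sum.inl 1)) (M (Sum.inl 0) (Sum.inr 0))
          (M (Sum.inl 0) (Sum.inr 1))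
          (M (Sum.inl 1) (Sum.inl 0)) (M (Sum.inl 1) (Sum.inl 1)) (M (Sum.inl 1) (Sum.inr 0))
          (M (Sum.inl 1) (Sum.inr 1))
          (M (Sum.inr 0) (Sum.inl 0)) (M (Sum.inr 0) (Sum.inl 1)) (M (Sum.inr 0) (Sum.inr 0))
          (M (Sum.inr 0) (Sum.inr 1))
          (M (Sum.inr 1) (Sum.inl 0)) (M (Sum.inr 1) (Sum.inl 1)) (M (Sum.inr 1) (Sum.inr 0))
          (M (Sum.inr 1) (Sum.inr 1)) := by
  funext i
  rcases i with z | z
  · rcases fin2_cases z with rfl | rfl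
    · exact vec_eta (M (Sum.inl 0))
    · exact vec_eta (M (Sum.inl 1))
  · rcases fin2_cases z with rfl | rfl
    · exact vec_eta (M (Sum.inr 0))
    · exact vec_eta (M (Sum.inr 1))

theorem row_bf (M : Matrix I I (ZMod 2)) (h : M * J2 * Mᵀ = J2) (i j : I) :
    bf (M i (Sum.inl 0)) (M i (Sum.inl 1)) (M i (Sum.inr 0)) (M i (Sum.inr 1))
       (M j (Sum.inl 0)) (M j (Sum.inl 1)) (M j (Sum.inr 0)) (M j (Sum.inr 1)) = J2 i j := by
  rw [← bf_eq, ← vec_eta (M i), ← vec_eta (M j), ← entry_eq, h]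

set_option maxRecDepth 100000 in
theorem J2_vals : J2 (Sum.inl 0) (Sum.inl 1) = 0 ∧ J2 (Sum.inl 0) (Sum.inr 0) = 1 ∧
    J2 (Sum.inl 1) (Sum.inr 0) = 0 ∧ J2 (Sum.inl 0) (Sum.inr 1) = 0 ∧
    J2 (Sum.inl 1) (Sum.inr 1) = 1 ∧ J2 (Sum.inr 0) (Sum.inr 1) = 0 := by decide +kernel

/-- Every symplectic matrix over `ZMod 2` comes from a permutation. -/
theorem surj' (M : Matrix I I (ZMod 2)) (h : M * J2 * Mᵀ = J2) :
    ∃ σ : Equiv.Perm (Fin 6), A σ = M := by
  obtain ⟨j01, j02, j12, j03, j13, j23⟩ := J2_vals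
  have hb := row_bf M h
  obtain ⟨s0, s1, h0, s2, h1, s3, s4, h2, s5, h3, hinj⟩ :=
    surj _ _ _ _ _ _ _ _ ((hb (Sum.inl 0) (Sum.inl 1)).trans j01)
      _ _ _ _ ((hb (Sum.inl 0) (Sum.inr 0)).trans j02) ((hb (Sum.inl 1) (Sum.inr 0)).trans j12)
      _ _ _ _ ((hb (Sum.inl 0) (Sum.inr 1)).trans j03) ((hb (Sum.inl 1) (Sum.inr 1)).trans j13)
      ((hb (Sum.inr 0) (Sum.inr 1)).trans j23)
  rw [← mat_eta M] at h0 h1 h2 h3
  have hbij : Function.Bijective ![s0, s1, s2, s3, s4, s5] := Finite.injective_iff_bijective.mp hinj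
  refine ⟨Equiv.ofBijective _ hbij, ?_⟩
  ext i j
  rcases j with z | z
  · rcases fin2_cases z with rfl | rfl
    · exact h0 i
    · exact h2 i
  · rcases fin2_cases z with rfl | rfl
    · exact h1 i
    · exact h3 i

section field

variable {F : Type*} [Field F]

theorem J_map (e : ZMod 2 →+* F) : (J2).map e = Matrix.J (Fin 2) F := by
  ext i j
  rcases i with i | i <;> rcases j with j | j
  · simp [Matrix.J]
  · show e ((Matrix.J (Fin 2) (ZMod 2)) (Sum.inl i) (Sum.inr j))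
      = (Matrix.J (Fin 2) F) (Sum.inl i) (Sum.inr j)
    simp only [Matrix.J, Matrix.fromBlocks_apply₁₂, Matrix.neg_apply, Matrix.one_apply]
    split_ifs
    · rw [map_neg, map_one]
    · rw [neg_zero, map_zero, neg_zero]
  · simp [Matrix.J, Matrix.one_apply, apply_ite]
  · simp [Matrix.J]

theorem J_unmap (e : ZMod 2 ≃+* F) : (Matrix.J (Fin 2) F).map (e.symm : F →+* ZMod 2) = J2 := by
  have h := J_map (e : ZMod 2 →+* F)
  rw [← h, Matrix.map_map]
  ext i j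
  simp only [Matrix.map_apply, Function.comp_apply, RingHom.coe_coe, RingEquiv.symm_apply_apply]

theorem mem_F (e : ZMod 2 ≃+* F) (σ : Equiv.Perm (Fin 6)) :
    (A σ).map (e : ZMod 2 →+* F) ∈ Matrix.symplecticGroup (Fin 2) F := by
  have h := A_symp σ
  rw [SymplecticGroup.mem_iff] at h ⊢
  rw [← J_map (e : ZMod 2 →+* F), ← Matrix.transpose_map, ← Matrix.map_mul, ← Matrix.map_mul, h]

noncomputable def theta (e : ZMod 2 ≃+* F) :
    Equiv.Perm (Fin 6) →* ↥(Matrix.symplecticGroup (Fin 2) F) where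
  toFun σ := ⟨(A σ).map (e : ZMod 2 →+* F), mem_F e σ⟩
  map_one' := by
    apply Subtype.ext
    show (A 1).map (e : ZMod 2 →+* F) = 1
    rw [A_one]
    ext i j
    simp [Matrix.map_apply, Matrix.one_apply]
  map_mul' σ τ := by
    apply Subtype.ext
    show (A (σ * τ)).map (e : ZMod 2 →+* F)
      = (A σ).map (e : ZMod 2 →+* F) * (A τ).map (e : ZMod 2 →+* F)
    rw [A_mul, Matrix.map_mul]

theorem theta_val (e : ZMod 2 ≃+* F) (σ : Equiv.Perm (Fin 6)) :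
    ((theta e σ : ↥(Matrix.symplecticGroup (Fin 2) F)) : Matrix I I F)
      = (A σ).map (e : ZMod 2 →+* F) := rfl

theorem theta_bij (e : ZMod 2 ≃+* F) : Function.Bijective (theta e) := by
  constructor
  · intro σ τ h
    apply A_inj
    have h1 := theta_val e σ
    rw [h, theta_val] at h1
    have hinj : Function.Injective (e : ZMod 2 →+* F) := e.injective
    exact Matrix.map_injective hinj h1.symm
  · intro s
    have hM := SymplecticGroup.mem_iff.mp s.2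
    have hM0 : (s.1.map (e.symm : F →+* ZMod 2)) * J2 * (s.1.map (e.symm : F →+* ZMod 2))ᵀ = J2 := by
      rw [← J_unmap e, ← Matrix.transpose_map, ← Matrix.map_mul, ← Matrix.map_mul, hM]
    obtain ⟨σ, hσ⟩ := surj' _ hM0
    refine ⟨σ, ?_⟩
    apply Subtype.ext
    rw [theta_val, hσ]
    ext a b
    simp

theorem main {F : Type*} [Field F] [Fintype F] (hF : Fintype.card F = 2) :
    Nonempty (Matrix.symplecticGroup (Fin 2) F ≃* Equiv.Perm (Fin 6)) := by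
  have e : ZMod 2 ≃+* F := ZMod.ringEquivOfPrime F Nat.prime_two hF
  exact ⟨(MulEquiv.ofBijective (theta e) (theta_bij e)).symm⟩

end field

end Cfsg.Agent.Lib.Helper3.Sp42
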