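import Mathlib
import Cfsg.Prelude.Def_SporadicCombinatorics
set_option autoImplicit false
namespace Cfsg.Agent.Lib.Helper3.TG

open Cfsg

/-- A decidable form of membership in the ternary code of length 12. -/
def D (x : ArrayPt → ZMod 3) : Prop :=
  ∃ s : ZMod 3, (∀ i : Fin 4, ∑ r : ZMod 3, x (i, r) = -s) ∧
    ∀ a b : ZMod 3,
      ∑ i : Fin 4, x (i, (a • ![0, 1, 1, 1] + b • ![1, 0, 1, 2] : Fin 4 → ZMod 3) i) = s

instance (x : ArrayPt → ZMod 3) : Decidable (D x) := by unfold D; infer_instance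

theorem mem_iff (x : ArrayPt → ZMod 3) : x ∈ ternaryGolayCode ↔ D x := by
  show IsTernaryGolayWord x ↔ D x
  unfold IsTernaryGolayWord D tetracode
  constructor
  · rintro ⟨s, h1, h2⟩
    exact ⟨s, h1, fun a b => h2 _ (Submodule.mem_span_pair.mpr ⟨a, b, rfl⟩)⟩
  · rintro ⟨s, h1, h2⟩
    refine ⟨s, h1, fun t ht => ?_⟩
    obtain ⟨a, b, rfl⟩ := Submodule.mem_span_pair.mp ht
    exact h2 a b

def arr {α : Type} (v : Fin 4 → Fin 3 → α) : ArrayPt → α := fun p => v p.1 p.2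

/-- Six words spanning the code. -/
def gen (k : Fin 6) : ArrayPt → ZMod 3 :=
  arr ((![![![0, 0, 0], ![0, 0, 0], ![1, 1, 1], ![2, 2, 2]],
    ![![0, 0, 0], ![0, 1, 2], ![0, 1, 2], ![0, 1, 2]],
    ![![0, 0, 0], ![1, 0, 2], ![0, 2, 1], ![2, 1, 0]],
    ![![0, 0, 1], ![0, 0, 1], ![0, 1, 0], ![2, 1, 1]],
    ![![0, 1, 0], ![0, 0, 1], ![0, 2, 2], ![2, 0, 2]],
    ![![1, 0, 0], ![0, 0, 1], ![0, 0, 1], ![1, 1, 2]]] : Fin 6 → Fin 4 → Fin 3 → ZMod 3) k)

def sg (e : Fin 4 → Fin 3 → Bool) : ArrayPt → ZMod 3 := fun p => if e p.1 p.2 then 1 else -1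

def tw (e : Fin 4 → Fin 3 → Bool) (x : ArrayPt → ZMod 3) : ArrayPt → ZMod 3 :=
  fun p => sg e p * x p

set_option maxRecDepth 100000 in
theorem gen_mem : ∀ k : Fin 6, D (gen k) := by decide +kernel

set_option maxRecDepth 100000 in
set_option synthInstance.maxHeartbeats 4000000 in
set_option synthInstance.maxSize 40000 in
theorem brute : ∀ b0 b1 b2 b3 b4 b5 b6 b7 b8 b9 b10 b11 : Bool,
    (∀ k : Fin 6, D (tw ![![b0, b1, b2], ![b3, b4, b5], ![b6, b7, b8], ![b9, b10, b11]] (gen k))) →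
    (∀ i r, (![![b0, b1, b2], ![b3, b4, b5], ![b6, b7, b8], ![b9, b10, b11]] : Fin 4 → Fin 3 → Bool) i r = true) ∨
    (∀ i r, (![![b0, b1, b2], ![b3, b4, b5], ![b6, b7, b8], ![b9, b10, b11]] : Fin 4 → Fin 3 → Bool) i r = false) := by
  decide +kernel

theorem eta (e : Fin 4 → Fin 3 → Bool) :
    e = ![![e 0 0, e 0 1, e 0 2], ![e 1 0, e 1 1, e 1 2], ![e 2 0, e 2 1, e 2 2],
      ![e 3 0, e 3 1, e 3 2]] := by
  funext i r
  fin_cases i <;> fin_cases r <;> rfl

theorem units3 (u : (ZMod 3)ˣ) : u = 1 ∨ u = -1 := by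
  revert u
  decide

theorem main (c : ArrayPt → (ZMod 3)ˣ)
    (h : ∀ x ∈ ternaryGolayCode, monomialMap 1 c x ∈ ternaryGolayCode) :
    (∀ p, c p = 1) ∨ (∀ p, c p = -1) := by
  let e : Fin 4 → Fin 3 → Bool := fun i r => decide (c (i, r) = 1)
  have he : ∀ p : ArrayPt, e p.1 p.2 = decide (c p = 1) := fun p => rfl
  have hc : ∀ p : ArrayPt, ((c p : (ZMod 3)ˣ) : ZMod 3) = sg e p := by
    intro p
    rcases units3 (c p) with h1 | h1
    · simp [sg, he, h1]
    · have hne : c p ≠ 1 := by rw [h1]; decide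
      have hd : e p.1 p.2 = false := by rw [he]; exact decide_eq_false hne
      show ((c p : (ZMod 3)ˣ) : ZMod 3) = if e p.1 p.2 then 1 else -1
      rw [hd, h1]
      simp
  have hgen : ∀ k : Fin 6, D (tw e (gen k)) := by
    intro k
    have hk : gen k ∈ ternaryGolayCode := (mem_iff _).mpr (gen_mem k)
    have h2 := (mem_iff _).mp (h _ hk)
    have heq : monomialMap 1 c (gen k) = tw e (gen k) := by
      funext p
      show ((c p : (ZMod 3)ˣ) : ZMod 3) * gen k ((1 : Equiv.Perm ArrayPt).symm p) = sg e p * gen k p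
      rw [hc p]; rfl
    rwa [heq] at h2
  have hb := brute (e 0 0) (e 0 1) (e 0 2) (e 1 0) (e 1 1) (e 1 2) (e 2 0) (e 2 1) (e 2 2)
    (e 3 0) (e 3 1) (e 3 2)
  rw [← eta e] at hb
  rcases hb hgen with h1 | h1
  · left
    intro p
    have := h1 p.1 p.2
    rw [he] at this
    exact of_decide_eq_true this
  · right
    intro p
    have := h1 p.1 p.2
    rw [he] at this
    have hne : c p ≠ 1 := of_decide_eq_false this
    rcases units3 (c p) with h3 | h3
    · exact absurd h3 hne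
    · exact h3

end Cfsg.Agent.Lib.Helper3.TG
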