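import Mathlib
import Cfsg.Prelude.Def_SporadicCombinatorics
import Cfsg.Agent.Lib.Helper3.TG
set_option autoImplicit false
namespace Cfsg.Agent.Lib.Helper3.TG

open Cfsg

/-- A reduced basis of the code. -/
def rb (k : Fin 6) : ArrayPt → ZMod 3 :=
  arr ((![![![1, 0, 0], ![0, 0, 1], ![0, 0, 1], ![1, 1, 2]],
    ![![0, 1, 0], ![0, 0, 1], ![0, 2, 2], ![2, 0, 2]],
    ![![0, 0, 1], ![0, 0, 1], ![0, 1, 0], ![2, 1, 1]],
    ![![0, 0, 0], ![1, 0, 2], ![0, 2, 1], ![2, 1, 0]],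
    ![![0, 0, 0], ![0, 1, 2], ![0, 1, 2], ![0, 1, 2]],
    ![![0, 0, 0], ![0, 0, 0], ![1, 1, 1], ![2, 2, 2]]] : Fin 6 → Fin 4 → Fin 3 → ZMod 3) k)

/-- The pivot positions of the reduced basis. -/
def piv (k : Fin 6) : ArrayPt := (![((0 : Fin 4), (0 : ZMod 3)), ((0 : Fin 4), (1 : ZMod 3)), ((0 : Fin 4), (2 : ZMod 3)), ((1 : Fin 4), (0 : ZMod 3)), ((1 : Fin 4), (1 : ZMod 3)), ((2 : Fin 4), (0 : ZMod 3))] : Fin 6 → ArrayPt) k

def phi (a : Fin 6 → ZMod 3) : ArrayPt → ZMod 3 := fun p => ∑ k, a k * rb k p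

def ext6 (c0 c1 c2 c3 c4 c5 : ZMod 3) : ArrayPt → ZMod 3 :=
  arr (![![0, 0, 0], ![0, 0, c0], ![0, c1, c2], ![c3, c4, c5]] : Fin 4 → Fin 3 → ZMod 3)

set_option maxRecDepth 100000 in
theorem rb_mem : ∀ k : Fin 6, D (rb k) := by decide +kernel

set_option maxRecDepth 100000 in
theorem rb_piv : ∀ k j : Fin 6, rb k (piv j) = if k = j then 1 else 0 := by decide +kernel

set_option maxRecDepth 100000 in
theorem zero_of_piv : ∀ c0 c1 c2 c3 c4 c5 : ZMod 3, D (ext6 c0 c1 c2 c3 c4 c5) →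
    c0 = 0 ∧ c1 = 0 ∧ c2 = 0 ∧ c3 = 0 ∧ c4 = 0 ∧ c5 = 0 := by decide +kernel

set_option maxRecDepth 100000 in
theorem ext6_zero : ext6 0 0 0 0 0 0 = 0 := by decide +kernel

theorem fin4_cases (i : Fin 4) : i = 0 ∨ i = 1 ∨ i = 2 ∨ i = 3 := by
  revert i; decide

theorem zmod3_cases (r : ZMod 3) : r = 0 ∨ r = 1 ∨ r = 2 := by
  revert r; decide

theorem ext6_eta (y : ArrayPt → ZMod 3) (hy : ∀ j : Fin 6, y (piv j) = 0) :
    y = ext6 (y ((1 : Fin 4), (2 : ZMod 3))) (y ((2 : Fin 4), (1 : ZMod 3))) (y ((2 : Fin 4), (2 : ZMod 3))) (y ((3 : Fin 4), (0 : ZMod 3))) (y ((3 : Fin 4), (1 : ZMod 3))) (y ((3 : Fin 4), (2 : ZMod 3))) := by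
  funext p
  obtain ⟨i, r⟩ := p
  rcases fin4_cases i with rfl | rfl | rfl | rfl <;> rcases zmod3_cases r with rfl | rfl | rfl
  · exact hy 0
  · exact hy 1
  · exact hy 2
  · exact hy 3
  · exact hy 4
  · rfl
  · exact hy 5
  · rfl
  · rfl
  · rfl
  · rfl
  · rfl

theorem phi_piv (a : Fin 6 → ZMod 3) (j : Fin 6) : phi a (piv j) = a j := by
  unfold phi
  simp only [rb_piv, mul_ite, mul_one, mul_zero]
  rw [Finset.sum_ite_eq' Finset.univ j a]
  simp

theorem phi_eq (a : Fin 6 → ZMod 3) : phi a = ∑ k, a k • rb k := by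
  funext p
  simp [phi, Finset.sum_apply]

theorem phi_mem (a : Fin 6 → ZMod 3) : phi a ∈ ternaryGolayCode := by
  rw [phi_eq]
  exact Submodule.sum_mem _ (fun k _ => Submodule.smul_mem _ _ ((mem_iff _).mpr (rb_mem k)))

theorem phi_inj : Function.Injective phi := by
  intro a b h
  funext j
  rw [← phi_piv a j, ← phi_piv b j, h]

theorem phi_surj (x : ArrayPt → ZMod 3) (hx : x ∈ ternaryGolayCode) :
    x = phi (fun k => x (piv k)) := by
  have hy : x - phi (fun k => x (piv k)) ∈ ternaryGolayCode :=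
    Submodule.sub_mem _ hx (phi_mem _)
  have hz : ∀ j : Fin 6, (x - phi (fun k => x (piv k))) (piv j) = 0 := by
    intro j
    rw [Pi.sub_apply, phi_piv, sub_self]
  have hD := (mem_iff _).mp hy
  rw [ext6_eta _ hz] at hD
  obtain ⟨h0, h1, h2, h3, h4, h5⟩ := zero_of_piv _ _ _ _ _ _ hD
  have h := ext6_eta _ hz
  rw [h0, h1, h2, h3, h4, h5, ext6_zero] at h
  exact sub_eq_zero.mp h

theorem mem_iff_phi (x : ArrayPt → ZMod 3) : x ∈ ternaryGolayCode ↔ ∃ a, phi a = x :=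
  ⟨fun hx => ⟨_, (phi_surj x hx).symm⟩, fun ⟨a, ha⟩ => ha ▸ phi_mem a⟩

noncomputable def phiEquiv : (Fin 6 → ZMod 3) ≃ ↥ternaryGolayCode :=
  Equiv.ofBijective (fun a => ⟨phi a, phi_mem a⟩)
    ⟨fun a b h => phi_inj (congrArg Subtype.val h),
     fun x => ⟨fun k => x.1 (piv k), Subtype.ext (phi_surj x.1 x.2).symm⟩⟩

theorem card_code : Nat.card ↥ternaryGolayCode = 729 := by
  rw [← Nat.card_congr phiEquiv, Nat.card_eq_fintype_card]
  simp [ZMod.card]

set_option maxRecDepth 100000 in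
theorem wt_cases : ∀ a : Fin 6 → ZMod 3, phi a ≠ 0 →
    (ternarySupport (phi a)).card = 6 ∨ (ternarySupport (phi a)).card = 9 ∨
    (ternarySupport (phi a)).card = 12 := by decide +kernel

set_option maxRecDepth 100000 in
theorem cnt6 : (Finset.univ.filter
    (fun a : Fin 6 → ZMod 3 => (ternarySupport (phi a)).card = 6)).card = 264 := by decide +kernel

set_option maxRecDepth 100000 in
theorem cnt9 : (Finset.univ.filter
    (fun a : Fin 6 → ZMod 3 => (ternarySupport (phi a)).card = 9)).card = 440 := by decide +kernel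

set_option maxRecDepth 100000 in
theorem cnt12 : (Finset.univ.filter
    (fun a : Fin 6 → ZMod 3 => (ternarySupport (phi a)).card = 12)).card = 24 := by decide +kernel

theorem ncard_wt (w : ℕ) :
    {x : ArrayPt → ZMod 3 | x ∈ ternaryGolayCode ∧ (ternarySupport x).card = w}.ncard
      = (Finset.univ.filter
          (fun a : Fin 6 → ZMod 3 => (ternarySupport (phi a)).card = w)).card := by
  have h1 : {x : ArrayPt → ZMod 3 | x ∈ ternaryGolayCode ∧ (ternarySupport x).card = w}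
      = phi '' (↑(Finset.univ.filter
          (fun a : Fin 6 → ZMod 3 => (ternarySupport (phi a)).card = w)) : Set (Fin 6 → ZMod 3)) := by
    ext x
    constructor
    · rintro ⟨hx, hw⟩
      obtain ⟨a, rfl⟩ := (mem_iff_phi x).mp hx
      exact ⟨a, by simpa using hw, rfl⟩
    · rintro ⟨a, ha, rfl⟩
      exact ⟨phi_mem a, by simpa using ha⟩
  rw [h1, Set.ncard_image_of_injective _ phi_inj, Set.ncard_coe_finset]

theorem main1590 : Nat.card ↥Cfsg.ternaryGolayCode = 729 ∧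
    (∀ x ∈ Cfsg.ternaryGolayCode, x ≠ 0 → (Cfsg.ternarySupport x).card = 6 ∨
      (Cfsg.ternarySupport x).card = 9 ∨ (Cfsg.ternarySupport x).card = 12) ∧
    {x : Cfsg.ArrayPt → ZMod 3 | x ∈ Cfsg.ternaryGolayCode ∧
      (Cfsg.ternarySupport x).card = 6}.ncard = 264 ∧
    {x : Cfsg.ArrayPt → ZMod 3 | x ∈ Cfsg.ternaryGolayCode ∧
      (Cfsg.ternarySupport x).card = 9}.ncard = 440 ∧
    {x : Cfsg.ArrayPt → ZMod 3 | x ∈ Cfsg.ternaryGolayCode ∧
      (Cfsg.ternarySupport x).card = 12}.ncard = 24 := by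
  refine ⟨card_code, ?_, ?_, ?_, ?_⟩
  · intro x hx hx0
    obtain ⟨a, rfl⟩ := (mem_iff_phi x).mp hx
    exact wt_cases a hx0
  · rw [ncard_wt]; exact cnt6
  · rw [ncard_wt]; exact cnt9
  · rw [ncard_wt]; exact cnt12

end Cfsg.Agent.Lib.Helper3.TG
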