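import Mathlib
import Cfsg.Prelude.Def_SporadicCombinatorics
import Cfsg.Prelude.Def_Sporadic_a
import Cfsg.Agent.Lib.Helper3.TG2
set_option autoImplicit false
namespace Cfsg.Agent.Lib.Helper3.TG

open Cfsg

/-- The 132 supports of the words of weight six. -/
def blk : Fin 132 → Finset ArrayPt :=
  ![{(0, 0), (0, 1), (0, 2), (1, 0), (1, 1), (1, 2)},
    {(0, 0), (0, 1), (0, 2), (1, 0), (2, 0), (3, 0)},
    {(0, 0), (0, 1), (0, 2), (1, 0), (2, 1), (3, 2)},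
    {(0, 0), (0, 1), (0, 2), (1, 0), (2, 2), (3, 1)},
    {(0, 0), (0, 1), (0, 2), (1, 1), (2, 0), (3, 2)},
    {(0, 0), (0, 1), (0, 2), (1, 1), (2, 1), (3, 1)},
    {(0, 0), (0, 1), (0, 2), (1, 1), (2, 2), (3, 0)},
    {(0, 0), (0, 1), (0, 2), (1, 2), (2, 0), (3, 1)},
    {(0, 0), (0, 1), (0, 2), (1, 2), (2, 1), (3, 0)},
    {(0, 0), (0, 1), (0, 2), (1, 2), (2, 2), (3, 2)},
    {(0, 0), (0, 1), (0, 2), (2, 0), (2, 1), (2, 2)},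
    {(0, 0), (0, 1), (0, 2), (3, 0), (3, 1), (3, 2)},
    {(0, 0), (0, 1), (1, 0), (1, 1), (2, 0), (2, 2)},
    {(0, 0), (0, 1), (1, 0), (1, 1), (2, 1), (3, 0)},
    {(0, 0), (0, 1), (1, 0), (1, 1), (3, 1), (3, 2)},
    {(0, 0), (0, 1), (1, 0), (1, 2), (2, 0), (3, 2)},
    {(0, 0), (0, 1), (1, 0), (1, 2), (2, 1), (2, 2)},
    {(0, 0), (0, 1), (1, 0), (1, 2), (3, 0), (3, 1)},
    {(0, 0), (0, 1), (1, 0), (2, 0), (2, 1), (3, 1)},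
    {(0, 0), (0, 1), (1, 0), (2, 2), (3, 0), (3, 2)},
    {(0, 0), (0, 1), (1, 1), (1, 2), (2, 0), (2, 1)},
    {(0, 0), (0, 1), (1, 1), (1, 2), (2, 2), (3, 1)},
    {(0, 0), (0, 1), (1, 1), (1, 2), (3, 0), (3, 2)},
    {(0, 0), (0, 1), (1, 1), (2, 0), (3, 0), (3, 1)},
    {(0, 0), (0, 1), (1, 1), (2, 1), (2, 2), (3, 2)},
    {(0, 0), (0, 1), (1, 2), (2, 0), (2, 2), (3, 0)},
    {(0, 0), (0, 1), (1, 2), (2, 1), (3, 1), (3, 2)},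
    {(0, 0), (0, 1), (2, 0), (2, 1), (3, 0), (3, 2)},
    {(0, 0), (0, 1), (2, 0), (2, 2), (3, 1), (3, 2)},
    {(0, 0), (0, 1), (2, 1), (2, 2), (3, 0), (3, 1)},
    {(0, 0), (0, 2), (1, 0), (1, 1), (2, 0), (3, 1)},
    {(0, 0), (0, 2), (1, 0), (1, 1), (2, 1), (2, 2)},
    {(0, 0), (0, 2), (1, 0), (1, 1), (3, 0), (3, 2)},
    {(0, 0), (0, 2), (1, 0), (1, 2), (2, 0), (2, 1)},
    {(0, 0), (0, 2), (1, 0), (1, 2), (2, 2), (3, 0)},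
    {(0, 0), (0, 2), (1, 0), (1, 2), (3, 1), (3, 2)},
    {(0, 0), (0, 2), (1, 0), (2, 0), (2, 2), (3, 2)},
    {(0, 0), (0, 2), (1, 0), (2, 1), (3, 0), (3, 1)},
    {(0, 0), (0, 2), (1, 1), (1, 2), (2, 0), (2, 2)},
    {(0, 0), (0, 2), (1, 1), (1, 2), (2, 1), (3, 2)},
    {(0, 0), (0, 2), (1, 1), (1, 2), (3, 0), (3, 1)},
    {(0, 0), (0, 2), (1, 1), (2, 0), (2, 1), (3, 0)},
    {(0, 0), (0, 2), (1, 1), (2, 2), (3, 1), (3, 2)},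
    {(0, 0), (0, 2), (1, 2), (2, 0), (3, 0), (3, 2)},
    {(0, 0), (0, 2), (1, 2), (2, 1), (2, 2), (3, 1)},
    {(0, 0), (0, 2), (2, 0), (2, 1), (3, 1), (3, 2)},
    {(0, 0), (0, 2), (2, 0), (2, 2), (3, 0), (3, 1)},
    {(0, 0), (0, 2), (2, 1), (2, 2), (3, 0), (3, 2)},
    {(0, 0), (1, 0), (1, 1), (1, 2), (2, 0), (3, 0)},
    {(0, 0), (1, 0), (1, 1), (1, 2), (2, 1), (3, 1)},
    {(0, 0), (1, 0), (1, 1), (1, 2), (2, 2), (3, 2)},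
    {(0, 0), (1, 0), (1, 1), (2, 0), (2, 1), (3, 2)},
    {(0, 0), (1, 0), (1, 1), (2, 2), (3, 0), (3, 1)},
    {(0, 0), (1, 0), (1, 2), (2, 0), (2, 2), (3, 1)},
    {(0, 0), (1, 0), (1, 2), (2, 1), (3, 0), (3, 2)},
    {(0, 0), (1, 0), (2, 0), (2, 1), (2, 2), (3, 0)},
    {(0, 0), (1, 0), (2, 0), (3, 0), (3, 1), (3, 2)},
    {(0, 0), (1, 0), (2, 1), (2, 2), (3, 1), (3, 2)},
    {(0, 0), (1, 1), (1, 2), (2, 0), (3, 1), (3, 2)},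
    {(0, 0), (1, 1), (1, 2), (2, 1), (2, 2), (3, 0)},
    {(0, 0), (1, 1), (2, 0), (2, 1), (2, 2), (3, 1)},
    {(0, 0), (1, 1), (2, 0), (2, 2), (3, 0), (3, 2)},
    {(0, 0), (1, 1), (2, 1), (3, 0), (3, 1), (3, 2)},
    {(0, 0), (1, 2), (2, 0), (2, 1), (2, 2), (3, 2)},
    {(0, 0), (1, 2), (2, 0), (2, 1), (3, 0), (3, 1)},
    {(0, 0), (1, 2), (2, 2), (3, 0), (3, 1), (3, 2)},
    {(0, 1), (0, 2), (1, 0), (1, 1), (2, 0), (2, 1)},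
    {(0, 1), (0, 2), (1, 0), (1, 1), (2, 2), (3, 2)},
    {(0, 1), (0, 2), (1, 0), (1, 1), (3, 0), (3, 1)},
    {(0, 1), (0, 2), (1, 0), (1, 2), (2, 0), (2, 2)},
    {(0, 1), (0, 2), (1, 0), (1, 2), (2, 1), (3, 1)},
    {(0, 1), (0, 2), (1, 0), (1, 2), (3, 0), (3, 2)},
    {(0, 1), (0, 2), (1, 0), (2, 0), (3, 1), (3, 2)},
    {(0, 1), (0, 2), (1, 0), (2, 1), (2, 2), (3, 0)},
    {(0, 1), (0, 2), (1, 1), (1, 2), (2, 0), (3, 0)},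
    {(0, 1), (0, 2), (1, 1), (1, 2), (2, 1), (2, 2)},
    {(0, 1), (0, 2), (1, 1), (1, 2), (3, 1), (3, 2)},
    {(0, 1), (0, 2), (1, 1), (2, 0), (2, 2), (3, 1)},
    {(0, 1), (0, 2), (1, 1), (2, 1), (3, 0), (3, 2)},
    {(0, 1), (0, 2), (1, 2), (2, 0), (2, 1), (3, 2)},
    {(0, 1), (0, 2), (1, 2), (2, 2), (3, 0), (3, 1)},
    {(0, 1), (0, 2), (2, 0), (2, 1), (3, 0), (3, 1)},
    {(0, 1), (0, 2), (2, 0), (2, 2), (3, 0), (3, 2)},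
    {(0, 1), (0, 2), (2, 1), (2, 2), (3, 1), (3, 2)},
    {(0, 1), (1, 0), (1, 1), (1, 2), (2, 0), (3, 1)},
    {(0, 1), (1, 0), (1, 1), (1, 2), (2, 1), (3, 2)},
    {(0, 1), (1, 0), (1, 1), (1, 2), (2, 2), (3, 0)},
    {(0, 1), (1, 0), (1, 1), (2, 0), (3, 0), (3, 2)},
    {(0, 1), (1, 0), (1, 1), (2, 1), (2, 2), (3, 1)},
    {(0, 1), (1, 0), (1, 2), (2, 0), (2, 1), (3, 0)},
    {(0, 1), (1, 0), (1, 2), (2, 2), (3, 1), (3, 2)},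
    {(0, 1), (1, 0), (2, 0), (2, 1), (2, 2), (3, 2)},
    {(0, 1), (1, 0), (2, 0), (2, 2), (3, 0), (3, 1)},
    {(0, 1), (1, 0), (2, 1), (3, 0), (3, 1), (3, 2)},
    {(0, 1), (1, 1), (1, 2), (2, 0), (2, 2), (3, 2)},
    {(0, 1), (1, 1), (1, 2), (2, 1), (3, 0), (3, 1)},
    {(0, 1), (1, 1), (2, 0), (2, 1), (2, 2), (3, 0)},
    {(0, 1), (1, 1), (2, 0), (2, 1), (3, 1), (3, 2)},
    {(0, 1), (1, 1), (2, 2), (3, 0), (3, 1), (3, 2)},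
    {(0, 1), (1, 2), (2, 0), (2, 1), (2, 2), (3, 1)},
    {(0, 1), (1, 2), (2, 0), (3, 0), (3, 1), (3, 2)},
    {(0, 1), (1, 2), (2, 1), (2, 2), (3, 0), (3, 2)},
    {(0, 2), (1, 0), (1, 1), (1, 2), (2, 0), (3, 2)},
    {(0, 2), (1, 0), (1, 1), (1, 2), (2, 1), (3, 0)},
    {(0, 2), (1, 0), (1, 1), (1, 2), (2, 2), (3, 1)},
    {(0, 2), (1, 0), (1, 1), (2, 0), (2, 2), (3, 0)},
    {(0, 2), (1, 0), (1, 1), (2, 1), (3, 1), (3, 2)},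
    {(0, 2), (1, 0), (1, 2), (2, 0), (3, 0), (3, 1)},
    {(0, 2), (1, 0), (1, 2), (2, 1), (2, 2), (3, 2)},
    {(0, 2), (1, 0), (2, 0), (2, 1), (2, 2), (3, 1)},
    {(0, 2), (1, 0), (2, 0), (2, 1), (3, 0), (3, 2)},
    {(0, 2), (1, 0), (2, 2), (3, 0), (3, 1), (3, 2)},
    {(0, 2), (1, 1), (1, 2), (2, 0), (2, 1), (3, 1)},
    {(0, 2), (1, 1), (1, 2), (2, 2), (3, 0), (3, 2)},
    {(0, 2), (1, 1), (2, 0), (2, 1), (2, 2), (3, 2)},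
    {(0, 2), (1, 1), (2, 0), (3, 0), (3, 1), (3, 2)},
    {(0, 2), (1, 1), (2, 1), (2, 2), (3, 0), (3, 1)},
    {(0, 2), (1, 2), (2, 0), (2, 1), (2, 2), (3, 0)},
    {(0, 2), (1, 2), (2, 0), (2, 2), (3, 1), (3, 2)},
    {(0, 2), (1, 2), (2, 1), (3, 0), (3, 1), (3, 2)},
    {(1, 0), (1, 1), (1, 2), (2, 0), (2, 1), (2, 2)},
    {(1, 0), (1, 1), (1, 2), (3, 0), (3, 1), (3, 2)},
    {(1, 0), (1, 1), (2, 0), (2, 1), (3, 0), (3, 1)},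
    {(1, 0), (1, 1), (2, 0), (2, 2), (3, 1), (3, 2)},
    {(1, 0), (1, 1), (2, 1), (2, 2), (3, 0), (3, 2)},
    {(1, 0), (1, 2), (2, 0), (2, 1), (3, 1), (3, 2)},
    {(1, 0), (1, 2), (2, 0), (2, 2), (3, 0), (3, 2)},
    {(1, 0), (1, 2), (2, 1), (2, 2), (3, 0), (3, 1)},
    {(1, 1), (1, 2), (2, 0), (2, 1), (3, 0), (3, 2)},
    {(1, 1), (1, 2), (2, 0), (2, 2), (3, 0), (3, 1)},
    {(1, 1), (1, 2), (2, 1), (2, 2), (3, 1), (3, 2)},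
    {(2, 0), (2, 1), (2, 2), (3, 0), (3, 1), (3, 2)}]

/-- Coefficient vectors of words with these supports. -/
def wit : Fin 132 → Fin 6 → ZMod 3 :=
  ![![1, 1, 1, 2, 2, 0],
    ![1, 2, 2, 2, 0, 2],
    ![1, 2, 1, 1, 0, 0],
    ![1, 1, 2, 1, 0, 0],
    ![1, 1, 2, 0, 1, 1],
    ![1, 2, 2, 0, 2, 0],
    ![1, 2, 1, 0, 1, 0],
    ![1, 2, 1, 0, 0, 1],
    ![1, 1, 2, 0, 0, 0],
    ![1, 2, 2, 0, 0, 0],
    ![1, 1, 1, 0, 0, 2],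
    ![1, 1, 1, 0, 0, 0],
    ![1, 2, 0, 1, 2, 1],
    ![1, 1, 0, 1, 1, 0],
    ![1, 2, 0, 2, 1, 0],
    ![1, 1, 0, 1, 0, 2],
    ![1, 2, 0, 2, 0, 0],
    ![1, 2, 0, 1, 0, 0],
    ![1, 1, 0, 2, 0, 1],
    ![1, 1, 0, 2, 0, 0],
    ![1, 2, 0, 0, 1, 2],
    ![1, 1, 0, 0, 1, 0],
    ![1, 2, 0, 0, 2, 0],
    ![1, 1, 0, 0, 2, 2],
    ![1, 1, 0, 0, 2, 0],
    ![1, 1, 0, 0, 0, 1],
    ![1, 1, 0, 0, 0, 0],
    ![1, 2, 0, 0, 0, 1],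
    ![1, 2, 0, 0, 0, 2],
    ![1, 2, 0, 0, 0, 0],
    ![1, 0, 1, 1, 1, 2],
    ![1, 0, 2, 2, 1, 0],
    ![1, 0, 2, 1, 2, 0],
    ![1, 0, 2, 1, 0, 1],
    ![1, 0, 1, 1, 0, 0],
    ![1, 0, 2, 2, 0, 0],
    ![1, 0, 1, 2, 0, 1],
    ![1, 0, 1, 2, 0, 0],
    ![1, 0, 2, 0, 2, 2],
    ![1, 0, 1, 0, 1, 0],
    ![1, 0, 2, 0, 1, 0],
    ![1, 0, 1, 0, 2, 1],
    ![1, 0, 1, 0, 2, 0],
    ![1, 0, 1, 0, 0, 2],
    ![1, 0, 1, 0, 0, 0],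
    ![1, 0, 2, 0, 0, 2],
    ![1, 0, 2, 0, 0, 1],
    ![1, 0, 2, 0, 0, 0],
    ![1, 0, 0, 2, 1, 1],
    ![1, 0, 0, 1, 2, 0],
    ![1, 0, 0, 1, 1, 0],
    ![1, 0, 0, 2, 2, 2],
    ![1, 0, 0, 2, 2, 0],
    ![1, 0, 0, 2, 0, 2],
    ![1, 0, 0, 2, 0, 0],
    ![1, 0, 0, 1, 0, 2],
    ![1, 0, 0, 1, 0, 1],
    ![1, 0, 0, 1, 0, 0],
    ![1, 0, 0, 0, 2, 1],
    ![1, 0, 0, 0, 2, 0],
    ![1, 0, 0, 0, 1, 1],
    ![1, 0, 0, 0, 1, 2],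
    ![1, 0, 0, 0, 1, 0],
    ![1, 0, 0, 0, 0, 1],
    ![1, 0, 0, 0, 0, 2],
    ![1, 0, 0, 0, 0, 0],
    ![0, 1, 2, 1, 2, 2],
    ![0, 1, 1, 1, 1, 0],
    ![0, 1, 2, 2, 1, 0],
    ![0, 1, 2, 2, 0, 1],
    ![0, 1, 1, 1, 0, 0],
    ![0, 1, 2, 1, 0, 0],
    ![0, 1, 1, 2, 0, 2],
    ![0, 1, 1, 2, 0, 0],
    ![0, 1, 1, 0, 1, 2],
    ![0, 1, 2, 0, 1, 0],
    ![0, 1, 2, 0, 2, 0],
    ![0, 1, 1, 0, 2, 1],
    ![0, 1, 1, 0, 2, 0],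
    ![0, 1, 1, 0, 0, 1],
    ![0, 1, 1, 0, 0, 0],
    ![0, 1, 2, 0, 0, 1],
    ![0, 1, 2, 0, 0, 2],
    ![0, 1, 2, 0, 0, 0],
    ![0, 1, 0, 1, 1, 1],
    ![0, 1, 0, 2, 1, 0],
    ![0, 1, 0, 1, 2, 0],
    ![0, 1, 0, 2, 2, 1],
    ![0, 1, 0, 2, 2, 0],
    ![0, 1, 0, 2, 0, 2],
    ![0, 1, 0, 2, 0, 0],
    ![0, 1, 0, 1, 0, 1],
    ![0, 1, 0, 1, 0, 2],
    ![0, 1, 0, 1, 0, 0],
    ![0, 1, 0, 0, 2, 2],
    ![0, 1, 0, 0, 2, 0],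
    ![0, 1, 0, 0, 1, 1],
    ![0, 1, 0, 0, 1, 2],
    ![0, 1, 0, 0, 1, 0],
    ![0, 1, 0, 0, 0, 2],
    ![0, 1, 0, 0, 0, 1],
    ![0, 1, 0, 0, 0, 0],
    ![0, 0, 1, 1, 2, 1],
    ![0, 0, 1, 1, 1, 0],
    ![0, 0, 1, 2, 1, 0],
    ![0, 0, 1, 2, 2, 2],
    ![0, 0, 1, 2, 2, 0],
    ![0, 0, 1, 2, 0, 1],
    ![0, 0, 1, 2, 0, 0],
    ![0, 0, 1, 1, 0, 1],
    ![0, 0, 1, 1, 0, 2],
    ![0, 0, 1, 1, 0, 0],
    ![0, 0, 1, 0, 2, 2],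
    ![0, 0, 1, 0, 2, 0],
    ![0, 0, 1, 0, 1, 2],
    ![0, 0, 1, 0, 1, 1],
    ![0, 0, 1, 0, 1, 0],
    ![0, 0, 1, 0, 0, 1],
    ![0, 0, 1, 0, 0, 2],
    ![0, 0, 1, 0, 0, 0],
    ![0, 0, 0, 1, 1, 2],
    ![0, 0, 0, 1, 1, 0],
    ![0, 0, 0, 1, 2, 1],
    ![0, 0, 0, 1, 2, 2],
    ![0, 0, 0, 1, 2, 0],
    ![0, 0, 0, 1, 0, 2],
    ![0, 0, 0, 1, 0, 1],
    ![0, 0, 0, 1, 0, 0],
    ![0, 0, 0, 0, 1, 1],
    ![0, 0, 0, 0, 1, 2],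
    ![0, 0, 0, 0, 1, 0],
    ![0, 0, 0, 0, 0, 1]]

set_option maxRecDepth 100000 in
theorem blk_wit : ∀ i : Fin 132, ternarySupport (phi (wit i)) = blk i := by decide +kernel

set_option maxRecDepth 100000 in
theorem blk_card : ∀ i : Fin 132, (blk i).card = 6 := by decide +kernel


set_option maxRecDepth 100000 in
theorem blk_inter : ∀ i j : Fin 132, i ≠ j → ((blk i) ∩ (blk j)).card ≤ 4 := by decide +kernel


set_option maxRecDepth 100000 in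
theorem blk_all' : ∀ a : Fin 6 → ZMod 3, (ternarySupport (phi a)).card = 6 →
    ∃ i : Fin 132, a = wit i ∨ a = -wit i := by decide +kernel

attribute [local irreducible] blk wit

theorem phi_neg (a : Fin 6 → ZMod 3) : phi (-a) = -phi a := by
  funext p
  simp [phi, Finset.sum_neg_distrib]

theorem supp_neg (x : ArrayPt → ZMod 3) : ternarySupport (-x) = ternarySupport x := by
  ext p
  simp [ternarySupport]

theorem blk_all (a : Fin 6 → ZMod 3) (ha : (ternarySupport (phi a)).card = 6) :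
    ∃ i : Fin 132, ternarySupport (phi a) = blk i := by
  obtain ⟨i, h | h⟩ := blk_all' a ha
  · exact ⟨i, by rw [h]; exact blk_wit i⟩
  · exact ⟨i, by rw [h, phi_neg, supp_neg]; exact blk_wit i⟩

set_option maxRecDepth 100000 in
theorem blk_cover (s : Finset ArrayPt) (hs : s.card = 5) : ∃ i : Fin 132, s ⊆ blk i := by
  classical
  have hdisj : ((Finset.univ : Finset (Fin 132)) : Set (Fin 132)).PairwiseDisjoint
      (fun i : Fin 132 => Finset.powersetCard 5 (blk i)) := by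
    intro i _ j _ hij
    show Disjoint (Finset.powersetCard 5 (blk i)) (Finset.powersetCard 5 (blk j))
    rw [Finset.disjoint_left]
    intro t hti htj
    rw [Finset.mem_powersetCard] at hti htj
    have h4 := blk_inter i j hij
    have h5 : t.card ≤ (blk i ∩ blk j).card :=
      Finset.card_le_card (Finset.subset_inter hti.1 htj.1)
    omega
  have hU : ((Finset.univ : Finset (Fin 132)).biUnion
      (fun i : Fin 132 => Finset.powersetCard 5 (blk i))).card = 792 := by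
    rw [Finset.card_biUnion hdisj]
    simp only [Finset.card_powersetCard, blk_card]
    simp
  have hsub : (Finset.univ : Finset (Fin 132)).biUnion
      (fun i : Fin 132 => Finset.powersetCard 5 (blk i))
      ⊆ Finset.powersetCard 5 (Finset.univ : Finset ArrayPt) := by
    intro t ht
    obtain ⟨i, _, hti⟩ := Finset.mem_biUnion.mp ht
    rw [Finset.mem_powersetCard] at hti ⊢
    exact ⟨Finset.subset_univ t, hti.2⟩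
  have hP : (Finset.powersetCard 5 (Finset.univ : Finset ArrayPt)).card = 792 := by
    rw [Finset.card_powersetCard]
    have : (Finset.univ : Finset ArrayPt).card = 12 := by
      rw [Finset.card_univ]; simp [ZMod.card]
    rw [this]
    decide
  have hEq := Finset.eq_of_subset_of_card_le hsub (by rw [hP, hU])
  have hsU : s ∈ (Finset.univ : Finset (Fin 132)).biUnion
      (fun i : Fin 132 => Finset.powersetCard 5 (blk i)) := by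
    rw [hEq, Finset.mem_powersetCard]
    exact ⟨Finset.subset_univ s, hs⟩
  obtain ⟨i, _, hti⟩ := Finset.mem_biUnion.mp hsU
  exact ⟨i, (Finset.mem_powersetCard.mp hti).1⟩

theorem blk_inj : Function.Injective blk := by
  intro i j h
  by_contra hij
  have h4 := blk_inter i j hij
  rw [h, Finset.inter_self, blk_card] at h4
  omega

theorem mem_B (h : Finset ArrayPt) :
    (∃ x ∈ ternaryGolayCode, ternarySupport x = h ∧ h.card = 6) ↔ h ∈ Set.range blk := by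
  constructor
  · rintro ⟨x, hx, rfl, hc⟩
    obtain ⟨a, rfl⟩ := (mem_iff_phi x).mp hx
    obtain ⟨i, hi⟩ := blk_all a hc
    exact ⟨i, hi.symm⟩
  · rintro ⟨i, rfl⟩
    exact ⟨phi (wit i), phi_mem _, blk_wit i, blk_card i⟩

theorem main1592 : Cfsg.IsSteinerSystem 5 6 {h : Finset Cfsg.ArrayPt |
      ∃ x ∈ Cfsg.ternaryGolayCode, Cfsg.ternarySupport x = h ∧ h.card = 6} ∧
    {h : Finset Cfsg.ArrayPt |
      ∃ x ∈ Cfsg.ternaryGolayCode, Cfsg.ternarySupport x = h ∧ h.card = 6}.ncard = 132 := by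
  have hB : {h : Finset Cfsg.ArrayPt |
      ∃ x ∈ Cfsg.ternaryGolayCode, Cfsg.ternarySupport x = h ∧ h.card = 6}
      = Set.range blk := by
    ext h
    exact mem_B h
  rw [hB]
  refine ⟨⟨?_, ?_⟩, ?_⟩
  · rintro b ⟨i, rfl⟩
    exact blk_card i
  · intro s hs
    obtain ⟨i, hsb⟩ := blk_cover s hs
    refine ⟨blk i, ⟨⟨i, rfl⟩, hsb⟩, ?_⟩
    rintro b' ⟨⟨j, rfl⟩, hsb'⟩
    by_contra hne
    have hji : j ≠ i := fun h => hne (by rw [h])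
    have h4 := blk_inter j i hji
    have h5 : s.card ≤ (blk j ∩ blk i).card :=
      Finset.card_le_card (Finset.subset_inter hsb' hsb)
    omega
  · rw [← Set.image_univ, Set.ncard_image_of_injective _ blk_inj, Set.ncard_univ]
    simp

end Cfsg.Agent.Lib.Helper3.TG
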