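import Mathlib
import Cfsg.Agent.Lib.Helper3.ConjFam
import Cfsg.Agent.Lib.Lead.PFrat

set_option autoImplicit false

namespace Cfsg.Agent.Lib.Helper3

/-- a `2`-element whose square is nontrivial has a power of order `4` -/
theorem exists_order_four_of_sq_ne {G : Type*} [Group G] (w : G) (h2 : ∃ k : ℕ, w ^ 2 ^ k = 1)
    (hw : w ^ 2 ≠ 1) : ∃ j : ℕ, (w ^ 2 ^ j) ^ 2 ≠ 1 ∧ (w ^ 2 ^ j) ^ 4 = 1 := by
  obtain ⟨k₀, hk₀⟩ := h2
  obtain ⟨k, -, hk⟩ := (Nat.dvd_prime_pow Nat.prime_two).mp (orderOf_dvd_of_pow_eq_one hk₀)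
  have hk2 : 2 ≤ k := by
    by_contra hlt
    rcases (by omega : k = 0 ∨ k = 1) with rfl | rfl
    · simp only [pow_zero, orderOf_eq_one_iff] at hk
      exact hw (by rw [hk]; simp)
    · have := pow_orderOf_eq_one w
      rw [hk] at this
      exact hw (by simpa using this)
  obtain ⟨j, rfl⟩ : ∃ j, k = j + 2 := ⟨k - 2, by omega⟩
  refine ⟨j, ?_, ?_⟩
  · rw [← pow_mul, ← pow_succ]
    intro h
    have hd := orderOf_dvd_of_pow_eq_one h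
    rw [hk] at hd
    have h2 := Nat.le_of_dvd (by positivity) hd
    have h3 : 2 ^ (j + 1) < 2 ^ (j + 2) := Nat.pow_lt_pow_right (by norm_num) (by omega)
    omega
  · rw [← pow_mul]
    have : 2 ^ j * 4 = 2 ^ (j + 2) := by rw [pow_add]; norm_num
    rw [this, ← hk]; exact pow_orderOf_eq_one w

theorem ti_lemA {S : Type*} [Group S] (T : Subgroup S) (x t : S) (ht : t ∈ T)
    (c1 : x * (t * x * t⁻¹) = (t * x * t⁻¹) * x)
    (c2 : t * (x * t * x⁻¹) = (x * t * x⁻¹) * t)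
    (ti : ∀ a ∈ T, x * a * x⁻¹ ∈ T → a = 1)
    (hx2 : x ^ 2 ∈ Subgroup.normalizer (T : Set S)) : t ^ 2 = 1 := by
  have c2' : Commute (x⁻¹ * t * x) t⁻¹ := by
    have : (x⁻¹ * t * x) * t = t * (x⁻¹ * t * x) := by
      calc (x⁻¹ * t * x) * t = x⁻¹ * (t * (x * t * x⁻¹)) * x := by group
        _ = x⁻¹ * ((x * t * x⁻¹) * t) * x := by rw [c2]
        _ = t * (x⁻¹ * t * x) := by group
    exact (show Commute (x⁻¹ * t * x) t from this).inv_right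
  have c1' : Commute x⁻¹ (t * x * t⁻¹) := (show Commute x (t * x * t⁻¹) from c1).inv_left
  have e1 : (x⁻¹ * (t * x * t⁻¹)) ^ 2 = (x ^ 2)⁻¹ * (t * x ^ 2 * t⁻¹) := by
    rw [c1'.mul_pow, inv_pow, conj_pow]
  have e2 : ((x⁻¹ * t * x) * t⁻¹) ^ 2 = (x⁻¹ * t ^ 2 * x) * (t ^ 2)⁻¹ := by
    rw [c2'.mul_pow, inv_pow]
    congr 1
    rw [pow_two, pow_two]; group
  have e3 : x⁻¹ * (t * x * t⁻¹) = (x⁻¹ * t * x) * t⁻¹ := by group
  rw [e3, e2] at e1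
  have key : x⁻¹ * t ^ 2 * x = ((x ^ 2)⁻¹ * t * ((x ^ 2)⁻¹)⁻¹) * t := by
    calc x⁻¹ * t ^ 2 * x = ((x⁻¹ * t ^ 2 * x) * (t ^ 2)⁻¹) * t ^ 2 := by group
      _ = ((x ^ 2)⁻¹ * (t * x ^ 2 * t⁻¹)) * t ^ 2 := by rw [e1]
      _ = ((x ^ 2)⁻¹ * t * ((x ^ 2)⁻¹)⁻¹) * t := by group
  have hmem : x⁻¹ * t ^ 2 * x ∈ T := by
    rw [key]
    exact T.mul_mem ((Subgroup.mem_normalizer_iff.mp (inv_mem hx2) t).mp ht) ht
  have h1 := ti _ hmem (by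
    have : x * (x⁻¹ * t ^ 2 * x) * x⁻¹ = t ^ 2 := by group
    rw [this]; exact pow_mem ht 2)
  calc t ^ 2 = x * (x⁻¹ * t ^ 2 * x) * x⁻¹ := by group
    _ = 1 := by rw [h1]; group

theorem ti_lemB {S : Type*} [Group S] (R T : Subgroup S) (hS : ∀ x ∈ R, ∃ k : ℕ, x ^ 2 ^ k = 1)
    (gRT : ∀ t ∈ T, t ∈ Subgroup.normalizer (R : Set S) ∨ ((∀ a ∈ R, t * a * t⁻¹ ∈ R → a = 1) ∧
      ∀ a ∈ R, ∀ b ∈ R, a * (t * b * t⁻¹) = (t * b * t⁻¹) * a))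
    (gTR : ∀ x ∈ R, x ∈ Subgroup.normalizer (T : Set S) ∨ ((∀ a ∈ T, x * a * x⁻¹ ∈ T → a = 1) ∧
      ∀ a ∈ T, ∀ b ∈ T, a * (x * b * x⁻¹) = (x * b * x⁻¹) * a))
    (x : S) (hxR : x ∈ R) (hx : x ∉ Subgroup.normalizer (T : Set S))
    (t : S) (htT : t ∈ T) (ht : t ∉ Subgroup.normalizer (R : Set S)) : t ^ 2 = 1 := by
  by_contra ht2
  obtain ⟨-, Ct⟩ := (gRT t htT).resolve_left ht
  have step : ∀ x' ∈ R, x' ∉ Subgroup.normalizer (T : Set S) →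
      x' ^ 2 ∉ Subgroup.normalizer (T : Set S) := by
    intro x' hx'R hx' hx'2
    obtain ⟨TIx, Cx⟩ := (gTR x' hx'R).resolve_left hx'
    exact ht2 (ti_lemA T x' t htT (Ct x' hx'R x' hx'R) (Cx t htT t htT) TIx hx'2)
  have all : ∀ k : ℕ, x ^ 2 ^ k ∈ R ∧ x ^ 2 ^ k ∉ Subgroup.normalizer (T : Set S) := by
    intro k
    induction k with
    | zero => simpa using ⟨hxR, hx⟩
    | succ k ih =>
      rw [pow_succ, pow_mul]
      exact ⟨pow_mem ih.1 2, step _ ih.1 ih.2⟩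
  obtain ⟨k, hk⟩ := hS x hxR
  exact (all k).2 (hk ▸ one_mem _)

theorem ti_lemC {S : Type*} [Group S] (R T : Subgroup S)
    (gRT : ∀ t ∈ T, t ∈ Subgroup.normalizer (R : Set S) ∨ ((∀ a ∈ R, t * a * t⁻¹ ∈ R → a = 1) ∧
      ∀ a ∈ R, ∀ b ∈ R, a * (t * b * t⁻¹) = (t * b * t⁻¹) * a))
    (gTR : ∀ x ∈ R, x ∈ Subgroup.normalizer (T : Set S) ∨ ((∀ a ∈ T, x * a * x⁻¹ ∈ T → a = 1) ∧
      ∀ a ∈ T, ∀ b ∈ T, a * (x * b * x⁻¹) = (x * b * x⁻¹) * a))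
    (hB : ∀ x' ∈ R, x' ∉ Subgroup.normalizer (T : Set S) → x' ^ 2 = 1)
    (x : S) (hxR : x ∈ R) (hx : x ∉ Subgroup.normalizer (T : Set S))
    (t : S) (htT : t ∈ T) (ht : t ∉ Subgroup.normalizer (R : Set S))
    (y : S) (hyR : y ∈ R) (hy2 : y ^ 2 ≠ 1) (hy4 : y ^ 4 = 1) : False := by
  have hyN : y ∈ Subgroup.normalizer (T : Set S) := by
    by_contra h
    exact hy2 (hB y hyR h)
  have hxy : x * y ∉ Subgroup.normalizer (T : Set S) := by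
    intro h
    apply hx
    have := (Subgroup.normalizer (T : Set S)).mul_mem h (inv_mem hyN)
    simpa using this
  have hx2 : x ^ 2 = 1 := hB x hxR hx
  have hxy2 : (x * y) ^ 2 = 1 := hB (x * y) (R.mul_mem hxR hyR) hxy
  have hxinv : x⁻¹ = x := inv_eq_of_mul_eq_one_left (by rw [← pow_two]; exact hx2)
  have hinv : x * y * x⁻¹ = y⁻¹ := by
    rw [hxinv]
    apply eq_inv_of_mul_eq_one_left
    rw [pow_two] at hxy2
    rw [← hxy2]; group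
  obtain ⟨TIt, Ct⟩ := (gRT t htT).resolve_left ht
  obtain ⟨TIx, -⟩ := (gTR x hxR).resolve_left hx
  have hhT : y⁻¹ * (t * y * t⁻¹) ∈ T := by
    have : y⁻¹ * (t * y * t⁻¹) = (y⁻¹ * t * y⁻¹⁻¹) * t⁻¹ := by group
    rw [this]
    exact T.mul_mem ((Subgroup.mem_normalizer_iff.mp (inv_mem hyN) t).mp htT) (inv_mem htT)
  have hcy : Commute y (t * y * t⁻¹) := Ct y hyR y hyR
  have hh2 : (y⁻¹ * (t * y * t⁻¹)) ^ 2 = (y ^ 2)⁻¹ * (t * y ^ 2 * t⁻¹) := by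
    rw [hcy.inv_left.mul_pow, inv_pow, conj_pow]
  have hh2ne : (y⁻¹ * (t * y * t⁻¹)) ^ 2 ≠ 1 := by
    intro h1
    rw [hh2, inv_mul_eq_one] at h1
    exact hy2 (TIt (y ^ 2) (pow_mem hyR 2) (h1 ▸ pow_mem hyR 2))
  have hxh : x * (y⁻¹ * (t * y * t⁻¹)) * x⁻¹ = y * (t * y * t⁻¹) := by
    have hc : x * (t * y * t⁻¹) = (t * y * t⁻¹) * x := Ct x hxR y hyR
    calc x * (y⁻¹ * (t * y * t⁻¹)) * x⁻¹ = (x * y * x⁻¹)⁻¹ * (x * (t * y * t⁻¹)) * x⁻¹ := by group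
      _ = (y⁻¹)⁻¹ * ((t * y * t⁻¹) * x) * x⁻¹ := by rw [hinv, hc]
      _ = y * (t * y * t⁻¹) := by group
  have hyy : (y ^ 2)⁻¹ = y ^ 2 := inv_eq_of_mul_eq_one_left (by rw [← pow_add]; exact hy4)
  have hxh2 : x * (y⁻¹ * (t * y * t⁻¹)) ^ 2 * x⁻¹ = (y⁻¹ * (t * y * t⁻¹)) ^ 2 := by
    rw [← conj_pow, hxh, hh2, hcy.mul_pow, conj_pow, hyy]
  exact hh2ne (TIx _ (pow_mem hhT 2) (hxh2.symm ▸ pow_mem hhT 2))

theorem ti_lemL1 {S : Type*} [Group S] [Finite S] (R T : Subgroup S) (hcard : Nat.card R = Nat.card T)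
    (hN : R ≤ Subgroup.normalizer (T : Set S)) (t : S) (ht : t ∈ T)
    (ti : ∀ a ∈ R, t * a * t⁻¹ ∈ R → a = 1) : t = 1 := by
  have hmem : ∀ x ∈ R, x⁻¹ * t * x * t⁻¹ ∈ T := fun x hx =>
    T.mul_mem (by
      have := (Subgroup.mem_normalizer_iff.mp (hN (inv_mem hx)) t).mp ht
      simpa using this) (inv_mem ht)
  obtain ⟨φ, hφ⟩ : ∃ φ : R → T, ∀ x : R, (φ x : S) = (x : S)⁻¹ * t * x * t⁻¹ :=
    ⟨fun x => ⟨(x : S)⁻¹ * t * x * t⁻¹, hmem x x.2⟩, fun _ => rfl⟩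
  have hinj : Function.Injective φ := by
    intro x y hxy
    have h1 : (x : S)⁻¹ * t * x * t⁻¹ = (y : S)⁻¹ * t * y * t⁻¹ := by
      rw [← hφ, ← hφ, hxy]
    have h2 : t * ((y : S) * (x : S)⁻¹) * t⁻¹ = (y : S) * (x : S)⁻¹ := by
      calc t * ((y : S) * (x : S)⁻¹) * t⁻¹
          = y * ((y : S)⁻¹ * t * y * t⁻¹) * ((x : S)⁻¹ * t * x * t⁻¹)⁻¹ * (x : S)⁻¹ := by group
        _ = y * ((x : S)⁻¹ * t * x * t⁻¹) * ((x : S)⁻¹ * t * x * t⁻¹)⁻¹ * (x : S)⁻¹ := by rw [h1]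
        _ = (y : S) * (x : S)⁻¹ := by group
    have h3 := ti ((y : S) * (x : S)⁻¹) (R.mul_mem y.2 (inv_mem x.2))
      (h2.symm ▸ R.mul_mem y.2 (inv_mem x.2))
    apply Subtype.ext
    exact (mul_inv_eq_one.mp h3).symm
  have hbij : Function.Bijective φ := hinj.bijective_of_nat_card_le hcard.ge
  obtain ⟨x, hx⟩ := hbij.2 ⟨t⁻¹, inv_mem ht⟩
  have h1 : (x : S)⁻¹ * t * x * t⁻¹ = t⁻¹ := by rw [← hφ, hx]
  have h2 : (x : S)⁻¹ * t * x = 1 := by simpa using h1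
  calc t = x * ((x : S)⁻¹ * t * x) * (x : S)⁻¹ := by group
    _ = 1 := by rw [h2]; group

theorem ti_lemL2 {S : Type*} [Group S] (R T : Subgroup S) (h1 : R ≤ Subgroup.normalizer (T : Set S))
    (h2 : T ≤ Subgroup.normalizer (R : Set S)) (hinf : R ⊓ T = ⊥) : ⁅R, T⁆ = ⊥ := by
  rw [eq_bot_iff, Subgroup.commutator_le]
  intro x hx t ht
  rw [← hinf, commutatorElement_def]
  refine Subgroup.mem_inf.mpr ⟨?_, ?_⟩
  · have : x * t * x⁻¹ * t⁻¹ = x * (t * x⁻¹ * t⁻¹) := by group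
    rw [this]
    exact R.mul_mem hx ((Subgroup.mem_normalizer_iff.mp (h2 ht) x⁻¹).mp (inv_mem hx))
  · exact T.mul_mem ((Subgroup.mem_normalizer_iff.mp (h1 hx) t).mp ht) (inv_mem ht)

open Cfsg.Agent.Lib.Lead in
theorem card_sup_conj_lt {S : Type*} [Group S] [Finite S] (R U : Subgroup S) (hU : IsPGroup 2 ↥U)
    (hRU : R ≤ U) (hne : R ≠ U) (u : S) (hu : u ∈ U) :
    Nat.card ↥(R ⊔ R.map (MulAut.conj u).toMonoidHom) < Nat.card ↥U := by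
  haveI : Fact (Nat.Prime 2) := ⟨Nat.prime_two⟩
  have hne' : R.subgroupOf U ≠ ⊤ := fun h => hne (le_antisymm hRU (Subgroup.subgroupOf_eq_top.mp h))
  obtain ⟨M, hM, hRM⟩ := (eq_top_or_exists_le_coatom (R.subgroupOf U)).resolve_left hne'
  obtain ⟨hMn, -⟩ := coatom_pgroup hU M hM
  have hlt : Nat.card ↥(M.map U.subtype) < Nat.card ↥U := by
    rw [Subgroup.card_subtype]
    exact lt_of_le_of_ne (Subgroup.card_le_card_group M)
      (fun h => hM.1 ((Subgroup.card_eq_iff_eq_top M).mp h))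
  refine lt_of_le_of_lt (Subgroup.card_le_of_le ?_) hlt
  rw [sup_le_iff]
  constructor
  · intro r hr
    exact ⟨⟨r, hRU hr⟩, hRM (Subgroup.mem_subgroupOf.mpr hr), rfl⟩
  · rintro _ ⟨r, hr, rfl⟩
    have h1 : (⟨r, hRU hr⟩ : U) ∈ M := hRM (Subgroup.mem_subgroupOf.mpr hr)
    have h2 := hMn.conj_mem _ h1 ⟨u, hu⟩
    exact ⟨_, h2, by simp [MulAut.conj_apply]⟩

theorem ti_family_commute_aux {S : Type*} [Group S] [Finite S]
    (Δ : Set (Subgroup S)) (h2 : ∀ R ∈ Δ, ∀ T ∈ Δ, IsPGroup 2 ↥(R ⊔ T))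
    (hinv : ∀ R ∈ Δ, ∀ T ∈ Δ, ∀ t ∈ T, R.map (MulAut.conj t).toMonoidHom ∈ Δ)
    (hΦ : ∀ R ∈ Δ, ∃ y ∈ R, y ^ 2 ≠ 1 ∧ y ^ 4 = 1) (hord : ∀ R ∈ Δ, ∀ T ∈ Δ, Nat.card ↥R = Nat.card ↥T)
    (hti : ∀ R ∈ Δ, ∀ T ∈ Δ, R = T ∨ R ⊓ T = ⊥) :
    ∀ n, ∀ R ∈ Δ, ∀ T ∈ Δ, R ≠ T → Nat.card ↥(R ⊔ T) = n → ⁅R, T⁆ = ⊥ := by
  intro n
  induction n using Nat.strong_induction_on with
  | _ n ih =>
  have good : ∀ R ∈ Δ, ∀ T ∈ Δ, R ≠ T → Nat.card ↥(R ⊔ T) = n → ∀ t ∈ T,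
      t ∈ Subgroup.normalizer (R : Set S) ∨ ((∀ a ∈ R, t * a * t⁻¹ ∈ R → a = 1) ∧
        ∀ a ∈ R, ∀ b ∈ R, a * (t * b * t⁻¹) = (t * b * t⁻¹) * a) := by
    intro R hR T hT hne hn t ht
    by_cases hRt : R.map (MulAut.conj t).toMonoidHom = R
    · left
      exact Subgroup.mem_normalizer_iff_map_conj_eq.mpr hRt
    · right
      have hRtΔ := hinv R hR T hT t ht
      have hinf : R.map (MulAut.conj t).toMonoidHom ⊓ R = ⊥ := (hti _ hRtΔ R hR).resolve_left hRt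
      refine ⟨fun a ha hta => ?_, fun a ha b hb => ?_⟩
      · have h1 : t * a * t⁻¹ ∈ R.map (MulAut.conj t).toMonoidHom ⊓ R :=
          Subgroup.mem_inf.mpr ⟨conj_mem_map_conj R t a ha, hta⟩
        rw [hinf, Subgroup.mem_bot] at h1
        calc a = t⁻¹ * (t * a * t⁻¹) * t := by group
          _ = 1 := by rw [h1]; group
      · have hRU : R ≠ R ⊔ T := by
          intro h
          have hTR : T ≤ R := by rw [h]; exact le_sup_right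
          exact hne (Subgroup.eq_of_le_of_card_ge hTR (hord R hR T hT).le).symm
        have hlt := card_sup_conj_lt R (R ⊔ T) (h2 R hR T hT) le_sup_left hRU t
          ((le_sup_right : T ≤ R ⊔ T) ht)
        rw [hn] at hlt
        have hc := ih _ hlt R hR _ hRtΔ (Ne.symm hRt) rfl
        rw [Subgroup.commutator_eq_bot_iff_le_centralizer] at hc
        exact (Subgroup.mem_centralizer_iff.mp (hc ha) _ (conj_mem_map_conj R t b hb)).symm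
  intro R hR T hT hne hn
  have gRT := good R hR T hT hne hn
  have gTR := good T hT R hR (Ne.symm hne) (by rw [sup_comm]; exact hn)
  have hinf : R ⊓ T = ⊥ := (hti R hR T hT).resolve_left hne
  have hcard := hord R hR T hT
  by_cases hα : T ≤ Subgroup.normalizer (R : Set S)
  · by_cases hα' : R ≤ Subgroup.normalizer (T : Set S)
    · exact ti_lemL2 R T hα' hα hinf
    · exfalso
      obtain ⟨x, hxR, hx⟩ := SetLike.not_le_iff_exists.mp hα'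
      obtain ⟨TIx, -⟩ := (gTR x hxR).resolve_left hx
      have := ti_lemL1 T R hcard.symm hα x hxR TIx
      exact hx (by rw [this]; exact one_mem _)
  · exfalso
    obtain ⟨t, htT, ht⟩ := SetLike.not_le_iff_exists.mp hα
    by_cases hα' : R ≤ Subgroup.normalizer (T : Set S)
    · obtain ⟨TIt, -⟩ := (gRT t htT).resolve_left ht
      have := ti_lemL1 R T hcard hα' t htT TIt
      exact ht (by rw [this]; exact one_mem _)
    · obtain ⟨x, hxR, hx⟩ := SetLike.not_le_iff_exists.mp hα'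
      obtain ⟨y, hyR, hy2, hy4⟩ := hΦ R hR
      have hpow : ∀ T ∈ Δ, ∀ x ∈ T, ∃ k : ℕ, x ^ 2 ^ k = 1 := by
        intro T hT x hx
        obtain ⟨k, hk⟩ := (h2 T hT T hT) ⟨x, (le_sup_left : T ≤ T ⊔ T) hx⟩
        exact ⟨k, by simpa using congrArg Subtype.val hk⟩
      have hB : ∀ x' ∈ R, x' ∉ Subgroup.normalizer (T : Set S) → x' ^ 2 = 1 :=
        fun x' hx'R hx' => ti_lemB T R (hpow T hT) gTR gRT t htT ht x' hx'R hx'
      exact ti_lemC R T gRT gTR hB x hxR hx t htT ht y hyR hy2 hy4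

/-- **TI families in 2-groups**: a family `Δ` of subgroups of equal order, pairwise trivially
intersecting, closed under conjugation by elements of its members, any two members generating a
`2`-group and each containing an element of order `4`: distinct members commute. -/
theorem ti_family_commute {S : Type*} [Group S] [Finite S]
    (Δ : Set (Subgroup S)) (h2 : ∀ R ∈ Δ, ∀ T ∈ Δ, IsPGroup 2 ↥(R ⊔ T))
    (hinv : ∀ R ∈ Δ, ∀ T ∈ Δ, ∀ t ∈ T, R.map (MulAut.conj t).toMonoidHom ∈ Δ)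
    (hΦ : ∀ R ∈ Δ, ∃ y ∈ R, y ^ 2 ≠ 1 ∧ y ^ 4 = 1)
    (hord : ∀ R ∈ Δ, ∀ T ∈ Δ, Nat.card ↥R = Nat.card ↥T)
    (hti : ∀ R ∈ Δ, ∀ T ∈ Δ, R = T ∨ R ⊓ T = ⊥) :
    ∀ R ∈ Δ, ∀ T ∈ Δ, R ≠ T → ⁅R, T⁆ = ⊥ :=
  fun R hR T hT hne => ti_family_commute_aux Δ h2 hinv hΦ hord hti _ R hR T hT hne rfl

end Cfsg.Agent.Lib.Helper3
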